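import Cfsg.Agent.Lib.SmallDim.OrthWreath
import Cfsg.Agent.Lib.SmallDim.OmegaPrime

/-!
Maximal subgroups of `Ω` in dimension nine.
-/

set_option autoImplicit false
set_option linter.style.haveILetI false
set_option linter.unusedSectionVars false

namespace CfsgLib.SmallDim.OrthEven

open scoped MatrixGroups Matrix Kronecker commutatorElement
open Cfsg.Geo QuadraticMap CfsgLib.ClassicalForms CfsgLib.Geometric.Orth Module

variable {ι : Type} [Fintype ι] [DecidableEq ι] {F : Type*} [Field F] [Fintype F] {Q : QuadraticForm F (ι → F)}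
  {H N : Subgroup (GL ι F)}

lemma point_mul_glReindex {κ : Type} [Fintype κ] [DecidableEq κ] (e : ι ≃ κ) (P : GL ι F) (z : GL κ F)
    (x : κ → F) : point e (P * glReindex e.symm z) x = point e P ((z : Matrix κ κ F) *ᵥ x) := by
  have h := act_conj_reindex e P z x
  show act (P * glReindex e.symm z) (x ∘ e) = _
  rw [show P * glReindex e.symm z = P * glReindex e.symm z * P⁻¹ * P by group, act_mul]
  exact h

/-- A change of coordinates inside the wreath product makes the two factors standard. -/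
theorem squareFrame_of_gram {e : ι ≃ (Fin 2 → Fin 3)} {P : GL ι F} {C G₀ : Matrix (Fin 3) (Fin 3) F} {d : F}
    (h2 : (2 : F) ≠ 0) (hd : d ≠ 0) (hC : Cᵀ = C) (hG : G₀ᵀ = G₀) (hCd : C.det ≠ 0) (hGd : G₀.det ≠ 0)
    (hgram : ∀ x y, polar Q (point e P x) (point e P y) = d * (x ⬝ᵥ (pureMat ![C, G₀] *ᵥ y)))
    (hle : H ≤ tensorWreathSubgroup 3 2 e P) : ∃ P' c, SquareFrame Q H e P' c := by
  classical
  obtain ⟨a, A, ha, hA⟩ := exists_scaled_orth_matrix h2 hC hCd
  obtain ⟨b, B, hb, hB⟩ := exists_scaled_orth_matrix h2 hG hGd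
  set z : GL (Fin 2 → Fin 3) F := pureGL ![A, B]
  refine ⟨P * glReindex e.symm z, d * (a * b), mul_ne_zero hd (mul_ne_zero ha hb), fun x y => ?_,
    hle.trans (tensorWreathSubgroup_absorb e P (Subgroup.subset_closure (Or.inl ⟨_, fun x y => rfl⟩)))⟩
  rw [point_mul_glReindex, point_mul_glReindex, hgram]
  have hz : (z : Matrix _ _ F) = pureMat ![(A : Matrix (Fin 3) (Fin 3) F), (B : Matrix (Fin 3) (Fin 3) F)] := by
    show pureMat _ = _
    congr 1
    funext i; fin_cases i <;> rfl
  have hm : (z : Matrix _ _ F)ᵀ * pureMat ![C, G₀] * (z : Matrix _ _ F) = (a * b) • 1 := by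
    rw [hz, pureMat_transpose, ← pureMat_mul, ← pureMat_mul,
      show ((fun i => (![(A : Matrix (Fin 3) (Fin 3) F), (B : Matrix (Fin 3) (Fin 3) F)] i)ᵀ) * ![C, G₀] *
        ![(A : Matrix (Fin 3) (Fin 3) F), (B : Matrix (Fin 3) (Fin 3) F)]) =
        fun i => ![a, b] i • (1 : Fin 2 → Matrix (Fin 3) (Fin 3) F) i from funext fun i => by
          fin_cases i <;> simp [hA, hB],
      pureMat_smul, pureMat_one, Fin.prod_univ_two]
    simp
  rw [Matrix.dotProduct_mulVec, ← Matrix.mulVec_transpose, Matrix.mulVec_mulVec,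
    Matrix.dotProduct_mulVec, ← Matrix.mulVec_transpose, Matrix.mulVec_mulVec,
    ← Matrix.mul_assoc]
  have hsym : (pureMat ![C, G₀])ᵀ = pureMat ![C, G₀] := by
    rw [pureMat_transpose]; congr 1; funext i; fin_cases i <;> simp [hC, hG]
  rw [hsym, hm, Matrix.smul_mulVec, Matrix.one_mulVec, smul_dotProduct, smul_eq_mul]
  ring

lemma symm_of_odd {G : Matrix (Fin 3) (Fin 3) F} {c : F} (hG : G.det ≠ 0) (hc : Gᵀ = c • G) : Gᵀ = G := by
  have h1 : c ^ 3 = 1 := by
    have h := congrArg Matrix.det hc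
    rw [Matrix.det_transpose, Matrix.det_smul, Fintype.card_fin] at h
    exact mul_right_cancel₀ hG (by rw [one_mul]; exact h.symm)
  have h2 : c ^ 2 = 1 := by
    have h := congrArg Matrix.transpose hc
    rw [Matrix.transpose_transpose, Matrix.transpose_smul, hc, smul_smul] at h
    have := congrArg Matrix.det h
    rw [Matrix.det_smul, Fintype.card_fin] at this
    have h6 : (c * c) ^ 3 = 1 := mul_right_cancel₀ hG (by rw [one_mul]; exact this.symm)
    by_contra hne
    have hG0 : ∀ i j, G i j = 0 := fun i j => by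
      have := congrFun (congrFun h i) j
      rw [Matrix.smul_apply, smul_eq_mul] at this
      by_contra h0
      exact hne (by rw [pow_two]; exact mul_right_cancel₀ h0 (by rw [one_mul]; exact this.symm))
    exact hG (by rw [show G = 0 from Matrix.ext hG0]; exact Matrix.det_zero)
  rw [hc, show c = 1 by linear_combination h1 - c * h2, one_smul]

/-- The square frame in Clifford's tensor case. -/
theorem squareFrame_of_tensorCase (hQ : Nondeg Q) (h2 : (2 : F) ≠ 0) (hiso : Isometric Q H) (hN : NormalIn N H)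
    {e : ι ≃ Fin 3 × Fin 3} {P : GL ι F} (hT : TensorCase H N 3 3 e P) :
    ∃ (e' : ι ≃ (Fin 2 → Fin 3)) (P' : GL ι F) (c : F), SquareFrame Q H e' P' c := by
  classical
  obtain ⟨C, G₀, h, -⟩ := exists_tensorForm hQ hiso hN hT
  have hC0 : C ≠ 0 := fun e0 => h.det_left.ne_zero (by rw [e0]; exact Matrix.det_zero)
  have hG0 : G₀ ≠ 0 := fun e0 => h.det_right.ne_zero (by rw [e0]; exact Matrix.det_zero)
  have hsym : Cᵀ ⊗ₖ G₀ᵀ = C ⊗ₖ G₀ := by
    ext p r
    have h1 := h.gram (Pi.single p 1) (Pi.single r 1)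
    have h2' := h.gram (Pi.single r 1) (Pi.single p 1)
    rw [QuadraticMap.polar_comm, h1] at h2'
    simpa [Matrix.mulVec_single_one] using h2'.symm
  obtain ⟨⟨c₁, -, hc₁⟩, ⟨c₂, -, hc₂⟩⟩ := exists_smul_of_kronecker hC0 hG0 hsym
  set e' := e.trans (piFinTwoEquiv fun _ => Fin 3).symm
  refine ⟨e', squareFrame_of_gram h2 one_ne_zero (symm_of_odd h.det_left.ne_zero hc₁)
    (symm_of_odd h.det_right.ne_zero hc₂) h.det_left.ne_zero h.det_right.ne_zero (fun x y => ?_)
    (hT.le.trans (tensorProductSubgroup_le_wreath 3 e P))⟩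
  set s := (piFinTwoEquiv fun _ => Fin 3).symm
  show polar Q (point e P (x ∘ s)) (point e P (y ∘ s)) = _
  rw [h.gram, one_mul]
  have hK : C ⊗ₖ G₀ = (pureMat ![C, G₀]).submatrix s s := by
    ext p r
    simp [pureMat, s, Fin.prod_univ_two]
  rw [hK, Matrix.submatrix_mulVec_equiv, Function.comp_assoc, Equiv.self_comp_symm, Function.comp_id]
  exact comp_equiv_dotProduct_comp_equiv _ _ s

/-- The square frame in the tensor induced case. -/
theorem squareFrame_of_induced (hQ : Nondeg Q) (h2 : (2 : F) ≠ 0) (hn : Fintype.card ι = 9)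
    (hiso : Isometric Q H) (hN : NormalIn N H) (habs : ActsAbsolutelyIrreducibly (matrixSet N)) {k : ℕ}
    {L : Fin k → Subgroup (GL ι F)} (hL : InducedData H N k L) :
    ∃ (e' : ι ≃ (Fin 2 → Fin 3)) (P' : GL ι F) (c : F), SquareFrame Q H e' P' c := by
  classical
  haveI : Nonempty ι := Fintype.card_pos_iff.mp (by omega)
  obtain ⟨m, e, P, S, hm, hle, hS, hslot, -⟩ := exists_tensorWreath_slots hL.two_le hL.comm
    (hL.iSup_eq.symm ▸ habs) hL.nonscalar hL.perm (fun i => (hL.trans i).imp fun x hx => hx.2 _ rfl)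
  have hcard : m ^ k = 9 := by
    rw [← hn, Fintype.card_congr e, Fintype.card_fun, Fintype.card_fin, Fintype.card_fin]
  obtain ⟨rfl, rfl⟩ : k = 2 ∧ m = 3 := by
    have hk := hL.two_le
    have hk4 : k < 4 := by
      by_contra hge
      have h1 := Nat.pow_le_pow_left hm k
      have h2' := Nat.pow_le_pow_right (show 0 < 2 by norm_num) (not_lt.mp hge)
      omega
    interval_cases k
    · exact ⟨rfl, by nlinarith⟩
    · have : m ≤ 2 := by
        by_contra hge
        have := Nat.pow_le_pow_left (show 3 ≤ m by omega) 3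
        norm_num at this
        omega
      interval_cases m
      norm_num at hcard
  have hf := isBilinear_polar Q
  obtain ⟨G₀, d, hd, hG₀, -, hG⟩ := exists_pureMat_of_invariant (σ := RingHom.id F) (by norm_num) hS 2
    (coordGram (polar (⇑Q)) e P) (isUnit_det_coordGram hf (isNondegenerateForm_polar hQ) e P)
    (fun i b hb => by
      obtain ⟨a, ha, hab⟩ := hslot i b hb
      rw [show (pureMat (Pi.mulSingle i b)).map (RingHom.id F) = pureMat (Pi.mulSingle i b) from
        Matrix.ext fun _ _ => rfl]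
      exact coordGram_fixed hf e P
        (fun u v => hiso.polar (hN.le ((le_iSup L i).trans hL.iSup_eq.le ha)) u v) hab)
    (by norm_num)
  have hgram : ∀ x y, polar Q (point e P x) (point e P y) =
      d * (x ⬝ᵥ (pureMat (fun _ : Fin 2 => G₀) *ᵥ y)) := fun x y => by
    rw [point, point, apply_coord hf e P x y, hG, Matrix.smul_mulVec, dotProduct_smul, smul_eq_mul]
  have hsym : G₀ᵀ ⊗ₖ G₀ᵀ = G₀ ⊗ₖ G₀ := by
    ext p r
    have h1 := hgram (Pi.single ![p.1, p.2] 1) (Pi.single ![r.1, r.2] 1)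
    have h2' := hgram (Pi.single ![r.1, r.2] 1) (Pi.single ![p.1, p.2] 1)
    rw [QuadraticMap.polar_comm, h1] at h2'
    have := mul_left_cancel₀ hd h2'
    simpa [Matrix.mulVec_single_one, pureMat, Fin.prod_univ_two] using this.symm
  have hG0 : G₀ ≠ 0 := fun e0 => hG₀.ne_zero (by rw [e0]; exact Matrix.det_zero)
  obtain ⟨⟨c₁, -, hc₁⟩, -⟩ := exists_smul_of_kronecker hG0 hG0 hsym
  have hs := symm_of_odd hG₀.ne_zero hc₁
  refine ⟨e, squareFrame_of_gram h2 hd hs hs hG₀.ne_zero hG₀.ne_zero (fun x y => ?_) hle⟩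
  rw [hgram, show (fun _ : Fin 2 => G₀) = ![G₀, G₀] from funext fun i => by fin_cases i <;> rfl]

lemma SquareFrame.isTensorPower {e : ι ≃ (Fin 2 → Fin 3)} {P : GL ι F} {c : F} (h : SquareFrame Q H e P c) :
    IsSymmetricForm (fun x y : Fin 3 → F => x ⬝ᵥ y) ∧
      IsTensorPowerFormStructure id (polar (⇑Q)) (fun x y : Fin 3 → F => x ⬝ᵥ y) e P := by
  classical
  refine ⟨⟨⟨fun x y v => add_dotProduct _ _ _, fun c x v => smul_dotProduct _ _ _,
    fun v x y => dotProduct_add _ _ _, fun c v x => dotProduct_smul _ _ _⟩,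
    fun u v => dotProduct_comm _ _, fun v hv => ?_⟩, c, h.ne_zero, fun x y => ?_⟩
  · obtain ⟨i, hi⟩ := Function.ne_iff.1 hv
    exact ⟨⟨Pi.single i 1, by simpa using hi⟩, Pi.single i 1, by simpa using hi⟩
  · show polar Q (point e P x) (point e P y) = _
    rw [h.gram]
    congr 1
    have hone : ∀ a b : Fin 2 → Fin 3,
        (∏ i, gramMatrix (fun x y : Fin 3 → F => x ⬝ᵥ y) (a i) (b i)) = if a = b then (1 : F) else 0 := by
      intro a b
      split_ifs with hab
      · subst hab; simp [gramMatrix]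
      · obtain ⟨i, hi⟩ := Function.ne_iff.1 hab
        exact Finset.prod_eq_zero (Finset.mem_univ i) (by simp [gramMatrix, hi])
    simp only [hone, mul_ite, mul_one, mul_zero, ite_mul, zero_mul, Finset.sum_ite_eq, Finset.mem_univ, if_true, id]
    rfl

/-- Over three elements a decomposition into isometric three-spaces refines to lines. -/
theorem refine_threeSpaces (h2 : (2 : F) ≠ 0) (h3 : Fintype.card F = 3) (hn : Fintype.card ι = 9)
    (hiso : Isometric Q H) (hirr : ActsIrreducibly (matrixSet H)) {D : Fin 3 → Submodule F (ι → F)}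
    (hD : IsNondegenerateMDecomposition (polar (⇑Q)) 3 D) (hle : H ≤ decompositionStabilizer D) :
    ∃ D' : Fin 9 → Submodule F (ι → F),
      IsNondegenerateMDecomposition (polar (⇑Q)) 1 D' ∧ H ≤ decompositionStabilizer D' := by
  classical
  obtain ⟨c, ε, hc, hε⟩ := exists_scaled_dot h2 (restr Q (D 0)) (restr_symm _)
    (restr_nondegenerate (hD.nondegenerate 0)) (hD.decomp.finrank_eq 0)
  choose g hg hgD using fun j => exists_map_member hirr hD.decomp hle 0 j
  let E : Fin 3 → (Fin 3 → F) →ₗ[F] (ι → F) := fun j =>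
    (Matrix.toLin' (g j : Matrix ι ι F)).comp ((D 0).subtype.comp ε.toLinearMap)
  have hEact : ∀ j x, E j x = act (g j) (ε x : ι → F) := fun j x => by
    simp [E, act, Matrix.toLin'_apply]
  have hEmem : ∀ j x, E j x ∈ D j := fun j x => by
    rw [← hgD j]; exact ⟨_, (ε x).2, rfl⟩
  have hEsurj : ∀ j, ∀ w ∈ D j, ∃ x, E j x = w := by
    intro j w hw
    rw [← hgD j] at hw
    obtain ⟨u, hu, rfl⟩ := hw
    exact ⟨ε.symm ⟨u, hu⟩, by rw [hEact, LinearEquiv.apply_symm_apply]; simp [act, Matrix.toLin'_apply]⟩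
  have hEdot : ∀ j x y, polar Q (E j x) (E j y) = c * (x ⬝ᵥ y) := fun j x y => by
    rw [hEact, hEact, hiso.polar (hg j), ← restr_apply, hε]
  let r : Fin 9 ≃ Fin 3 × Fin 3 := (finProdFinEquiv (m := 3) (n := 3)).symm
  refine lines_decomposition (v := fun a => E (r a).1 (Pi.single (r a).2 1)) hn.symm (by norm_num)
    (fun a => ?_) (fun a b hab => ?_) fun h hh a => ?_
  · rw [hEdot]; simpa using hc
  · by_cases h1 : (r a).1 = (r b).1
    · have h2' : (r a).2 ≠ (r b).2 := fun he => hab (r.injective (Prod.ext h1 he))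
      rw [h1, hEdot, single_dotProduct, Pi.single_eq_of_ne h2']; simp
    · exact hD.orthogonal _ _ h1 _ (hEmem _ _) _ (hEmem _ _)
  · obtain ⟨π, hπ⟩ := hle hh
    obtain ⟨x, hx⟩ := hEsurj (π (r a).1) (act h (E (r a).1 (Pi.single (r a).2 1)))
      (by rw [← hπ]; exact ⟨E (r a).1 (Pi.single (r a).2 1), hEmem _ _, Matrix.toLin'_apply _ _⟩)
    have hxx : x ⬝ᵥ x = 1 := by
      have h1 := hEdot (π (r a).1) x x
      rw [hx, hiso.polar hh, hEdot, single_dotProduct, Pi.single_eq_same, one_mul] at h1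
      exact (mul_left_cancel₀ hc h1).symm
    obtain ⟨k, s, rfl⟩ := eq_smul_single_of_norm_one h3 hxx
    exact ⟨r.symm (π (r a).1, k), s, by rw [Equiv.apply_symm_apply, ← hx, map_smul]⟩

/-- The members of a decomposition permuted transitively by isometries are isometric. -/
theorem orth_isometric (hiso : Isometric Q H) (hirr : ActsIrreducibly (matrixSet H)) {t m : ℕ}
    {D : Fin t → Submodule F (ι → F)} (hD : IsNondegenerateMDecomposition (polar (⇑Q)) m D)
    (hle : H ≤ decompositionStabilizer D) : ∀ i j, AreIsometricFor (⇑Q) (D i) (D j) := by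
  intro i j
  obtain ⟨g, hg, hgD⟩ := exists_map_member hirr hD.decomp hle i j
  let e0 : D i →ₗ[F] D j :=
    ((Matrix.toLin' (g : Matrix ι ι F)).domRestrict (D i)).codRestrict (D j) fun w => by
      rw [← hgD]; exact ⟨w, w.2, rfl⟩
  have hinj : Function.Injective e0 := fun a b hab => Subtype.ext (act_injective g (by
    simpa [e0] using congrArg Subtype.val hab))
  refine ⟨e0.linearEquivOfInjective hinj ((hD.decomp.finrank_eq i).trans (hD.decomp.finrank_eq j).symm), fun w => ?_⟩
  simp [e0, LinearMap.linearEquivOfInjective, Matrix.toLin'_apply]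
  exact hiso g hg _

/-- The cases for an irreducible group of isometries in dimension nine. -/
theorem nine_cases (hQ : Nondeg Q) (h2 : (2 : F) ≠ 0) (hn : Fintype.card ι = 9) (hH : H ≤ omegaGL (⇑Q))
    (hirr : ActsIrreducibly (matrixSet H)) :
    (∃ D : Fin 9 → Submodule F (ι → F), IsOrthogonalMDecomposition (⇑Q) 1 D ∧ H ≤ decompositionStabilizer D) ∨
    (5 ≤ Fintype.card F ∧
      ∃ D : Fin 3 → Submodule F (ι → F), IsOrthogonalMDecomposition (⇑Q) 3 D ∧ H ≤ decompositionStabilizer D) ∨
    (∃ K : Subalgebra F (Matrix ι ι F), IsFieldSubalgebra 3 K ∧ IsSelfAdjointFor (polar (⇑Q)) K ∧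
      H ≤ subalgebraNormalizer K) ∨
    (5 ≤ Fintype.card F ∧ ∃ (e : ι ≃ (Fin 2 → Fin 3)) (P : GL ι F) (c : F), SquareFrame Q H e P c) ∨
    (∃ (N : Subgroup (GL ι F)) (K : Subfield F), NormalIn N H ∧ ActsAbsolutelyIrreducibly (matrixSet N) ∧
      K ≠ ⊤ ∧ RealisableOver K (matrixSet N)) ∨
    InOrthogonalResidualClass H := by
  classical
  have : Nonempty ι := Fintype.card_pos_iff.mp (by omega)
  have hiso := isometric_of_le_omega hH
  have hq : 5 ≤ Fintype.card F ∨ Fintype.card F = 3 := by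
    have h1 : 1 < Fintype.card F := Fintype.one_lt_card
    have hodd : Odd (Fintype.card F) := ((two_eq_zero_or_ne (F := F)).resolve_left fun h => h2 h.1).2
    obtain ⟨j, hj⟩ := hodd
    omega
  have hlines : ∀ D : Fin 9 → Submodule F (ι → F), IsNondegenerateMDecomposition (polar (⇑Q)) 1 D →
      H ≤ decompositionStabilizer D →
      ∃ D : Fin 9 → Submodule F (ι → F), IsOrthogonalMDecomposition (⇑Q) 1 D ∧ H ≤ decompositionStabilizer D :=
    fun D hD hle => ⟨D, ⟨hD, orth_isometric hiso hirr hD hle⟩, hle⟩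
  have hframe : ∀ (e : ι ≃ (Fin 2 → Fin 3)) (P : GL ι F) (c : F), SquareFrame Q H e P c →
      (∃ D : Fin 9 → Submodule F (ι → F), IsOrthogonalMDecomposition (⇑Q) 1 D ∧ H ≤ decompositionStabilizer D) ∨
      (5 ≤ Fintype.card F ∧ ∃ (e : ι ≃ (Fin 2 → Fin 3)) (P : GL ι F) (c : F), SquareFrame Q H e P c) := by
    intro e P c h
    rcases hq with hq | hq
    · exact Or.inr ⟨hq, e, P, c, h⟩
    · obtain ⟨D, hD, hle⟩ := h.lines hiso hq
      exact Or.inl (hlines D hD hle)
  by_cases habs : ∀ N, NormalIn N H → ¬ N ≤ scalars ι F → ActsAbsolutelyIrreducibly (matrixSet N)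
  swap
  · push Not at habs
    obtain ⟨N, hN, hNs, hNa⟩ := habs
    rcases form_clifford (sesqui_polar Q) (reflexive_polar Q) (isNondegenerateForm_polar hQ) hirr hN
      hiso.fixesForm hNs with h | ⟨t, m, D, hD, hle⟩ | ⟨t, m, D, τ, hD, -, hτ, hτ2, -, -⟩ |
        ⟨r, K, hr, hK, hadj, hle⟩ | ⟨n₁, n₂, e, P, hT⟩
    · exact absurd h hNa
    · have htm : t * m = 9 := (decomp_mul_eq hD.decomp).trans hn
      have ht := hD.decomp.two_le
      have hm : m = 1 ∨ m = 3 := by
        have : m ≤ 4 := by nlinarith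
        interval_cases m <;> omega
      rcases hm with rfl | rfl
      · obtain rfl : t = 9 := by omega
        exact Or.inl (hlines D hD hle)
      · obtain rfl : t = 3 := by omega
        rcases hq with hq | hq
        · exact Or.inr (Or.inl ⟨hq, D, ⟨hD, (orth_isometric hiso hirr hD hle)⟩, hle⟩)
        · obtain ⟨D', hD', hle'⟩ := refine_threeSpaces h2 hq hn hiso hirr hD hle
          exact Or.inl (hlines D' hD' hle')
    · exfalso
      have htm : t * m = 9 := (decomp_mul_eq hD).trans hn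
      have hne : Even t := by
        have h := Equiv.Perm.two_dvd_card_support (σ := (τ : Equiv.Perm (Fin t)))
          (Equiv.ext fun i => by simpa [pow_two] using hτ2 i)
        rw [show τ.support = Finset.univ from Finset.eq_univ_iff_forall.mpr fun i =>
          Equiv.Perm.mem_support.mpr (hτ i), Finset.card_univ, Fintype.card_fin] at h
        exact even_iff_two_dvd.mpr h
      exact absurd (htm ▸ hne.mul_right m) (by decide)
    · have hr9 : r ∣ 9 := hn ▸ dvd_card_of_isFieldSubalgebra hK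
      have hr3 : r = 3 :=
        (Nat.prime_dvd_prime_iff_eq hr Nat.prime_three).mp (hr.dvd_of_dvd_pow (show r ∣ 3 ^ 2 from hr9))
      subst hr3
      refine Or.inr (Or.inr (Or.inl ⟨K, hK, ?_, hle⟩))
      by_contra hns
      exact absurd (two_dvd_of_not_selfAdjoint (isNondegenerateForm_polar hQ) hK hadj hns) (by decide)
    · have hcard : n₁ * n₂ = 9 := by
        rw [← hn, Fintype.card_congr e, Fintype.card_prod, Fintype.card_fin, Fintype.card_fin]
      obtain ⟨rfl, rfl⟩ : n₁ = 3 ∧ n₂ = 3 := by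
        have h1 := hT.two_le_left
        have h2' := hT.two_le_right
        have : n₁ ≤ 4 := by nlinarith
        interval_cases n₁ <;> omega
      obtain ⟨e', P', c, h⟩ := squareFrame_of_tensorCase hQ h2 hiso hN hT
      rcases hframe e' P' c h with h | h
      · exact Or.inl h
      · exact Or.inr (Or.inr (Or.inr (Or.inl h)))
  by_cases hsub : ∀ N, NormalIn N H → ¬ N ≤ scalars ι F → ∀ K : Subfield F, K ≠ ⊤ →
      ¬ RealisableOver K (matrixSet N)
  swap
  · push Not at hsub
    obtain ⟨N, hN, hNs, K, hK, hreal⟩ := hsub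
    exact Or.inr (Or.inr (Or.inr (Or.inr (Or.inl ⟨N, K, hN, habs N hN hNs, hK, hreal⟩))))
  have hHs : ¬ H ≤ scalars ι F := not_le_scalars_of_irreducible (by omega) hirr
  rcases generic_cases (by omega) hHs habs hsub with ⟨R, r, m, hR⟩ | ⟨N, k, L, hN, hNa, -, hL⟩ | ⟨P, hP, hcore⟩
  · exfalso
    have hr3 : r = 3 := by
      have h := hR.dim
      rw [hn] at h
      have hm : m ≠ 0 := by rintro rfl; simp at h
      have hd : r ∣ 9 := h ▸ dvd_pow_self r hm
      exact (Nat.prime_dvd_prime_iff_eq hR.sympType.prime Nat.prime_three).mp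
        (hR.sympType.prime.dvd_of_dvd_pow (show r ∣ 3 ^ 2 from hd))
    subst hr3
    have hZ : Nat.card (Subgroup.center R) = 3 := (hR.center_cases.resolve_right (by omega)).2
    haveI : Finite (Subgroup.center R) := Subtype.finite
    haveI : Nontrivial (Subgroup.center R) := by
      rw [← Finite.one_lt_card_iff_nontrivial, hZ]; norm_num
    obtain ⟨z, hz⟩ := exists_ne (1 : Subgroup.center R)
    obtain ⟨s, hs, hs3⟩ := hR.scalar_pow (z : R) (z : R).2 ((hR.mem_scalars_iff_mem_center _).mpr z.2)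
    rw [hZ] at hs3
    obtain ⟨v, hv⟩ : ∃ v, Q v ≠ 0 := by
      by_contra hall
      push Not at hall
      obtain ⟨w, hw, hw1⟩ := exists_singular_pair hQ (by omega)
        (v := Pi.single (Classical.arbitrary ι) (1 : F)) (by simp)
      simp [QuadraticMap.polar, hall] at hw1
    have hsq : s ^ 2 = 1 := by
      have h := hiso _ (hR.normal.le (z : R).2) v
      rw [act_scalar hs, QuadraticMap.map_smul, smul_eq_mul] at h
      exact mul_right_cancel₀ hv (by rw [pow_two, one_mul]; exact h)
    have hs1 : s = 1 := by linear_combination hs3 - s * hsq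
    rw [hs1, one_smul] at hs
    exact hz (Subtype.ext (Subtype.ext (Units.ext hs)))
  · obtain ⟨e', P', c, h⟩ := squareFrame_of_induced hQ h2 hn hiso hN hNa hL
    rcases hframe e' P' c h with h | h
    · exact Or.inl h
    · exact Or.inr (Or.inr (Or.inr (Or.inl h)))
  · exact Or.inr (Or.inr (Or.inr (Or.inr (Or.inr ⟨P, hcore, no_unitary hQ (by omega) (hiso.mono hP.le)
      hcore.absIrred (hsub P hP (not_le_scalars_of_irreducible (by omega) hcore.absIrred.1))⟩))))

end CfsgLib.SmallDim.OrthEven
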