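import Cfsg.Agent.Lib.SmallDim.SympSqrt

/-!
Groups of matrices commuting up to sign which span the matrix algebra: they are of symplectic type, and they are
closed under tensor products.
-/

set_option autoImplicit false
set_option linter.style.haveILetI false

namespace CfsgLib.SmallDim

open scoped MatrixGroups Matrix Kronecker
open Cfsg.Geo

variable {F : Type*} [Field F] {ι κ κ₁ κ₂ : Type} [Fintype ι] [DecidableEq ι] [Fintype κ] [DecidableEq κ]
  [Fintype κ₁] [DecidableEq κ₁] [Fintype κ₂] [DecidableEq κ₂]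

/-- A group of matrices squaring to signs, commuting up to sign and spanning the matrix algebra. -/
structure IsPauli (R : Subgroup (GL ι F)) : Prop where
  sq : ∀ x ∈ R, (x : Matrix ι ι F) * (x : Matrix ι ι F) = 1 ∨ (x : Matrix ι ι F) * (x : Matrix ι ι F) = -1
  comm : ∀ x ∈ R, ∀ y ∈ R, (x : Matrix ι ι F) * (y : Matrix ι ι F) = (y : Matrix ι ι F) * (x : Matrix ι ι F) ∨
    (x : Matrix ι ι F) * (y : Matrix ι ι F) = -((y : Matrix ι ι F) * (x : Matrix ι ι F))
  span : Submodule.span F (matrixSet R) = ⊤

namespace IsPauli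

variable {R : Subgroup (GL ι F)}

lemma irreducible (hR : IsPauli R) : ActsIrreducibly (matrixSet R) := by
  intro W hW
  have hall : ∀ X : Matrix ι ι F, ∀ w ∈ W, X *ᵥ w ∈ W := by
    intro X
    have hX : X ∈ Submodule.span F (matrixSet R) := hR.span ▸ Submodule.mem_top
    induction hX using Submodule.span_induction with
    | mem s hs => exact fun w hw => hW s hs ⟨w, hw, Matrix.toLin'_apply s w⟩
    | zero => intro w _; rw [Matrix.zero_mulVec]; exact W.zero_mem
    | add a b _ _ ha hb => intro w hw; rw [Matrix.add_mulVec]; exact W.add_mem (ha w hw) (hb w hw)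
    | smul c a _ ha => intro w hw; rw [Matrix.smul_mulVec]; exact W.smul_mem c (ha w hw)
  by_cases hbot : W = ⊥
  · exact Or.inl hbot
  refine Or.inr (eq_top_iff.2 fun v _ => ?_)
  obtain ⟨w, hw, hw0⟩ := (Submodule.ne_bot_iff _).1 hbot
  obtain ⟨i, hi⟩ : ∃ i, w i ≠ 0 := Function.ne_iff.1 hw0
  have h := hall (Matrix.of fun p q => if q = i then v p / w i else 0) w hw
  convert h using 1
  funext p
  simp [Matrix.mulVec, dotProduct, div_mul_cancel₀ _ hi]

lemma commute_all (hR : IsPauli R) {M : Matrix ι ι F} (hM : ∀ s ∈ matrixSet R, M * s = s * M)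
    (X : Matrix ι ι F) : M * X = X * M := by
  have hX : X ∈ Submodule.span F (matrixSet R) := hR.span ▸ Submodule.mem_top
  induction hX using Submodule.span_induction with
  | mem s hs => exact hM s hs
  | zero => simp
  | add a b _ _ ha hb => rw [mul_add, add_mul, ha, hb]
  | smul c a _ ha => rw [Matrix.mul_smul, Matrix.smul_mul, ha]

lemma centraliser_scalar (hR : IsPauli R) {M : Matrix ι ι F} (hM : ∀ s ∈ matrixSet R, M * s = s * M) :
    ∃ c : F, M = c • (1 : Matrix ι ι F) := by
  have h : M ∈ Set.range (Matrix.scalar ι) :=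
    Matrix.mem_range_scalar_of_commute_single fun i j _ => (hR.commute_all hM (Matrix.single i j 1)).symm
  obtain ⟨c, rfl⟩ := h
  exact ⟨c, by rw [Matrix.smul_one_eq_diagonal]; rfl⟩

lemma absIrred (hR : IsPauli R) : ActsAbsolutelyIrreducibly (matrixSet R) :=
  ⟨hR.irreducible, fun _ hM => hR.centraliser_scalar hM⟩

lemma central_sign (hR : IsPauli R) (hns : ∀ c : F, c * c ≠ -1) {z : R} (hz : z ∈ Subgroup.center R) :
    ((z : GL ι F) : Matrix ι ι F) = 1 ∨ ((z : GL ι F) : Matrix ι ι F) = -1 := by
  obtain ⟨c, hc⟩ := hR.centraliser_scalar (M := ((z : GL ι F) : Matrix ι ι F)) (by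
    rintro _ ⟨y, hy, rfl⟩
    exact congrArg (fun x : R => ((x : GL ι F) : Matrix ι ι F)) (Subgroup.mem_center_iff.1 hz ⟨y, hy⟩).symm)
  rcases isEmpty_or_nonempty ι with h | ⟨⟨i⟩⟩
  · exact Or.inl (Matrix.ext fun p => isEmptyElim p)
  have h := hR.sq z z.2
  rw [hc, Matrix.smul_mul, one_mul, smul_smul] at h
  rcases h with h | h
  · have h' : c * c = 1 := by simpa using congrFun (congrFun h i) i
    rcases mul_self_eq_one_iff.1 h' with rfl | rfl
    · left; rw [hc, one_smul]
    · right; rw [hc, neg_one_smul]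
  · exact absurd (by simpa using congrFun (congrFun h i) i) (hns c)

lemma not_commute (hR : IsPauli R) {x y : R} (h : ¬ Commute x y) :
    ((x : GL ι F) : Matrix ι ι F) * ((y : GL ι F) : Matrix ι ι F) =
      -(((y : GL ι F) : Matrix ι ι F) * ((x : GL ι F) : Matrix ι ι F)) := by
  refine (hR.comm x x.2 y y.2).resolve_left fun h' => h ?_
  exact Subtype.ext (Units.ext h')

lemma exists_noncentral (hR : IsPauli R) (hn : 1 < Fintype.card ι) : ∃ x : R, x ∉ Subgroup.center R := by
  by_contra hall
  push Not at hall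
  obtain ⟨i, j, hij⟩ := Fintype.exists_pair_of_one_lt_card hn
  obtain ⟨c, hc⟩ := hR.centraliser_scalar (M := Matrix.single i j 1) (fun s hs => by
    refine (hR.commute_all (M := s) ?_ _).symm
    intro t ht
    obtain ⟨x, hx, rfl⟩ := hs
    obtain ⟨y, hy, rfl⟩ := ht
    exact congrArg (fun z : R => ((z : GL ι F) : Matrix ι ι F))
      (Subgroup.mem_center_iff.1 (hall ⟨y, hy⟩) ⟨x, hx⟩))
  simpa [hij] using congrFun (congrFun hc i) j

lemma neg_one_mem (hR : IsPauli R) (hn : 1 < Fintype.card ι) : (-1 : GL ι F) ∈ R := by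
  obtain ⟨x, hx⟩ := hR.exists_noncentral hn
  obtain ⟨y, hy⟩ : ∃ y : R, ¬ Commute x y := by
    by_contra hall
    push Not at hall
    exact hx (Subgroup.mem_center_iff.2 fun y => (hall y).eq.symm)
  have h := hR.not_commute hy
  have : (-1 : GL ι F) = x * y * (x : GL ι F)⁻¹ * (y : GL ι F)⁻¹ := by
    apply Units.ext
    simp only [Units.val_mul, Units.val_neg, Units.val_one, h, Matrix.neg_mul]
    simp [mul_assoc]
  rw [this]
  exact R.mul_mem (R.mul_mem (R.mul_mem x.2 y.2) (R.inv_mem x.2)) (R.inv_mem y.2)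

lemma neg_one_ne_one (h2 : (2 : F) ≠ 0) [Nonempty ι] : (-1 : GL ι F) ≠ 1 := fun h => by
  obtain ⟨i⟩ := (inferInstance : Nonempty ι)
  have h' := congrFun (congrFun (congrArg (fun g : GL ι F => (g : Matrix ι ι F)) h) i) i
  simp only [Units.val_neg, Units.val_one, Matrix.neg_apply, Matrix.one_apply_eq] at h'
  exact h2 (by linear_combination -h')

lemma neg_one_central (hR : IsPauli R) (hn : 1 < Fintype.card ι) :
    (⟨-1, hR.neg_one_mem hn⟩ : R) ∈ Subgroup.center R :=
  Subgroup.mem_center_iff.2 fun y => Subtype.ext (show (y : GL ι F) * -1 = -1 * (y : GL ι F) by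
    rw [mul_neg, neg_mul, mul_one, one_mul])

lemma card_center (hR : IsPauli R) (hn : 1 < Fintype.card ι) (h2 : (2 : F) ≠ 0) (hns : ∀ c : F, c * c ≠ -1) :
    Nat.card (Subgroup.center R) = 2 := by
  haveI : Nonempty ι := Fintype.card_pos_iff.1 (by omega)
  rw [Nat.card_eq_two_iff]
  refine ⟨1, ⟨⟨-1, hR.neg_one_mem hn⟩, hR.neg_one_central hn⟩, fun h => neg_one_ne_one (ι := ι) h2 ?_, ?_⟩
  · exact (congrArg (fun z : Subgroup.center R => ((z : R) : GL ι F)) h).symm
  · refine Set.eq_univ_iff_forall.2 fun z => ?_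
    rcases hR.central_sign hns z.2 with h | h
    · exact Or.inl (Subtype.ext (Subtype.ext (Units.ext h)))
    · exact Or.inr (Subtype.ext (Subtype.ext (Units.ext h)))

lemma trace_eq_zero (hR : IsPauli R) (h2 : (2 : F) ≠ 0) {z : R} (hz : z ∉ Subgroup.center R) :
    Matrix.trace ((z : GL ι F) : Matrix ι ι F) = 0 := by
  obtain ⟨w, hw⟩ : ∃ w : R, ¬ Commute z w := by
    by_contra hall
    push Not at hall
    exact hz (Subgroup.mem_center_iff.2 fun y => (hall y).eq.symm)
  have h := hR.not_commute hw
  set Z := ((z : GL ι F) : Matrix ι ι F)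
  set W := ((w : GL ι F) : Matrix ι ι F)
  set W' := (((w : GL ι F)⁻¹ : GL ι F) : Matrix ι ι F)
  have hWW : W * W' = 1 := Units.mul_inv _
  have hWW' : W' * W = 1 := Units.inv_mul _
  have e : Matrix.trace Z = -Matrix.trace Z := by
    calc Matrix.trace Z = Matrix.trace (Z * W * W') := by rw [mul_assoc, hWW, mul_one]
      _ = -Matrix.trace (W * Z * W') := by rw [h, Matrix.neg_mul, Matrix.trace_neg]
      _ = _ := by rw [Matrix.trace_mul_comm, ← mul_assoc, hWW', one_mul]
  have : (2 : F) * Matrix.trace Z = 0 := by linear_combination e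
  exact (mul_eq_zero.1 this).resolve_left h2

lemma card_eq [Finite F] (hR : IsPauli R) (hn : 1 < Fintype.card ι) (h2 : (2 : F) ≠ 0)
    (hne : (Fintype.card ι : F) ≠ 0) (hns : ∀ c : F, c * c ≠ -1) :
    Nat.card R = 2 * (Fintype.card ι * Fintype.card ι) := by
  classical
  haveI : Fintype (R ⧸ Subgroup.center R) := Fintype.ofFinite _
  let b : R ⧸ Subgroup.center R → Matrix ι ι F := fun q => ((q.out : R) : GL ι F)
  have hli : LinearIndependent F b := by
    rw [Fintype.linearIndependent_iff]
    intro g hg q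
    have hout : ∀ p, p ≠ q → Matrix.trace (b p * ((((q.out : R) : GL ι F)⁻¹ : GL ι F) : Matrix ι ι F)) = 0 := by
      intro p hpq
      have : p.out * (q.out)⁻¹ ∉ Subgroup.center R := by
        intro hc
        apply hpq
        rw [← QuotientGroup.out_eq' p, ← QuotientGroup.out_eq' q, QuotientGroup.eq]
        have hc' := (inferInstance : (Subgroup.center R).Normal).conj_mem' _ hc p.out
        simpa [mul_assoc] using (Subgroup.center R).inv_mem hc'
      simpa [b] using hR.trace_eq_zero h2 this
    have h := congrArg (fun X : Matrix ι ι F => Matrix.trace (X * ((((q.out : R) : GL ι F)⁻¹ : GL ι F) : Matrix ι ι F))) hg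
    simp only [Matrix.sum_mul, Matrix.trace_sum, Matrix.smul_mul, Matrix.trace_smul, Matrix.zero_mul,
      Matrix.trace_zero, smul_eq_mul] at h
    rw [Finset.sum_eq_single q (fun p _ hp => by rw [hout p hp, mul_zero]) (by simp)] at h
    simp only [b, Units.mul_inv, Matrix.trace_one] at h
    exact (mul_eq_zero.1 h).resolve_right hne
  have hspan : Submodule.span F (Set.range b) = ⊤ := by
    rw [eq_top_iff, ← hR.span, Submodule.span_le]
    rintro _ ⟨x, hx, rfl⟩
    set r : R := ⟨x, hx⟩
    set q : R ⧸ Subgroup.center R := QuotientGroup.mk r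
    have hz : (q.out)⁻¹ * r ∈ Subgroup.center R := QuotientGroup.eq.1 (QuotientGroup.out_eq' q)
    have hb : (x : Matrix ι ι F) = b q * ((((q.out)⁻¹ * r : R) : GL ι F) : Matrix ι ι F) := by
      simp [b, r]
    show (x : Matrix ι ι F) ∈ Submodule.span F (Set.range b)
    rw [hb]
    rcases hR.central_sign hns hz with h | h <;> rw [h]
    · rw [mul_one]; exact Submodule.subset_span ⟨q, rfl⟩
    · rw [mul_neg, mul_one]; exact Submodule.neg_mem _ (Submodule.subset_span ⟨q, rfl⟩)
  have h := finrank_span_eq_card hli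
  rw [hspan, finrank_top, Module.finrank_matrix, Module.finrank_self, mul_one] at h
  rw [Subgroup.card_eq_card_quotient_mul_card_subgroup (Subgroup.center R), hR.card_center hn h2 hns,
    Nat.card_eq_fintype_card, ← h]
  ring

lemma sympType [Finite F] (hR : IsPauli R) (h2 : (2 : F) ≠ 0) (hne : (Fintype.card ι : F) ≠ 0)
    (hns : ∀ c : F, c * c ≠ -1) {k : ℕ} (hk : 2 ≤ k) (hdim : Fintype.card ι = 2 ^ k) :
    IsSymplecticTypeGroup 2 R := by
  classical
  have h4 : 4 ≤ Fintype.card ι := by
    have := Nat.pow_le_pow_right (show 1 ≤ 2 by omega) hk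
    omega
  have hn : 1 < Fintype.card ι := by omega
  haveI : Nonempty ι := Fintype.card_pos_iff.1 (by omega)
  have hcard : Nat.card R = 2 ^ (1 + 2 * k) := by
    rw [hR.card_eq hn h2 hne hns, hdim]; ring
  set ε : R := ⟨-1, hR.neg_one_mem hn⟩
  have hεc : ∀ y : R, y * ε = ε * y := fun y => Subgroup.mem_center_iff.1 (hR.neg_one_central hn) y
  have hsq : ∀ z : R, z * z = 1 ∨ z * z = ε := fun z => by
    rcases hR.sq z z.2 with h | h
    · exact Or.inl (Subtype.ext (Units.ext h))
    · exact Or.inr (Subtype.ext (Units.ext h))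
  have hanti : ∀ {y z : R}, ¬ Commute y z → y * z = ε * (z * y) := fun {y z} h => by
    refine Subtype.ext (Units.ext ?_)
    simp only [Subgroup.coe_mul, Units.val_mul, ε, Units.val_neg, neg_mul, one_mul]
    exact hR.not_commute h
  have hεε : ε * ε = 1 := Subtype.ext (by simp [ε])
  have hε1 : ε ≠ 1 := fun h => neg_one_ne_one (ι := ι) h2 (congrArg Subtype.val h)
  refine ⟨Nat.prime_two, IsPGroup.of_card hcard, fun A hA hAc => ?_, ?_⟩
  · by_cases hAz : A ≤ Subgroup.center R
    · haveI : IsCyclic (Subgroup.center R) := isCyclic_of_prime_card (p := 2) (hR.card_center hn h2 hns)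
      exact isCyclic_of_injective (Subgroup.inclusion hAz) (Subgroup.inclusion_injective hAz)
    exfalso
    obtain ⟨x, hxA, hxz⟩ := SetLike.not_le_iff_exists.1 hAz
    have hinv : ∀ u : R, ¬ Commute u x → u * u = 1 := by
      intro u hux
      refine (hsq u).resolve_right fun huu => hux ?_
      let t : R → R := fun z => if Commute z u then z else z * u
      have hmul : ∀ p q, t (p * q) = t p * t q := by
        intro p q
        by_cases hp : Commute p u <;> by_cases hq : Commute q u
        · simp only [t, if_pos hp, if_pos hq, if_pos (hp.mul_left hq)]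
        · have : ¬ Commute (p * q) u := fun h => hq (by simpa using hp.inv_left.mul_left h)
          simp only [t, if_pos hp, if_neg hq, if_neg this, mul_assoc]
        · have : ¬ Commute (p * q) u := fun h => hp (by simpa using h.mul_left hq.inv_left)
          simp only [t, if_neg hp, if_pos hq, if_neg this, mul_assoc, hq.eq]
        · have : Commute (p * q) u := by
            show p * q * u = u * (p * q)
            calc p * q * u = p * (ε * (u * q)) := by rw [mul_assoc, hanti hq]
              _ = ε * (p * u) * q := by rw [← mul_assoc p, hεc p]; group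
              _ = ε * ε * (u * p) * q := by rw [hanti hp]; group
              _ = _ := by rw [hεε, one_mul, mul_assoc]
          simp only [t, if_neg hp, if_neg hq, if_pos this]
          calc p * q = p * (ε * ε) * q := by rw [hεε, mul_one]
            _ = p * (ε * (q * (u * u))) := by rw [huu, hεc q]; group
            _ = p * (u * q * u) := by
              rw [← mul_assoc q u u, hanti hq, ← mul_assoc ε, ← mul_assoc ε, hεε, one_mul]
            _ = _ := by group
      let φ : R →* R := MonoidHom.mk' t hmul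
      have hinj : Function.Injective φ := by
        rw [injective_iff_map_eq_one]
        intro z hz
        change t z = 1 at hz
        by_cases h : Commute z u
        · simpa [t, h] using hz
        · exact absurd (by
            simp only [t, if_neg h] at hz
            rw [mul_eq_one_iff_eq_inv.1 hz]; exact (Commute.refl u).inv_left) h
      let e : R ≃* R := MulEquiv.ofBijective φ (Finite.injective_iff_bijective.1 hinj)
      have hxe : t x ∈ A := by
        have h := hA.fixed e
        have hx' : x ∈ A.comap e.toMonoidHom := h.symm ▸ hxA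
        exact hx'
      simp only [t, if_neg (fun h : Commute x u => hux h.symm)] at hxe
      have hu : u ∈ A := by simpa using A.mul_mem (A.inv_mem hxA) hxe
      exact congrArg Subtype.val (hAc.is_comm.comm ⟨u, hu⟩ ⟨x, hxA⟩)
    obtain ⟨u, hux⟩ : ∃ u : R, ¬ Commute u x := by
      by_contra hall
      push Not at hall
      exact hxz (Subgroup.mem_center_iff.2 fun y => (hall y).eq)
    have huu := hinv u hux
    have hC : ∀ z : R, Commute z x → u * z * u = z⁻¹ := by
      intro z hzx
      have h := hinv (u * z) fun h => hux (by simpa using h.mul_left hzx.inv_left)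
      rw [eq_inv_iff_mul_eq_one, ← h]
      group
    have hab : ∀ y z : R, Commute y x → Commute z x → Commute y z := by
      intro y z hy hz
      have h := hC (y * z) (hy.mul_left hz)
      have h' : u * (y * z) * u = (u * y * u) * (u * z * u) := by
        calc u * (y * z) * u = u * y * (u * u) * z * u := by rw [huu]; group
          _ = _ := by group
      rw [h', hC y hy, hC z hz, ← mul_inv_rev, inv_inj] at h
      exact h.symm
    have hcen : ∀ w : R, Commute w x → Commute w u → w ∈ Subgroup.center R := by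
      intro w hw hwu
      refine Subgroup.mem_center_iff.2 fun y => ?_
      by_cases hy : Commute y x
      · exact hab y w hy hw
      · have huy : Commute (u * y) x := by
          show u * y * x = x * (u * y)
          calc u * y * x = u * (ε * (x * y)) := by rw [mul_assoc, hanti hy]
            _ = ε * (u * x) * y := by rw [← mul_assoc u, hεc u]; group
            _ = ε * ε * (x * u) * y := by rw [hanti hux]; group
            _ = _ := by rw [hεε, one_mul, mul_assoc]
        have h := hab _ w huy hw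
        have : Commute y w := by simpa using hwu.symm.inv_left.mul_left h
        exact this.eq
    haveI : Fintype R := Fintype.ofFinite _
    let Z : Finset R := {1, ε}
    have hZ : ∀ w, w ∈ Subgroup.center R → w ∈ Z := fun w hw => by
      rcases hR.central_sign hns hw with h | h
      · exact Finset.mem_insert.2 (Or.inl (Subtype.ext (Units.ext h)))
      · exact Finset.mem_insert.2 (Or.inr (Finset.mem_singleton.2 (Subtype.ext (Units.ext h))))
    have h1 : ((Finset.univ : Finset R).filter fun z => Commute z x ∧ Commute z u).card ≤ 2 :=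
      (Finset.card_le_card fun w hw => hZ w (hcen w (Finset.mem_filter.1 hw).2.1 (Finset.mem_filter.1 hw).2.2)).trans
        Finset.card_le_two
    have h2' : ((Finset.univ : Finset R).filter fun z => Commute z x ∧ ¬ Commute z u).card ≤
        ((Finset.univ : Finset R).filter fun z => Commute z x ∧ Commute z u).card := by
      refine Finset.card_le_card_of_injOn (fun z => x * z) (fun z hz => ?_) (fun p _ q _ h => mul_left_cancel h)
      obtain ⟨-, hzx, hzu⟩ := Finset.mem_filter.1 hz
      refine Finset.mem_filter.2 ⟨Finset.mem_univ _, (Commute.refl x).mul_left hzx, ?_⟩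
      show x * z * u = u * (x * z)
      calc x * z * u = x * (ε * (u * z)) := by rw [mul_assoc, hanti hzu]
        _ = ε * (x * u) * z := by rw [← mul_assoc x, hεc x]; group
        _ = ε * ε * (u * x) * z := by rw [hanti fun h => hux h.symm]; group
        _ = _ := by rw [hεε, one_mul, mul_assoc]
    have h3 : ((Finset.univ : Finset R).filter fun z => ¬ Commute z x).card ≤
        ((Finset.univ : Finset R).filter fun z => Commute z x).card := by
      refine Finset.card_le_card_of_injOn (fun z => u * z) (fun z hz => ?_) (fun p _ q _ h => mul_left_cancel h)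
      refine Finset.mem_filter.2 ⟨Finset.mem_univ _, ?_⟩
      have hzx := (Finset.mem_filter.1 hz).2
      show u * z * x = x * (u * z)
      calc u * z * x = u * (ε * (x * z)) := by rw [mul_assoc, hanti hzx]
        _ = ε * (u * x) * z := by rw [← mul_assoc u, hεc u]; group
        _ = ε * ε * (x * u) * z := by rw [hanti hux]; group
        _ = _ := by rw [hεε, one_mul, mul_assoc]
    have hsplit := Finset.card_filter_add_card_filter_not (s := (Finset.univ : Finset R)) (fun z => Commute z x)
    have hsplit' := Finset.card_filter_add_card_filter_not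
      (s := (Finset.univ : Finset R).filter fun z => Commute z x) (fun z => Commute z u)
    rw [Finset.filter_filter, Finset.filter_filter] at hsplit'
    rw [Finset.card_univ, ← Nat.card_eq_fintype_card, hcard] at hsplit
    have := Nat.pow_le_pow_right (show 1 ≤ 2 by norm_num) (show 5 ≤ 1 + 2 * k by omega)
    omega
  · obtain ⟨z, hz⟩ : ∃ z : R, z * z = ε := by
      by_contra hall
      push Not at hall
      obtain ⟨x, hx⟩ := hR.exists_noncentral hn
      refine hx (Subgroup.mem_center_iff.2 fun y => ?_)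
      have h := fun z => (hsq z).resolve_right (hall z)
      have hi : ∀ z : R, z⁻¹ = z := fun z => inv_eq_of_mul_eq_one_right (h z)
      calc y * x = (y * x)⁻¹ := (hi _).symm
        _ = _ := by rw [mul_inv_rev, hi, hi]
    have hexp : Monoid.exponent R ∣ 2 ^ 2 := Monoid.exponent_dvd_of_forall_pow_eq_one fun w => by
      rcases hsq w with h | h <;> simp only [show (2 : ℕ) ^ 2 = 2 * 2 from rfl, pow_mul, pow_two, h, one_mul, hεε]
    obtain ⟨j, hj, hje⟩ := (Nat.dvd_prime_pow Nat.prime_two).1 hexp
    have hnot : ¬ Monoid.exponent R ∣ 2 := fun h => hε1 (by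
      rw [← hz, ← pow_two]
      exact orderOf_dvd_iff_pow_eq_one.1 ((Monoid.order_dvd_exponent z).trans h))
    rw [hje] at hnot ⊢
    interval_cases j <;> simp_all

/-- The data used for the normaliser of a group of symplectic type. -/
lemma symplGen [Finite F] (hR : IsPauli R) (h2 : (2 : F) ≠ 0) (hne : (Fintype.card ι : F) ≠ 0)
    (hns : ∀ c : F, c * c ≠ -1) {k : ℕ} (hk : 2 ≤ k) (hdim : Fintype.card ι = 2 ^ k) :
    SymplGen (subgroupNormalizer R) R 2 k := by
  have h4 : 4 ≤ Fintype.card ι := by
    have := Nat.pow_le_pow_right (show 1 ≤ 2 by omega) hk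
    omega
  have hn : 1 < Fintype.card ι := by omega
  have hz := hR.card_center hn h2 hns
  have hsc : ∀ x (hx : x ∈ R), x ∈ scalars ι F → (⟨x, hx⟩ : R) ∈ Subgroup.center R := fun x hx hs =>
    Subgroup.mem_center_iff.2 fun y => Subtype.ext (scalars_commute hs (y : GL ι F)).symm
  refine ⟨⟨Subgroup.le_normalizer, fun g hg x hx => (Subgroup.mem_normalizer_iff.1 hg x).1 hx⟩, hR.absIrred,
    hR.sympType h2 hne hns hk hdim, hdim, ?_, Or.inr ⟨rfl, Or.inl hz⟩, fun x hx hs => ?_,
    fun x hx hs => ?_, hne, ?_, fun a ha b hb => ?_⟩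
  · rw [hR.card_eq hn h2 hne hns, hz, hdim, two_mul k, pow_add]
  · rcases hR.central_sign hns (hsc x hx hs) with h | h
    · exact ⟨1, by rw [one_smul]; exact h, one_pow _⟩
    · exact ⟨-1, by rw [neg_one_smul]; exact h, by rw [hz]; ring⟩
  · refine hR.trace_eq_zero h2 (z := ⟨x, hx⟩) fun hc => hs ?_
    rcases hR.central_sign hns hc with h | h
    · exact (mem_scalars_iff x).2 ⟨1, by rw [Units.val_one, one_smul]; exact h⟩
    · exact (mem_scalars_iff x).2 ⟨-1, by rw [Units.val_neg, Units.val_one, neg_one_smul]; exact h⟩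
  · rw [hz]
    exact ⟨-1, IsPrimitiveRoot.iff_def _ _ |>.2 ⟨by ring, fun l hl => by
      rcases Nat.even_or_odd l with h | h
      · exact even_iff_two_dvd.1 h
      · rw [h.neg_one_pow] at hl
        exact absurd (by linear_combination -hl : (2 : F) = 0) h2⟩⟩
  · rw [mem_scalars_iff]
    rcases hR.comm a ha b hb with h | h
    · refine ⟨1, ?_⟩
      rw [Units.val_one, one_smul, commutatorElement_def, Units.val_mul, Units.val_mul, Units.val_mul, h]
      simp [mul_assoc]
    · refine ⟨-1, ?_⟩
      rw [Units.val_neg, Units.val_one, neg_one_smul, commutatorElement_def, Units.val_mul, Units.val_mul,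
        Units.val_mul, h]
      simp [mul_assoc]

end IsPauli

/-- The Kronecker product on general linear groups. -/
def kronHom : GL κ₁ F × GL κ₂ F →* GL (κ₁ × κ₂) F where
  toFun z := ⟨(z.1 : Matrix κ₁ κ₁ F) ⊗ₖ (z.2 : Matrix κ₂ κ₂ F),
    ((z.1⁻¹ : GL κ₁ F) : Matrix κ₁ κ₁ F) ⊗ₖ ((z.2⁻¹ : GL κ₂ F) : Matrix κ₂ κ₂ F),
    by rw [← Matrix.mul_kronecker_mul, Units.mul_inv, Units.mul_inv, Matrix.one_kronecker_one],
    by rw [← Matrix.mul_kronecker_mul, Units.inv_mul, Units.inv_mul, Matrix.one_kronecker_one]⟩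
  map_one' := Units.ext (by simp)
  map_mul' a b := Units.ext (by simp [Matrix.mul_kronecker_mul])

@[simp] lemma kronHom_val (a : GL κ₁ F) (b : GL κ₂ F) :
    (kronHom (a, b) : Matrix (κ₁ × κ₂) (κ₁ × κ₂) F) = (a : Matrix κ₁ κ₁ F) ⊗ₖ (b : Matrix κ₂ κ₂ F) := rfl

omit [Fintype κ₁] [DecidableEq κ₁] [Fintype κ₂] [DecidableEq κ₂] in
lemma neg_kron (A : Matrix κ₁ κ₁ F) (B : Matrix κ₂ κ₂ F) : (-A) ⊗ₖ B = -(A ⊗ₖ B) := by
  ext p q; simp

omit [Fintype κ₁] [DecidableEq κ₁] [Fintype κ₂] [DecidableEq κ₂] in
lemma kron_neg (A : Matrix κ₁ κ₁ F) (B : Matrix κ₂ κ₂ F) : A ⊗ₖ (-B) = -(A ⊗ₖ B) := by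
  ext p q; simp

theorem IsPauli.kron {A : Subgroup (GL κ₁ F)} {B : Subgroup (GL κ₂ F)} (hA : IsPauli A) (hB : IsPauli B) :
    IsPauli ((A.prod B).map (kronHom : GL κ₁ F × GL κ₂ F →* GL (κ₁ × κ₂) F)) := by
  refine ⟨?_, ?_, ?_⟩
  · rintro _ ⟨⟨a, b⟩, ⟨ha, hb⟩, rfl⟩
    rw [kronHom_val, ← Matrix.mul_kronecker_mul]
    rcases hA.sq a ha with h | h <;> rcases hB.sq b hb with h' | h' <;> rw [h, h'] <;>
      simp [neg_kron, kron_neg]
  · rintro _ ⟨⟨a, b⟩, ⟨ha, hb⟩, rfl⟩ _ ⟨⟨c, d⟩, ⟨hc, hd⟩, rfl⟩
    rw [kronHom_val, kronHom_val, ← Matrix.mul_kronecker_mul, ← Matrix.mul_kronecker_mul]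
    rcases hA.comm a ha c hc with h | h <;> rcases hB.comm b hb d hd with h' | h' <;> rw [h, h'] <;>
      simp [neg_kron, kron_neg]
  · set S := Submodule.span F (matrixSet ((A.prod B).map (kronHom : GL κ₁ F × GL κ₂ F →* GL (κ₁ × κ₂) F)))
    have h1 : ∀ a ∈ A, ∀ Y : Matrix κ₂ κ₂ F, (a : Matrix κ₁ κ₁ F) ⊗ₖ Y ∈ S := by
      intro a ha Y
      have hY : Y ∈ Submodule.span F (matrixSet B) := hB.span ▸ Submodule.mem_top
      induction hY using Submodule.span_induction with
      | mem s hs =>
        obtain ⟨b, hb, rfl⟩ := hs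
        exact Submodule.subset_span ⟨kronHom (a, b), ⟨(a, b), ⟨ha, hb⟩, rfl⟩, rfl⟩
      | zero => rw [Matrix.kronecker_zero]; exact S.zero_mem
      | add x y _ _ hx hy => rw [Matrix.kronecker_add]; exact S.add_mem hx hy
      | smul c x _ hx => rw [Matrix.kronecker_smul]; exact S.smul_mem c hx
    have h2 : ∀ (X : Matrix κ₁ κ₁ F) (Y : Matrix κ₂ κ₂ F), X ⊗ₖ Y ∈ S := by
      intro X Y
      have hX : X ∈ Submodule.span F (matrixSet A) := hA.span ▸ Submodule.mem_top
      induction hX using Submodule.span_induction with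
      | mem s hs => obtain ⟨a, ha, rfl⟩ := hs; exact h1 a ha Y
      | zero => rw [Matrix.zero_kronecker]; exact S.zero_mem
      | add x y _ _ hx hy => rw [Matrix.add_kronecker]; exact S.add_mem hx hy
      | smul c x _ hx => rw [Matrix.smul_kronecker]; exact S.smul_mem c hx
    rw [eq_top_iff]
    intro M _
    rw [Matrix.matrix_eq_sum_single M]
    refine Submodule.sum_mem _ fun p _ => Submodule.sum_mem _ fun q _ => ?_
    have := h2 (Matrix.single p.1 q.1 (M p q)) (Matrix.single p.2 q.2 1)
    rw [Matrix.single_kronecker_single, mul_one] at this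
    exact this

/-- Transport along a change of coordinates. -/
def coordHom (e : ι ≃ κ) (P : GL ι F) : GL κ F →* GL ι F :=
  (MulAut.conj P).toMonoidHom.comp (glReindex e.symm).toMonoidHom

lemma coordHom_apply (e : ι ≃ κ) (P : GL ι F) (z : GL κ F) :
    coordHom e P z = P * glReindex e.symm z * P⁻¹ := rfl

lemma coordHom_val (e : ι ≃ κ) (P : GL ι F) (z : GL κ F) :
    (coordHom e P z : Matrix ι ι F) =
      (P : Matrix ι ι F) * Matrix.reindexAlgEquiv F F e.symm (z : Matrix κ κ F) * ((P⁻¹ : GL ι F) : Matrix ι ι F) :=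
  rfl

theorem IsPauli.coord {A : Subgroup (GL κ F)} (hA : IsPauli A) (e : ι ≃ κ) (P : GL ι F) :
    IsPauli (A.map (coordHom e P)) := by
  let E := Matrix.reindexAlgEquiv F F e.symm
  refine ⟨?_, ?_, ?_⟩
  · rintro _ ⟨a, ha, rfl⟩
    rw [← Units.val_mul, ← map_mul, coordHom_val, Units.val_mul]
    rcases hA.sq a ha with h | h <;> rw [h]
    · left; rw [map_one, mul_one, Units.mul_inv]
    · right; rw [map_neg, map_one, mul_neg, mul_one, neg_mul, Units.mul_inv]
  · rintro _ ⟨a, ha, rfl⟩ _ ⟨b, hb, rfl⟩
    rw [← Units.val_mul, ← Units.val_mul, ← map_mul, ← map_mul, coordHom_val, coordHom_val]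
    rcases hA.comm a ha b hb with h | h <;> rw [Units.val_mul, Units.val_mul, h]
    · left; rfl
    · right; rw [map_neg, mul_neg, neg_mul]
  · rw [eq_top_iff]
    intro M htop
    clear htop
    obtain ⟨X, rfl⟩ : ∃ X : Matrix κ κ F,
        (P : Matrix ι ι F) * E X * ((P⁻¹ : GL ι F) : Matrix ι ι F) = M :=
      ⟨E.symm (((P⁻¹ : GL ι F) : Matrix ι ι F) * M * (P : Matrix ι ι F)), by
        rw [AlgEquiv.apply_symm_apply]; simp [mul_assoc]⟩
    have hX : X ∈ Submodule.span F (matrixSet A) := hA.span ▸ Submodule.mem_top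
    induction hX using Submodule.span_induction with
    | mem s hs => obtain ⟨a, ha, rfl⟩ := hs; exact Submodule.subset_span ⟨_, ⟨a, ha, rfl⟩, rfl⟩
    | zero => simp
    | add x y _ _ hx hy => rw [map_add, mul_add, add_mul]; exact Submodule.add_mem _ hx hy
    | smul c x _ hx => rw [map_smul, Matrix.mul_smul, Matrix.smul_mul]; exact Submodule.smul_mem _ c hx

/-- Elements whose conjugation preserves a group in coordinates normalise its transport. -/
lemma mem_normalizer_map {G G' : Type*} [Group G] [Group G'] (f : G →* G') {S : Subgroup G} {z : G}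
    (h : ∀ x ∈ S, z * x * z⁻¹ ∈ S) (h' : ∀ x ∈ S, z⁻¹ * x * z ∈ S) :
    f z ∈ Subgroup.normalizer ((S.map f : Subgroup G') : Set G') := by
  rw [Subgroup.mem_normalizer_iff]
  intro y
  constructor
  · rintro ⟨x, hx, rfl⟩
    exact ⟨_, h x hx, by simp⟩
  · rintro ⟨x, hx, hxy⟩
    refine ⟨_, h' x hx, ?_⟩
    rw [map_mul, map_mul, hxy, map_inv]
    group

variable {m : ℕ}

/-- Isometries of the coordinate Gram matrix give symplectic elements. -/
lemma coordHom_mem_sp {e : (Fin m ⊕ Fin m) ≃ κ} {P : GL (Fin m ⊕ Fin m) F} {z : GL κ F}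
    (hz : (z : Matrix κ κ F)ᵀ * coordGram (Cfsg.sympForm m F) e P * (z : Matrix κ κ F) =
      coordGram (Cfsg.sympForm m F) e P) : coordHom e P z ∈ Cfsg.spGL m F := by
  rw [mem_spGL]
  intro u v
  rw [← point_coordMap e P u, ← point_coordMap e P v, coordHom_apply, act_conj_reindex, act_conj_reindex,
    apply_coord isSymplecticForm_sympForm.bilinear, apply_coord isSymplecticForm_sympForm.bilinear]
  conv_rhs => rw [← hz]
  simp only [← Matrix.mulVec_mulVec]
  rw [Matrix.dotProduct_mulVec _ (z : Matrix κ κ F)ᵀ, Matrix.vecMul_transpose]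

end CfsgLib.SmallDim
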