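import Mathlib

/-!
The odd minimal exponents `e` with `n ∣ p ^ e - 1` for `n` in 3, 5, 7, 11.
-/

set_option autoImplicit false
set_option synthInstance.maxSize 1024
set_option synthInstance.maxHeartbeats 200000
set_option maxRecDepth 4000

namespace CfsgLib.SmallDim

lemma pow_mod_eq_one_iff {n p d : ℕ} (hn : 1 < n) (hp : 1 ≤ p) : n ∣ p ^ d - 1 ↔ (p % n) ^ d % n = 1 := by
  rw [← Nat.pow_mod]
  have h1 : 1 ≤ p ^ d := Nat.one_le_pow _ _ hp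
  rw [← Nat.modEq_iff_dvd' h1, Nat.ModEq, Nat.mod_eq_of_lt hn]
  exact eq_comm

lemma exponent_bound {n p e : ℕ} (hn : n.Prime) (hp : 1 ≤ p) (he0 : 0 < e) (hdvd : n ∣ p ^ e - 1)
    (hmin : ∀ d, 0 < d → d < e → ¬ n ∣ p ^ d - 1) : e < n := by
  by_contra h
  haveI := Fact.mk hn
  have hlt : n - 1 < e := by have := hn.two_le; omega
  apply hmin (n - 1) (by have := hn.two_le; omega) hlt
  rw [pow_mod_eq_one_iff hn.one_lt hp, ← Nat.pow_mod]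
  have hcop : (p : ZMod n) ≠ 0 := by
    intro h0
    rw [ZMod.natCast_eq_zero_iff] at h0
    have h1 : n ∣ p ^ e := dvd_pow h0 he0.ne'
    have h2 : 1 ≤ p ^ e := Nat.one_le_pow _ _ hp
    have := Nat.dvd_sub h1 hdvd
    rw [show p ^ e - (p ^ e - 1) = 1 by omega] at this
    exact hn.ne_one (Nat.dvd_one.mp this)
  have := ZMod.pow_card_sub_one_eq_one hcop
  have h3 : ((p ^ (n - 1) : ℕ) : ZMod n) = ((1 : ℕ) : ZMod n) := by push_cast; exact this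
  rw [ZMod.natCast_eq_natCast_iff, Nat.ModEq, Nat.mod_eq_of_lt hn.one_lt] at h3
  exact h3

lemma exponent_spec {n p e : ℕ} (hn : n.Prime) (hp : p.Prime) (he : Odd e) (hdvd : n ∣ p ^ e - 1)
    (hmin : ∀ d, 0 < d → d < e → ¬ n ∣ p ^ d - 1) :
    e < n ∧ (p % n) < n ∧ e % 2 = 1 ∧ (p % n) ^ e % n = 1 ∧ ∀ d, d < e → 0 < d → (p % n) ^ d % n ≠ 1 :=
  ⟨exponent_bound hn hp.one_le he.pos hdvd hmin, Nat.mod_lt _ hn.pos, Nat.odd_iff.mp he,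
    (pow_mod_eq_one_iff hn.one_lt hp.one_le).mp hdvd,
    fun d hde hd => fun h => hmin d hd hde ((pow_mod_eq_one_iff hn.one_lt hp.one_le).mpr h)⟩

lemma exponent_three {p e : ℕ} (hp : p.Prime) (he : Odd e) (hdvd : 3 ∣ p ^ e - 1)
    (hmin : ∀ d, 0 < d → d < e → ¬ 3 ∣ p ^ d - 1) : e = 1 ∧ p % 3 = 1 := by
  obtain ⟨h1, h2, h3, h4, h5⟩ := exponent_spec Nat.prime_three hp he hdvd hmin
  have key : ∀ e < 3, ∀ r < 3, e % 2 = 1 → r ^ e % 3 = 1 → (∀ d < e, 0 < d → r ^ d % 3 ≠ 1) →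
      e = 1 ∧ r = 1 := by decide
  exact key e h1 _ h2 h3 h4 h5

lemma exponent_five {p e : ℕ} (hp : p.Prime) (he : Odd e) (hdvd : 5 ∣ p ^ e - 1)
    (hmin : ∀ d, 0 < d → d < e → ¬ 5 ∣ p ^ d - 1) : e = 1 ∧ p % 5 = 1 := by
  obtain ⟨h1, h2, h3, h4, h5⟩ := exponent_spec (by norm_num) hp he hdvd hmin
  have key : ∀ e < 5, ∀ r < 5, e % 2 = 1 → r ^ e % 5 = 1 → (∀ d < e, 0 < d → r ^ d % 5 ≠ 1) →
      e = 1 ∧ r = 1 := by decide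
  exact key e h1 _ h2 h3 h4 h5

lemma exponent_seven {p e : ℕ} (hp : p.Prime) (he : Odd e) (hdvd : 7 ∣ p ^ e - 1)
    (hmin : ∀ d, 0 < d → d < e → ¬ 7 ∣ p ^ d - 1) :
    (e = 1 ∧ p % 7 = 1) ∨ (e = 3 ∧ (p % 7 = 2 ∨ p % 7 = 4)) := by
  obtain ⟨h1, h2, h3, h4, h5⟩ := exponent_spec (by norm_num) hp he hdvd hmin
  have key : ∀ e < 7, ∀ r < 7, e % 2 = 1 → r ^ e % 7 = 1 → (∀ d < e, 0 < d → r ^ d % 7 ≠ 1) →
      (e = 1 ∧ r = 1) ∨ (e = 3 ∧ (r = 2 ∨ r = 4)) := by decide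
  exact key e h1 _ h2 h3 h4 h5

lemma exponent_eleven {p e : ℕ} (hp : p.Prime) (he : Odd e) (hdvd : 11 ∣ p ^ e - 1)
    (hmin : ∀ d, 0 < d → d < e → ¬ 11 ∣ p ^ d - 1) :
    (e = 1 ∧ p % 11 = 1) ∨ (e = 5 ∧ (p % 11 = 3 ∨ p % 11 = 4 ∨ p % 11 = 5 ∨ p % 11 = 9)) := by
  obtain ⟨h1, h2, h3, h4, h5⟩ := exponent_spec (by norm_num) hp he hdvd hmin
  have key : ∀ e < 11, ∀ r < 11, e % 2 = 1 → r ^ e % 11 = 1 → (∀ d < e, 0 < d → r ^ d % 11 ≠ 1) →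
      (e = 1 ∧ r = 1) ∨ (e = 5 ∧ (r = 3 ∨ r = 4 ∨ r = 5 ∨ r = 9)) := by decide
  exact key e h1 _ h2 h3 h4 h5

end CfsgLib.SmallDim
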