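import Cfsg.Agent.Lib.SmallDim.Congruence

/-!
The exponents `e = 2 k` with `n ∣ p ^ k + 1` minimal, for `n` in 3, 5, 7, 11.
-/

set_option autoImplicit false
set_option synthInstance.maxSize 1024
set_option synthInstance.maxHeartbeats 200000
set_option maxRecDepth 4000

namespace CfsgLib.SmallDim

lemma exponent_even_spec {n p k : ℕ} (hn : n.Prime) (hp : p.Prime) (hk : 0 < k) (hdvd : n ∣ p ^ (k * 2) - 1)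
    (hplus : n ∣ p ^ k + 1) (hmin : ∀ d, 0 < d → d < k * 2 → ¬ n ∣ p ^ d - 1) :
    k * 2 < n ∧ p % n < n ∧ ((p % n) ^ k + 1) % n = 0 ∧ ∀ d, d < k * 2 → 0 < d → (p % n) ^ d % n ≠ 1 :=
  ⟨exponent_bound hn hp.one_le (by omega) hdvd hmin, Nat.mod_lt _ hn.pos,
    by rw [Nat.add_mod, ← Nat.pow_mod, ← Nat.add_mod]; exact Nat.dvd_iff_mod_eq_zero.mp hplus,
    fun d hde hd => fun h => hmin d hd hde ((pow_mod_eq_one_iff hn.one_lt hp.one_le).mpr h)⟩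

lemma exponent_even_three {p k : ℕ} (hp : p.Prime) (hk : 0 < k) (hdvd : 3 ∣ p ^ (k * 2) - 1)
    (hplus : 3 ∣ p ^ k + 1) (hmin : ∀ d, 0 < d → d < k * 2 → ¬ 3 ∣ p ^ d - 1) : k = 1 ∧ p % 3 = 2 := by
  obtain ⟨h1, h2, h3, h4⟩ := exponent_even_spec Nat.prime_three hp hk hdvd hplus hmin
  have key : ∀ k < 2, 0 < k → ∀ r < 3, (r ^ k + 1) % 3 = 0 → k = 1 ∧ r = 2 := by decide
  exact key k (by omega) hk _ h2 h3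

lemma exponent_even_five {p k : ℕ} (hp : p.Prime) (hk : 0 < k) (hdvd : 5 ∣ p ^ (k * 2) - 1)
    (hplus : 5 ∣ p ^ k + 1) (hmin : ∀ d, 0 < d → d < k * 2 → ¬ 5 ∣ p ^ d - 1) :
    (k = 1 ∧ p % 5 = 4) ∨ (k = 2 ∧ (p % 5 = 2 ∨ p % 5 = 3)) := by
  obtain ⟨h1, h2, h3, h4⟩ := exponent_even_spec (by norm_num) hp hk hdvd hplus hmin
  have key : ∀ k < 3, 0 < k → ∀ r < 5, (r ^ k + 1) % 5 = 0 → (∀ d < k * 2, 0 < d → r ^ d % 5 ≠ 1) →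
      (k = 1 ∧ r = 4) ∨ (k = 2 ∧ (r = 2 ∨ r = 3)) := by decide
  exact key k (by omega) hk _ h2 h3 h4

lemma exponent_even_seven {p k : ℕ} (hp : p.Prime) (hk : 0 < k) (hdvd : 7 ∣ p ^ (k * 2) - 1)
    (hplus : 7 ∣ p ^ k + 1) (hmin : ∀ d, 0 < d → d < k * 2 → ¬ 7 ∣ p ^ d - 1) :
    (k = 1 ∧ p % 7 = 6) ∨ (k = 3 ∧ (p % 7 = 3 ∨ p % 7 = 5)) := by
  obtain ⟨h1, h2, h3, h4⟩ := exponent_even_spec (by norm_num) hp hk hdvd hplus hmin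
  have key : ∀ k < 4, 0 < k → ∀ r < 7, (r ^ k + 1) % 7 = 0 → (∀ d < k * 2, 0 < d → r ^ d % 7 ≠ 1) →
      (k = 1 ∧ r = 6) ∨ (k = 3 ∧ (r = 3 ∨ r = 5)) := by decide
  exact key k (by omega) hk _ h2 h3 h4

lemma exponent_even_eleven {p k : ℕ} (hp : p.Prime) (hk : 0 < k) (hdvd : 11 ∣ p ^ (k * 2) - 1)
    (hplus : 11 ∣ p ^ k + 1) (hmin : ∀ d, 0 < d → d < k * 2 → ¬ 11 ∣ p ^ d - 1) :
    (k = 1 ∧ p % 11 = 10) ∨ (k = 5 ∧ (p % 11 = 2 ∨ p % 11 = 6 ∨ p % 11 = 7 ∨ p % 11 = 8)) := by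
  obtain ⟨h1, h2, h3, h4⟩ := exponent_even_spec (by norm_num) hp hk hdvd hplus hmin
  have key : ∀ k < 6, 0 < k → ∀ r < 11, (r ^ k + 1) % 11 = 0 → (∀ d < k * 2, 0 < d → r ^ d % 11 ≠ 1) →
      (k = 1 ∧ r = 10) ∨ (k = 5 ∧ (r = 2 ∨ r = 6 ∨ r = 7 ∨ r = 8)) := by decide
  exact key k (by omega) hk _ h2 h3 h4

end CfsgLib.SmallDim
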