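import Cfsg.Agent.Lib.SmallDim.LinearPrime

/-!
Over the field with four elements the normaliser in `SL` of a cubic field of matrices lies in a subfield group.
-/

set_option autoImplicit false
set_option linter.style.haveILetI false

namespace CfsgLib.SmallDim

open scoped MatrixGroups Matrix
open Cfsg.Geo Polynomial

variable {F : Type*} [Field F] [Fintype F]

/-- The coordinates lie in the prime field. -/
def InPrimeSpan {K : Type*} [Semiring K] (i : F →+* K) (ζ k : K) : Prop :=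
  ∃ c : Fin 3 → F, (∀ j, c j ^ 2 = c j) ∧ k = i (c 0) + i (c 1) * ζ + i (c 2) * ζ ^ 2

set_option maxHeartbeats 4000000 in
set_option synthInstance.maxHeartbeats 200000 in
theorem field_four_case (hF : Fintype.card F = 4) {H : Subgroup (GL (Fin 3) F)}
    (hH : IsMaximalIn (specialLinear (Fin 3) F) H) {K : Subalgebra F (Matrix (Fin 3) (Fin 3) F)}
    (hK : IsFieldSubalgebra 3 K) (hle : H ≤ subalgebraNormalizer K) :
    ∃ (F₀ : Subfield F) (r : ℕ) (P : GL (Fin 3) F), r.Prime ∧ Fintype.card F = Nat.card F₀ ^ r ∧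
      H = subfieldSubgroup F₀ P ⊓ specialLinear (Fin 3) F := by
  classical
  -- `K` as a field
  have hfield : IsField K :=
    { exists_pair_ne := ⟨0, 1, fun h => zero_ne_one (α := Matrix (Fin 3) (Fin 3) F) (congrArg Subtype.val h)⟩
      mul_comm := fun x y => Subtype.ext (hK.comm x x.2 y y.2)
      mul_inv_cancel := fun {a} ha => by
        obtain ⟨y, hy, hay⟩ := hK.inv a a.2 (fun h => ha (Subtype.ext h))
        exact ⟨⟨y, hy⟩, Subtype.ext hay⟩ }
  letI : Field K := hfield.toField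
  haveI : Fintype K := Fintype.ofFinite K
  have hcardK : Fintype.card K = 64 := by
    rw [← Nat.card_eq_fintype_card, Module.natCard_eq_pow_finrank (K := F) (V := K), hK.finrank_eq,
      Nat.card_eq_fintype_card, hF]
    norm_num
  obtain ⟨p, hchar⟩ := CharP.exists F
  obtain ⟨e, hp, hq⟩ := FiniteField.card F p
  have hp2 : p = 2 := by
    have hd : p ∣ 4 := by rw [← hF, hq]; exact dvd_pow_self p e.pos.ne'
    exact (Nat.prime_dvd_prime_iff_eq hp Nat.prime_two).mp (hp.dvd_of_dvd_pow (n := 2) (by simpa using hd))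
  subst hp2
  haveI := Fact.mk Nat.prime_two
  haveI : CharP K 2 := charP_of_injective_algebraMap (algebraMap F K).injective 2
  set alg : F →+* K := algebraMap F K with halg
  -- elements with cube one are scalars
  have hscalar : ∀ z : K, z ^ 3 = 1 → ∃ c : F, alg c = z := by
    intro z hz
    have hmem : z ∈ (fixedField 2 2 : Subfield K) := by
      rw [mem_fixedField, show (2 : ℕ) ^ 2 = 3 + 1 from rfl, pow_succ, hz, one_mul]
    have hsub : Set.range alg ⊆ ((fixedField 2 2 : Subfield K) : Set K) := by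
      rintro _ ⟨c, rfl⟩
      show alg c ∈ (fixedField 2 2 : Subfield K)
      rw [mem_fixedField, ← map_pow]
      have := FiniteField.pow_card c
      rw [hF] at this
      rw [show (2 : ℕ) ^ 2 = 4 from rfl, this]
    have heq := Set.eq_of_subset_of_ncard_le hsub (by
      rw [Set.ncard_range_of_injective alg.injective, Nat.card_eq_fintype_card, hF, ← Nat.card_coe_set_eq]
      change Nat.card (fixedField 2 2 : Subfield K) ≤ 4
      rw [card_fixedField (e := 6) (by rw [hcardK]; rfl) two_pos (by norm_num)]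
      norm_num) (Set.toFinite _)
    have : z ∈ Set.range alg := heq ▸ hmem
    exact this
  -- an element of order seven
  haveI : Fact (Nat.Prime 7) := ⟨by norm_num⟩
  obtain ⟨u, hu⟩ := exists_prime_orderOf_dvd_card' (G := Kˣ) 7 (by
    rw [Nat.card_units, Nat.card_eq_fintype_card, hcardK]; norm_num)
  set ζ : K := (u : K)
  have hζ7 : ζ ^ 7 = 1 := by
    rw [← Units.val_pow_eq_pow_val, ← hu, pow_orderOf_eq_one, Units.val_one]
  have hζnot : ∀ c : F, alg c ≠ ζ := by
    intro c hc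
    have hc0 : c ≠ 0 := fun h => u.ne_zero (by rw [show (u : K) = ζ from rfl, ← hc, h, map_zero])
    have h3 : ζ ^ 3 = 1 := by
      have := FiniteField.pow_card_sub_one_eq_one c hc0
      rw [hF] at this
      rw [← hc, ← map_pow, this, map_one]
    have : orderOf u ∣ 3 := orderOf_dvd_of_pow_eq_one (Units.ext (by rw [Units.val_pow_eq_pow_val, Units.val_one]; exact h3))
    rw [hu] at this
    norm_num at this
  have hdeg : (minpoly F ζ).natDegree = 3 := by
    have hint : IsIntegral F ζ := IsIntegral.of_finite F ζ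
    have hdvd : (minpoly F ζ).natDegree ∣ 3 := (minpoly.degree_dvd hint).trans (dvd_of_eq hK.finrank_eq)
    refine ((Nat.dvd_prime Nat.prime_three).mp hdvd).resolve_left fun h1 => ?_
    obtain ⟨c, hc⟩ := minpoly.natDegree_eq_one_iff.mp h1
    exact hζnot c hc
  have hli : LinearIndependent F fun i : Fin 3 => ζ ^ (i : ℕ) := by
    have := (linearIndependent_pow (K := F) ζ).comp (Fin.cast hdeg.symm) (Fin.cast_injective _)
    exact this
  -- the prime span
  let In0 : K → Prop := InPrimeSpan alg ζ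
  have hidem : ∀ s : K, s ^ 2 = s → ∃ c : F, c ^ 2 = c ∧ alg c = s := by
    intro s hs
    rcases mul_eq_zero.mp (show s * (s - 1) = 0 by linear_combination hs) with h | h
    · exact ⟨0, by simp, by rw [h, map_zero]⟩
    · exact ⟨1, by simp, by rw [map_one, sub_eq_zero.mp h]⟩
  have htwo : (2 : K) = 0 := by exact_mod_cast CharP.cast_eq_zero K 2
  obtain ⟨s, hs, hs'⟩ := hidem (ζ + ζ ^ 2 + ζ ^ 4) (by
    linear_combination ζ * hζ7 + (ζ ^ 3 + ζ ^ 5 + ζ ^ 6) * htwo)
  obtain ⟨t, ht, ht'⟩ := hidem (ζ ^ 3 + ζ ^ 5 + ζ ^ 6) (by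
    linear_combination (ζ ^ 5 + ζ ^ 3) * hζ7 + (ζ ^ 8 + ζ ^ 9 + ζ ^ 11) * htwo)
  have hrel : ζ ^ 3 = alg s * ζ ^ 2 - alg t * ζ + 1 := by
    rw [hs', ht']
    linear_combination hζ7
  have hadd : ∀ a b : F, a ^ 2 = a → b ^ 2 = b → (a + b) ^ 2 = a + b := by
    intro a b ha hb
    rw [add_pow_char, ha, hb]
  have hmulb : ∀ a b : F, a ^ 2 = a → b ^ 2 = b → (a * b) ^ 2 = a * b := by
    intro a b ha hb
    rw [mul_pow, ha, hb]
  have hstep : ∀ k, In0 k → In0 (ζ * k) := by
    rintro k ⟨c, hc, rfl⟩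
    refine ⟨![c 2, c 0 + c 2 * t, c 1 + c 2 * s], ?_, ?_⟩
    · intro j
      fin_cases j
      · exact hc 2
      · exact hadd _ _ (hc 0) (hmulb _ _ (hc 2) ht)
      · exact hadd _ _ (hc 1) (hmulb _ _ (hc 2) hs)
    · simp only [Matrix.cons_val_zero, Matrix.cons_val_one, Matrix.cons_val, map_add, map_mul]
      linear_combination (alg (c 2)) * hrel - (alg (c 2) * alg t * ζ) * htwo
  have hpow0 : ∀ k : ℕ, In0 (ζ ^ k) := by
    intro k
    induction k with
    | zero => exact ⟨![1, 0, 0], fun j => by fin_cases j <;> simp, by simp⟩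
    | succ k ih => rw [pow_succ']; exact hstep _ ih
  have hseven : ∀ z : K, z ^ 7 = 1 → In0 z := by
    intro z hz
    obtain ⟨i, -, hi⟩ := (IsPrimitiveRoot.coe_units_iff.mpr (hu ▸ IsPrimitiveRoot.orderOf u)).eq_pow_of_pow_eq_one hz
    exact hi ▸ hpow0 i
  -- the basis `v, ζ v, ζ² v`
  set v : Fin 3 → F := Pi.single 0 1
  let ev : K →ₗ[F] (Fin 3 → F) :=
    { toFun := fun k => (k : Matrix (Fin 3) (Fin 3) F) *ᵥ v
      map_add' := fun k l => by simp [Matrix.add_mulVec]
      map_smul' := fun a k => by simp [Matrix.smul_mulVec] }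
  have hev : Function.Injective ev := by
    rw [← LinearMap.ker_eq_bot, Submodule.eq_bot_iff]
    intro k hk
    by_contra h0
    obtain ⟨y, hy, hky⟩ := hK.inv k k.2 (fun h => h0 (Subtype.ext h))
    have h1 : (y * (k : Matrix (Fin 3) (Fin 3) F)) *ᵥ v = 0 := by
      rw [← Matrix.mulVec_mulVec, show (k : Matrix (Fin 3) (Fin 3) F) *ᵥ v = 0 from hk, Matrix.mulVec_zero]
    rw [← hK.comm k k.2 y hy, hky, Matrix.one_mulVec] at h1
    have := congrFun h1 0
    simp [v] at this
  have hevmul : ∀ (k l : K), ev (k * l) = (k : Matrix (Fin 3) (Fin 3) F) *ᵥ ev l := fun k l => by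
    show ((k : Matrix (Fin 3) (Fin 3) F) * (l : Matrix (Fin 3) (Fin 3) F)) *ᵥ v = _
    rw [← Matrix.mulVec_mulVec]
    rfl
  let Pm : Matrix (Fin 3) (Fin 3) F := Matrix.of fun i j => ev (ζ ^ (j : ℕ)) i
  have hPcol : ∀ j, Pm *ᵥ Pi.single j 1 = ev (ζ ^ (j : ℕ)) := fun j => by rw [Matrix.mulVec_single_one]; rfl
  obtain ⟨P, hP⟩ := Matrix.mulVec_injective_iff_isUnit.mp (Matrix.mulVec_injective_iff.mpr
    (show LinearIndependent F Pm.col from hli.map' ev (LinearMap.ker_eq_bot.mpr hev)))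
  have hcoord : ∀ k, In0 k → ∀ i, ((P⁻¹ : GL (Fin 3) F) : Matrix (Fin 3) (Fin 3) F).mulVec (ev k) i
      ∈ (fixedField 2 1 : Subfield F) := by
    rintro k ⟨c, hc, rfl⟩ i
    have e : ev (alg (c 0) + alg (c 1) * ζ + alg (c 2) * ζ ^ 2) = (P : Matrix (Fin 3) (Fin 3) F) *ᵥ c := by
      rw [show c = c 0 • Pi.single 0 1 + c 1 • Pi.single 1 1 + c 2 • Pi.single 2 1 from by
        funext j; fin_cases j <;> simp]
      simp only [Matrix.mulVec_add, Matrix.mulVec_smul, hP, hPcol, ← map_smul, ← map_add]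
      congr 1
      simp [halg, Algebra.smul_def]
    rw [e, Matrix.mulVec_mulVec, ← Units.val_mul, inv_mul_cancel, Units.val_one, Matrix.one_mulVec, mem_fixedField,
      pow_one]
    exact hc i
  have hspan : ∀ w, ∃ k : K, ev k = w := by
    have hfr : Module.finrank F K = Module.finrank F (Fin 3 → F) := by rw [hK.finrank_eq, Module.finrank_fin_fun]
    exact fun w => (LinearMap.injective_iff_surjective_of_finrank_eq_finrank hfr).mp hev w
  refine ⟨fixedField 2 1, 2, P, Nat.prime_two, ?_, IsMaximalIn.eq_inf hH ?_ (not_sl_le_subfieldSubgroup (by simp) ?_ P)⟩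
  · rw [card_fixedField (e := 2) (by rw [hF]; rfl) one_pos (by norm_num), hF]
    norm_num
  swap
  · intro htop
    have h2 := card_fixedField (F := F) (p := 2) (k := 1) (e := 2) (by rw [hF]; rfl) one_pos (by norm_num)
    rw [htop, show Nat.card (⊤ : Subfield F) = Nat.card F from
      Nat.card_congr (Equiv.subtypeUnivEquiv fun x => Subfield.mem_top x), Nat.card_eq_fintype_card, hF] at h2
    norm_num at h2
  intro g hg
  have hnorm := hle hg
  -- `g v = a v`
  obtain ⟨a, ha⟩ := hspan (act g v)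
  have ha0 : a ≠ 0 := fun h => act_ne_zero g (v := v) (by simp [v]) (by rw [← ha, h, map_zero])
  -- conjugation by `g`
  let τ : K → K := fun k => ⟨(g : Matrix (Fin 3) (Fin 3) F) * k * ((g⁻¹ : GL (Fin 3) F) : Matrix (Fin 3) (Fin 3) F),
    (hnorm k).mp k.2⟩
  have hτ : ∀ k, act g (ev k) = ev (τ k * a) := by
    intro k
    rw [hevmul, ha]
    show (g : Matrix (Fin 3) (Fin 3) F) *ᵥ ((k : Matrix (Fin 3) (Fin 3) F) *ᵥ v) = _
    rw [Matrix.mulVec_mulVec, Matrix.mulVec_mulVec]
    congr 1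
    show (g : Matrix (Fin 3) (Fin 3) F) * k = (g : Matrix (Fin 3) (Fin 3) F) * k * _ * (g : Matrix (Fin 3) (Fin 3) F)
    rw [Units.inv_mul_cancel_right]
  have hτpow : ∀ k : K, ∀ n : ℕ, τ (k ^ n) = τ k ^ n := by
    intro k n
    induction n with
    | zero => exact Subtype.ext (by simp [τ])
    | succ n ih =>
      rw [pow_succ, pow_succ, ← ih]
      apply Subtype.ext
      show (g : Matrix (Fin 3) (Fin 3) F) * ((k ^ n : K) * (k : Matrix (Fin 3) (Fin 3) F)) * _ = _
      simp [τ, mul_assoc]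
  have hτ1 : τ 1 = 1 := by simpa using hτpow 1 0
  set g' : Matrix (Fin 3) (Fin 3) F := (g : Matrix (Fin 3) (Fin 3) F)
  -- the determinant of `g` is the norm of `a`
  obtain ⟨D, hD, hD'⟩ : ∃ D : GL (Fin 3) F, (∀ j, act D (ev (ζ ^ (j : ℕ))) = ev (τ (ζ ^ (j : ℕ)))) ∧
      (g : Matrix (Fin 3) (Fin 3) F) = (a : Matrix (Fin 3) (Fin 3) F) * (D : Matrix (Fin 3) (Fin 3) F) := by
    obtain ⟨y, hy, hay⟩ := hK.inv a a.2 (fun h => ha0 (Subtype.ext h))
    let A : GL (Fin 3) F := ⟨a, y, hay, by rw [← hK.comm a a.2 y hy, hay]⟩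
    refine ⟨A⁻¹ * g, fun j => ?_, ?_⟩
    · rw [act_mul, hτ, mul_comm, hevmul]
      exact act_inv_act A _
    · show (g : Matrix (Fin 3) (Fin 3) F) = (A : Matrix (Fin 3) (Fin 3) F) * ((A⁻¹ * g : GL (Fin 3) F) : Matrix _ _ F)
      rw [← Units.val_mul, mul_inv_cancel_left]
  have hτ0 : ∀ j : Fin 3, In0 (τ (ζ ^ (j : ℕ))) := fun j => hseven _ (by
    rw [← hτpow, ← pow_mul, mul_comm, pow_mul, hζ7, one_pow, hτ1])
  have hDent : ∀ i j, ((P⁻¹ * D * P : GL (Fin 3) F) : Matrix (Fin 3) (Fin 3) F) i j ∈ (fixedField 2 1 : Subfield F) := by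
    intro i j
    have e : act (P⁻¹ * D * P) (Pi.single j 1) = act P⁻¹ (ev (τ (ζ ^ (j : ℕ)))) := by
      rw [act_mul, act_mul, ← hD j]
      congr 2
      rw [act, hP, hPcol]
    have := hcoord _ (hτ0 j) i
    rw [show ((P⁻¹ : GL (Fin 3) F) : Matrix (Fin 3) (Fin 3) F).mulVec (ev (τ (ζ ^ (j : ℕ))))
      = act (P⁻¹ * D * P) (Pi.single j 1) from e.symm] at this
    simpa [act, Matrix.mulVec_single_one] using this
  have hdetD : (D : Matrix (Fin 3) (Fin 3) F).det = 1 := by
    obtain ⟨M, hM⟩ := mem_map_range hDent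
    have h1 := congrArg (fun x : GL (Fin 3) F => (x : Matrix (Fin 3) (Fin 3) F).det) hM
    simp only [Units.val_mul, Matrix.det_units_conj'] at h1
    have hd : (D : Matrix (Fin 3) (Fin 3) F).det ∈ (fixedField 2 1 : Subfield F) := by
      rw [← h1]
      show ((M : Matrix (Fin 3) (Fin 3) _).map (fixedField 2 1 : Subfield F).subtype).det ∈ _
      rw [← RingHom.mapMatrix_apply, ← RingHom.map_det]
      exact Subtype.coe_prop _
    rw [mem_fixedField, pow_one, pow_two] at hd
    exact mul_right_cancel₀ ((Matrix.isUnit_iff_isUnit_det _).mp D.isUnit).ne_zero (hd.trans (one_mul _).symm)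
  have hdeta : (a : Matrix (Fin 3) (Fin 3) F).det = 1 := by
    have hg1 : g'.det = 1 := by
      have := congrArg Units.val (MonoidHom.mem_ker.mp (hH.1.le hg))
      simpa [g'] using this
    rw [show g' = _ from hD', Matrix.det_mul, hdetD, mul_one] at hg1
    exact hg1
  have hnorm1 : Algebra.norm F a = 1 := by
    let e : K ≃ₗ[F] (Fin 3 → F) := LinearEquiv.ofBijective ev ⟨hev, hspan⟩
    have hconj : Matrix.toLin' (a : Matrix (Fin 3) (Fin 3) F)
        = (e : K →ₗ[F] (Fin 3 → F)) ∘ₗ (Algebra.lmul F K a) ∘ₗ (e.symm : (Fin 3 → F) →ₗ[F] K) := by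
      apply LinearMap.ext
      intro w
      obtain ⟨k, rfl⟩ := hspan w
      have h2 : e.symm (ev k) = k := e.symm_apply_apply k
      simp only [Matrix.toLin'_apply, LinearMap.coe_comp, LinearEquiv.coe_coe, Function.comp_apply, h2]
      exact (hevmul a k).symm
    rw [Algebra.norm_apply, ← LinearMap.det_conj (Algebra.lmul F K a) e, ← hconj, LinearMap.det_toLin', hdeta]
  have ha21 : a ^ 21 = 1 := by
    have := FiniteField.algebraMap_norm_eq_pow (K := F) (K' := K) (x := a)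
    rw [hnorm1, map_one, Nat.card_eq_fintype_card, Nat.card_eq_fintype_card, hcardK, hF] at this
    exact this.symm
  obtain ⟨c, hc⟩ := hscalar (a ^ 7) (by rw [← pow_mul]; exact ha21)
  have hb : In0 (a ^ 15) := hseven _ (by rw [← pow_mul, show 15 * 7 = 21 * 5 from rfl, pow_mul, ha21, one_pow])
  have hab : a = alg c * a ^ 15 := by
    rw [hc, ← pow_add, show 7 + 15 = 21 + 1 from rfl, pow_add, ha21, one_mul, pow_one]
  have hb0 : a ^ 15 ≠ 0 := pow_ne_zero _ ha0
  obtain ⟨y, hy, hby⟩ := hK.inv _ (a ^ 15).2 (fun h => hb0 (Subtype.ext h))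
  let Bu : GL (Fin 3) F := ⟨((a ^ 15 : K) : Matrix (Fin 3) (Fin 3) F), y, hby, by
    rw [← hK.comm _ (a ^ 15).2 y hy, hby]⟩
  have hmul0 : ∀ k l, In0 k → In0 l → In0 (k * l) := by
    intro k l hk hl
    obtain ⟨d, hd, rfl⟩ := hk
    have h1 := hstep _ hl
    have h2 := hstep _ h1
    obtain ⟨x, hx, rfl⟩ := hl
    obtain ⟨y', hy', hy''⟩ := h1
    obtain ⟨z, hz, hz'⟩ := h2
    refine ⟨fun i => d 0 * x i + d 1 * y' i + d 2 * z i,
      fun i => hadd _ _ (hadd _ _ (hmulb _ _ (hd 0) (hx i)) (hmulb _ _ (hd 1) (hy' i))) (hmulb _ _ (hd 2) (hz i)), ?_⟩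
    simp only [map_add, map_mul]
    linear_combination (alg (d 1)) * hy'' + (alg (d 2)) * hz'
  have hBent : ∀ i j, ((P⁻¹ * Bu * P : GL (Fin 3) F) : Matrix (Fin 3) (Fin 3) F) i j ∈ (fixedField 2 1 : Subfield F) := by
    intro i j
    have e : act (P⁻¹ * Bu * P) (Pi.single j 1) = act P⁻¹ (ev (a ^ 15 * ζ ^ (j : ℕ))) := by
      rw [act_mul, act_mul, hevmul]
      congr 1
      show ((a ^ 15 : K) : Matrix (Fin 3) (Fin 3) F) *ᵥ _ = _
      rw [act, hP, hPcol]
    have := hcoord _ (hmul0 _ _ hb (hpow0 j)) i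
    rw [show ((P⁻¹ : GL (Fin 3) F) : Matrix (Fin 3) (Fin 3) F).mulVec (ev (a ^ 15 * ζ ^ (j : ℕ)))
      = act (P⁻¹ * Bu * P) (Pi.single j 1) from e.symm] at this
    simpa [act, Matrix.mulVec_single_one] using this
  have hc0 : c ≠ 0 := fun h => pow_ne_zero 7 ha0 (by rw [← hc, h, map_zero])
  set z : GL (Fin 3) F := Units.map (Matrix.scalar (Fin 3) : F →+* _).toMonoidHom (Units.mk0 c hc0)
  refine mem_subfieldSubgroup.mpr ⟨(P⁻¹ * Bu * P) * (P⁻¹ * D * P), z, fun i j => ?_, ⟨_, rfl⟩, ?_⟩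
  · rw [Units.val_mul, Matrix.mul_apply]
    exact sum_mem fun k _ => mul_mem (hBent i k) (hDent k j)
  · have hzs : z ∈ scalars (Fin 3) F := ⟨_, rfl⟩
    have e1 : g = z * (Bu * D) := Units.ext (by
      rw [hD', Units.val_mul, Units.val_mul, ← mul_assoc]
      congr 1
      conv_lhs => rw [hab]
      show (algebraMap F (Matrix (Fin 3) (Fin 3) F) c) * ((a ^ 15 : K) : Matrix (Fin 3) (Fin 3) F) = _
      simp [z, Algebra.algebraMap_eq_smul_one, Bu, Matrix.smul_one_eq_diagonal, Matrix.scalar_apply])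
    rw [e1, scalars_commute hzs]
    calc Bu * D * z = P * ((P⁻¹ * Bu * P) * (P⁻¹ * D * P)) * (P⁻¹ * z) := by group
      _ = _ := by rw [← scalars_commute hzs P⁻¹]; group

end CfsgLib.SmallDim
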