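import Cfsg.Agent.Lib.SmallDim.LinearSmallFields
import Cfsg.Agent.Lib.SmallDim.LinearPrime
import Cfsg.Agent.Lib.SmallDim.Congruence

/-!
# Maximal subgroups of `SL` in dimension at least four
-/

set_option autoImplicit false
set_option linter.style.haveILetI false

namespace CfsgLib.SmallDim

open scoped MatrixGroups Matrix
open Cfsg.Geo

variable {F : Type*} [Field F]

lemma card_mul_of_decomposition {n t m : ℕ} {D : Fin t → Submodule F (Fin n → F)} (hD : IsMDecomposition m D) :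
    t * m = n := by
  classical
  have hint : DirectSum.IsInternal D :=
    DirectSum.isInternal_submodule_of_iSupIndep_of_iSup_eq_top hD.indep hD.iSup_eq_top
  have h := Module.finrank_eq_card_basis
    (hint.collectedBasis fun i => Module.finBasisOfFinrankEq F (D i) (hD.finrank_eq i))
  rw [Module.finrank_fin_fun, Fintype.card_sigma] at h
  simpa using h.symm

variable [Fintype F]

lemma card_ne_six : Fintype.card F ≠ 6 := by
  intro h
  obtain ⟨p, hchar⟩ := CharP.exists F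
  obtain ⟨⟨e, he0⟩, hp, hq⟩ := FiniteField.card F p
  change Fintype.card F = p ^ e at hq
  have hdvd : ∀ l : ℕ, l.Prime → l ∣ 6 → l = p := fun l hl hd =>
    (Nat.prime_dvd_prime_iff_eq hl hp).1 (hl.dvd_of_dvd_pow (n := e) (by rw [← hq, h]; exact hd))
  have h2 := hdvd 2 Nat.prime_two (by norm_num)
  have h3 := hdvd 3 Nat.prime_three (by norm_num)
  omega

lemma symplecticType_two {n : ℕ} (hn : n ≠ 2) {R : Subgroup (GL (Fin n) F)} (hR : IsLinearSymplecticTypeData 2 R) :
    ∃ p, p.Prime ∧ Fintype.card F = p ∧ p % 4 = 1 := by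
  obtain ⟨p, e, -, ⟨hp, -, hq, hdvd, -⟩, h⟩ := hR.field
  rcases h with ⟨ho, -⟩ | ⟨-, rfl, hz, -⟩ | ⟨-, -, h2, -⟩
  · exact absurd ho (by decide)
  · rw [hz, pow_one] at hdvd
    exact ⟨p, hp, by rw [hq, pow_one], by have := hp.two_le; omega⟩
  · exact absurd (by simpa using h2) hn

lemma symplecticType_three {n : ℕ} {R : Subgroup (GL (Fin n) F)} (hR : IsLinearSymplecticTypeData 3 R) :
    ∃ p, p.Prime ∧ Fintype.card F = p ∧ p % 3 = 1 := by
  obtain ⟨p, e, -, ⟨hp, -, hq, hdvd, hmin⟩, h⟩ := hR.field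
  rcases h with ⟨-, he, hz, -⟩ | ⟨h2, -⟩ | ⟨h2, -⟩
  · rw [hz] at hdvd hmin
    obtain ⟨rfl, h3⟩ := exponent_three hp he hdvd hmin
    exact ⟨p, hp, by rw [hq, pow_one], h3⟩
  · exact absurd h2 (by decide)
  · exact absurd h2 (by decide)

/-- The prime powers among `4, 6, 8, 9, 10, 12`. -/
lemma prime_pow_cases {n r m : ℕ} (hr : r.Prime) (h : n = r ^ m) (h4 : 4 ≤ n) (h12 : n ≤ 12) :
    r ∣ n ∧ ((n = 4 → r = 2) ∧ (n = 8 → r = 2) ∧ (n = 9 → r = 3) ∧ n ≠ 6 ∧ n ≠ 10 ∧ n ≠ 12) := by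
  have hm : m ≠ 0 := by rintro rfl; rw [pow_zero] at h; omega
  have hrn : r ∣ n := h ▸ dvd_pow_self r hm
  have hm4 : m < 4 := by
    by_contra hc
    have h1 : 2 ^ 4 ≤ r ^ m := le_trans (Nat.pow_le_pow_right (by norm_num) (by omega)) (Nat.pow_le_pow_left hr.two_le m)
    omega
  have hr12 : r ≤ 12 := (Nat.le_of_dvd (by omega) hrn).trans h12
  refine ⟨hrn, ?_⟩
  interval_cases r <;> first | (norm_num at hr; done) | (interval_cases m <;> subst h <;> norm_num at *)

/-- Tensor powers of dimension at most `12`. -/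
lemma tensorWreath_dim {n m t : ℕ} (hm : 3 ≤ m) (ht : 2 ≤ t) (h : m ^ t = n) (h12 : n ≤ 12) :
    n = 9 ∧ m = 3 ∧ t = 2 := by
  have h1 : m ^ 2 ≤ n := h ▸ Nat.pow_le_pow_right (by omega) ht
  have hm3 : m = 3 := by nlinarith
  subst hm3
  have ht2 : t = 2 := by
    by_contra hc
    have : 3 ^ 3 ≤ 3 ^ t := Nat.pow_le_pow_right (by norm_num) (by omega)
    omega
  subst ht2
  exact ⟨by omega, rfl, rfl⟩

/-- Maximal subgroups of `SL n` for `n ≥ 4`. -/
theorem linear_maximal_cases {n : ℕ} (hn : 4 ≤ n) {H : Subgroup (GL (Fin n) F)}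
    (hH : IsMaximalIn (specialLinear (Fin n) F) H) :
    (∃ W : Submodule F (Fin n → F), W ≠ ⊥ ∧ W ≠ ⊤ ∧ H = subspaceStabilizer W ⊓ specialLinear (Fin n) F) ∨
    (∃ (t m : ℕ) (D : Fin t → Submodule F (Fin n → F)), IsMDecomposition m D ∧ 2 ≤ t ∧ t * m = n ∧
      (m = 1 → 5 ≤ Fintype.card F ∧ (n = 4 → 7 ≤ Fintype.card F)) ∧
      (m = 2 → 3 ≤ Fintype.card F ∧ (n = 4 → 4 ≤ Fintype.card F)) ∧
      H = decompositionStabilizer D ⊓ specialLinear (Fin n) F) ∨
    (∃ (r : ℕ) (K : Subalgebra F (Matrix (Fin n) (Fin n) F)), r.Prime ∧ r ∣ n ∧ IsFieldSubalgebra r K ∧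
      H = subalgebraNormalizer K ⊓ specialLinear (Fin n) F) ∨
    (∃ (n₁ n₂ : ℕ) (e : Fin n ≃ Fin n₁ × Fin n₂) (P : GL (Fin n) F), 2 ≤ n₁ ∧ n₁ < n₂ ∧ n₁ * n₂ = n ∧
      (n₁ = 2 → 3 ≤ Fintype.card F) ∧ H = tensorProductSubgroup n₁ n₂ e P ⊓ specialLinear (Fin n) F) ∨
    (∃ (F₀ : Subfield F) (r : ℕ) (P : GL (Fin n) F), r.Prime ∧ Fintype.card F = Nat.card F₀ ^ r ∧
      H = subfieldSubgroup F₀ P ⊓ specialLinear (Fin n) F) ∨
    (∃ (R : Subgroup (GL (Fin n) F)) (r m : ℕ), IsLinearSymplecticTypeData r R ∧ n = r ^ m ∧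
      H = subgroupNormalizer R ⊓ specialLinear (Fin n) F) ∨
    (∃ (m t : ℕ) (e : Fin n ≃ (Fin t → Fin m)) (P : GL (Fin n) F), 3 ≤ m ∧ 2 ≤ t ∧ m ^ t = n ∧
      H = tensorWreathSubgroup m t e P ⊓ specialLinear (Fin n) F) ∨
    (Odd (Fintype.card F) ∧ ∃ Q : (Fin n → F) → F, IsNondegenerateQuadraticForm Q ∧
      H = quadSimilarityGroup Q ⊓ specialLinear (Fin n) F) ∨
    (Even n ∧ ∃ f : (Fin n → F) → (Fin n → F) → F, IsSymplecticForm f ∧
      H = similarityGroup f ⊓ specialLinear (Fin n) F) ∨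
    (∃ (σ : F ≃+* F) (f : (Fin n → F) → (Fin n → F) → F), IsUnitaryForm σ f ∧
      H = similarityGroup f ⊓ specialLinear (Fin n) F) ∨
    InLinearResidualClass H := by
  classical
  have hc : 3 ≤ Fintype.card (Fin n) := by rw [Fintype.card_fin]; omega
  have hqpos : 2 ≤ Fintype.card F := Fintype.one_lt_card
  by_cases hirr : ActsIrreducibly (matrixSet H)
  swap
  · rw [actsIrreducibly_iff] at hirr
    push Not at hirr
    obtain ⟨W, hW, h0, h1⟩ := hirr
    exact Or.inl ⟨W, h0, h1, IsMaximalIn.eq_inf hH (le_subspaceStabilizer hW) (not_sl_le_subspaceStabilizer h0 h1)⟩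
  rcases linear_cases (by omega) H with ⟨M, hM, hle⟩ | ⟨R, r, m, hR, hnm, hle⟩ | h
  rotate_left
  · obtain ⟨p, e, hrp, ⟨hp, hchar, -⟩, -⟩ := hR.field
    haveI := hchar
    refine Or.inr (Or.inr (Or.inr (Or.inr (Or.inr (Or.inl ⟨R, r, m, hR, hnm,
      IsMaximalIn.eq_inf hH hle (not_sl_le_subgroupNormalizer_of_pGroup (p := p) hR.symplecticType.prime hp hrp
        (by rw [Fintype.card_fin]; omega) hR.symplecticType.pGroup
        (not_le_scalars_of_irreducible (by omega) hR.absIrred.1))⟩)))))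
  · exact Or.inr (Or.inr (Or.inr (Or.inr (Or.inr (Or.inr (Or.inr (Or.inr (Or.inr (Or.inr h)))))))))
  rcases hM with ⟨W, h0, h1, rfl⟩ | ⟨t, m, D, hD, rfl⟩ | ⟨r, K, hr, hK, rfl⟩ | ⟨n₁, n₂, e, P, h₁, h₂, rfl⟩ |
      ⟨F₀, r, P, hr, hcard, rfl⟩ | ⟨m, t, e, P, hm, ht, rfl⟩ | ⟨f, hf, hev, -, rfl⟩ | ⟨σ, f, hf, -, rfl⟩ |
      ⟨Q, hQ, hodd, -, rfl⟩
  · exact Or.inl ⟨W, h0, h1, IsMaximalIn.eq_inf hH hle (not_sl_le_subspaceStabilizer h0 h1)⟩
  · have htm := card_mul_of_decomposition hD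
    have ht := hD.two_le
    have heq := IsMaximalIn.eq_inf hH hle (not_sl_le_decompositionStabilizer' hD)
    rcases Nat.lt_or_ge m 2 with hm | hm
    · obtain rfl : m = 1 := by have := hD.pos; omega
      obtain rfl : t = Fintype.card (Fin n) := by rw [Fintype.card_fin]; omega
      rcases decomposition_case hc hH hirr hD hle with ⟨h5, h⟩ | h | h
      · refine Or.inr (Or.inl ⟨_, 1, D, hD, ht, htm, fun _ => ⟨h5, fun h4 => ?_⟩, fun h2 => by omega, h⟩)
        by_contra h7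
        have h5' : Fintype.card F = 5 := by have := card_ne_six (F := F); omega
        subst h4
        obtain ⟨C, hCmem, hC⟩ := exists_coords hD
        refine monomial_five_not_maximal h5' hH (C := C) fun g => ?_
        rw [h]
        refine ⟨fun hg => ⟨hC g hg.1, hg.2⟩, fun hg => ⟨?_, hg.2⟩⟩
        obtain ⟨π, a, ha, hga⟩ := hg.1
        refine ⟨π, fun i => ?_⟩
        have hspan : ∀ j, Submodule.span F {C.symm (Pi.single j 1)} = D j := fun j =>
          Submodule.eq_of_le_of_finrank_eq ((Submodule.span_singleton_le_iff_mem _ _).2 (hCmem j))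
            (by rw [finrank_span_singleton (by simp), hD.finrank_eq j])
        rw [← hspan, ← hspan, Submodule.map_span, Set.image_singleton, Matrix.toLin'_apply]
        change Submodule.span F {act g _} = _
        erw [hga i]
        rw [Submodule.span_singleton_smul_eq (ha i).isUnit]
        rfl
      · exact Or.inr (Or.inr (Or.inr (Or.inr (Or.inr (Or.inr (Or.inr (Or.inl h)))))))
      · exact Or.inr (Or.inr (Or.inr (Or.inr (Or.inr (Or.inr (Or.inr (Or.inr (Or.inr (Or.inl h)))))))))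
    · by_cases hsmall : m = 2 ∧ (Fintype.card F = 2 ∨ (Fintype.card F = 3 ∧ t = 2))
      · obtain ⟨rfl, hq⟩ := hsmall
        obtain ⟨f, hf, hfle⟩ := exists_symplecticForm_planes hD fun d hd hprod => by
          have hpow : ∀ i, d i ^ (Fintype.card F - 1) = 1 := fun i => FiniteField.pow_card_sub_one_eq_one _ (hd i)
          rcases hq with hq | ⟨hq, rfl⟩
          · intro i j
            have hi := hpow i; have hj := hpow j
            rw [hq, pow_one] at hi hj
            rw [hi, hj]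
          · have h0 := hpow 0
            rw [hq] at h0
            rw [Fin.prod_univ_two] at hprod
            have h01 : d 0 = d 1 := by linear_combination (d 1) * h0 - (d 0) * hprod
            intro i j
            fin_cases i <;> fin_cases j <;> simp [h01]
        refine Or.inr (Or.inr (Or.inr (Or.inr (Or.inr (Or.inr (Or.inr (Or.inr (Or.inl
          ⟨⟨t, by omega⟩, f, hf, IsMaximalIn.eq_inf hH (le_trans (le_inf hle hH.1.le) hfle)
            (not_sl_le_similarityGroup hc (IsSesqui.of_bilinear hf.bilinear) hf.nondegenerate)⟩))))))))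
      · refine Or.inr (Or.inl ⟨t, m, D, hD, ht, htm, fun h1 => by omega, fun h2 => ?_, heq⟩)
        subst h2
        simp only [true_and, not_or, not_and] at hsmall
        exact ⟨by omega, fun h4 => by omega⟩
  · exact Or.inr (Or.inr (Or.inl ⟨r, K, hr, by simpa using dvd_card_of_isFieldSubalgebra hK, hK,
      IsMaximalIn.eq_inf hH hle (not_sl_le_subalgebraNormalizer hc hr.two_le hK)⟩))
  · have hnn : n₁ * n₂ = n := by simpa using (Fintype.card_congr e).symm
    have heq := IsMaximalIn.eq_inf hH hle (not_sl_le_tensorProductSubgroup h₁ (by omega) e P)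
    refine Or.inr (Or.inr (Or.inr (Or.inl ⟨n₁, n₂, e, P, h₁, h₂, hnn, fun h2 => ?_, heq⟩)))
    subst h2
    by_contra h3
    obtain ⟨K, hK1, hK2⟩ := Geometric.exists_between_tensor_two (F := F) (by omega) (by omega) e P
    rcases hH.2 K (heq ▸ hK1.le) hK2.le with h | h
    · exact hK1.ne (by rw [← heq, h])
    · exact hK2.ne h
  · refine Or.inr (Or.inr (Or.inr (Or.inr (Or.inl ⟨F₀, r, P, hr, hcard, IsMaximalIn.eq_inf hH hle
      (not_sl_le_subfieldSubgroup (by rw [Fintype.card_fin]; omega) ?_ P)⟩))))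
    intro htop
    rw [htop, Nat.card_congr Subfield.topEquiv.toEquiv, Nat.card_eq_fintype_card] at hcard
    have := Nat.pow_lt_pow_right (a := Fintype.card F) (by omega) hr.one_lt
    rw [pow_one] at this
    omega
  · exact Or.inr (Or.inr (Or.inr (Or.inr (Or.inr (Or.inr (Or.inl ⟨m, t, e, P, hm, ht,
      by simpa using (Fintype.card_congr e).symm,
      IsMaximalIn.eq_inf hH hle (not_sl_le_tensorWreathSubgroup (by omega) ht e P)⟩))))))
  · exact Or.inr (Or.inr (Or.inr (Or.inr (Or.inr (Or.inr (Or.inr (Or.inr (Or.inl ⟨hev, f, hf,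
      IsMaximalIn.eq_inf hH hle (not_sl_le_similarityGroup hc (IsSesqui.of_bilinear hf.bilinear) hf.nondegenerate)⟩))))))))
  · exact Or.inr (Or.inr (Or.inr (Or.inr (Or.inr (Or.inr (Or.inr (Or.inr (Or.inr (Or.inl ⟨σ, f, hf,
      IsMaximalIn.eq_inf hH hle (not_sl_le_similarityGroup hc (IsSesqui.of_unitary hf) hf.nondegenerate)⟩)))))))))
  · exact Or.inr (Or.inr (Or.inr (Or.inr (Or.inr (Or.inr (Or.inr (Or.inl ⟨hodd, Q, hQ,
      IsMaximalIn.eq_inf hH hle fun h => not_sl_le_similarityGroup hc (IsSesqui.of_bilinear hQ.polar_bilinear)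
        hQ.nondegenerate (h.trans quadSimilarityGroup_le_polar)⟩)))))))

end CfsgLib.SmallDim
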