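import Cfsg.Agent.Lib.SmallDim.LinearNotLE
import Cfsg.Agent.Lib.SmallDim.DiagForms

/-!
# Decompositions over very small fields
-/

set_option autoImplicit false
set_option linter.style.haveILetI false

namespace CfsgLib.SmallDim

open scoped MatrixGroups Matrix
open Cfsg.Geo

variable {ι : Type} [Fintype ι] [DecidableEq ι] {F : Type*} [Field F]

/-- The stabiliser of a decomposition into planes consists of similitudes of a symplectic form, as far as
the block determinants are forced to coincide. -/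
theorem exists_symplecticForm_planes {t : ℕ} {D : Fin t → Submodule F (ι → F)} (hD : IsMDecomposition 2 D)
    (hmul : ∀ d : Fin t → F, (∀ i, d i ≠ 0) → ∏ i, d i = 1 → ∀ i j, d i = d j) :
    ∃ f, IsSymplecticForm f ∧ decompositionStabilizer D ⊓ specialLinear ι F ≤ similarityGroup f := by
  classical
  have hint : DirectSum.IsInternal D :=
    DirectSum.isInternal_submodule_of_iSupIndep_of_iSup_eq_top hD.indep hD.iSup_eq_top
  obtain ⟨bb, hbb⟩ : ∃ bb, bb = hint.collectedBasis
      fun i => Module.finBasisOfFinrankEq F (D i) (hD.finrank_eq i) := ⟨_, rfl⟩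
  have hmem0 : ∀ x, bb x ∈ D x.1 := fun x => hbb ▸ hint.collectedBasis_mem _ x
  have hne0 : ∀ i j (a : Fin 2) v, v ∈ D i → i ≠ j → bb.repr v ⟨j, a⟩ = 0 := fun i j a v hv hij => by
    rw [hbb]; exact hint.collectedBasis_repr_of_mem_ne _ hij hv
  clear hbb
  obtain ⟨b, hb⟩ : ∃ b : Module.Basis (Fin 2 × Fin t) F (ι → F),
      b = bb.reindex ((Equiv.sigmaEquivProd (Fin t) (Fin 2)).trans (Equiv.prodComm _ _)) := ⟨_, rfl⟩
  have hbmem : ∀ a i, b (a, i) ∈ D i := fun a i => by
    simpa [hb] using hmem0 ⟨i, a⟩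
  have hzero : ∀ i v, v ∈ D i → ∀ a j, j ≠ i → b.repr v (a, j) = 0 := fun i v hv a j hj => by
    rw [hb, Module.Basis.repr_reindex_apply]
    exact hne0 i j a v hv (Ne.symm hj)
  let f : (ι → F) → (ι → F) → F := fun u v =>
    ∑ i, (b.repr u (0, i) * b.repr v (1, i) - b.repr u (1, i) * b.repr v (0, i))
  have hbil : IsBilinearForm f := by
    refine ⟨fun x y v => ?_, fun c x v => ?_, fun v x y => ?_, fun c v x => ?_⟩ <;>
      simp only [f, map_add, map_smul, Finsupp.add_apply, Finsupp.smul_apply, smul_eq_mul,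
        Finset.mul_sum, ← Finset.sum_add_distrib] <;>
      exact Finset.sum_congr rfl fun i _ => by ring
  have hskew : ∀ v w, f v w = - f w v := fun v w => by
    simp only [f, ← Finset.sum_neg_distrib]
    exact Finset.sum_congr rfl fun i _ => by ring
  have hnd : IsNondegenerateForm f := by
    intro v hv
    obtain ⟨⟨a, i⟩, ha⟩ : ∃ x, b.repr v x ≠ 0 := by
      by_contra h
      push Not at h
      exact hv (b.ext_elem fun x => by rw [h x]; simp)
    obtain ⟨w, hw⟩ : ∃ w, f v w ≠ 0 := by
      fin_cases a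
      · exact ⟨b (1, i), by simpa [f, Finsupp.single_apply] using ha⟩
      · exact ⟨b (0, i), by simpa [f, Finsupp.single_apply] using ha⟩
    exact ⟨⟨w, fun h => hw (by rw [hskew, h, neg_zero])⟩, ⟨w, hw⟩⟩
  refine ⟨f, ⟨hbil, hskew, fun v => by simp [f, mul_comm], hnd⟩, ?_⟩
  rintro g ⟨⟨σ, hσ⟩, hg⟩
  let L : (ι → F) →ₗ[F] (ι → F) := Matrix.toLin' (g : Matrix ι ι F)
  let A : Fin t → Matrix (Fin 2) (Fin 2) F := fun k => Matrix.of fun a c => b.repr (L (b (c, k))) (a, σ k)
  have himg : ∀ c k, L (b (c, k)) ∈ D (σ k) := fun c k => by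
    rw [← hσ k]; exact Submodule.mem_map_of_mem (hbmem c k)
  have hoff : ∀ c k a j, j ≠ σ k → b.repr (L (b (c, k))) (a, j) = 0 := fun c k a j hj =>
    hzero _ _ (himg c k) a j hj
  have hM : (LinearMap.toMatrix b b L).submatrix (Equiv.prodCongrRight fun _ : Fin 2 => σ) id =
      Matrix.blockDiagonal A := by
    ext ⟨a, j⟩ ⟨c, k⟩
    simp only [Matrix.submatrix_apply, id, Equiv.prodCongrRight_apply, LinearMap.toMatrix_apply,
      Matrix.blockDiagonal_apply]
    by_cases h : j = k
    · subst h; simp [A]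
    · rw [if_neg h, hoff _ _ _ _ (fun he => h (σ.injective he))]
  have hdet : ∏ k, (A k).det = 1 := by
    have h1 := congrArg Matrix.det hM
    rw [Matrix.det_permute, Equiv.Perm.sign_prodCongrRight, Matrix.det_blockDiagonal,
      LinearMap.det_toMatrix, LinearMap.det_toLin'] at h1
    rw [← h1, (Geometric.mem_specialLinear_iff g).1 hg]
    simp
  have hd0 : ∀ k, (A k).det ≠ 0 := fun k h => by
    rw [Finset.prod_eq_zero (Finset.mem_univ k) h] at hdet
    exact zero_ne_one hdet
  let k0 : Fin t := ⟨0, by have := hD.two_le; omega⟩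
  refine ⟨Units.mk0 _ (hd0 k0), fun u v => ?_⟩
  have hexp : ∀ w a k, b.repr (L w) (a, σ k) = A k a 0 * b.repr w (0, k) + A k a 1 * b.repr w (1, k) := by
    intro w a k
    conv_lhs => rw [← b.sum_repr w, map_sum, map_sum, Finsupp.finsetSum_apply]
    rw [Fintype.sum_prod_type, Fin.sum_univ_two, Finset.sum_eq_single k, Finset.sum_eq_single k]
    · simp [A]; ring
    · intro j _ hj
      simp [hoff _ _ _ _ (fun he => hj (σ.injective he).symm)]
    · simp
    · intro j _ hj
      simp [hoff _ _ _ _ (fun he => hj (σ.injective he).symm)]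
    · simp
  show f (L u) (L v) = _
  simp only [f]
  rw [← Equiv.sum_comp σ, Finset.mul_sum]
  refine Finset.sum_congr rfl fun k _ => ?_
  rw [Units.val_mk0, ← hmul (fun k => (A k).det) hd0 hdet k k0]
  simp only [hexp, Matrix.det_fin_two]
  ring

/-- The vectors of the 60 distinguished lines over five elements. -/
def GoodFive {K : Type*} [CommRing K] [DecidableEq K] (a b c d : K) : Prop :=
  ((if a = 0 then 0 else 1) + (if b = 0 then 0 else 1) + (if c = 0 then 0 else 1) + (if d = 0 then 0 else 1) = 1 ∨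
   (if a = 0 then 0 else 1) + (if b = 0 then 0 else 1) + (if c = 0 then 0 else 1) + (if d = 0 then 0 else 1) = (2 : ℕ)) ∨
  (a * b * c * d) ^ 2 = 1

instance {K : Type*} [CommRing K] [DecidableEq K] (a b c d : K) : Decidable (GoodFive a b c d) := by
  unfold GoodFive; infer_instance

lemma goodFive_hadamard : ∀ a b c d : ZMod 5,
    GoodFive (K := ZMod 5) (a + b) (a - b) (2 * c + 2 * d) (2 * c - 2 * d) ↔ GoodFive (K := ZMod 5) a b c d := by
  decide

lemma goodFive_map {K L : Type*} [CommRing K] [DecidableEq K] [CommRing L] [DecidableEq L] {τ : K →+* L}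
    (hτ : Function.Injective τ) (a b c d : K) :
    GoodFive (τ a) (τ b) (τ c) (τ d) ↔ GoodFive a b c d := by
  simp only [GoodFive, map_eq_zero_iff _ hτ, ← map_mul, ← map_pow, map_eq_one_iff _ hτ]

/-- Over five elements the monomial subgroup of `SL₄` is not maximal. -/
theorem monomial_five_not_maximal [Fintype F] (h5 : Fintype.card F = 5) {H : Subgroup (GL (Fin 4) F)}
    (hH : IsMaximalIn (specialLinear (Fin 4) F) H) {C : (Fin 4 → F) ≃ₗ[F] (Fin 4 → F)}
    (heq : ∀ g, g ∈ H ↔ IsMonomialFor C (fun a => a ≠ 0) g ∧ g ∈ specialLinear (Fin 4) F) : False := by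
  classical
  let τ : ZMod 5 ≃+* F := ZMod.ringEquivOfPrime F (by norm_num) h5
  have hF5 : (5 : F) = 0 := by
    have := Nat.cast_card_eq_zero F
    rw [h5] at this; exact_mod_cast this
  let w : (Fin 4 → F) → F := fun v => if GoodFive (C v 0) (C v 1) (C v 2) (C v 3) then 1 else 0
  let H4 : GL (Fin 4) F := Matrix.GeneralLinearGroup.mkOfDetNeZero
    !![1, 1, 0, 0; 1, -1, 0, 0; 0, 0, 2, 2; 0, 0, 2, -2] (by
      simp [Matrix.det_succ_row_zero, Fin.sum_univ_succ, Fin.succAbove]
      intro h
      exact one_ne_zero (α := F) (by linear_combination h - 3 * hF5))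
  let g : GL (Fin 4) F := Geometric.ofEquiv ((C.trans (Geometric.apEquiv H4)).trans C.symm)
  have hgC : ∀ v, C (Geometric.ap g v) = Geometric.ap H4 (C v) := fun v => by simp [g]
  have hgSL : g ∈ specialLinear (Fin 4) F := by
    rw [Geometric.mem_specialLinear_iff, ← LinearMap.det_toLin']
    have : Matrix.toLin' (g : Matrix (Fin 4) (Fin 4) F) =
        (C.symm : _ →ₗ[F] _) ∘ₗ Matrix.toLin' (H4 : Matrix (Fin 4) (Fin 4) F) ∘ₗ (C.symm.symm : _ →ₗ[F] _) := by
      refine LinearMap.ext fun v => ?_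
      show Geometric.ap g v = C.symm (Geometric.ap H4 (C v))
      rw [← hgC, C.symm_apply_apply]
    rw [this, LinearMap.det_conj, LinearMap.det_toLin']
    simp [H4, Matrix.det_succ_row_zero, Fin.sum_univ_succ, Fin.succAbove]
    linear_combination 3 * hF5
  let K : Subgroup (GL (Fin 4) F) := Cfsg.isometryGroup F w ⊓ specialLinear (Fin 4) F
  have hgw : ∀ v, w (Geometric.ap g v) = w v := by
    intro v
    obtain ⟨a, ha⟩ : ∃ x : Fin 4 → ZMod 5, ∀ i, C v i = τ (x i) :=
      ⟨fun i => τ.symm (C v i), fun i => (τ.apply_symm_apply _).symm⟩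
    have h0 : ∀ y : Fin 4 → F, Geometric.ap H4 y = ![y 0 + y 1, y 0 - y 1, 2 * y 2 + 2 * y 3, 2 * y 2 - 2 * y 3] := by
      intro y
      funext i
      fin_cases i <;> simp [Geometric.ap, H4, dotProduct, Fin.sum_univ_four, sub_eq_add_neg]
    simp only [w, hgC, h0, ha]
    congr 1
    simp only [Matrix.cons_val, ← map_add, ← map_sub, show (2 : F) = τ 2 from (map_ofNat τ 2).symm, ← map_mul]
    exact propext (((goodFive_map (τ := τ.toRingHom) τ.injective _ _ _ _).trans (goodFive_hadamard _ _ _ _)).trans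
      (goodFive_map (τ := τ.toRingHom) τ.injective _ _ _ _).symm)
  have hHK : H ≤ K := by
    intro h hh
    obtain ⟨⟨π, a, ha, hha⟩, hsl⟩ := (heq h).1 hh
    refine ⟨fun v _ => ?_, hsl⟩
    show w (Geometric.ap h v) = w v
    have hco : ∀ j, C (Geometric.ap h v) (π j) = a j * C v j := fun j => IsMonomialFor.coords hha v j
    have hM : (LinearMap.toMatrix (Module.Basis.ofEquivFun C) (Module.Basis.ofEquivFun C)
        (Matrix.toLin' (h : Matrix (Fin 4) (Fin 4) F))).submatrix π id = Matrix.diagonal a := by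
      ext i j
      have := IsMonomialFor.coords hha (C.symm (Pi.single j 1)) i
      simp only [Matrix.submatrix_apply, id, LinearMap.toMatrix_apply, Module.Basis.coe_ofEquivFun,
        Module.Basis.ofEquivFun_repr_apply, Matrix.toLin'_apply, Matrix.diagonal_apply]
      refine this.trans ?_
      rw [C.apply_symm_apply]
      by_cases hij : i = j
      · subst hij; simp
      · simp [hij]
    have hprod : (∏ j, a j) ^ 2 = 1 := by
      have h1 := congrArg Matrix.det hM
      rw [Matrix.det_permute, LinearMap.det_toMatrix, LinearMap.det_toLin',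
        (Geometric.mem_specialLinear_iff h).1 hsl, Matrix.det_diagonal] at h1
      rw [← h1]
      rcases Int.units_eq_one_or (Equiv.Perm.sign π) with hs | hs <;> simp [hs]
    have hN : ∀ y : Fin 4 → F, ((if y 0 = 0 then 0 else 1) + (if y 1 = 0 then 0 else 1) +
        (if y 2 = 0 then 0 else 1) + (if y 3 = 0 then 0 else 1) : ℕ) = ∑ i, if y i = 0 then 0 else 1 := fun y => by
      rw [Fin.sum_univ_four]
    have hP : ∀ y : Fin 4 → F, y 0 * y 1 * y 2 * y 3 = ∏ i, y i := fun y => by rw [Fin.prod_univ_four]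
    have e1 : (∑ i, if C (Geometric.ap h v) i = 0 then 0 else 1 : ℕ) = ∑ i, if C v i = 0 then 0 else 1 := by
      rw [← Equiv.sum_comp π]
      refine Finset.sum_congr rfl fun j _ => ?_
      simp [hco, ha j]
    have e2 : (∏ i, C (Geometric.ap h v) i) ^ 2 = (∏ i, C v i) ^ 2 := by
      rw [← Equiv.prod_comp π]
      simp only [hco, Finset.prod_mul_distrib, mul_pow, hprod, one_mul]
    simp only [w, GoodFive, hN, hP, e1, e2]
  rcases hH.2 K hHK inf_le_right with hK | hK
  · have hgH : g ∈ H := hK ▸ (⟨fun v _ => hgw v, hgSL⟩ : g ∈ K)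
    obtain ⟨⟨π, a, -, hga⟩, -⟩ := (heq g).1 hgH
    have hall : ∀ j, C (Geometric.ap g (C.symm (Pi.single 0 1))) (π j) = a j * (Pi.single 0 1 : Fin 4 → F) j :=
      fun j => by
        have := IsMonomialFor.coords hga (C.symm (Pi.single 0 1)) j
        rwa [C.apply_symm_apply] at this
    rw [hgC, C.apply_symm_apply] at hall
    obtain ⟨j, hj⟩ := π.surjective (if π 0 = 0 then 1 else 0)
    have h1 := hall j
    rw [hj] at h1
    have hj0 : j ≠ 0 := by
      intro h
      rw [h] at hj
      split_ifs at hj with h0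
      · rw [h0] at hj; exact absurd hj (by decide)
      · exact h0 hj
    rw [Pi.single_eq_of_ne hj0, mul_zero] at h1
    split_ifs at h1 <;> simp [Geometric.ap, H4] at h1
  · obtain ⟨φ, hφ⟩ : ∃ φ : (Fin 4 → F) →ₗ[F] F, ∀ v, φ v = C v 0 :=
      ⟨(LinearMap.proj 0).comp C.toLinearMap, fun v => rfl⟩
    have hφv : φ (C.symm (Pi.single 2 1)) = 0 := by simp [hφ]
    have hm : Geometric.tv _ φ hφv ∈ K := hK ▸ Geometric.tv_mem_specialLinear _ φ hφv
    have h2 := hm.1 (C.symm ![1, 1, 0, 0]) (C.symm ![1, 1, 0, 0])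
    change w (Geometric.ap _ _) = w _ at h2
    simp [w, GoodFive, hφ] at h2

end CfsgLib.SmallDim
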