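import Cfsg.Agent.Lib.SmallDim.OmegaNine

/-!
Every subgroup of `Ω` in odd dimension at least five lies in a member of a geometric class of the isometry group
or is in the residual class.
-/

set_option autoImplicit false
set_option linter.style.haveILetI false
set_option linter.unusedSectionVars false

namespace CfsgLib.SmallDim

namespace OrthEven

open scoped MatrixGroups Matrix Kronecker commutatorElement
open Cfsg.Geo QuadraticMap CfsgLib.ClassicalForms CfsgLib.Geometric.Orth Module

variable {ι : Type} [Fintype ι] [DecidableEq ι] {F : Type*} [Field F] [Fintype F] {Q : QuadraticForm F (ι → F)}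
  {H N : Subgroup (GL ι F)}

section Scaling

/-- In odd dimension every symmetric form is a multiple of the dot product in suitable coordinates. -/
theorem exists_scaled_dot_odd {V : Type*} [AddCommGroup V] [Module F V] [FiniteDimensional F V] {k : ℕ}
    (hk : Odd k) (h2 : (2 : F) ≠ 0) (B : LinearMap.BilinForm F V) (hS : B.IsSymm) (hB : B.Nondegenerate)
    (hV : finrank F V = k) :
    ∃ (c : F) (e : (Fin k → F) ≃ₗ[F] V), c ≠ 0 ∧ ∀ x y, B (e x) (e y) = c * (x ⬝ᵥ y) := by
  classical
  obtain ⟨j, rfl⟩ := hk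
  set c := gdet B
  have hc : c ≠ 0 := gdet_ne_zero B hB
  let B₀ : LinearMap.BilinForm F (Fin (2 * j + 1) → F) :=
    Matrix.toBilin' (c • (1 : Matrix (Fin (2 * j + 1)) (Fin (2 * j + 1)) F))
  have hval : ∀ x y, B₀ x y = c * (x ⬝ᵥ y) := fun x y => by
    simp [B₀, Matrix.toBilin'_apply', Matrix.smul_mulVec, dotProduct_smul]
  have hS₀ : B₀.IsSymm := ⟨fun x y => by rw [hval, hval, dotProduct_comm]⟩
  have hB₀ : B₀.Nondegenerate := by
    refine LinearMap.BilinForm.nondegenerate_toBilin'_of_det_ne_zero' _ ?_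
    simp [Matrix.det_smul, hc]
  obtain ⟨s, -, hs⟩ := gdet_basis B₀ (Pi.basisFun F (Fin (2 * j + 1)))
  have hM : LinearMap.BilinForm.toMatrix (Pi.basisFun F (Fin (2 * j + 1))) B₀ = c • 1 := by
    ext i i'
    rw [LinearMap.BilinForm.toMatrix_apply, hval]
    by_cases hij : i = i' <;> simp [hij, Matrix.one_apply]
  rw [hM, Matrix.det_smul, Matrix.det_one, mul_one, Fintype.card_fin] at hs
  have hs0 : s ≠ 0 := by rintro rfl; simp [hc] at hs
  obtain ⟨e, he⟩ := exists_isometry h2 B₀ hS₀ hB₀ B hS hB (by rw [hV, Module.finrank_fin_fun])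
    ⟨c ^ (j + 1) / s, by
      show gdet B₀ * c = _
      rw [div_mul_div_comm, eq_div_iff (mul_ne_zero hs0 hs0), ← pow_add,
        show j + 1 + (j + 1) = 2 * j + 1 + 1 by omega, pow_succ c (2 * j + 1)]
      linear_combination -c * hs⟩
  exact ⟨c, e, hc, fun x y => by rw [he, hval]⟩

/-- The matrix version. -/
theorem exists_scaled_orth_matrix_odd {k : ℕ} (hk : Odd k) (h2 : (2 : F) ≠ 0) {G : Matrix (Fin k) (Fin k) F}
    (hG : Gᵀ = G) (hdet : G.det ≠ 0) :
    ∃ (c : F) (A : GL (Fin k) F), c ≠ 0 ∧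
      (A : Matrix (Fin k) (Fin k) F)ᵀ * G * (A : Matrix (Fin k) (Fin k) F) = c • 1 := by
  classical
  let B : LinearMap.BilinForm F (Fin k → F) := Matrix.toBilin' G
  obtain ⟨c, e, hc, he⟩ := exists_scaled_dot_odd hk h2 B
    ⟨fun x y => by
      rw [Matrix.toBilin'_apply', Matrix.toBilin'_apply', dotProduct_comm, ← Matrix.vecMul_transpose,
        ← Matrix.dotProduct_mulVec, hG]⟩
    (LinearMap.BilinForm.nondegenerate_toBilin'_of_det_ne_zero' _ hdet) (Module.finrank_fin_fun F)
  set A : Matrix (Fin k) (Fin k) F := LinearMap.toMatrix' e.toLinearMap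
  have hA : ∀ x, A *ᵥ x = e x := fun x => by rw [← Matrix.toLin'_apply, Matrix.toLin'_toMatrix']; rfl
  have hgram : Aᵀ * G * A = c • 1 := by
    ext i j
    have h := he (Pi.single i 1) (Pi.single j 1)
    rw [Matrix.toBilin'_apply', ← hA, ← hA, ← Matrix.vecMul_transpose, ← Matrix.dotProduct_mulVec,
      Matrix.mulVec_mulVec, Matrix.mulVec_mulVec] at h
    simpa [Matrix.mulVec_single_one, Matrix.one_apply, Matrix.smul_apply, Pi.single_apply, eq_comm] using h
  refine ⟨c, Matrix.GeneralLinearGroup.mkOfDetNeZero A (fun h => ?_), hc, hgram⟩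
  have h' := congrArg Matrix.det hgram
  rw [Matrix.det_mul, h, mul_zero, Matrix.det_smul, Matrix.det_one, mul_one] at h'
  exact pow_ne_zero _ hc h'.symm

/-- A matrix proportional to its transpose is symmetric in odd dimension. -/
lemma symm_of_odd_card {k : ℕ} (hk : Odd k) {G : Matrix (Fin k) (Fin k) F} {c : F} (hG : G.det ≠ 0)
    (hc : Gᵀ = c • G) : Gᵀ = G := by
  have h1 : c ^ k = 1 := by
    have h := congrArg Matrix.det hc
    rw [Matrix.det_transpose, Matrix.det_smul, Fintype.card_fin] at h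
    exact mul_right_cancel₀ hG (by rw [one_mul]; exact h.symm)
  have h2 : c ^ 2 = 1 := by
    have h := congrArg Matrix.transpose hc
    rw [Matrix.transpose_transpose, Matrix.transpose_smul, hc, smul_smul] at h
    by_contra hne
    refine hG ?_
    have hG0 : G = 0 := Matrix.ext fun i j => by
      have := congrFun (congrFun h i) j
      rw [Matrix.smul_apply, smul_eq_mul] at this
      by_contra h0
      exact hne (by rw [pow_two]; exact mul_right_cancel₀ h0 (by rw [one_mul]; exact this.symm))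
    have : Nonempty (Fin k) := ⟨⟨0, hk.pos⟩⟩
    rw [hG0]; exact Matrix.det_zero
  obtain ⟨j, rfl⟩ := hk
  rw [pow_succ, pow_mul, h2, one_pow, one_mul] at h1
  rw [hc, h1, one_smul]

/-- The bilinear form of a matrix. -/
def matrixForm {k : ℕ} (G : Matrix (Fin k) (Fin k) F) : (Fin k → F) → (Fin k → F) → F :=
  fun x y => x ⬝ᵥ (G *ᵥ y)

lemma gramMatrix_matrixForm {k : ℕ} (G : Matrix (Fin k) (Fin k) F) : gramMatrix (matrixForm G) = G := by
  ext a b
  simp [gramMatrix, matrixForm]

lemma isSymmetricForm_matrixForm {k : ℕ} {G : Matrix (Fin k) (Fin k) F} (hG : Gᵀ = G) (hdet : G.det ≠ 0) :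
    IsSymmetricForm (matrixForm G) := by
  have hsymm : ∀ x y, matrixForm G x y = matrixForm G y x := fun x y => by
    simp only [matrixForm]
    rw [Matrix.dotProduct_mulVec, ← Matrix.mulVec_transpose, hG, dotProduct_comm]
  refine ⟨⟨fun x y v => add_dotProduct _ _ _, fun c x v => smul_dotProduct _ _ _,
    fun v x y => by simp only [matrixForm, Matrix.mulVec_add, dotProduct_add],
    fun c v x => by simp only [matrixForm, Matrix.mulVec_smul, dotProduct_smul, smul_eq_mul]⟩, hsymm, fun v hv => ?_⟩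
  have hne : G *ᵥ v ≠ 0 := fun h => hv (Matrix.eq_zero_of_mulVec_eq_zero hdet h)
  obtain ⟨i, hi⟩ := Function.ne_iff.1 hne
  have h1 : matrixForm G (Pi.single i 1) v ≠ 0 := by simpa [matrixForm] using hi
  exact ⟨⟨_, h1⟩, ⟨_, by rwa [hsymm] at h1⟩⟩

lemma isTensorForm_of_gram {n₁ n₂ : ℕ} {e : ι ≃ Fin n₁ × Fin n₂} {P : GL ι F}
    {C : Matrix (Fin n₁) (Fin n₁) F} {G₀ : Matrix (Fin n₂) (Fin n₂) F}
    (hgram : ∀ x y, polar Q (point e P x) (point e P y) = x ⬝ᵥ ((C ⊗ₖ G₀) *ᵥ y)) :
    IsTensorFormStructure id (polar (⇑Q)) (matrixForm C) (matrixForm G₀) e P := by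
  refine ⟨1, one_ne_zero, fun x y => ?_⟩
  show polar Q (point e P x) (point e P y) = _
  rw [hgram, one_mul, gramMatrix_matrixForm, gramMatrix_matrixForm]
  simp only [formOfGram, dotProduct, Matrix.mulVec, Finset.mul_sum, id, mul_assoc]

lemma isTensorPower_of_gram {k t : ℕ} {e : ι ≃ (Fin t → Fin k)} {P : GL ι F} {G : Matrix (Fin k) (Fin k) F}
    {c : F} (hc : c ≠ 0)
    (hgram : ∀ x y, polar Q (point e P x) (point e P y) = c * (x ⬝ᵥ (pureMat (fun _ : Fin t => G) *ᵥ y))) :
    IsTensorPowerFormStructure id (polar (⇑Q)) (matrixForm G) e P := by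
  refine ⟨c, hc, fun x y => ?_⟩
  show polar Q (point e P x) (point e P y) = _
  rw [hgram]
  simp only [pureMat, dotProduct, Matrix.mulVec, Matrix.of_apply, Finset.mul_sum, gramMatrix_matrixForm, id,
    mul_assoc]

/-- Two tensor factors with forms similar to the dot product give a tensor square of the dot product. -/
theorem square_of_gram {k : ℕ} (hk : Odd k) {e : ι ≃ Fin k × Fin k} {P : GL ι F}
    {C G₀ : Matrix (Fin k) (Fin k) F} (h2 : (2 : F) ≠ 0) (hC : Cᵀ = C) (hG : G₀ᵀ = G₀) (hCd : C.det ≠ 0)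
    (hGd : G₀.det ≠ 0)
    (hgram : ∀ x y, polar Q (point e P x) (point e P y) = x ⬝ᵥ ((C ⊗ₖ G₀) *ᵥ y))
    (hle : H ≤ tensorProductSubgroup k k e P) :
    ∃ (e' : ι ≃ (Fin 2 → Fin k)) (P' : GL ι F), IsTensorPowerFormStructure id (polar (⇑Q))
      (matrixForm (1 : Matrix (Fin k) (Fin k) F)) e' P' ∧ H ≤ tensorWreathSubgroup k 2 e' P' := by
  classical
  obtain ⟨a, A, ha, hA⟩ := exists_scaled_orth_matrix_odd hk h2 hC hCd
  obtain ⟨b, B, hb, hB⟩ := exists_scaled_orth_matrix_odd hk h2 hG hGd
  set s := (piFinTwoEquiv fun _ => Fin k).symm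
  set z : GL (Fin 2 → Fin k) F := pureGL ![A, B]
  refine ⟨e.trans s, P * glReindex (e.trans s).symm z,
    isTensorPower_of_gram (mul_ne_zero ha hb) fun x y => ?_,
    (hle.trans (tensorProductSubgroup_le_wreath k e P)).trans
      (tensorWreathSubgroup_absorb _ P (Subgroup.subset_closure (Or.inl ⟨_, fun x y => rfl⟩)))⟩
  have hpure : ∀ u v, polar Q (point (e.trans s) P u) (point (e.trans s) P v) =
      u ⬝ᵥ (pureMat ![C, G₀] *ᵥ v) := by
    intro u v
    show polar Q (point e P (u ∘ s)) (point e P (v ∘ s)) = _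
    rw [hgram]
    have hK : C ⊗ₖ G₀ = (pureMat ![C, G₀]).submatrix s s := by
      ext p r
      simp [pureMat, s, Fin.prod_univ_two]
    rw [hK, Matrix.submatrix_mulVec_equiv, Function.comp_assoc, Equiv.self_comp_symm, Function.comp_id]
    exact comp_equiv_dotProduct_comp_equiv _ _ s
  rw [point_mul_glReindex, point_mul_glReindex, hpure]
  have hz : (z : Matrix _ _ F) = pureMat ![(A : Matrix (Fin k) (Fin k) F), (B : Matrix (Fin k) (Fin k) F)] := by
    show pureMat _ = _
    congr 1
    funext i; fin_cases i <;> rfl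
  have hm : (z : Matrix _ _ F)ᵀ * pureMat ![C, G₀] * (z : Matrix _ _ F) = (a * b) • 1 := by
    rw [hz, pureMat_transpose, ← pureMat_mul, ← pureMat_mul,
      show ((fun i => (![(A : Matrix (Fin k) (Fin k) F), (B : Matrix (Fin k) (Fin k) F)] i)ᵀ) * ![C, G₀] *
        ![(A : Matrix (Fin k) (Fin k) F), (B : Matrix (Fin k) (Fin k) F)]) =
        fun i => ![a, b] i • (1 : Fin 2 → Matrix (Fin k) (Fin k) F) i from funext fun i => by
          fin_cases i <;> simp [hA, hB],
      pureMat_smul, pureMat_one, Fin.prod_univ_two]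
    simp
  rw [Matrix.dotProduct_mulVec, ← Matrix.mulVec_transpose, Matrix.mulVec_mulVec,
    Matrix.dotProduct_mulVec, ← Matrix.mulVec_transpose, Matrix.mulVec_mulVec,
    ← Matrix.mul_assoc]
  have hsym : (pureMat ![C, G₀])ᵀ = pureMat ![C, G₀] := by
    rw [pureMat_transpose]; congr 1; funext i; fin_cases i <;> simp [hC, hG]
  rw [hsym, hm, Matrix.smul_mulVec, Matrix.one_mulVec, smul_dotProduct, smul_eq_mul]
  rw [show (fun _ : Fin 2 => (1 : Matrix (Fin k) (Fin k) F)) = (1 : Fin 2 → Matrix (Fin k) (Fin k) F) from rfl,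
    pureMat_one, Matrix.one_mulVec]

end Scaling

section OrthThree

/-- The matrices preserving a matrix form. -/
def matrixIsometries {k : ℕ} (G : Matrix (Fin k) (Fin k) F) : Subgroup (GL (Fin k) F) where
  carrier := {b | (b : Matrix (Fin k) (Fin k) F)ᵀ * G * (b : Matrix (Fin k) (Fin k) F) = G}
  mul_mem' {a b} (ha : (a : Matrix (Fin k) (Fin k) F)ᵀ * G * (a : Matrix (Fin k) (Fin k) F) = G)
      (hb : (b : Matrix (Fin k) (Fin k) F)ᵀ * G * (b : Matrix (Fin k) (Fin k) F) = G) := by
    show ((a * b : GL (Fin k) F) : Matrix (Fin k) (Fin k) F)ᵀ * G * _ = G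
    rw [Units.val_mul, Matrix.transpose_mul]
    calc (b : Matrix (Fin k) (Fin k) F)ᵀ * (a : Matrix (Fin k) (Fin k) F)ᵀ * G *
          ((a : Matrix (Fin k) (Fin k) F) * (b : Matrix (Fin k) (Fin k) F))
        = (b : Matrix (Fin k) (Fin k) F)ᵀ * ((a : Matrix (Fin k) (Fin k) F)ᵀ * G * (a : Matrix (Fin k) (Fin k) F)) *
            (b : Matrix (Fin k) (Fin k) F) := by noncomm_ring
      _ = G := by rw [ha, hb]
  one_mem' := by simp
  inv_mem' {a} (ha : (a : Matrix (Fin k) (Fin k) F)ᵀ * G * (a : Matrix (Fin k) (Fin k) F) = G) := by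
    show ((a⁻¹ : GL (Fin k) F) : Matrix (Fin k) (Fin k) F)ᵀ * G * _ = G
    conv_lhs => rw [← ha]
    rw [← Matrix.mul_assoc, ← Matrix.mul_assoc, ← Matrix.transpose_mul, Matrix.mul_assoc (_ * G),
      Units.mul_inv, Matrix.transpose_one, Matrix.one_mul, Matrix.mul_one]

/-- The orthogonal group in dimension three over three elements is solvable. -/
theorem orth_three_solvable (h3 : Fintype.card F = 3) {G : Matrix (Fin 3) (Fin 3) F} (hG : Gᵀ = G)
    (hdet : G.det ≠ 0) : Group.IsSolvable (matrixIsometries G) := by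
  classical
  have h2 : (2 : F) ≠ 0 := two_ne_zero_of_odd_card (by rw [h3]; decide)
  obtain ⟨c, A, hc, hA⟩ := exists_scaled_orth_matrix_odd (show Odd 3 by decide) h2 hG hdet
  set Am : Matrix (Fin 3) (Fin 3) F := (A : Matrix (Fin 3) (Fin 3) F)
  let X := {w : Fin 3 → F // w ⬝ᵥ w = 1}
  have hAG : ∀ w w' : Fin 3 → F, (Am *ᵥ w) ⬝ᵥ (G *ᵥ (Am *ᵥ w')) = c * (w ⬝ᵥ w') := by
    intro w w'
    rw [← Matrix.vecMul_transpose, ← Matrix.dotProduct_mulVec, Matrix.mulVec_mulVec, Matrix.mulVec_mulVec, hA,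
      Matrix.smul_mulVec, Matrix.one_mulVec, dotProduct_smul, smul_eq_mul]
  let f : matrixIsometries G → (Fin 3 → F) → (Fin 3 → F) := fun g w => act (A⁻¹ * (g : GL (Fin 3) F) * A) w
  have hf : ∀ g w, w ⬝ᵥ w = 1 → f g w ⬝ᵥ f g w = 1 := by
    intro g w hw
    apply mul_left_cancel₀ hc
    rw [← hAG, show Am *ᵥ f g w = act (g : GL (Fin 3) F) (Am *ᵥ w) by
      show act A (act (A⁻¹ * (g : GL (Fin 3) F) * A) w) = act (g : GL (Fin 3) F) (act A w)
      rw [← act_mul, ← act_mul]; congr 1; group]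
    have hg : ((g : GL (Fin 3) F) : Matrix (Fin 3) (Fin 3) F)ᵀ * G *
        ((g : GL (Fin 3) F) : Matrix (Fin 3) (Fin 3) F) = G := g.2
    show (((g : GL (Fin 3) F) : Matrix (Fin 3) (Fin 3) F) *ᵥ (Am *ᵥ w)) ⬝ᵥ
      (G *ᵥ (((g : GL (Fin 3) F) : Matrix (Fin 3) (Fin 3) F) *ᵥ (Am *ᵥ w))) = _
    have hid : ∀ (M : Matrix (Fin 3) (Fin 3) F) (x y : Fin 3 → F),
        (M *ᵥ x) ⬝ᵥ (G *ᵥ (M *ᵥ y)) = x ⬝ᵥ ((Mᵀ * G * M) *ᵥ y) := fun M x y => by
      rw [← Matrix.vecMul_transpose, ← Matrix.dotProduct_mulVec, Matrix.mulVec_mulVec, Matrix.mulVec_mulVec]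
    rw [hid, hg, hAG, hw]
  letI : MulAction (matrixIsometries G) X :=
    { smul := fun g w => ⟨f g w, hf g w w.2⟩
      one_smul := fun w => Subtype.ext (by
        show f 1 w.1 = w.1
        simp only [f, OneMemClass.coe_one, mul_one, inv_mul_cancel]
        exact act_one _)
      mul_smul := fun g g' w => Subtype.ext (by
        show f (g * g') w.1 = f g (f g' w.1)
        simp only [f, Subgroup.coe_mul]
        rw [← act_mul]
        congr 1
        group) }
  let ρ := MulAction.toPermHom (matrixIsometries G) X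
  have hinj : Function.Injective ρ := by
    rw [← MonoidHom.ker_eq_bot_iff, Subgroup.eq_bot_iff_forall]
    intro g hg
    rw [MonoidHom.mem_ker] at hg
    have hfix : ∀ i : Fin 3, f g (Pi.single i 1) = Pi.single i 1 := fun i => by
      have h := congrArg (fun p : Equiv.Perm X => ((p ⟨Pi.single i 1, by simp⟩ : X) : Fin 3 → F)) hg
      exact h
    have h1 : A⁻¹ * (g : GL (Fin 3) F) * A = 1 := Units.ext (Matrix.ext_of_mulVec_single fun i => by
      rw [Units.val_one, Matrix.one_mulVec]; exact hfix i)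
    apply Subtype.ext
    show (g : GL (Fin 3) F) = 1
    have := congrArg (fun x => A * x * A⁻¹) h1
    simpa [mul_assoc] using this
  have hXcard : Nat.card X ≤ 6 := by
    let q : Fin 3 × ({s : F // s = 1 ∨ s = -1}) → X := fun p => ⟨p.2.1 • Pi.single p.1 1, by
      rcases p.2.2 with h | h <;> simp [h]⟩
    have hsurj : Function.Surjective q := by
      rintro ⟨w, hw⟩
      obtain ⟨k, s, rfl⟩ := eq_smul_single_of_norm_one h3 hw
      have hs : s * s = 1 := by simpa using hw
      exact ⟨(k, ⟨s, mul_self_eq_one_iff.1 hs⟩), rfl⟩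
    refine (Nat.card_le_card_of_surjective q hsurj).trans ?_
    rw [Nat.card_prod, Nat.card_eq_fintype_card, Fintype.card_fin]
    have : Nat.card {s : F // s = 1 ∨ s = -1} ≤ 2 := by
      rw [Nat.card_eq_fintype_card, Fintype.card_subtype]
      exact le_trans (Finset.card_le_card (show _ ⊆ ({1, -1} : Finset F) from fun s hs => by simpa using hs))
        Finset.card_le_two
    omega
  have hdvd₁ : Nat.card (matrixIsometries G) ∣ 720 := by
    refine (Subgroup.card_dvd_of_injective ρ hinj).trans ?_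
    rw [Nat.card_perm, show 720 = Nat.factorial 6 from rfl]
    exact Nat.factorial_dvd_factorial hXcard
  have hdvd₂ : Nat.card (matrixIsometries G) ∣ 11232 := by
    refine (Subgroup.card_subgroup_dvd_card _).trans ?_
    rw [Matrix.card_GL_field, h3, Fin.prod_univ_three]
    norm_num
  exact CfsgLib.CharTheory.isSolvable_of_card_dvd_pow_mul_pow 2 3 4 2 Nat.prime_two Nat.prime_three
    ((Nat.dvd_gcd hdvd₁ hdvd₂).trans (by norm_num))

end OrthThree

/-- An irreducible group of isometries normalising a self-adjoint maximal field of matrices does not exist. -/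
theorem no_self_adjoint_full_field (hQ : Nondeg Q) (h2 : (2 : F) ≠ 0) (hodd : Odd (Fintype.card ι))
    (hiso : Isometric Q H) (hdet : H ≤ specialLinear ι F) {K : Subalgebra F (Matrix ι ι F)}
    (hK : IsFieldSubalgebra (Fintype.card ι) K) (hsa : IsSelfAdjointFor (polar (⇑Q)) K)
    (hle : H ≤ subalgebraNormalizer K) : ∀ a ∈ H, ∀ b ∈ H, a * b = b * a := by
  classical
  have : Nonempty ι := Fintype.card_pos_iff.mp hodd.pos
  have : Finite K := Subtype.finite
  have hfield : IsField K :=
    { exists_pair_ne := ⟨0, 1, fun h => by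
        have h' := congrArg Subtype.val h
        have := congrFun (congrFun h' (Classical.arbitrary ι)) (Classical.arbitrary ι)
        simp at this⟩
      mul_comm := fun a b => Subtype.ext (hK.comm a a.2 b b.2)
      mul_inv_cancel := fun {a} ha => by
        obtain ⟨y, hy, hxy⟩ := hK.inv a a.2 (fun h => ha (Subtype.ext h))
        exact ⟨⟨y, hy⟩, Subtype.ext hxy⟩ }
  letI : Field K := hfield.toField
  obtain ⟨θ, hθ⟩ := IsCyclic.exists_generator (α := Kˣ)
  set t : Matrix ι ι F := (((θ : Kˣ) : K) : Matrix ι ι F) with ht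
  have hpowK : ∀ k ∈ K, k ≠ 0 → ∃ i : ℕ, k = t ^ i := by
    intro k hk hk0
    obtain ⟨i, hi⟩ := (mem_powers_iff_mem_zpowers).2 (hθ (Units.mk0 ⟨k, hk⟩ fun h => hk0 (congrArg Subtype.val h)))
    refine ⟨i, ?_⟩
    have h := congrArg (fun u : Kˣ => ((u : K) : Matrix ι ι F)) hi
    simpa [ht] using h.symm
  have htK : t ∈ K := ((θ : Kˣ) : K).2
  have ht0 : t ≠ 0 := fun h => (θ : Kˣ).ne_zero (Subtype.ext h)
  -- conjugations commute
  have hconj : ∀ g ∈ H, ∃ i : ℕ, (g : Matrix ι ι F) * t * ((g⁻¹ : GL ι F) : Matrix ι ι F) = t ^ i := by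
    intro g hg
    refine hpowK _ ((hle hg t).1 htK) fun h => ht0 ?_
    have := congrArg (fun X => ((g⁻¹ : GL ι F) : Matrix ι ι F) * X * (g : Matrix ι ι F)) h
    simpa [mul_assoc] using this
  have hcpow : ∀ (g : GL ι F) (X : Matrix ι ι F) (j : ℕ),
      (g : Matrix ι ι F) * X ^ j * ((g⁻¹ : GL ι F) : Matrix ι ι F) =
        ((g : Matrix ι ι F) * X * ((g⁻¹ : GL ι F) : Matrix ι ι F)) ^ j := fun g X j =>
    (Units.conj_pow g X j).symm
  intro a ha b hb
  obtain ⟨i, hi⟩ := hconj a ha
  obtain ⟨j, hj⟩ := hconj b hb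
  set c : GL ι F := (b * a)⁻¹ * (a * b) with hc
  have hab : ((a * b : GL ι F) : Matrix ι ι F) * t * (((a * b)⁻¹ : GL ι F) : Matrix ι ι F) = t ^ (i * j) := by
    rw [mul_inv_rev, Units.val_mul, Units.val_mul]
    calc (a : Matrix ι ι F) * (b : Matrix ι ι F) * t * (((b⁻¹ : GL ι F) : Matrix ι ι F) * ((a⁻¹ : GL ι F) : Matrix ι ι F))
        = (a : Matrix ι ι F) * ((b : Matrix ι ι F) * t * ((b⁻¹ : GL ι F) : Matrix ι ι F)) *
            ((a⁻¹ : GL ι F) : Matrix ι ι F) := by noncomm_ring
      _ = t ^ (i * j) := by rw [hj, hcpow, hi, ← pow_mul]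
  have hba : ((b * a : GL ι F) : Matrix ι ι F) * t * (((b * a)⁻¹ : GL ι F) : Matrix ι ι F) = t ^ (i * j) := by
    rw [mul_inv_rev, Units.val_mul, Units.val_mul]
    calc (b : Matrix ι ι F) * (a : Matrix ι ι F) * t * (((a⁻¹ : GL ι F) : Matrix ι ι F) * ((b⁻¹ : GL ι F) : Matrix ι ι F))
        = (b : Matrix ι ι F) * ((a : Matrix ι ι F) * t * ((a⁻¹ : GL ι F) : Matrix ι ι F)) *
            ((b⁻¹ : GL ι F) : Matrix ι ι F) := by noncomm_ring
      _ = t ^ (i * j) := by rw [hi, hcpow, hj, ← pow_mul, mul_comm]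
  have hct : (c : Matrix ι ι F) * t = t * (c : Matrix ι ι F) := by
    have h1 : ((a * b : GL ι F) : Matrix ι ι F) * t = t ^ (i * j) * ((a * b : GL ι F) : Matrix ι ι F) := by
      rw [← hab, mul_assoc _ _ ((a * b : GL ι F) : Matrix ι ι F), Units.inv_mul, mul_one]
    have h2' : ((b * a : GL ι F) : Matrix ι ι F) * t = t ^ (i * j) * ((b * a : GL ι F) : Matrix ι ι F) := by
      rw [← hba, mul_assoc _ _ ((b * a : GL ι F) : Matrix ι ι F), Units.inv_mul, mul_one]
    have h3 : ((b * a : GL ι F) : Matrix ι ι F) * (c : Matrix ι ι F) = ((a * b : GL ι F) : Matrix ι ι F) := by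
      rw [← Units.val_mul, hc, mul_inv_cancel_left]
    apply (b * a).isUnit.mul_left_cancel
    calc ((b * a : GL ι F) : Matrix ι ι F) * ((c : Matrix ι ι F) * t)
        = ((a * b : GL ι F) : Matrix ι ι F) * t := by rw [← mul_assoc, h3]
      _ = t ^ (i * j) * ((b * a : GL ι F) : Matrix ι ι F) * (c : Matrix ι ι F) := by rw [h1, mul_assoc, h3]
      _ = ((b * a : GL ι F) : Matrix ι ι F) * (t * (c : Matrix ι ι F)) := by rw [← h2', mul_assoc]
  have hcen : ∀ k ∈ K, (c : Matrix ι ι F) * k = k * (c : Matrix ι ι F) := by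
    intro k hk
    rcases eq_or_ne k 0 with rfl | hk0
    · simp
    · obtain ⟨l, rfl⟩ := hpowK k hk hk0
      exact (Commute.pow_right (show Commute (c : Matrix ι ι F) t from hct) l)
  -- a matrix commuting with the field lies in it
  have hcK : (c : Matrix ι ι F) ∈ K := by
    set v : ι → F := Pi.single (Classical.arbitrary ι) 1
    let ev : K →ₗ[F] (ι → F) :=
      { toFun := fun k => (k : Matrix ι ι F) *ᵥ v
        map_add' := fun k l => Matrix.add_mulVec _ _ _
        map_smul' := fun s k => Matrix.smul_mulVec s _ _ }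
    have hinj : Function.Injective ev := by
      rw [injective_iff_map_eq_zero]
      intro k hk
      by_contra hk0
      obtain ⟨y, -, hy⟩ := hK.inv k k.2 (fun h => hk0 (Subtype.ext h))
      have hyk : y * (k : Matrix ι ι F) = 1 := mul_eq_one_comm.1 hy
      have hv : v = 0 := by
        rw [← Matrix.one_mulVec v, ← hyk, ← Matrix.mulVec_mulVec, show (k : Matrix ι ι F) *ᵥ v = 0 from hk,
          Matrix.mulVec_zero]
      simpa [v] using congrFun hv (Classical.arbitrary ι)
    have : Module.Finite F K := Module.Finite.of_finite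
    have hsurj : Function.Surjective ev :=
      (LinearMap.injective_iff_surjective_of_finrank_eq_finrank
        (by rw [hK.finrank_eq, Module.finrank_fintype_fun_eq_card])).1 hinj
    obtain ⟨k₀, hk₀⟩ := hsurj ((c : Matrix ι ι F) *ᵥ v)
    have heq : (c : Matrix ι ι F) = (k₀ : Matrix ι ι F) := by
      apply Matrix.ext_of_mulVec_single
      intro l
      obtain ⟨k, hk⟩ := hsurj (Pi.single l 1)
      rw [← show (k : Matrix ι ι F) *ᵥ v = Pi.single l 1 from hk, Matrix.mulVec_mulVec, Matrix.mulVec_mulVec,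
        hcen k k.2, ← Matrix.mulVec_mulVec, ← show (k₀ : Matrix ι ι F) *ᵥ v = _ from hk₀, Matrix.mulVec_mulVec,
        hK.comm _ k.2 _ k₀.2]
    exact heq ▸ k₀.2
  have hcH : c ∈ H := mul_mem (inv_mem (mul_mem hb ha)) (mul_mem ha hb)
  have hcc : (c : Matrix ι ι F) * (c : Matrix ι ι F) = 1 := by
    apply Matrix.ext_of_mulVec_single
    intro l
    rw [Matrix.one_mulVec, ← sub_eq_zero]
    by_contra hne
    obtain ⟨w, hw⟩ := (isNondegenerateForm_polar hQ _ hne).1
    apply hw
    rw [polar_sub_right, sub_eq_zero, ← Matrix.mulVec_mulVec, ← hsa _ hcK, ]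
    exact hiso.polar hcH _ _
  have hsign : (c : Matrix ι ι F) = 1 ∨ (c : Matrix ι ι F) = -1 := by
    have h : (⟨_, hcK⟩ : K) * ⟨_, hcK⟩ = 1 := Subtype.ext hcc
    rcases mul_self_eq_one_iff.1 h with h | h
    · exact Or.inl (congrArg Subtype.val h)
    · exact Or.inr (congrArg Subtype.val h)
  have hc1 : c = 1 := by
    rcases hsign with h | h
    · exact Units.ext h
    · exfalso
      have hd := (Geometric.mem_specialLinear_iff _).1 (hdet hcH)
      rw [h, Matrix.det_neg, Matrix.det_one, mul_one, hodd.neg_one_pow] at hd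
      exact h2 (by linear_combination -hd)
  exact (inv_mul_eq_one.1 (hc.symm.trans hc1)).symm

/-- The geometric alternatives and the residual class for an irreducible subgroup of `Ω` in odd dimension. -/
theorem odd_cases (hQ : Nondeg Q) (h2 : (2 : F) ≠ 0) (hodd : Odd (Fintype.card ι)) (hn : 5 ≤ Fintype.card ι)
    (hH : H ≤ omegaGL (⇑Q)) (hdet : H ≤ specialLinear ι F) (hirr : ActsIrreducibly (matrixSet H)) :
    (∃ (t k : ℕ) (D : Fin t → Submodule F (ι → F)), IsOrthogonalMDecomposition (⇑Q) k D ∧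
      H ≤ decompositionStabilizer D) ∨
    (∃ (r : ℕ) (K : Subalgebra F (Matrix ι ι F)), r.Prime ∧ Fintype.card ι ≠ r ∧ IsFieldSubalgebra r K ∧
      IsSelfAdjointFor (polar (⇑Q)) K ∧ H ≤ subalgebraNormalizer K) ∨
    (∃ (n₁ n₂ : ℕ) (e : ι ≃ Fin n₁ × Fin n₂) (P : GL ι F) (f₁ : (Fin n₁ → F) → (Fin n₁ → F) → F)
      (f₂ : (Fin n₂ → F) → (Fin n₂ → F) → F), 3 ≤ n₁ ∧ n₁ < n₂ ∧ IsSymmetricForm f₁ ∧ IsSymmetricForm f₂ ∧
      IsTensorFormStructure id (polar (⇑Q)) f₁ f₂ e P ∧ H ≤ tensorProductSubgroup n₁ n₂ e P) ∨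
    (∃ (k t : ℕ) (e : ι ≃ (Fin t → Fin k)) (P : GL ι F) (f₁ : (Fin k → F) → (Fin k → F) → F),
      3 ≤ k ∧ 2 ≤ t ∧ ¬ (Fintype.card F = 3 ∧ k = 3) ∧ IsSymmetricForm f₁ ∧
      IsTensorPowerFormStructure id (polar (⇑Q)) f₁ e P ∧ H ≤ tensorWreathSubgroup k t e P) ∨
    (∃ (N : Subgroup (GL ι F)) (K : Subfield F), NormalIn N H ∧ ActsAbsolutelyIrreducibly (matrixSet N) ∧
      K ≠ ⊤ ∧ RealisableOver K (matrixSet N)) ∨
    InOrthogonalResidualClass H := by
  classical
  have : Nonempty ι := Fintype.card_pos_iff.mp (by omega)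
  have hiso := isometric_of_le_omega hH
  by_cases habs : ∀ N, NormalIn N H → ¬ N ≤ scalars ι F → ActsAbsolutelyIrreducibly (matrixSet N)
  swap
  · push Not at habs
    obtain ⟨N, hN, hNs, hNa⟩ := habs
    rcases form_clifford (sesqui_polar Q) (reflexive_polar Q) (isNondegenerateForm_polar hQ) hirr hN
      hiso.fixesForm hNs with h | ⟨t, m, D, hD, hle⟩ | ⟨t, m, D, τ, hD, -, hτ, hτ2, -, -⟩ |
        ⟨r, K, hr, hK, hadj, hle⟩ | ⟨n₁, n₂, e, P, hT⟩
    · exact absurd h hNa
    · exact Or.inl ⟨t, m, D, ⟨hD, orth_isometric hiso hirr hD hle⟩, hle⟩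
    · exfalso
      have hne : Even t := by
        have h := Equiv.Perm.two_dvd_card_support (σ := (τ : Equiv.Perm (Fin t)))
          (Equiv.ext fun i => by simpa [pow_two] using hτ2 i)
        rw [show τ.support = Finset.univ from Finset.eq_univ_iff_forall.mpr fun i =>
          Equiv.Perm.mem_support.mpr (hτ i), Finset.card_univ, Fintype.card_fin] at h
        exact even_iff_two_dvd.mpr h
      exact Nat.not_even_iff_odd.2 hodd ((decomp_mul_eq hD) ▸ hne.mul_right m)
    · have hdvd : r ∣ Fintype.card ι := dvd_card_of_isFieldSubalgebra hK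
      have hsa : IsSelfAdjointFor (polar (⇑Q)) K := by
        by_contra hns
        obtain ⟨j, hj⟩ := two_dvd_of_not_selfAdjoint (isNondegenerateForm_polar hQ) hK hadj hns
        obtain ⟨l, hl⟩ := hodd
        obtain ⟨u, hu⟩ := hdvd
        rw [hj] at hu
        have : 2 ∣ Fintype.card ι := ⟨j * u, by rw [hu]; ring⟩
        omega
      by_cases hrn : Fintype.card ι = r
      · exfalso
        subst hrn
        have hcomm := no_self_adjoint_full_field hQ h2 hodd hiso hdet hK hsa hle
        have hHs : ¬ H ≤ scalars ι F := not_le_scalars_of_irreducible (by omega) hirr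
        rcases CfsgLib.SmallDim.normal_cases hr hirr (NormalIn.refl H) hHs with h | ⟨D, χ, hD⟩ | ⟨K', hK'⟩
        · exact not_commutative_of_absIrred (by omega) h hcomm
        · have hfix : ∀ g ∈ H, ∀ w ∈ D ⟨0, by omega⟩, act g w ∈ D ⟨0, by omega⟩ := fun g hg w hw => by
            rw [hD.eigen g hg _ w hw]; exact Submodule.smul_mem _ _ hw
          rcases actsIrreducibly_iff.mp hirr (D ⟨0, by omega⟩) hfix with h0 | h1
          · exact decomp_ne_bot hD.decomp _ h0
          · have h := hD.decomp.finrank_eq ⟨0, by omega⟩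
            rw [h1, finrank_top, Module.finrank_fintype_fun_eq_card] at h
            omega
        · have hcen : ∀ g ∈ H, (g : Matrix ι ι F) ∈ K' := hK'.mem
          -- isometries in a field of odd degree are scalars
          refine hHs fun g hg => ?_
          have hgK := hcen g hg
          have hadj' : IsAdjointClosedFor (polar (⇑Q)) K' := by
            refine fun k hk => ?_
            obtain ⟨k', hk'⟩ : ∃ k' : Matrix ι ι F, ∀ u v, polar Q (k *ᵥ u) v = polar Q u (k' *ᵥ v) := by
              have hb := isBilinear_polar Q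
              set G := gramMatrix (polar (⇑Q))
              have hG : IsUnit G.det :=
                (IsSesqui.of_bilinear hb).isUnit_det_gram Function.surjective_id (isNondegenerateForm_polar hQ)
              refine ⟨G⁻¹ * kᵀ * G, fun u v => ?_⟩
              have happ : ∀ x y, polar Q x y = x ⬝ᵥ (G *ᵥ y) := fun x y => by
                rw [(IsSesqui.of_bilinear hb).apply_eq x y]; rfl
              rw [happ, happ, ← Matrix.vecMul_transpose, ← Matrix.dotProduct_mulVec, Matrix.mulVec_mulVec,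
                Matrix.mulVec_mulVec, ← Matrix.mul_assoc, ← Matrix.mul_assoc,
                Matrix.mul_nonsing_inv _ hG, Matrix.one_mul]
            refine ⟨k', (hK'.mem_iff k').2 ?_, hk'⟩
            rintro _ ⟨x, hx, rfl⟩
            apply eq_of_adjoint (sesqui_polar Q) (isNondegenerateForm_polar hQ)
            intro u v
            have hkx := (hK'.mem_iff k).1 hk _ (coe_mem_matrixSet (H.inv_mem hx))
            calc polar Q u ((((x : Matrix ι ι F)) * k') *ᵥ v)
                = polar Q u (act x (k' *ᵥ v)) := by rw [act, Matrix.mulVec_mulVec]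
              _ = polar Q (act x⁻¹ u) (k' *ᵥ v) := by
                  rw [← hiso.polar (H.inv_mem hx) u, act_inv_act]
              _ = polar Q (k *ᵥ act x⁻¹ u) v := (hk' _ _).symm
              _ = polar Q (act x⁻¹ (k *ᵥ u)) v := by rw [act, act, Matrix.mulVec_mulVec, ← hkx, Matrix.mulVec_mulVec]
              _ = polar Q (k *ᵥ u) (act x v) := by rw [← hiso.polar hx, act_act_inv]
              _ = polar Q u ((k' * (x : Matrix ι ι F)) *ᵥ v) := by rw [hk', act, Matrix.mulVec_mulVec]
          have hsa' : IsSelfAdjointFor (polar (⇑Q)) K' := by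
            by_contra hns
            obtain ⟨l, hl⟩ := hodd
            have h2d := two_dvd_of_not_selfAdjoint (isNondegenerateForm_polar hQ) hK'.isField hadj' hns
            omega
          have hgg : (g : Matrix ι ι F) * (g : Matrix ι ι F) = 1 := by
            apply Matrix.ext_of_mulVec_single
            intro l
            rw [Matrix.one_mulVec, ← sub_eq_zero]
            by_contra hne
            obtain ⟨w, hw⟩ := (isNondegenerateForm_polar hQ _ hne).1
            apply hw
            rw [polar_sub_right, sub_eq_zero, ← Matrix.mulVec_mulVec, ← hsa' _ hgK]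
            exact hiso.polar hg _ _
          have hprod : ((g : Matrix ι ι F) - 1) * ((g : Matrix ι ι F) + 1) = 0 := by
            rw [mul_add, sub_mul, hgg, one_mul, mul_one]; abel
          by_cases h1 : (g : Matrix ι ι F) - 1 = 0
          · exact (mem_scalars_iff g).2 ⟨1, by rw [Units.val_one, one_smul]; exact sub_eq_zero.1 h1⟩
          · obtain ⟨y, -, hy⟩ := hK'.isField.inv _ (K'.sub_mem hgK K'.one_mem) h1
            have hm : (g : Matrix ι ι F) + 1 = 0 := by
              calc (g : Matrix ι ι F) + 1 = (y * ((g : Matrix ι ι F) - 1)) * ((g : Matrix ι ι F) + 1) := by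
                    rw [mul_eq_one_comm.1 hy, one_mul]
                _ = 0 := by rw [mul_assoc, hprod, mul_zero]
            exact (mem_scalars_iff g).2 ⟨-1, by
              rw [Units.val_neg, Units.val_one, neg_one_smul]; exact eq_neg_of_add_eq_zero_left hm⟩
      · exact Or.inr (Or.inl ⟨r, K, hr, hrn, hK, hsa, hle⟩)
    · have hcard : n₁ * n₂ = Fintype.card ι := by simpa using (Fintype.card_congr e).symm
      have hn₁ : Odd n₁ := Nat.Odd.of_mul_left (hcard ▸ hodd)
      have hn₂ : Odd n₂ := Nat.Odd.of_mul_right (hcard ▸ hodd)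
      have h3₁ : 3 ≤ n₁ := by have := hT.two_le_left; obtain ⟨j, rfl⟩ := hn₁; omega
      have h3₂ : 3 ≤ n₂ := by have := hT.two_le_right; obtain ⟨j, rfl⟩ := hn₂; omega
      obtain ⟨C, G₀, h, -⟩ := exists_tensorForm hQ hiso hN hT
      have : Nonempty (Fin n₁) := ⟨⟨0, by omega⟩⟩
      have : Nonempty (Fin n₂) := ⟨⟨0, by omega⟩⟩
      have hC0 : C ≠ 0 := fun e0 => h.det_left.ne_zero (by rw [e0]; exact Matrix.det_zero)
      have hG0 : G₀ ≠ 0 := fun e0 => h.det_right.ne_zero (by rw [e0]; exact Matrix.det_zero)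
      have hsym : Cᵀ ⊗ₖ G₀ᵀ = C ⊗ₖ G₀ := by
        ext p r
        have h1 := h.gram (Pi.single p 1) (Pi.single r 1)
        have h2' := h.gram (Pi.single r 1) (Pi.single p 1)
        rw [QuadraticMap.polar_comm, h1] at h2'
        simpa [Matrix.mulVec_single_one] using h2'.symm
      obtain ⟨⟨c₁, -, hc₁⟩, ⟨c₂, -, hc₂⟩⟩ := exists_smul_of_kronecker hC0 hG0 hsym
      have hCt := symm_of_odd_card hn₁ h.det_left.ne_zero hc₁
      have hGt := symm_of_odd_card hn₂ h.det_right.ne_zero hc₂
      have hfC := isSymmetricForm_matrixForm hCt h.det_left.ne_zero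
      have hfG := isSymmetricForm_matrixForm hGt h.det_right.ne_zero
      rcases lt_trichotomy n₁ n₂ with hlt | heq | hgt
      · exact Or.inr (Or.inr (Or.inl ⟨n₁, n₂, e, P, _, _, h3₁, hlt, hfC, hfG, isTensorForm_of_gram h.gram, hT.le⟩))
      · subst heq
        by_cases hspec : Fintype.card F = 3 ∧ n₁ = 3
        · obtain ⟨hq, rfl⟩ := hspec
          obtain ⟨e', P', c, hsf⟩ := squareFrame_of_tensorCase hQ h2 hiso hN hT
          obtain ⟨D, hD, hle⟩ := hsf.lines hiso hq
          exact Or.inl ⟨9, 1, D, ⟨hD, orth_isometric hiso hirr hD hle⟩, hle⟩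
        · obtain ⟨e', P', hpow, hle⟩ := square_of_gram hn₁ h2 hCt hGt h.det_left.ne_zero h.det_right.ne_zero
            h.gram hT.le
          exact Or.inr (Or.inr (Or.inr (Or.inl ⟨n₁, 2, e', P', _, h3₁, le_rfl, hspec,
            isSymmetricForm_matrixForm Matrix.transpose_one (by simp), hpow, hle⟩)))
      · exact Or.inr (Or.inr (Or.inl ⟨n₂, n₁, _, P, _, _, h3₂, hgt, hfG, hfC, isTensorForm_of_gram h.swap.gram,
          hT.le.trans (tensorProductSubgroup_swap _ _ e P)⟩))
  by_cases hsub : ∀ N, NormalIn N H → ¬ N ≤ scalars ι F → ∀ K : Subfield F, K ≠ ⊤ →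
      ¬ RealisableOver K (matrixSet N)
  swap
  · push Not at hsub
    obtain ⟨N, hN, hNs, K, hK, hreal⟩ := hsub
    exact Or.inr (Or.inr (Or.inr (Or.inr (Or.inl ⟨N, K, hN, habs N hN hNs, hK, hreal⟩))))
  have hHs : ¬ H ≤ scalars ι F := not_le_scalars_of_irreducible (by omega) hirr
  rcases generic_cases (by omega) hHs habs hsub with ⟨R, r, m, hR⟩ | ⟨N, k, L, hN, hNa, hperf, hL⟩ | ⟨P, hP, hcore⟩
  · exfalso
    have hro : Odd r := by
      have h := hR.dim
      have hm : m ≠ 0 := by rintro rfl; simp at h; omega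
      exact (Nat.odd_pow_iff hm).1 (h ▸ hodd)
    have hZ : Nat.card (Subgroup.center R) = r := by
      rcases hR.center_cases with h | ⟨h, -⟩
      · exact h.2
      · exact absurd (h ▸ hro) (by decide)
    haveI : Finite (Subgroup.center R) := Subtype.finite
    haveI : Nontrivial (Subgroup.center R) := by
      rw [← Finite.one_lt_card_iff_nontrivial, hZ]; exact hR.sympType.prime.one_lt
    obtain ⟨z, hz⟩ := exists_ne (1 : Subgroup.center R)
    obtain ⟨s, hs, hs3⟩ := hR.scalar_pow (z : R) (z : R).2 ((hR.mem_scalars_iff_mem_center _).mpr z.2)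
    rw [hZ] at hs3
    obtain ⟨v, hv⟩ : ∃ v, Q v ≠ 0 := by
      by_contra hall
      push Not at hall
      obtain ⟨w, hw, hw1⟩ := exists_singular_pair hQ (by omega)
        (v := Pi.single (Classical.arbitrary ι) (1 : F)) (by simp)
      simp [QuadraticMap.polar, hall] at hw1
    have hsq : s ^ 2 = 1 := by
      have h := hiso _ (hR.normal.le (z : R).2) v
      rw [act_scalar hs, QuadraticMap.map_smul, smul_eq_mul] at h
      exact mul_right_cancel₀ hv (by rw [pow_two, one_mul]; exact h)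
    have hs1 : s = 1 := by
      obtain ⟨j, rfl⟩ := hro
      rwa [pow_succ, pow_mul, hsq, one_pow, one_mul] at hs3
    rw [hs1, one_smul] at hs
    exact hz (Subtype.ext (Subtype.ext (Units.ext hs)))
  · obtain ⟨m, e, P, S, hm, hle, hS, hslot, hconv⟩ := exists_tensorWreath_slots hL.two_le hL.comm
      (hL.iSup_eq.symm ▸ hNa) hL.nonscalar hL.perm (fun i => (hL.trans i).imp fun x hx => hx.2 _ rfl)
    have hk0 : 0 < k := by have := hL.two_le; omega
    have hcard : m ^ k = Fintype.card ι := by simpa using (Fintype.card_congr e).symm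
    have hmodd : Odd m := (Nat.odd_pow_iff hk0.ne').1 (hcard ▸ hodd)
    have hm3 : 3 ≤ m := by obtain ⟨j, rfl⟩ := hmodd; omega
    have : Nonempty (Fin m) := ⟨⟨0, by omega⟩⟩
    have hf := isBilinear_polar Q
    obtain ⟨G₀, d, hd, hG₀, hinvG, hG⟩ := exists_pureMat_of_invariant (σ := RingHom.id F) (by omega) hS k
      (coordGram (polar (⇑Q)) e P) (isUnit_det_coordGram hf (isNondegenerateForm_polar hQ) e P)
      (fun i b hb => by
        obtain ⟨a, ha, hab⟩ := hslot i b hb
        rw [show (pureMat (Pi.mulSingle i b)).map (RingHom.id F) = pureMat (Pi.mulSingle i b) from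
          Matrix.ext fun _ _ => rfl]
        exact coordGram_fixed hf e P
          (fun u v => hiso.polar (hN.le ((le_iSup L i).trans hL.iSup_eq.le ha)) u v) hab)
      hk0
    have hgram : ∀ x y, polar Q (point e P x) (point e P y) =
        d * (x ⬝ᵥ (pureMat (fun _ : Fin k => G₀) *ᵥ y)) := fun x y => by
      rw [point, point, apply_coord hf e P x y, hG, Matrix.smul_mulVec, dotProduct_smul, smul_eq_mul]
    have hprod : ∀ p r : Fin k → Fin m, ∏ i, G₀ (p i) (r i) = ∏ i, G₀ (r i) (p i) := by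
      intro p r
      have h1 := hgram (Pi.single p 1) (Pi.single r 1)
      have h2' := hgram (Pi.single r 1) (Pi.single p 1)
      rw [QuadraticMap.polar_comm, h1] at h2'
      have := mul_left_cancel₀ hd h2'
      simpa [Matrix.mulVec_single_one, pureMat] using this
    have hGne : G₀ ≠ 0 := fun e0 => hG₀.ne_zero (by rw [e0]; exact Matrix.det_zero)
    obtain ⟨i₁, j₁, hij⟩ : ∃ i j, G₀ i j ≠ 0 := by
      by_contra hall
      push Not at hall
      exact hGne (Matrix.ext hall)
    let i₀ : Fin k := ⟨0, hk0⟩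
    have hfix : ∀ a b, G₀ a b * G₀ i₁ j₁ ^ (k - 1) = G₀ b a * G₀ j₁ i₁ ^ (k - 1) := by
      intro a b
      have h := hprod (Function.update (fun _ => i₁) i₀ a) (Function.update (fun _ => j₁) i₀ b)
      rw [← Finset.mul_prod_erase _ _ (Finset.mem_univ i₀), ← Finset.mul_prod_erase _ _ (Finset.mem_univ i₀)] at h
      simp only [Function.update_self] at h
      have hconst : ∀ (x y : Fin m) (u v : Fin m), ∏ l ∈ Finset.univ.erase i₀,
          G₀ (Function.update (fun _ => x) i₀ u l) (Function.update (fun _ => y) i₀ v l) = G₀ x y ^ (k - 1) := by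
        intro x y u v
        rw [Finset.prod_congr rfl (fun l hl => show
            G₀ (Function.update (fun _ => x) i₀ u l) (Function.update (fun _ => y) i₀ v l) = G₀ x y by
          rw [Function.update_of_ne (Finset.ne_of_mem_erase hl), Function.update_of_ne (Finset.ne_of_mem_erase hl)]),
          Finset.prod_const, Finset.card_erase_of_mem (Finset.mem_univ i₀), Finset.card_univ, Fintype.card_fin]
      rw [hconst, hconst] at h
      exact h
    have hji : G₀ j₁ i₁ ≠ 0 := fun h => by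
      have h1 := hfix i₁ j₁
      rw [h, zero_mul] at h1
      exact (mul_ne_zero hij (pow_ne_zero _ hij)) h1
    have hsG : G₀ᵀ = G₀ := symm_of_odd_card hmodd hG₀.ne_zero
      (c := G₀ i₁ j₁ ^ (k - 1) / G₀ j₁ i₁ ^ (k - 1)) (by
        ext a b
        rw [Matrix.transpose_apply, Matrix.smul_apply, smul_eq_mul, div_mul_eq_mul_div,
          eq_div_iff (pow_ne_zero _ hji)]
        linear_combination -hfix a b)
    have hnot : ¬ (Fintype.card F = 3 ∧ m = 3) := by
      rintro ⟨hq, rfl⟩
      haveI := orth_three_solvable hq hsG hG₀.ne_zero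
      let φ : matrixIsometries G₀ →* GL ι F :=
        (MulAut.conj P).toMonoidHom.comp
          ((glReindex e.symm).toMonoidHom.comp ((slotHom i₀).comp (matrixIsometries G₀).subtype))
      have hrange : L i₀ ≤ φ.range := by
        intro a ha
        obtain ⟨b, hb, hab⟩ := hconv i₀ a ha
        have hbG : bᵀ * G₀ * b = G₀ := by
          have h := hinvG b hb
          rwa [show b.map (RingHom.id F) = b from Matrix.ext fun _ _ => rfl] at h
        have hbd : b.det ≠ 0 := fun h0 => hG₀.ne_zero (by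
          rw [← hbG, Matrix.det_mul, Matrix.det_mul, h0, mul_zero])
        refine ⟨⟨Matrix.GeneralLinearGroup.mkOfDetNeZero b hbd, hbG⟩, ?_⟩
        show P * glReindex e.symm (slotHom i₀ (Matrix.GeneralLinearGroup.mkOfDetNeZero b hbd)) * P⁻¹ = a
        have hab' : a * P = P * glReindex e.symm (slotHom i₀ (Matrix.GeneralLinearGroup.mkOfDetNeZero b hbd)) := by
          apply Units.ext
          rw [Units.val_mul, Units.val_mul, hab]
          show _ = (P : Matrix ι ι F) * Matrix.reindex e.symm e.symm (pureMat _)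
          congr 3
          funext l
          by_cases hl : l = i₀
          · subst hl; simp
          · simp [hl]
        rw [← hab', mul_inv_cancel_right]
      haveI : Group.IsSolvable φ.range := Group.isSolvable_of_surjective φ.rangeRestrict_surjective
      haveI : Group.IsSolvable (L i₀) :=
        Group.isSolvable_of_isSolvable_injective (Subgroup.inclusion_injective hrange)
      apply hL.nonscalar i₀
      have hbot : L i₀ = ⊥ := by
        have hc : commutator (L i₀) = ⊤ := by
          apply Subgroup.map_injective (L i₀).subtype_injective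
          rw [Subgroup.map_subtype_commutator, hL.perfect i₀, ← MonoidHom.range_eq_map, Subgroup.range_subtype]
        by_contra hne
        haveI : Nontrivial (L i₀) := (Subgroup.nontrivial_iff_ne_bot _).2 hne
        exact (Group.IsSolvable.commutator_lt_top_of_nontrivial (L i₀)).ne hc
      rw [hbot]
      exact bot_le
    exact Or.inr (Or.inr (Or.inr (Or.inl ⟨m, k, e, P, _, hm3, hL.two_le, hnot,
      isSymmetricForm_matrixForm hsG hG₀.ne_zero, isTensorPower_of_gram hd hgram, hle⟩)))
  · exact Or.inr (Or.inr (Or.inr (Or.inr (Or.inr ⟨P, hcore, no_unitary hQ (by omega) (hiso.mono hP.le)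
      hcore.absIrred (hsub P hP (not_le_scalars_of_irreducible (by omega) hcore.absIrred.1))⟩))))

end OrthEven

namespace OddOrth

open scoped MatrixGroups
open Cfsg.Geo

variable {F : Type*} [Field F] [Fintype F] {m : ℕ}

/-- Every subgroup of `Ω` in odd dimension lies in a member of a geometric class or is in the residual class. -/
theorem omega_odd_structure (hodd : Odd (Fintype.card F)) (hm : 2 ≤ m) {H : Subgroup (GL (OddIdx m) F)}
    (hH : H ≤ omegaGL (Cfsg.quadFormOdd m F)) :
    (∃ M : Subgroup (GL (OddIdx m) F), InOrthogonalOddClass m F M ∧ H ≤ M) ∨ InOrthogonalResidualClass H := by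
  classical
  have h2 : (2 : F) ≠ 0 := CfsgLib.ClassicalForms.two_ne_zero_of_odd (by rwa [Nat.card_eq_fintype_card])
  have hQ : CfsgLib.ClassicalForms.Nondeg (CfsgLib.ClassicalForms.qOdd m F) :=
    CfsgLib.ClassicalForms.nondeg_qOdd h2 m
  have hcard : Fintype.card (OddIdx m) = 2 * m + 1 := by simp; omega
  have heq := quadFormOdd_eq m F
  have hI : H ≤ Cfsg.isometryGroup F (Cfsg.quadFormOdd m F) := fun g hg => by
    obtain ⟨x, -, rfl⟩ := hH hg
    exact x.2
  by_cases hirr : ActsIrreducibly (matrixSet H)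
  swap
  · left
    obtain ⟨W, h0, h1, hle, hW | ⟨-, hW, -⟩⟩ := omega_reducible_case h2 hm hH hirr
    · exact ⟨_, Or.inl ⟨W, h0, hW, rfl⟩, le_inf hle hI⟩
    · exact ⟨_, Or.inr (Or.inl ⟨W, h0, h1, hW, rfl⟩), le_inf hle hI⟩
  have hsubf : ∀ K : Subfield F, ∀ r : ℕ, r.Prime → Fintype.card F = Nat.card K ^ r →
      (∃ P, IsQuadFormRationalStructure (Cfsg.quadFormOdd m F) K P ∧ H ≤ subfieldSubgroup K P) →
      ∃ M : Subgroup (GL (OddIdx m) F), InOrthogonalOddClass m F M ∧ H ≤ M := by
    rintro K r hr hc ⟨P, hrat, hle⟩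
    exact ⟨_, Or.inr (Or.inr (Or.inr (Or.inr (Or.inr (Or.inr (Or.inl ⟨K, r, P, hr, hc, hrat, rfl⟩)))))),
      le_inf hle hI⟩
  have hcard' : Fintype.card (Unit ⊕ (Fin m ⊕ Fin m)) = 2 * m + 1 := hcard
  rcases OrthEven.odd_cases hQ h2 ⟨m, hcard⟩ (by omega) (heq ▸ hH) (hH.trans (omegaGL_le_specialLinear m F)) hirr with
    ⟨t, k, D, hD, hle⟩ | ⟨r, K, hr, hrn, hK, hsa, hle⟩ | ⟨n₁, n₂, e, P, f₁, f₂, h3, hlt, hf₁, hf₂, hten, hle⟩ |
      ⟨k, t, e, P, f₁, hk, ht, hne, hf₁, hpow, hle⟩ | ⟨N, K, hN, habs, hK, hreal⟩ | h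
  · left
    rw [← heq] at hD
    rcases (show 1 < k ∨ k = 1 by have := hD.decomp.decomp.pos; omega) with hk | rfl
    · exact ⟨_, Or.inr (Or.inr (Or.inl ⟨t, k, D, hk, hD, rfl⟩)), le_inf hle hI⟩
    by_cases hp : (Fintype.card F).Prime
    · exact ⟨_, Or.inr (Or.inr (Or.inr (Or.inl ⟨t, D, hp, hD, rfl⟩))), le_inf hle hI⟩
    · obtain ⟨p, hchar⟩ := CharP.exists F
      obtain ⟨e, hpp, hq⟩ := FiniteField.card F p
      haveI := Fact.mk hpp
      have hbot : fixedField (F := F) p 1 ≠ ⊤ := by
        intro htop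
        have h1 := card_fixedField (F := F) (p := p) (k := 1) hq one_pos (one_dvd _)
        rw [htop, pow_one, show Nat.card (⊤ : Subfield F) = Nat.card F from
          Nat.card_congr (Equiv.subtypeUnivEquiv fun x => Subfield.mem_top x), Nat.card_eq_fintype_card] at h1
        exact hp (h1 ▸ hpp)
      obtain ⟨K₁, r, hr, -, hcardK⟩ := exists_prime_index_overfield hbot
      have htn : Fintype.card (OddIdx m) = t := by
        have := OrthEven.decomp_mul_eq hD.decomp.decomp
        omega
      exact hsubf K₁ r hr hcardK (omega_decomposition_subfield h2 hH hirr htn hD hle K₁)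
  · left
    rw [← heq] at hsa
    exact ⟨_, Or.inr (Or.inr (Or.inr (Or.inr (Or.inl ⟨r, K, hr, by omega, hK, hsa, rfl⟩)))), le_inf hle hI⟩
  · left
    rw [← heq] at hten
    exact ⟨_, Or.inr (Or.inr (Or.inr (Or.inr (Or.inr (Or.inl
      ⟨n₁, n₂, e, P, f₁, f₂, h3, hlt, hf₁, hf₂, hten, rfl⟩))))), le_inf hle hI⟩
  · left
    rw [← heq] at hpow
    exact ⟨_, Or.inr (Or.inr (Or.inr (Or.inr (Or.inr (Or.inr (Or.inr
      ⟨k, t, e, P, f₁, hk, ht, hne, hf₁, hpow, rfl⟩)))))), le_inf hle hI⟩
  · left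
    obtain ⟨B, hB⟩ := hreal
    obtain ⟨K₁, r, hr, hle, hcardK⟩ := exists_prime_index_overfield hK
    exact hsubf K₁ r hr hcardK (omega_subfield_case h2 hN hH habs ⟨B, fun s hs i j => hle (hB s hs i j)⟩)
  · exact Or.inr h

end OddOrth

end CfsgLib.SmallDim
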