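import Cfsg.Agent.Lib.SmallDim.OrthEvenGeneric

/-!
Irreducible subgroups of `Ω` in dimension eight of minus type.
-/

set_option autoImplicit false
set_option linter.style.haveILetI false
set_option linter.unusedSectionVars false
set_option linter.unusedSimpArgs false

namespace CfsgLib.SmallDim.OrthEven

open scoped MatrixGroups Matrix commutatorElement
open Cfsg.Geo QuadraticMap CfsgLib.ClassicalForms Module

variable {ι : Type} [Fintype ι] [DecidableEq ι] {F : Type*} [Field F] [Fintype F] {Q : QuadraticForm F (ι → F)}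

lemma orth_sup_left {A B X : Submodule F (ι → F)} (hA : ∀ x ∈ A, ∀ y ∈ X, polar Q x y = 0)
    (hB : ∀ x ∈ B, ∀ y ∈ X, polar Q x y = 0) : ∀ x ∈ A ⊔ B, ∀ y ∈ X, polar Q x y = 0 := by
  intro x hx y hy
  obtain ⟨a, ha, b, hb, rfl⟩ := Submodule.mem_sup.1 hx
  rw [polar_add_left, hA a ha y hy, hB b hb y hy, add_zero]

lemma isometric_sup {A B A' B' : Submodule F (ι → F)} (hd : Disjoint A B) (hd' : Disjoint A' B')
    (ho : ∀ x ∈ A, ∀ y ∈ B, polar Q x y = 0) (ho' : ∀ x ∈ A', ∀ y ∈ B', polar Q x y = 0)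
    (h1 : AreIsometricFor (⇑Q) A A') (h2 : AreIsometricFor (⇑Q) B B') :
    AreIsometricFor (⇑Q) (A ⊔ B) (A' ⊔ B') := by
  classical
  obtain ⟨e₁, he₁⟩ := h1
  obtain ⟨e₂, he₂⟩ := h2
  have hinj : ∀ {X Y : Submodule F (ι → F)}, Disjoint X Y → Function.Injective (X.subtype.coprod Y.subtype) := by
    intro X Y hXY
    rw [injective_iff_map_eq_zero]
    rintro ⟨x, y⟩ hxy
    have h : (x : ι → F) + y = 0 := hxy
    have hx : (x : ι → F) = 0 := Submodule.disjoint_def.mp hXY _ x.2 (by
      rw [eq_neg_of_add_eq_zero_left h]; exact Y.neg_mem y.2)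
    rw [hx, zero_add] at h
    exact Prod.ext (Subtype.ext hx) (Subtype.ext h)
  have hrange : ∀ X Y : Submodule F (ι → F), LinearMap.range (X.subtype.coprod Y.subtype) = X ⊔ Y := fun X Y => by
    rw [LinearMap.range_coprod, Submodule.range_subtype, Submodule.range_subtype]
  let φ := (LinearEquiv.ofInjective _ (hinj hd)).trans (LinearEquiv.ofEq _ _ (hrange A B))
  let φ' := (LinearEquiv.ofInjective _ (hinj hd')).trans (LinearEquiv.ofEq _ _ (hrange A' B'))
  refine ⟨φ.symm.trans ((e₁.prodCongr e₂).trans φ'), fun w => ?_⟩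
  obtain ⟨⟨x, y⟩, rfl⟩ := φ.surjective w
  rw [LinearEquiv.trans_apply, LinearEquiv.symm_apply_apply]
  show Q ((e₁ x : ι → F) + e₂ y) = Q ((x : ι → F) + y)
  rw [QuadraticMap.map_add ⇑Q, QuadraticMap.map_add ⇑Q, he₁, he₂, ho _ x.2 _ y.2, ho' _ (e₁ x).2 _ (e₂ y).2]

lemma nondegenerateOn_sup {A B : Submodule F (ι → F)} (hA : IsNondegenerateOn (polar (⇑Q)) A)
    (hB : IsNondegenerateOn (polar (⇑Q)) B) (ho : ∀ x ∈ A, ∀ y ∈ B, polar Q x y = 0) :
    IsNondegenerateOn (polar (⇑Q)) (A ⊔ B) := by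
  intro x hx hx0
  suffices h : ∃ y ∈ A ⊔ B, polar Q x y ≠ 0 by
    obtain ⟨y, hy, hxy⟩ := h
    exact ⟨⟨y, hy, by rwa [QuadraticMap.polar_comm]⟩, ⟨y, hy, hxy⟩⟩
  obtain ⟨a, ha, b, hb, rfl⟩ := Submodule.mem_sup.1 hx
  by_cases ha0 : a = 0
  · obtain ⟨y, hy, hby⟩ := (hB b hb (by simpa [ha0] using hx0)).2
    exact ⟨y, Submodule.mem_sup_right hy, by rwa [ha0, zero_add]⟩
  · obtain ⟨y, hy, hay⟩ := (hA a ha ha0).2
    refine ⟨y, Submodule.mem_sup_left hy, ?_⟩
    rw [polar_add_left, QuadraticMap.polar_comm (⇑Q) b y, ho y hy b hb, add_zero]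
    exact hay

/-- Two orthogonal pieces with totally singular halves. -/
lemma isPlus_of_halves {X Y : Submodule F (ι → F)} (hd : Disjoint X Y) (ho : ∀ x ∈ X, ∀ y ∈ Y, polar Q x y = 0)
    (hX : ∃ U : Submodule F (ι → F), U ≤ X ∧ (∀ x ∈ U, Q x = 0) ∧ finrank F U = 2)
    (hY : ∃ U : Submodule F (ι → F), U ≤ Y ∧ (∀ x ∈ U, Q x = 0) ∧ finrank F U = 2)
    (hn : Fintype.card ι = 8) : IsPlusTypeOn (⇑Q) ⊤ := by
  obtain ⟨U, hUX, hU, hUd⟩ := hX
  obtain ⟨V, hVY, hV, hVd⟩ := hY
  refine ⟨U ⊔ V, le_top, fun x hx => ?_, ?_⟩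
  · obtain ⟨u, hu, v, hv, rfl⟩ := Submodule.mem_sup.1 hx
    rw [QuadraticMap.map_add ⇑Q, hU u hu, hV v hv, ho u (hUX hu) v (hVY hv), add_zero, add_zero]
  · have h := Submodule.finrank_sup_add_finrank_inf_eq U V
    rw [disjoint_iff.1 (hd.mono hUX hVY), finrank_bot, hUd, hVd, add_zero] at h
    rw [h, finrank_top, finrank_fintype_fun_eq_card, hn]

/-- In dimension eight an orthogonal decomposition makes the form of plus type. -/
theorem isPlus_of_orthDecomp (hn : Fintype.card ι = 8) {H : Subgroup (GL ι F)} (h : OrthDecomp Q H) :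
    IsPlusTypeOn (⇑Q) ⊤ := by
  classical
  obtain ⟨t, m, D, hD, -⟩ := h
  have htm := decomp_mul_eq hD.decomp.decomp
  rw [hn] at htm
  have h2 := hD.decomp.decomp.two_le
  have hnd := hD.decomp.nondegenerate
  have ho : ∀ i j, i ≠ j → ∀ x ∈ D i, ∀ y ∈ D j, polar Q x y = 0 := hD.decomp.orthogonal
  have hdim := hD.decomp.decomp.finrank_eq
  have hind := hD.decomp.decomp.indep
  have hdis4 : ∀ (s s' : Finset (Fin t)), Disjoint s s' → Disjoint (s.sup D) (s'.sup D) := by
    intro s s' hss
    rw [disjoint_iff, eq_bot_iff]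
    intro x hx
    by_contra hx0
    have hnd' : ∀ s : Finset (Fin t), IsNondegenerateOn (polar (⇑Q)) (s.sup D) := by
      intro s
      induction s using Finset.induction_on with
      | empty => intro v hv hv0; exact absurd ((Submodule.mem_bot F).1 (by simpa using hv)) hv0
      | insert a s ha ih =>
        rw [Finset.sup_insert]
        refine nondegenerateOn_sup (hnd a) ih fun u hu y hy => ?_
        have : s.sup D ≤ LinearMap.ker (polarBilin Q u) :=
          Finset.sup_le fun j hj z hz => ho a j (fun e => ha (e ▸ hj)) u hu z hz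
        exact this hy
    obtain ⟨y, hy, hxy⟩ := (hnd' s x hx.1 (by simpa using hx0)).2
    refine hxy ?_
    have : s.sup D ≤ LinearMap.ker (polarBilin Q x) := Finset.sup_le fun i hi z hz => by
      have h' : s'.sup D ≤ LinearMap.ker ((polarBilin Q).flip z) :=
        Finset.sup_le fun j hj w hw => by
          show polar Q w z = 0
          exact ho j i (fun e => Finset.disjoint_left.1 hss (e ▸ hi) hj) w hw z hz
      exact h' hx.2
    exact this hy
  have hpair : ∀ i j, i ≠ j → Disjoint (D i) (D j) := fun i j hij => by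
    simpa using hdis4 {i} {j} (by simpa using hij)
  have ht : t = 2 ∨ t = 4 ∨ t = 8 := by
    have hd : t ∣ 8 := ⟨m, htm.symm⟩
    have := Nat.le_of_dvd (by norm_num) hd
    interval_cases t <;> omega
  rcases ht with rfl | rfl | rfl
  · have hm : m = 4 := by omega
    obtain ⟨U, -, hU, hUd⟩ := exists_singular_of_isometric (hnd 0) ⟨2, by rw [hdim, hm]⟩
      (ho 0 1 (by decide)) (hpair 0 1 (by decide)) (hD.isometric 0 1)
    exact ⟨U, le_top, hU, by rw [hUd, hdim, hm, finrank_top, finrank_fintype_fun_eq_card, hn]⟩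
  · have hm : m = 2 := by omega
    have hhalf : ∀ i j : Fin 4, i ≠ j →
        ∃ U : Submodule F (ι → F), U ≤ D i ⊔ D j ∧ (∀ x ∈ U, Q x = 0) ∧ finrank F U = 2 := fun i j hij => by
      obtain ⟨U, hle, hU, hUd⟩ := exists_singular_of_isometric (hnd i) ⟨1, by rw [hdim, hm]⟩
        (ho i j hij) (hpair i j hij) (hD.isometric i j)
      exact ⟨U, hle, hU, by rw [hUd, hdim, hm]⟩
    refine isPlus_of_halves ?_ (fun x hx => ?_) (hhalf 0 1 (by decide)) (hhalf 2 3 (by decide)) hn
    · simpa using hdis4 {0, 1} {2, 3} (by decide)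
    · revert x
      refine orth_sup_left (fun a ha y hy => ?_) (fun a ha y hy => ?_) <;>
        (obtain ⟨u, hu, v, hv, rfl⟩ := Submodule.mem_sup.1 hy
         rw [polar_add_right, ho _ _ (by decide) a ha u hu, ho _ _ (by decide) a ha v hv, add_zero])
  · have hm : m = 1 := by omega
    have hnd2 : ∀ i j : Fin 8, i ≠ j → IsNondegenerateOn (polar (⇑Q)) (D i ⊔ D j) := fun i j hij =>
      nondegenerateOn_sup (hnd i) (hnd j) (ho i j hij)
    have hdim2 : ∀ i j : Fin 8, i ≠ j → finrank F ↥(D i ⊔ D j) = 2 := fun i j hij => by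
      have h := Submodule.finrank_sup_add_finrank_inf_eq (D i) (D j)
      rw [disjoint_iff.1 (hpair i j hij), finrank_bot, hdim, hdim, hm, add_zero] at h
      exact h
    have horth4 : ∀ i j k l : Fin 8, i ≠ k → i ≠ l → j ≠ k → j ≠ l →
        ∀ x ∈ D i ⊔ D j, ∀ y ∈ D k ⊔ D l, polar Q x y = 0 := by
      intro i j k l h1 h2 h3 h4 x hx y hy
      obtain ⟨a, ha, b, hb, rfl⟩ := Submodule.mem_sup.1 hx
      obtain ⟨c, hc, d, hd, rfl⟩ := Submodule.mem_sup.1 hy
      rw [polar_add_left, polar_add_right, polar_add_right, ho _ _ h1 a ha c hc, ho _ _ h2 a ha d hd,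
        ho _ _ h3 b hb c hc, ho _ _ h4 b hb d hd]
      ring
    have hhalf : ∀ i j k l : Fin 8, i ≠ j → k ≠ l → i ≠ k → i ≠ l → j ≠ k → j ≠ l →
        ∃ U : Submodule F (ι → F), U ≤ (D i ⊔ D j) ⊔ (D k ⊔ D l) ∧ (∀ x ∈ U, Q x = 0) ∧ finrank F U = 2 := by
      intro i j k l hij hkl h1 h2 h3 h4
      obtain ⟨U, hle, hU, hUd⟩ := exists_singular_of_isometric (hnd2 i j hij) ⟨1, hdim2 i j hij⟩
        (horth4 i j k l h1 h2 h3 h4)
        (by
          have := hdis4 {i, j} {k, l} (by simp [h1, h2, h3, h4, h1.symm, h2.symm, h3.symm, h4.symm])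
          simpa using this)
        (isometric_sup (hpair i j hij) (hpair k l hkl) (ho i j hij) (ho k l hkl) (hD.isometric i k)
          (hD.isometric j l))
      exact ⟨U, hle, hU, by rw [hUd, hdim2 i j hij]⟩
    refine isPlus_of_halves (X := (D 0 ⊔ D 1) ⊔ (D 2 ⊔ D 3)) (Y := (D 4 ⊔ D 5) ⊔ (D 6 ⊔ D 7)) ?_ ?_
      (hhalf 0 1 2 3 (by decide) (by decide) (by decide) (by decide) (by decide) (by decide))
      (hhalf 4 5 6 7 (by decide) (by decide) (by decide) (by decide) (by decide) (by decide)) hn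
    · simpa [sup_assoc] using hdis4 {0, 1, 2, 3} {4, 5, 6, 7} (by decide)
    · intro x hx y hy
      obtain ⟨a, ha, b, hb, rfl⟩ := Submodule.mem_sup.1 hx
      obtain ⟨c, hc, d, hd, rfl⟩ := Submodule.mem_sup.1 hy
      rw [polar_add_left, polar_add_right, polar_add_right]
      rw [horth4 0 1 4 5 (by decide) (by decide) (by decide) (by decide) a ha c hc,
        horth4 0 1 6 7 (by decide) (by decide) (by decide) (by decide) a ha d hd,
        horth4 2 3 4 5 (by decide) (by decide) (by decide) (by decide) b hb c hc,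
        horth4 2 3 6 7 (by decide) (by decide) (by decide) (by decide) b hb d hd]
      ring

/-- A non-scalar involutory isometry with an isometry negating it gives plus type. -/
lemma isPlus_of_involution (hQ : Nondeg Q) (hn : Fintype.card ι = 8) (h2 : (2 : F) ≠ 0) {a b : GL ι F}
    (ha : ∀ v, Q (act a v) = Q v) (hb : ∀ v, Q (act b v) = Q v)
    (ha2 : (a : Matrix ι ι F) * a = 1)
    (hab : (a : Matrix ι ι F) * b = -((b : Matrix ι ι F) * a)) : IsPlusTypeOn (⇑Q) ⊤ := by
  classical
  have hpa : ∀ u v, polar Q (act a u) (act a v) = polar Q u v := fun u v => by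
    simp only [QuadraticMap.polar]
    rw [show act a u + act a v = act a (u + v) from (Matrix.mulVec_add _ _ _).symm, ha, ha, ha]
  let Ep : Submodule F (ι → F) := LinearMap.ker (Matrix.toLin' ((a : Matrix ι ι F) - 1))
  let Em : Submodule F (ι → F) := LinearMap.ker (Matrix.toLin' ((a : Matrix ι ι F) + 1))
  have hp : ∀ v, v ∈ Ep ↔ act a v = v := fun v => by
    simp [Ep, act, Matrix.toLin'_apply, Matrix.sub_mulVec, sub_eq_zero]
  have hm : ∀ v, v ∈ Em ↔ act a v = -v := fun v => by
    simp [Em, act, Matrix.toLin'_apply, Matrix.add_mulVec, add_eq_zero_iff_eq_neg]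
  have haa : ∀ v, act a (act a v) = v := fun v => by
    simp [act, Matrix.mulVec_mulVec, ha2]
  have hdis : Disjoint Ep Em := Submodule.disjoint_def.mpr fun v h1 h2' => by
    have e : v = -v := ((hp v).1 h1).symm.trans ((hm v).1 h2')
    have : (2 : F) • v = 0 := by
      rw [two_smul]; nth_rewrite 2 [e]; exact add_neg_cancel v
    exact (smul_eq_zero.mp this).resolve_left h2
  have ho : ∀ x ∈ Ep, ∀ y ∈ Em, polar Q x y = 0 := fun x hx y hy => by
    have h := hpa x y
    rw [(hp x).1 hx, (hm y).1 hy, polar_neg_right] at h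
    exact (mul_eq_zero.mp (show (2 : F) * polar Q x y = 0 by linear_combination -h)).resolve_left h2
  have hsup : Ep ⊔ Em = ⊤ := by
    rw [eq_top_iff]
    intro v _
    have h1 : (2 : F)⁻¹ • (v + act a v) ∈ Ep := Ep.smul_mem _ ((hp _).2 (by
      rw [act, Matrix.mulVec_add]; change act a v + act a (act a v) = _; rw [haa, add_comm]))
    have h2' : (2 : F)⁻¹ • (v - act a v) ∈ Em := Em.smul_mem _ ((hm _).2 (by
      rw [act, Matrix.mulVec_sub]; change act a v - act a (act a v) = _; rw [haa, neg_sub]))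
    have := Submodule.add_mem_sup h1 h2'
    rwa [← smul_add, show v + act a v + (v - act a v) = (2 : F) • v by rw [two_smul]; abel, smul_smul,
      inv_mul_cancel₀ h2, one_smul] at this
  have hbp : ∀ v ∈ Ep, act b v ∈ Em := fun v hv => (hm _).2 (by
    rw [← act_mul]
    show ((a * b : GL ι F) : Matrix ι ι F) *ᵥ v = _
    rw [Units.val_mul, hab, Matrix.neg_mulVec, ← Matrix.mulVec_mulVec]
    exact congrArg (fun w => -((b : Matrix ι ι F) *ᵥ w)) ((hp v).1 hv))
  have hbm : ∀ v ∈ Em, act b v ∈ Ep := fun v hv => (hp _).2 (by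
    rw [← act_mul]
    show ((a * b : GL ι F) : Matrix ι ι F) *ᵥ v = _
    rw [Units.val_mul, hab, Matrix.neg_mulVec, ← Matrix.mulVec_mulVec,
      show (a : Matrix ι ι F) *ᵥ v = -v from (hm v).1 hv, Matrix.mulVec_neg, neg_neg])
  let eb : Ep →ₗ[F] Em := ((Matrix.toLin' (b : Matrix ι ι F)).domRestrict Ep).codRestrict Em fun w => by
    simpa [Matrix.toLin'_apply, act] using hbp w w.2
  let eb' : Em →ₗ[F] Ep := ((Matrix.toLin' (b : Matrix ι ι F)).domRestrict Em).codRestrict Ep fun w => by
    simpa [Matrix.toLin'_apply, act] using hbm w w.2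
  have heinj : Function.Injective eb := fun x y hxy => Subtype.ext (act_injective b (by
    simpa [eb, Matrix.toLin'_apply] using congrArg Subtype.val hxy))
  have heinj' : Function.Injective eb' := fun x y hxy => Subtype.ext (act_injective b (by
    simpa [eb', Matrix.toLin'_apply] using congrArg Subtype.val hxy))
  have hle1 := LinearMap.finrank_le_finrank_of_injective heinj
  have hle2 := LinearMap.finrank_le_finrank_of_injective heinj'
  have hsum := Submodule.finrank_sup_add_finrank_inf_eq Ep Em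
  rw [hsup, disjoint_iff.1 hdis, finrank_bot, finrank_top, finrank_fintype_fun_eq_card, hn] at hsum
  have hnd : IsNondegenerateOn (polar (⇑Q)) Ep := by
    intro x hx hx0
    suffices h : ∃ y ∈ Ep, polar Q x y ≠ 0 by
      obtain ⟨y, hy, hxy⟩ := h
      exact ⟨⟨y, hy, by rwa [QuadraticMap.polar_comm]⟩, ⟨y, hy, hxy⟩⟩
    by_contra hall
    push Not at hall
    refine hx0 (hQ x fun y => ?_)
    obtain ⟨u, hu, w, hw, rfl⟩ := Submodule.mem_sup.1 (hsup ▸ Submodule.mem_top : y ∈ Ep ⊔ Em)
    rw [polar_add_right, hall u hu, ho x hx w hw, add_zero]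
  obtain ⟨U, -, hU, hUd⟩ := exists_singular_of_isometric hnd ⟨2, by omega⟩ ho hdis
    ⟨eb.linearEquivOfInjective heinj (by omega), fun w => hb (w : ι → F)⟩
  exact ⟨U, le_top, hU, by rw [hUd, finrank_top, finrank_fintype_fun_eq_card, hn]; omega⟩

variable {H : Subgroup (GL ι F)}

/-- No symplectic type normal subgroup in minus type. -/
theorem isPlus_of_symplGen (hQ : Nondeg Q) (hn : Fintype.card ι = 8) (hiso : Isometric Q H)
    {R : Subgroup (GL ι F)} {r m : ℕ} (h : SymplGen H R r m) : IsPlusTypeOn (⇑Q) ⊤ := by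
  classical
  have : Nonempty ι := Fintype.card_pos_iff.mp (by omega)
  have hr := h.sympType.prime
  have hr2 : r = 2 := by
    have h8 : (2 : ℕ) ∣ r ^ m := by rw [← h.dim, hn]; norm_num
    exact ((Nat.prime_dvd_prime_iff_eq Nat.prime_two hr).1 (Nat.prime_two.dvd_of_dvd_pow h8)).symm
  subst hr2
  have hm : m = 3 := by
    have h8 : 2 ^ m = 2 ^ 3 := by rw [← h.dim, hn]; norm_num
    exact Nat.pow_right_injective le_rfl h8
  subst hm
  have h2 : (2 : F) ≠ 0 := fun e => h.card_ne_zero (by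
    rw [hn, show ((8 : ℕ) : F) = 2 * 4 by norm_num, e, zero_mul])
  have hR : Isometric Q R := hiso.mono h.normal.le
  obtain ⟨v₀, hv₀⟩ : ∃ v, Q v ≠ 0 := by
    by_contra hall
    push Not at hall
    obtain ⟨i⟩ := ‹Nonempty ι›
    have := hQ (Pi.single i 1) fun y => by simp [QuadraticMap.polar, hall]
    simpa using congrFun this i
  have hsc : ∀ g ∈ R, g ∈ scalars ι F → (g : Matrix ι ι F) = 1 ∨ (g : Matrix ι ι F) = -1 := by
    intro g hg hgs
    obtain ⟨c, hc⟩ := (mem_scalars_iff g).1 hgs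
    have h1 := hR g hg v₀
    rw [act_scalar hc, QuadraticMap.map_smul, smul_eq_mul] at h1
    have hcc : (c : F) * c = 1 := mul_right_cancel₀ hv₀ (h1.trans (one_mul _).symm)
    rcases mul_self_eq_one_iff.mp hcc with e | e <;> rw [hc, e] <;> simp
  have hco : ∀ x ∈ R, ∀ y ∈ R, (x : Matrix ι ι F) * y = (y : Matrix ι ι F) * x ∨
      (x : Matrix ι ι F) * y = -((y : Matrix ι ι F) * x) := by
    intro x hx y hy
    have hxy : x * y = ⁅x, y⁆ * (y * x) := by rw [commutatorElement_def]; group
    have hxy' : (x : Matrix ι ι F) * y = (⁅x, y⁆ : GL ι F) * ((y : Matrix ι ι F) * x) := by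
      rw [← Units.val_mul, hxy, Units.val_mul, Units.val_mul]
    have hcm : ⁅x, y⁆ ∈ R := by
      rw [commutatorElement_def]
      exact R.mul_mem (R.mul_mem (R.mul_mem hx hy) (R.inv_mem hx)) (R.inv_mem hy)
    rcases hsc _ hcm (h.comm_scalar x hx y hy) with e | e <;> rw [e] at hxy'
    · left; rwa [one_mul] at hxy'
    · right; rwa [neg_one_mul] at hxy'
  have hcomm : ∀ g : GL ι F, (∀ y ∈ R, (g : Matrix ι ι F) * y = (y : Matrix ι ι F) * g) →
      ∃ c : F, (g : Matrix ι ι F) = c • 1 := fun g hg => h.absIrred.2 _ (by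
    rintro _ ⟨y, hy, rfl⟩; exact hg y hy)
  have hsq : ∀ x ∈ R, (x : Matrix ι ι F) * x = 1 ∨ (x : Matrix ι ι F) * x = -1 := by
    intro x hx
    rw [← Units.val_mul]
    refine hsc _ (R.mul_mem hx hx) ?_
    obtain ⟨c, hc⟩ := hcomm (x * x) fun y hy => by
      rw [Units.val_mul]
      rcases hco x hx y hy with e | e
      · rw [mul_assoc, e, ← mul_assoc, e, mul_assoc]
      · rw [mul_assoc, e, mul_neg, ← mul_assoc, e, neg_mul, neg_neg, mul_assoc]
    exact mem_scalars_of_act c fun v => act_scalar hc v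
  have hne : ∀ g : GL ι F, (g : Matrix ι ι F) ≠ 0 := fun g => g.ne_zero
  have hnn : ∀ X : Matrix ι ι F, X = -X → X = 0 := fun X hX => Matrix.ext fun i j => by
    have h1 : X i j = -X i j := congrFun (congrFun hX i) j
    exact (mul_eq_zero.mp (show (2 : F) * X i j = 0 by linear_combination h1)).resolve_left h2
  -- a non-scalar involution and an element negating it
  suffices key : ∃ a ∈ R, (a : Matrix ι ι F) * a = 1 ∧ ∃ b ∈ R, (a : Matrix ι ι F) * b = -((b : Matrix ι ι F) * a) by
    obtain ⟨a, ha, ha2, b, hb, hab⟩ := key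
    exact isPlus_of_involution hQ hn h2 (hR a ha) (hR b hb) ha2 hab
  obtain ⟨x, hx, y, hy, hxy⟩ : ∃ x ∈ R, ∃ y ∈ R, (x : Matrix ι ι F) * y = -((y : Matrix ι ι F) * x) := by
    by_contra hall
    push Not at hall
    exact not_commutative_of_absIrred (by omega) h.absIrred fun a ha b hb => Units.ext (by
      rw [Units.val_mul, Units.val_mul]
      exact (hco a ha b hb).resolve_right (hall a ha b hb))
  rcases hsq x hx with ex | ex
  · exact ⟨x, hx, ex, y, hy, hxy⟩
  rcases hsq y hy with ey | ey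
  · exact ⟨y, hy, ey, x, hx, by rw [hxy, neg_neg]⟩
  -- an element commuting with both
  set X : Matrix ι ι F := ↑x
  set Y : Matrix ι ι F := ↑y
  obtain ⟨z, hz, hzx, hzy, hzs⟩ : ∃ z ∈ R, (z : Matrix ι ι F) * X = X * z ∧ (z : Matrix ι ι F) * Y = Y * z ∧
      ∀ c : F, (z : Matrix ι ι F) ≠ c • 1 := by
    by_contra hall
    push Not at hall
    have hmem : ∀ w ∈ R, w ∈ ({x, y, x * y, 1, x * x * x, x * x * y, x * x * (x * y), x * x} : Finset (GL ι F)) := by
      intro w hw
      -- correct `w` by one of `1, x, y, x y`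
      obtain ⟨u, hu, hux, huy, hu'⟩ : ∃ u ∈ R, ((w : Matrix ι ι F) * u * X = X * ((w : Matrix ι ι F) * u)) ∧
          ((w : Matrix ι ι F) * u * Y = Y * ((w : Matrix ι ι F) * u)) ∧
          u ∈ ({x, y, x * y, 1} : Finset (GL ι F)) := by
        have hpp : ∀ W U A : Matrix ι ι F, W * A = A * W → U * A = A * U → W * U * A = A * (W * U) :=
          fun W U A e e' => by rw [mul_assoc, e', ← mul_assoc, e, mul_assoc]
        have hmm : ∀ W U A : Matrix ι ι F, W * A = -(A * W) → U * A = -(A * U) → W * U * A = A * (W * U) :=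
          fun W U A e e' => by rw [mul_assoc, e', mul_neg, ← mul_assoc, e, neg_mul, neg_neg, mul_assoc]
        have hyx : Y * X = -(X * Y) := by rw [hxy, neg_neg]
        rcases hco w hw x hx with e1 | e1 <;> rcases hco w hw y hy with e2 | e2
        · exact ⟨1, R.one_mem, by simp [X, e1], by simp [Y, e2], by simp⟩
        · exact ⟨x, hx, hpp _ _ _ e1 rfl, hmm _ _ _ e2 hxy, by simp⟩
        · exact ⟨y, hy, hmm _ _ _ e1 hyx, hpp _ _ _ e2 rfl, by simp⟩
        · refine ⟨x * y, R.mul_mem hx hy, ?_, ?_, by simp⟩ <;> rw [Units.val_mul x y]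
          · exact hmm _ _ _ e1 (by rw [mul_assoc, hyx, mul_neg])
          · exact hmm _ _ _ e2 (by rw [← mul_assoc Y, hyx, neg_mul, neg_neg])
      obtain ⟨c, hc⟩ := hall (w * u) (R.mul_mem hw hu) (by rw [Units.val_mul]; exact hux)
        (by rw [Units.val_mul]; exact huy)
      have hxx : ((x * x : GL ι F) : Matrix ι ι F) = -1 := by rw [Units.val_mul]; exact ex
      have hyy : y * y = x * x := Units.ext (by rw [Units.val_mul, Units.val_mul]; exact ey.trans ex.symm)
      have hu2 : u * u = 1 ∨ u * u = x * x := by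
        simp only [Finset.mem_insert, Finset.mem_singleton] at hu'
        rcases hu' with rfl | rfl | rfl | rfl
        · exact Or.inr rfl
        · exact Or.inr hyy
        · rcases hsq _ hu with e | e
          · exact Or.inl (Units.ext (by rw [Units.val_mul]; exact e))
          · exact Or.inr (Units.ext (by rw [hxx, Units.val_mul]; exact e))
        · exact Or.inl (mul_one 1)
      have hwu : w * u = 1 ∨ w * u = x * x := by
        rcases hsc _ (R.mul_mem hw hu) (mem_scalars_of_act c fun v => act_scalar hc v) with e | e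
        · exact Or.inl (Units.ext e)
        · exact Or.inr (Units.ext (e.trans hxx.symm))
      have hx4 : x * x * (x * x) = 1 := Units.ext (by rw [Units.val_mul, hxx]; simp)
      have hw' : w = u ∨ w = x * x * u := by
        have hu' : ∀ s, w * u = s → w = s * u⁻¹ := fun s hs => by rw [← hs]; group
        rcases hwu with e | e <;> rcases hu2 with e' | e'
        · left; rw [hu' _ e, inv_eq_of_mul_eq_one_left e']; group
        · right
          rw [hu' _ e, one_mul, inv_eq_of_mul_eq_one_left (show x * x * u * u = 1 by rw [mul_assoc, e', hx4])]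
        · right; rw [hu' _ e, inv_eq_of_mul_eq_one_left e']
        · left
          rw [hu' _ e, inv_eq_of_mul_eq_one_left (show x * x * u * u = 1 by rw [mul_assoc, e', hx4]),
            ← mul_assoc, hx4, one_mul]
      simp only [Finset.mem_insert, Finset.mem_singleton] at hu' ⊢
      rcases hw' with rfl | rfl <;> rcases hu' with rfl | rfl | rfl | rfl <;> simp
    have hcard : Nat.card R ≤ 8 := by
      rw [← SetLike.coe_sort_coe, Nat.card_coe_set_eq]
      refine (Set.ncard_le_ncard (t := (↑({x, y, x * y, 1, x * x * x, x * x * y, x * x * (x * y), x * x} :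
        Finset (GL ι F)) : Set (GL ι F))) (fun w hw => hmem w hw) (Finset.finite_toSet _)).trans ?_
      rw [Set.ncard_coe_finset]
      iterate 7 refine (Finset.card_insert_le _ _).trans (Nat.succ_le_succ ?_)
      simp
    rw [h.card_eq] at hcard
    have hZ : 0 < Nat.card (Subgroup.center R) := Nat.card_pos
    rw [show (2 : ℕ) ^ (2 * 3) = 64 by norm_num] at hcard
    omega
  rcases hsq z hz with ez | ez
  · by_contra hno
    push Not at hno
    obtain ⟨c, hc⟩ := hcomm z fun w hw => (hco z hz w hw).resolve_right (hno z hz ez w hw)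
    exact hzs c hc
  · refine ⟨x * z, R.mul_mem hx hz, ?_, y, hy, ?_⟩
    · rw [Units.val_mul, mul_assoc, ← mul_assoc (z : Matrix ι ι F), hzx, mul_assoc, ← mul_assoc X, ex, ez]
      simp
    · rw [Units.val_mul, mul_assoc, hzy, ← mul_assoc, hxy, neg_mul, mul_assoc]

/-- No commuting conjugates in minus type. -/
theorem isPlus_of_inducedData (hQ : Nondeg Q) (hn : Fintype.card ι = 8) (hH : H ≤ omegaGL (⇑Q))
    (hbad : IsPlusTypeOn (⇑Q) ⊤ → Odd (Fintype.card ι / 2))
    {N : Subgroup (GL ι F)} {k : ℕ} {L : Fin k → Subgroup (GL ι F)} (hN : NormalIn N H)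
    (habs : ActsAbsolutelyIrreducibly (matrixSet N)) (hperf : ⁅N, N⁆ = N) (h : InducedData H N k L) :
    IsPlusTypeOn (⇑Q) ⊤ := by
  classical
  have : Nonempty ι := Fintype.card_pos_iff.mp (by omega)
  let i₀ : Fin k := ⟨0, by have := h.two_le; omega⟩
  let i₁ : Fin k := ⟨1, by have := h.two_le; omega⟩
  have hS : SmallEven Q := ⟨hQ, by omega, hbad, fun r hr hodd hdvd => by
      rw [hn] at hdvd
      have h2 := (Nat.prime_dvd_prime_iff_eq hr Nat.prime_two).1 (hr.dvd_of_dvd_pow (n := 3) (by simpa using hdvd))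
      rw [h2] at hodd
      exact absurd hodd (by decide),
    fun a b hab ha hb => by
      rw [hn] at hab
      have : a ≤ 4 := by nlinarith
      interval_cases a <;> omega⟩
  have hL : NormalIn (L i₀) N := by
    refine ⟨h.iSup_eq ▸ le_iSup L i₀, fun g hg x hx => ?_⟩
    have hle : N ≤ Subgroup.normalizer (L i₀ : Set (GL ι F)) := by
      rw [← h.iSup_eq]
      refine iSup_le fun j => ?_
      by_cases hj : j = i₀
      · subst hj; exact Subgroup.le_normalizer
      · intro a ha
        rw [Subgroup.mem_normalizer_iff]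
        intro b
        refine ⟨fun hb => ?_, fun hb => ?_⟩
        · rwa [h.comm j i₀ hj a ha b hb, mul_inv_cancel_right]
        · have h1 := h.comm j i₀ hj a ha _ hb
          have h2 : a * (a * b * a⁻¹) = a * b := by
            rw [h1]; group
          have h3 : a * b * a⁻¹ = b := mul_left_cancel h2
          rwa [h3] at hb
    exact (Subgroup.mem_normalizer_iff.1 (hle hg) x).1 hx
  rcases normal_cases hS (hN.le.trans hH) habs.1 hL (h.nonscalar i₀) with h' | h' | h'
  · exfalso
    refine h.nonscalar i₁ fun b hb => ?_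
    obtain ⟨c, hc⟩ := h'.2 _ (by
      rintro _ ⟨a, ha, rfl⟩
      exact congrArg Units.val (h.comm i₁ i₀ (by simp [i₁, i₀, Fin.ext_iff]) b hb a ha))
    exact mem_scalars_of_act c fun v => act_scalar hc v
  · exact isPlus_of_orthDecomp hn h'
  · exact absurd h' (not_quadField_of_perfect habs hperf)

/-- Irreducible subgroups in dimension eight of minus type. -/
theorem eight_cases (hQ : Nondeg Q) (hn : Fintype.card ι = 8) (hminus : ¬ IsPlusTypeOn (⇑Q) ⊤)
    (hH : H ≤ omegaGL (⇑Q)) (hirr : ActsIrreducibly (matrixSet H)) :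
    QuadField Q H ∨ (∃ (K : Subfield F) (r : ℕ) (P : GL ι F) (ζ : F), r.Prime ∧ Odd r ∧
      Fintype.card F = Nat.card K ^ r ∧ K ≠ ⊤ ∧ ζ ≠ 0 ∧
      IsQuadFormRationalStructure (fun v => ζ * Q v) K P ∧ H ≤ subfieldSubgroup K P) ∨
    InOrthogonalResidualClass H := by
  have hbad : IsPlusTypeOn (⇑Q) ⊤ → Odd (Fintype.card ι / 2) := fun h => absurd h hminus
  have hS : SmallEven Q := ⟨hQ, by omega, hbad, fun r hr hodd hdvd => by
      rw [hn] at hdvd
      have h2 := (Nat.prime_dvd_prime_iff_eq hr Nat.prime_two).1 (hr.dvd_of_dvd_pow (n := 3) (by simpa using hdvd))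
      rw [h2] at hodd
      exact absurd hodd (by decide),
    fun a b hab ha hb => by
      rw [hn] at hab
      have : a ≤ 4 := by nlinarith
      interval_cases a <;> omega⟩
  rcases irreducible_cases hS hH hirr with h | h | ⟨K, r, P, ζ, hr, hcard, hK, hζ, hrat, hle⟩ | h |
    ⟨R, r, m, h⟩ | ⟨N, k, L, hN, habs, hperf, h⟩
  · exact absurd (isPlus_of_orthDecomp hn h) hminus
  · exact Or.inl h
  · refine Or.inr (Or.inl ⟨K, r, P, ζ, hr, hr.eq_two_or_odd'.resolve_left ?_, hcard, hK, hζ, hrat, hle⟩)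
    rintro rfl
    exact hminus (isPlus_of_index_two (m := 4) (by omega) (by norm_num) hcard hζ hrat)
  · exact Or.inr (Or.inr h)
  · exact absurd (isPlus_of_symplGen hQ hn (isometric_of_le_omega hH) h) hminus
  · exact absurd (isPlus_of_inducedData hQ hn hH hbad hN habs hperf h) hminus

end CfsgLib.SmallDim.OrthEven
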