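import Cfsg.Agent.Lib.SmallDim.OrthEvenEight

/-!
Frames: bases in which a group of isometries has its coefficients in a small field, decompositions into planes
over very small fields, and the type of a form given by orthogonal decompositions in dimension ten.
-/

set_option autoImplicit false
set_option linter.style.haveILetI false
set_option linter.unusedSectionVars false
set_option linter.unusedSimpArgs false

namespace CfsgLib.SmallDim.OrthEven

open scoped MatrixGroups Matrix
open Cfsg.Geo QuadraticMap CfsgLib.ClassicalForms Module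

variable {ι : Type} [Fintype ι] [DecidableEq ι] {F : Type*} [Field F] [Fintype F] {Q : QuadraticForm F (ι → F)}
variable {H : Subgroup (GL ι F)}

lemma ts_span {κ : Type*} {e : κ → ι → F} (h0 : ∀ i, Q (e i) = 0) (h1 : ∀ i j, polar Q (e i) (e j) = 0) :
    ∀ z ∈ Submodule.span F (Set.range e), Q z = 0 := by
  suffices key : ∀ z ∈ Submodule.span F (Set.range e), Q z = 0 ∧ ∀ i, polar Q z (e i) = 0 from
    fun z hz => (key z hz).1
  intro z hz
  induction hz using Submodule.span_induction with
  | mem z hz => obtain ⟨i, rfl⟩ := hz; exact ⟨h0 i, h1 i⟩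
  | zero => simp
  | add a c ha hc iha ihc =>
    refine ⟨?_, fun i => by rw [polar_add_left, iha.2, ihc.2, add_zero]⟩
    rw [QuadraticMap.map_add ⇑Q, iha.1, ihc.1, zero_add, zero_add]
    have hle : Submodule.span F (Set.range e) ≤ LinearMap.ker (polarBilin Q a) :=
      Submodule.span_le.mpr (by rintro _ ⟨i, rfl⟩; exact iha.2 i)
    exact hle hc
  | smul s a ha iha =>
    exact ⟨by rw [QuadraticMap.map_smul, iha.1, smul_zero], fun i => by rw [polar_smul_left, iha.2, smul_zero]⟩

/-- A basis with respect to which the group has coefficients in `K` and the form values in a multiple of `K`. -/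
theorem subfield_of_frame {K : Subfield F} {e : ι → ι → F} (hli : LinearIndependent F e) {ζ : F}
    (hQe : ∀ i, ζ * Q (e i) ∈ K) (hpol : ∀ i j, i ≠ j → ζ * polar Q (e i) (e j) ∈ K)
    (hact : ∀ g ∈ H, ∀ j, ∃ c : ι → F, (∀ i, c i ∈ K) ∧ act g (e j) = ∑ i, c i • e i) :
    ∃ P : GL ι F, IsQuadFormRationalStructure (fun v => ζ * Q v) K P ∧ H ≤ subfieldSubgroup K P := by
  classical
  let Pm : Matrix ι ι F := Matrix.of fun a b => e b a
  obtain ⟨P, hP⟩ := Matrix.mulVec_injective_iff_isUnit.mp
    (Matrix.mulVec_injective_iff.mpr (show LinearIndependent F Pm.col from hli))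
  have hPc : ∀ c : ι → F, Pm *ᵥ c = ∑ i, c i • e i := fun c => by
    funext a
    simp [Pm, Matrix.mulVec, dotProduct, Finset.sum_apply, mul_comm]
  refine ⟨P, fun u hu => ?_, fun g hg => ?_⟩
  · show ζ * Q ((P : Matrix ι ι F) *ᵥ u) ∈ K
    rw [hP, hPc]
    have key : ∀ s : Finset ι, ζ * Q (∑ i ∈ s, u i • e i) ∈ K ∧
        ∀ j, j ∉ s → ζ * polar Q (e j) (∑ i ∈ s, u i • e i) ∈ K := by
      intro s
      induction s using Finset.induction_on with
      | empty => simp [K.zero_mem]
      | insert a s ha ih =>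
        refine ⟨?_, fun j hj => ?_⟩
        · rw [Finset.sum_insert ha, QuadraticMap.map_add ⇑Q, QuadraticMap.map_smul, polar_smul_left,
            smul_eq_mul, smul_eq_mul, mul_add, mul_add, mul_left_comm ζ (u a * u a), mul_left_comm ζ (u a)]
          exact K.add_mem (K.add_mem (K.mul_mem (K.mul_mem (hu a) (hu a)) (hQe a)) ih.1)
            (K.mul_mem (hu a) (ih.2 a ha))
        · rw [Finset.mem_insert, not_or] at hj
          rw [Finset.sum_insert ha, polar_add_right, polar_smul_right, smul_eq_mul, mul_add, mul_left_comm]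
          exact K.add_mem (K.mul_mem (hu a) (hpol j a hj.1)) (ih.2 j hj.2)
    exact (key Finset.univ).1
  · rw [mem_subfieldSubgroup]
    refine ⟨P⁻¹ * g * P, 1, fun a b => ?_, one_mem _, by group⟩
    obtain ⟨c, hc, hgc⟩ := hact g hg b
    have hval : act (P⁻¹ * g * P) (Pi.single b 1) = c := by
      apply act_injective P
      rw [← act_mul, show P * (P⁻¹ * g * P) = g * P by group, act_mul]
      show act g ((P : Matrix ι ι F) *ᵥ Pi.single b 1) = (P : Matrix ι ι F) *ᵥ c
      rw [hP, hPc c, ← hgc, Matrix.mulVec_single_one]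
      rfl
    have h3 := congrFun hval a
    simp only [act, Matrix.mulVec_single_one, Matrix.col_apply] at h3
    rw [h3]
    exact hc a

/-- A proper subfield of prime index, when the field is not a prime field. -/
lemma exists_subfield_of_not_prime (hp : ¬ (Fintype.card F).Prime) :
    ∃ (K : Subfield F) (r : ℕ), r.Prime ∧ Fintype.card F = Nat.card K ^ r ∧ K ≠ ⊤ := by
  classical
  obtain ⟨p, hchar⟩ := CharP.exists F
  obtain ⟨e, hpp, hq⟩ := FiniteField.card F p
  haveI := Fact.mk hpp
  have hbot : fixedField (F := F) p 1 ≠ ⊤ := by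
    intro htop
    have h1 := card_fixedField (F := F) (p := p) (k := 1) hq one_pos (one_dvd _)
    rw [htop, pow_one, show Nat.card (⊤ : Subfield F) = Nat.card F from
      Nat.card_congr (Equiv.subtypeUnivEquiv fun x => Subfield.mem_top x), Nat.card_eq_fintype_card] at h1
    exact hp (h1 ▸ hpp)
  obtain ⟨K, r, hr, -, hcard⟩ := exists_prime_index_overfield hbot
  exact ⟨K, r, hr, hcard, ne_top_of_card hr hcard⟩

lemma one_or_neg_one_mem {K : Subfield F} {s : F} (h : s = 1 ∨ s = -1) : s ∈ K := by
  rcases h with rfl | rfl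
  · exact K.one_mem
  · exact K.neg_mem K.one_mem

/-- The lines of an orthogonal decomposition of dimension one give a frame. -/
theorem exists_line_frame (hiso : Isometric Q H) (hirr : ActsIrreducibly (matrixSet H)) {t : ℕ}
    {D : Fin t → Submodule F (ι → F)} (hD : IsOrthogonalMDecomposition (⇑Q) 1 D)
    (hle : H ≤ decompositionStabilizer D) :
    ∃ (e : ι → ι → F) (lam : F), (2 : F) ≠ 0 ∧ lam ≠ 0 ∧ LinearIndependent F e ∧ (∀ i, Q (e i) = lam) ∧
      (∀ i j, i ≠ j → polar Q (e i) (e j) = 0) ∧
      ∀ g ∈ H, ∀ j, ∃ (i : ι) (s : F), (s = 1 ∨ s = -1) ∧ act g (e j) = s • e i := by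
  classical
  have hd := hD.decomp.decomp
  have h2 : (2 : F) ≠ 0 := fun h => by
    have := even_finrank_of_two_eq_zero h (hD.decomp.nondegenerate ⟨0, by have := hd.two_le; omega⟩)
    rw [hd.finrank_eq] at this
    exact absurd this (by decide)
  have hcard : Fintype.card ι = t := by rw [← decomp_mul_eq hd, mul_one]
  let i₀ : Fin t := ⟨0, by have := hd.two_le; omega⟩
  obtain ⟨d₀, hd₀, hd₀0⟩ := (D i₀).ne_bot_iff.mp (decomp_ne_bot hd i₀)
  choose g hg hgD using fun k => exists_map_member hirr hd hle i₀ k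
  let d : Fin t → (ι → F) := fun k => act (g k) d₀
  have hdD : ∀ k, d k ∈ D k := fun k => act_mem_of_map (hgD k) hd₀
  have hd0 : ∀ k, d k ≠ 0 := fun k h => hd₀0 (act_injective (g k) (h.trans (by simp [act])))
  have hline : ∀ k, ∀ x ∈ D k, ∃ s : F, s • d k = x := fun k x hx => by
    obtain ⟨s, hs⟩ := (finrank_eq_one_iff_of_nonzero' (⟨d k, hdD k⟩ : D k)
      (fun h => hd0 k (congrArg Subtype.val h))).mp (hd.finrank_eq k) ⟨x, hx⟩
    exact ⟨s, congrArg Subtype.val hs⟩
  have hQd : ∀ k, Q (d k) = Q d₀ := fun k => hiso (g k) (hg k) d₀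
  have hlam : Q d₀ ≠ 0 := by
    intro h0
    obtain ⟨y, hy, hyd⟩ := (hD.decomp.nondegenerate i₀ (d i₀) (hdD i₀) (hd0 i₀)).2
    obtain ⟨s, rfl⟩ := hline i₀ y hy
    apply hyd
    rw [polar_smul_right, polar_self_mul, hQd, h0, mul_zero, smul_zero]
  let ε : ι ≃ Fin t := Fintype.equivFinOfCardEq hcard
  refine ⟨fun i => d (ε i), Q d₀, h2, hlam, (hd.indep.linearIndependent _ hdD hd0).comp ε ε.injective,
    fun i => hQd _, fun i j hij => hD.decomp.orthogonal _ _ (fun h => hij (ε.injective h)) _ (hdD _) _ (hdD _),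
    fun h hh j => ?_⟩
  obtain ⟨π, hπ⟩ := hle hh
  obtain ⟨s, hs⟩ := hline (π (ε j)) _ (act_mem_of_map (hπ (ε j)) (hdD (ε j)))
  refine ⟨ε.symm (π (ε j)), s, ?_, by simpa using hs.symm⟩
  have h1 := hiso h hh (d (ε j))
  rw [← hs, QuadraticMap.map_smul, hQd, hQd, smul_eq_mul] at h1
  exact mul_self_eq_one_iff.mp (mul_right_cancel₀ hlam (h1.trans (one_mul _).symm))

/-- An orthogonal decomposition into lines, over a field which is not prime, lies in a subfield group. -/
theorem subfieldCase_of_lines (hiso : Isometric Q H) (hirr : ActsIrreducibly (matrixSet H)) {t : ℕ}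
    {D : Fin t → Submodule F (ι → F)} (hD : IsOrthogonalMDecomposition (⇑Q) 1 D)
    (hle : H ≤ decompositionStabilizer D) (hp : ¬ (Fintype.card F).Prime) : SubfieldCase Q H := by
  classical
  obtain ⟨e, lam, -, hlam, hli, hQe, hpol, hact⟩ := exists_line_frame hiso hirr hD hle
  obtain ⟨K, r, hr, hcard, hK⟩ := exists_subfield_of_not_prime hp
  obtain ⟨P, hrat, hle'⟩ := subfield_of_frame (H := H) (K := K) hli (ζ := lam⁻¹)
    (fun i => by rw [hQe, inv_mul_cancel₀ hlam]; exact K.one_mem)
    (fun i j hij => by rw [hpol i j hij, mul_zero]; exact K.zero_mem) (fun g hg j => by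
      obtain ⟨i, s, hs, hgs⟩ := hact g hg j
      refine ⟨Pi.single i s, fun a => ?_, ?_⟩
      · rcases eq_or_ne a i with rfl | h
        · rw [Pi.single_eq_same]; exact one_or_neg_one_mem hs
        · rw [Pi.single_eq_of_ne h]; exact K.zero_mem
      · rw [hgs, Finset.sum_eq_single i (fun b _ hb => by rw [Pi.single_eq_of_ne hb, zero_smul])
          (by simp), Pi.single_eq_same])
  exact ⟨K, r, P, lam⁻¹, hr, hcard, hK, inv_ne_zero hlam, hrat, hle'⟩

/-- The discriminant of a sum of evenly many isometric lines is a square. -/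
theorem isSquare_discTop_of_lines (hiso : Isometric Q H) (hirr : ActsIrreducibly (matrixSet H)) {t : ℕ}
    {D : Fin t → Submodule F (ι → F)} (hD : IsOrthogonalMDecomposition (⇑Q) 1 D)
    (hle : H ≤ decompositionStabilizer D) (ht : Even t) : (2 : F) ≠ 0 ∧ IsSquare (discTop Q) := by
  classical
  obtain ⟨e, lam, h2, hlam, hli, hQe, hpol, -⟩ := exists_line_frame hiso hirr hD hle
  refine ⟨h2, ?_⟩
  have : Nonempty ι := Fintype.card_pos_iff.mp (by
    rw [← decomp_mul_eq hD.decomp.decomp, mul_one]; have := hD.decomp.decomp.two_le; omega)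
  let b := basisOfLinearIndependentOfCardEqFinrank hli (by rw [finrank_fintype_fun_eq_card])
  obtain ⟨s, hs, hdet⟩ := gdet_basis (polarBilin Q) b
  have hM : LinearMap.BilinForm.toMatrix b (polarBilin Q) = Matrix.diagonal fun _ => 2 * lam := by
    ext i j
    rw [LinearMap.BilinForm.toMatrix_apply]
    simp only [b, coe_basisOfLinearIndependentOfCardEqFinrank, polarBilin_apply_apply]
    rcases eq_or_ne i j with rfl | hij
    · rw [polar_self_mul, hQe, Matrix.diagonal_apply_eq]
    · rw [hpol i j hij, Matrix.diagonal_apply_ne _ hij]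
  rw [hM, Matrix.det_diagonal, Finset.prod_const, Finset.card_univ] at hdet
  obtain ⟨k, hk⟩ := ht
  refine ⟨(2 * lam) ^ k / s, ?_⟩
  rw [← decomp_mul_eq hD.decomp.decomp, mul_one, hk, pow_add] at hdet
  field_simp
  rw [show discTop Q = gdet (polarBilin Q) from rfl]
  linear_combination -hdet

/-- Two isometric halves have a square discriminant. -/
theorem isSquare_discTop_of_halves {k : ℕ} {D : Fin 2 → Submodule F (ι → F)} (hk : Odd k)
    (hD : IsOrthogonalMDecomposition (⇑Q) k D) : (2 : F) ≠ 0 ∧ IsSquare (discTop Q) := by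
  have hnd := hD.decomp.nondegenerate
  have hd := hD.decomp.decomp
  have h2 : (2 : F) ≠ 0 := fun h => by
    have := even_finrank_of_two_eq_zero h (hnd 0)
    rw [hd.finrank_eq] at this
    exact Nat.not_even_iff_odd.mpr hk this
  have hc : IsCompl (D 0) (D 1) := by
    have hind := hd.indep
    rw [iSupIndep_pair (by decide : (0 : Fin 2) ≠ 1) (by decide)] at hind
    refine ⟨hind, codisjoint_iff.mpr (eq_top_iff.mpr ?_)⟩
    rw [← hd.iSup_eq_top]
    exact iSup_le fun i => by fin_cases i <;> simp
  have h1 := isSquare_discTop_mul hc (hD.decomp.orthogonal 0 1 (by decide))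
  have h3 := (areIsometricFor_iff h2 (hnd 0) (hnd 1) (by rw [hd.finrank_eq, hd.finrank_eq])).mp (hD.isometric 0 1)
  refine ⟨h2, ?_⟩
  have h4 : IsSquare (discTop Q * 1) :=
    isSquare_cancel (b := disc Q (D 0) * disc Q (D 1))
      (mul_ne_zero (gdet_ne_zero _ (restr_nondegenerate (hnd 0))) (gdet_ne_zero _ (restr_nondegenerate (hnd 1))))
      h1 (by rwa [mul_one])
  rwa [mul_one] at h4

lemma odd_card_of_two_ne_zero (h2 : (2 : F) ≠ 0) : Odd (Fintype.card F) := by
  rcases two_eq_zero_or_ne (F := F) with ⟨h, -⟩ | ⟨-, h⟩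
  · exact absurd h h2
  · exact h

/-- With square discriminant in dimension twice an odd number, plus type means `q ≡ 1 (mod 4)`. -/
theorem plus_iff_mod_four (hQ : Nondeg Q) {m : ℕ} (hn : Fintype.card ι = 2 * m) (hm : Odd m)
    (h : (2 : F) ≠ 0 ∧ IsSquare (discTop Q)) :
    (IsPlusTypeOn (⇑Q) ⊤ → Fintype.card F % 4 = 1) ∧ (¬ IsPlusTypeOn (⇑Q) ⊤ → Fintype.card F % 4 = 3) := by
  obtain ⟨h2, hsq⟩ := h
  have hodd := Nat.odd_iff.mp (odd_card_of_two_ne_zero h2)
  have key : IsPlusTypeOn (⇑Q) ⊤ ↔ IsSquare (-1 : F) := by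
    rw [isPlusTypeOn_top_iff h2 hQ hn, hm.neg_one_pow]
    constructor
    · intro h
      have h' := isSquare_cancel (discTop_ne_zero hQ) h (show IsSquare (discTop Q * 1) by rwa [mul_one])
      rwa [mul_one] at h'
    · intro h
      exact h.mul hsq
  rw [key, FiniteField.isSquare_neg_one_iff]
  omega

lemma plus_congr {W W' : Submodule F (ι → F)} (h : AreIsometricFor (⇑Q) W W')
    (hp : IsPlusTypeOn (⇑Q) W) : IsPlusTypeOn (⇑Q) W' := by
  obtain ⟨e, he⟩ := h
  obtain ⟨U, hUW, hU, hUd⟩ := hp
  refine ⟨((U.comap W.subtype).map e.toLinearMap).map W'.subtype, ?_, ?_, ?_⟩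
  · exact Submodule.map_subtype_le _ _
  · rintro _ ⟨_, ⟨x, hx, rfl⟩, rfl⟩
    exact (he x).trans (hU _ hx)
  · rw [← (Submodule.equivMapOfInjective _ W'.injective_subtype _).finrank_eq, LinearEquiv.finrank_map_eq,
      (Submodule.comapSubtypeEquivOfLe hUW).finrank_eq, hUd, e.finrank_eq]

/-- A hyperbolic pair in a plane of plus type. -/
lemma exists_plane_pair {W : Submodule F (ι → F)} (hnd : IsNondegenerateOn (polar (⇑Q)) W) (hd : finrank F W = 2)
    (hp : IsPlusTypeOn (⇑Q) W) : ∃ u w, u ∈ W ∧ w ∈ W ∧ Q u = 0 ∧ Q w = 0 ∧ polar Q u w = 1 ∧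
      (∀ a b : F, Q (a • u + b • w) = a * b) ∧ ∀ x ∈ W, ∃ a b : F, x = a • u + b • w := by
  obtain ⟨U, hUW, hU, hUd⟩ := hp
  obtain ⟨u, hu, hu0⟩ := U.ne_bot_iff.mp fun e => by rw [e, finrank_bot] at hUd; omega
  obtain ⟨y, hy, huy⟩ := (hnd u (hUW hu) hu0).2
  have hQu : Q u = 0 := hU u hu
  obtain ⟨z, hzW, huz⟩ : ∃ z ∈ W, polar Q u z = 1 :=
    ⟨(polar Q u y)⁻¹ • y, W.smul_mem _ hy, by rw [polar_smul_right, smul_eq_mul, inv_mul_cancel₀ huy]⟩
  set w := z - Q z • u
  have hQw : Q w = 0 := by
    rw [map_sub_eq, QuadraticMap.map_smul, hQu, polar_smul_right, polar_comm, huz]; simp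
  have huw : polar Q u w = 1 := by
    rw [polar_sub_right, polar_smul_right, huz, polar_self_mul, hQu, mul_zero, smul_zero, sub_zero]
  have hwW : w ∈ W := W.sub_mem hzW (W.smul_mem _ (hUW hu))
  refine ⟨u, w, hUW hu, hwW, hQu, hQw, huw, fun a b => ?_, fun x hx => ?_⟩
  · rw [QuadraticMap.map_add ⇑Q, QuadraticMap.map_smul, QuadraticMap.map_smul, hQu, hQw, polar_smul_left,
      polar_smul_right, huw]
    simp
  have hli : LinearIndependent F ![u, w] := by
    rw [LinearIndependent.pair_iff]
    intro a b hab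
    have ha := congrArg (fun t => polar Q t w) hab
    have hb := congrArg (fun t => polar Q u t) hab
    simp [polar_add_left, polar_smul_left, huw, polar_self_mul, hQw] at ha
    simp [polar_add_right, polar_smul_right, huw, polar_self_mul, hQu] at hb
    exact ⟨ha, hb⟩
  have hle : W ≤ Submodule.span F {u, w} := by
    refine (Submodule.eq_of_le_of_finrank_eq (Submodule.span_le.mpr ?_) ?_).ge
    · rintro t (rfl | rfl)
      · exact hUW hu
      · exact hwW
    · have := finrank_span_eq_card hli
      rw [Fintype.card_fin, Matrix.range_cons, Matrix.range_cons, Matrix.range_empty, Set.union_empty,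
        Set.singleton_union] at this
      rw [this, hd]
  obtain ⟨a, b, rfl⟩ := Submodule.mem_span_pair.mp (hle hx)
  exact ⟨a, b, rfl⟩

/-- An orthogonal frame of two norm-one vectors in a plane. -/
def PlaneFrame (Q : QuadraticForm F (ι → F)) (W : Submodule F (ι → F)) (e : Fin 2 → ι → F) : Prop :=
  (∀ a, e a ∈ W) ∧ (∀ a, Q (e a) = 1) ∧ polar Q (e 0) (e 1) = 0 ∧ W ≤ Submodule.span F (Set.range e) ∧
    ∀ x ∈ W, Q x = 1 → ∃ (a : Fin 2) (s : F), x = s • e a

lemma sq_add_sq_one (hq : Fintype.card F = 3 ∨ Fintype.card F = 5) {a b : F}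
    (h : a * a + b * b = 1) : a = 0 ∨ b = 0 := by
  by_contra hne
  push Not at hne
  have hn : ∀ n : ℕ, 0 < n → n < Fintype.card F → (n : F) ≠ 0 := by
    intro n hn0 hnlt hzero
    obtain ⟨p, hchar⟩ := CharP.exists F
    obtain ⟨e, hp, hqe⟩ := FiniteField.card F p
    have hdvd := (CharP.cast_eq_zero_iff F p n).mp hzero
    have hle := Nat.le_of_dvd hn0 hdvd
    have hpq : p ∣ Fintype.card F := hqe ▸ dvd_pow_self p e.ne_zero
    rcases hq with hq | hq <;> rw [hq] at hpq hnlt <;>
      · have := (Nat.prime_dvd_prime_iff_eq hp (by norm_num)).mp hpq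
        omega
  rcases hq with hq | hq
  · have ha := FiniteField.pow_card_sub_one_eq_one a hne.1
    have hb := FiniteField.pow_card_sub_one_eq_one b hne.2
    rw [hq] at ha hb
    exact hn 1 one_pos (by omega) (by push_cast; linear_combination h - ha - hb)
  · have ha := FiniteField.pow_card_sub_one_eq_one a hne.1
    have hb := FiniteField.pow_card_sub_one_eq_one b hne.2
    rw [hq] at ha hb
    -- the squares are `±1`
    have ha' : a * a = 1 ∨ a * a = -1 := mul_self_eq_one_iff.mp (by linear_combination ha)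
    have hb' : b * b = 1 ∨ b * b = -1 := mul_self_eq_one_iff.mp (by linear_combination hb)
    rcases ha' with e1 | e1 <;> rcases hb' with e2 | e2 <;> rw [e1, e2] at h
    · exact hn 1 one_pos (by omega) (by push_cast; linear_combination h)
    · exact hn 1 one_pos (by omega) (by push_cast; linear_combination -h)
    · exact hn 1 one_pos (by omega) (by push_cast; linear_combination -h)
    · exact hn 3 (by norm_num) (by omega) (by push_cast; linear_combination -h)

lemma planeFrame_of_orth (hq : Fintype.card F = 3 ∨ Fintype.card F = 5) {W : Submodule F (ι → F)}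
    (hd : finrank F W = 2) {x y : ι → F} (hx : x ∈ W) (hy : y ∈ W) (hQx : Q x = 1) (hQy : Q y = 1)
    (hxy : polar Q x y = 0) : PlaneFrame Q W ![x, y] := by
  have h2 : (2 : F) ≠ 0 := two_ne_zero_of_odd_card (by rcases hq with h | h <;> rw [h] <;> decide)
  have hli : LinearIndependent F ![x, y] := by
    rw [LinearIndependent.pair_iff]
    intro a b hab
    have ha := congrArg (fun t => polar Q x t) hab
    have hb := congrArg (fun t => polar Q y t) hab
    simp [polar_add_right, polar_smul_right, polar_self_mul, hQx, hxy, h2] at ha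
    simp [polar_add_right, polar_smul_right, polar_self_mul, hQy, polar_comm Q y x, hxy, h2] at hb
    exact ⟨ha, hb⟩
  have hle : W ≤ Submodule.span F (Set.range ![x, y]) := by
    refine (Submodule.eq_of_le_of_finrank_eq (Submodule.span_le.mpr ?_) ?_).ge
    · rintro _ ⟨a, rfl⟩
      fin_cases a <;> assumption
    · rw [finrank_span_eq_card hli, Fintype.card_fin, hd]
  refine ⟨fun a => by fin_cases a <;> assumption, fun a => by fin_cases a <;> assumption, hxy, hle,
    fun z hz hQz => ?_⟩
  obtain ⟨c, rfl⟩ := (Submodule.mem_span_range_iff_exists_fun F).mp (hle hz)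
  simp only [Fin.sum_univ_two, Matrix.cons_val_zero, Matrix.cons_val_one] at hQz ⊢
  rw [QuadraticMap.map_add ⇑Q, QuadraticMap.map_smul, QuadraticMap.map_smul, hQx, hQy, polar_smul_left,
    polar_smul_right, hxy] at hQz
  rcases sq_add_sq_one hq (a := c 0) (b := c 1) (by simpa using hQz) with h | h
  · exact ⟨1, c 1, by simp [h]⟩
  · exact ⟨0, c 0, by simp [h]⟩

/-- A frame in a plane of plus type over five elements. -/
lemma exists_planeFrame_five (hq : Fintype.card F = 5) {W : Submodule F (ι → F)}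
    (hnd : IsNondegenerateOn (polar (⇑Q)) W) (hd : finrank F W = 2) (hp : IsPlusTypeOn (⇑Q) W) :
    ∃ e, PlaneFrame Q W e := by
  obtain ⟨u, w, hu, hw, hQu, hQw, huw, hval, -⟩ := exists_plane_pair hnd hd hp
  have h5 : (5 : F) = 0 := by
    have := FiniteField.cast_card_eq_zero F
    rw [hq] at this
    exact_mod_cast this
  refine ⟨_, planeFrame_of_orth (Or.inr hq) hd (x := (1 : F) • u + (1 : F) • w) (y := (2 : F) • u + (-2 : F) • w)
    (W.add_mem (W.smul_mem _ hu) (W.smul_mem _ hw)) (W.add_mem (W.smul_mem _ hu) (W.smul_mem _ hw))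
    (by rw [hval, one_mul]) (by rw [hval]; linear_combination (-1 : F) * h5) ?_⟩
  rw [polar_add_left, polar_add_right, polar_add_right]
  simp only [polar_smul_left, polar_smul_right, polar_self_mul, hQu, hQw, huw, polar_comm Q w u, smul_eq_mul]
  ring

/-- A frame in an anisotropic plane over three elements. -/
lemma exists_planeFrame_three (hq : Fintype.card F = 3) {W : Submodule F (ι → F)}
    (hd : finrank F W = 2) (hp : ¬ IsPlusTypeOn (⇑Q) W) : ∃ e, PlaneFrame Q W e := by
  have h3 : (3 : F) = 0 := by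
    have := FiniteField.cast_card_eq_zero F
    rw [hq] at this
    exact_mod_cast this
  have haniso : ∀ v ∈ W, Q v = 0 → v = 0 := by
    intro v hv hQv
    by_contra hv0
    refine hp ⟨Submodule.span F {v}, (Submodule.span_singleton_le_iff_mem v W).mpr hv, fun x hx => ?_,
      by rw [finrank_span_singleton hv0, hd]⟩
    obtain ⟨c, rfl⟩ := Submodule.mem_span_singleton.mp hx
    rw [QuadraticMap.map_smul, hQv, smul_zero]
  have hsq : ∀ c : F, c ≠ 0 → c = 1 ∨ c = -1 := fun c hc => by
    have h := FiniteField.pow_card_sub_one_eq_one c hc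
    rw [hq] at h
    exact mul_self_eq_one_iff.mp (by linear_combination h)
  -- orthogonal vectors of norms `c, d`
  obtain ⟨x, hx, hx0⟩ := W.ne_bot_iff.mp fun e => by rw [e, finrank_bot] at hd; omega
  obtain ⟨y, ⟨hyW, hyx⟩, hy0⟩ := (W ⊓ LinearMap.ker (polarBilin Q x)).ne_bot_iff.mp fun e => by
    have h1 := Submodule.finrank_sup_add_finrank_inf_eq W (LinearMap.ker (polarBilin Q x))
    have h2 := (polarBilin Q x).finrank_range_add_finrank_ker
    have h3 := Submodule.finrank_le (LinearMap.range (polarBilin Q x))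
    have h4 := Submodule.finrank_le (W ⊔ LinearMap.ker (polarBilin Q x))
    rw [finrank_self] at h3
    rw [e, finrank_bot, hd] at h1
    omega
  have hxy : polar Q x y = 0 := hyx
  have hnlin : ∀ s : F, s • x + y ≠ 0 := by
    intro s h0
    have h := congrArg (fun t => polar Q x t) h0
    simp [polar_add_right, polar_smul_right, hxy, polar_self_mul] at h
    rcases h with h | h | h
    · rw [h, zero_smul, zero_add] at h0; exact hy0 h0
    · exact two_ne_zero_of_odd_card (F := F) (by rw [hq]; decide) h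
    · exact hx0 (haniso x hx h)
  rcases hsq _ (fun h => hx0 (haniso x hx h)) with hQx | hQx <;>
    rcases hsq _ (fun h => hy0 (haniso y hyW h)) with hQy | hQy
  · exact ⟨_, planeFrame_of_orth (Or.inl hq) hd hx hyW hQx hQy hxy⟩
  · exfalso
    refine hnlin 1 (haniso _ (W.add_mem (W.smul_mem _ hx) hyW) ?_)
    rw [one_smul, QuadraticMap.map_add ⇑Q, hQx, hQy, hxy]; ring
  · exfalso
    refine hnlin 1 (haniso _ (W.add_mem (W.smul_mem _ hx) hyW) ?_)
    rw [one_smul, QuadraticMap.map_add ⇑Q, hQx, hQy, hxy]; ring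
  · refine ⟨_, planeFrame_of_orth (Or.inl hq) hd (x := x + y) (y := x - y) (W.add_mem hx hyW)
      (W.sub_mem hx hyW) ?_ ?_ ?_⟩
    · rw [QuadraticMap.map_add ⇑Q, hQx, hQy, hxy]; linear_combination (-1 : F) * h3
    · rw [map_sub_eq, hQx, hQy, hxy]; linear_combination (-1 : F) * h3
    · rw [polar_add_left, polar_sub_right, polar_sub_right, polar_self_mul, polar_self_mul, polar_comm Q y x,
        hxy, hQx, hQy]
      ring

/-- Frames of all planes give a decomposition into lines. -/
theorem lines_of_planeFrames (hn : Fintype.card ι = 10) (h2 : (2 : F) ≠ 0) (hiso : Isometric Q H)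
    {D : Fin 5 → Submodule F (ι → F)} (hD : IsOrthogonalMDecomposition (⇑Q) 2 D)
    (hle : H ≤ decompositionStabilizer D) {e : Fin 5 → Fin 2 → ι → F} (he : ∀ i, PlaneFrame Q (D i) (e i)) :
    ∃ D' : Fin 10 → Submodule F (ι → F), IsOrthogonalMDecomposition (⇑Q) 1 D' ∧
      H ≤ decompositionStabilizer D' := by
  classical
  let ε : Fin 10 ≃ Fin 5 × Fin 2 := (finProdFinEquiv (m := 5) (n := 2)).symm
  let d : Fin 10 → ι → F := fun k => e (ε k).1 (ε k).2
  have hQd : ∀ k, Q (d k) = 1 := fun k => (he _).2.1 _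
  have hspan : ⊤ ≤ Submodule.span F (Set.range d) := by
    rw [← hD.decomp.decomp.iSup_eq_top]
    refine iSup_le fun i => (he i).2.2.2.1.trans (Submodule.span_mono ?_)
    rintro _ ⟨a, rfl⟩
    exact ⟨ε.symm (i, a), by simp [d]⟩
  have hli : LinearIndependent F d := linearIndependent_of_top_le_span_of_card_eq_finrank hspan
    (by rw [Fintype.card_fin, finrank_fintype_fun_eq_card, hn])
  have hd0 : ∀ k, d k ≠ 0 := fun k h => by
    have := hQd k
    rw [h, QuadraticMap.map_zero] at this
    exact zero_ne_one this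
  have horth : ∀ k l, k ≠ l → polar Q (d k) (d l) = 0 := by
    intro k l hkl
    by_cases h : (ε k).1 = (ε l).1
    · have h' : (ε k).2 ≠ (ε l).2 := fun e => hkl (ε.injective (Prod.ext h e))
      show polar Q (e (ε k).1 (ε k).2) (e (ε l).1 (ε l).2) = 0
      rw [← h]
      generalize (ε k).2 = a at h' ⊢
      generalize (ε l).2 = b at h' ⊢
      fin_cases a <;> fin_cases b
      · exact absurd rfl h'
      · exact (he _).2.2.1
      · rw [QuadraticMap.polar_comm]; exact (he _).2.2.1
      · exact absurd rfl h'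
    · exact hD.decomp.orthogonal _ _ h _ ((he _).1 _) _ ((he _).1 _)
  let D' : Fin 10 → Submodule F (ι → F) := fun k => Submodule.span F {d k}
  refine ⟨D', ⟨⟨⟨by norm_num, one_pos, fun k => finrank_span_singleton (hd0 k), hli.iSupIndep_span_singleton,
    ?_⟩, fun k x hx hx0 => ?_, fun k l hkl u hu v hv => ?_⟩, fun k l => ?_⟩, fun g hg => ?_⟩
  · rw [eq_top_iff, ← Submodule.span_range_eq_iSup]
    exact hspan
  · obtain ⟨c, rfl⟩ := Submodule.mem_span_singleton.mp hx
    have hne : polar Q (c • d k) (d k) ≠ 0 := by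
      rw [polar_smul_left, polar_self_mul, hQd, mul_one, smul_eq_mul]
      exact mul_ne_zero (fun h => hx0 (by rw [h, zero_smul])) h2
    exact ⟨⟨d k, Submodule.mem_span_singleton_self _, by rwa [QuadraticMap.polar_comm]⟩,
      ⟨d k, Submodule.mem_span_singleton_self _, hne⟩⟩
  · obtain ⟨a, rfl⟩ := Submodule.mem_span_singleton.mp hu
    obtain ⟨b, rfl⟩ := Submodule.mem_span_singleton.mp hv
    rw [polar_smul_left, polar_smul_right, horth k l hkl, smul_zero, smul_zero]
  · let φ := (LinearEquiv.toSpanNonzeroSingleton F (ι → F) (d k) (hd0 k)).symm.trans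
      (LinearEquiv.toSpanNonzeroSingleton F (ι → F) (d l) (hd0 l))
    refine ⟨φ, fun w => ?_⟩
    obtain ⟨c, rfl⟩ := (LinearEquiv.toSpanNonzeroSingleton F (ι → F) (d k) (hd0 k)).surjective w
    simp only [φ, LinearEquiv.trans_apply, LinearEquiv.symm_apply_apply]
    show Q (c • d l) = Q (c • d k)
    rw [QuadraticMap.map_smul, QuadraticMap.map_smul, hQd, hQd]
  · obtain ⟨π, hπ⟩ := hle hg
    have himg : ∀ k, ∃ l s, act g (d k) = s • d l := fun k => by
      obtain ⟨a, s, hs⟩ := (he (π (ε k).1)).2.2.2.2 _ (act_mem_of_map (hπ _) ((he _).1 (ε k).2))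
        ((hiso g hg _).trans (hQd k))
      exact ⟨ε.symm (π (ε k).1, a), s, by simpa [d] using hs⟩
    choose ρ s hρ using himg
    have hs0 : ∀ k, s k ≠ 0 := fun k h => by
      have := hρ k
      rw [h, zero_smul] at this
      exact hd0 k (act_injective g (this.trans (by simp [act])))
    have hρinj : Function.Injective ρ := by
      intro k l hkl
      by_contra hne
      have h0 : act g (s l • d k + (-s k) • d l) = 0 := by
        rw [show act g (s l • d k + (-s k) • d l) = s l • act g (d k) + (-s k) • act g (d l) by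
          simp [act, Matrix.mulVec_add, Matrix.mulVec_smul, Matrix.mulVec_neg], hρ k, hρ l, hkl]
        module
      have h1 := act_injective g (h0.trans (by simp [act] : (0 : ι → F) = act g 0))
      have hpair : LinearIndependent F ![d k, d l] := by
        have := hli.comp ![k, l] (by
          intro a b hab
          fin_cases a <;> fin_cases b <;> simp_all)
        convert this using 1
        funext a
        fin_cases a <;> rfl
      exact hs0 l ((LinearIndependent.pair_iff.mp hpair) _ _ h1).1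
    refine ⟨Equiv.ofBijective ρ (Finite.injective_iff_bijective.1 hρinj), fun k => ?_⟩
    show (Submodule.span F {d k}).map _ = Submodule.span F {d (ρ k)}
    rw [Submodule.map_span, Set.image_singleton, Matrix.toLin'_apply]
    show Submodule.span F {act g (d k)} = _
    rw [hρ k, Submodule.span_singleton_smul_eq (IsUnit.mk0 _ (hs0 k))]

end CfsgLib.SmallDim.OrthEven
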