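import Cfsg.Agent.Lib.SmallDim.OrthEvenPlane

/-!
Quadratic extension fields normalised by irreducible groups of isometries in dimension twice an odd number:
self-adjoint only in odd characteristic, and otherwise acting by similarities, in minus type.
-/

set_option autoImplicit false
set_option linter.style.haveILetI false
set_option linter.unusedSectionVars false

namespace CfsgLib.SmallDim.OrthEven

open scoped MatrixGroups Matrix
open Cfsg.Geo QuadraticMap CfsgLib.ClassicalForms Module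

variable {ι : Type} [Fintype ι] [DecidableEq ι] {F : Type*} [Field F] [Fintype F] {Q : QuadraticForm F (ι → F)}

/-- The zeros of an additive function which multiplies by squares. -/
def sqZeros (φ : (ι → F) → F) (hadd : ∀ u v, φ (u + v) = φ u + φ v) (hsm : ∀ (a : F) v, φ (a • v) = a * a * φ v) :
    Submodule F (ι → F) where
  carrier := {v | φ v = 0}
  add_mem' := fun {a b} (ha : φ a = 0) (hb : φ b = 0) => show φ (a + b) = 0 by rw [hadd, ha, hb, add_zero]
  zero_mem' := show φ 0 = 0 by simpa using hsm 0 0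
  smul_mem' := fun c v (hv : φ v = 0) => show φ (c • v) = 0 by rw [hsm, hv, mul_zero]

lemma finrank_inf_sqZeros (h2 : (2 : F) = 0) {φ : (ι → F) → F} (hadd : ∀ u v, φ (u + v) = φ u + φ v)
    (hsm : ∀ (a : F) v, φ (a • v) = a * a * φ v) (S : Submodule F (ι → F)) :
    finrank F S ≤ finrank F (S ⊓ sqZeros φ hadd hsm : Submodule F (ι → F)) + 1 := by
  set Z := sqZeros φ hadd hsm
  by_cases h : ∀ y ∈ S, φ y = 0
  · rw [show S ⊓ Z = S from inf_eq_left.mpr h]
    omega
  push Not at h
  obtain ⟨y, hy, hy0⟩ := h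
  have hle : S ≤ (S ⊓ Z) ⊔ Submodule.span F {y} := by
    intro x hx
    obtain ⟨s, hs⟩ := isSquare_of_two_eq_zero h2 (-φ x / φ y)
    have hz : x + s • y ∈ S ⊓ Z := ⟨S.add_mem hx (S.smul_mem s hy), show φ (x + s • y) = 0 by
      rw [hadd, hsm, ← hs]; field_simp; ring⟩
    have := Submodule.sub_mem _ (Submodule.mem_sup_left (T := Submodule.span F {y}) hz)
      (Submodule.mem_sup_right (Submodule.smul_mem _ s (Submodule.mem_span_singleton_self y)))
    simpa using this
  have h1 := Submodule.finrank_mono hle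
  have h2' := Submodule.finrank_add_le_finrank_add_finrank (S ⊓ Z) (Submodule.span F {y})
  have h3 : finrank F (Submodule.span F {y}) ≤ 1 := (finrank_span_le_card _).trans (by simp)
  omega

/-- A subspace stable under a field of matrices has dimension divisible by its degree. -/
lemma dvd_finrank_of_invariant {d : ℕ} {K : Subalgebra F (Matrix ι ι F)} (hK : IsFieldSubalgebra d K)
    {W : Submodule F (ι → F)} (hW : ∀ k ∈ K, ∀ v ∈ W, k *ᵥ v ∈ W) : d ∣ finrank F W := by
  suffices key : ∀ n, ∀ U : Submodule F (ι → F), U ≤ W → (∀ k ∈ K, ∀ v ∈ U, k *ᵥ v ∈ U) →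
      d ∣ finrank F U → finrank F W - finrank F U ≤ n → d ∣ finrank F W by
    exact key _ ⊥ bot_le (fun k _ v hv => by simp [(Submodule.mem_bot F).1 hv])
      (by rw [finrank_bot]; exact dvd_zero d) le_rfl
  intro n
  induction n using Nat.strong_induction_on with
  | _ n ih =>
    intro U hUW hU hdU hn
    by_cases h : W ≤ U
    · rwa [le_antisymm h hUW]
    obtain ⟨v, hvW, hvU⟩ := SetLike.not_le_iff_exists.mp h
    have hv0 : v ≠ 0 := fun e => hvU (e ▸ U.zero_mem)
    have hspanW : fieldSpan K v ≤ W := by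
      rintro _ ⟨k, hk, rfl⟩; exact hW k hk v hvW
    have hinf : U ⊓ fieldSpan K v = ⊥ := by
      rw [Submodule.eq_bot_iff]
      rintro x ⟨hx, k, hk, rfl⟩
      by_contra hne
      obtain ⟨y, hy, hky⟩ := hK.inv k hk (fun e => hne (by rw [e, Matrix.zero_mulVec]))
      apply hvU
      have := hU y hy _ hx
      rwa [Matrix.mulVec_mulVec, hK.comm y hy k hk, hky, Matrix.one_mulVec] at this
    have hdim := Submodule.finrank_sup_add_finrank_inf_eq U (fieldSpan K v)
    rw [hinf, finrank_bot, finrank_fieldSpan hK hv0, add_zero] at hdim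
    have hdpos : 0 < d := by
      rw [← finrank_fieldSpan hK hv0]
      exact Submodule.one_le_finrank_iff.mpr fun e => hv0 (by
        have := mem_fieldSpan_self (K := K) v
        rwa [e, Submodule.mem_bot] at this)
    have hle' : U ⊔ fieldSpan K v ≤ W := sup_le hUW hspanW
    have := Submodule.finrank_mono hle'
    refine ih (finrank F W - finrank F ↥(U ⊔ fieldSpan K v)) (by omega) _ hle' (fun k hk x hx => ?_)
      (by rw [hdim]; exact dvd_add hdU dvd_rfl) le_rfl
    obtain ⟨a, ha, b, ⟨l, hl, rfl⟩, rfl⟩ := Submodule.mem_sup.1 hx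
    rw [Matrix.mulVec_add, Matrix.mulVec_mulVec]
    exact Submodule.add_mem_sup (hU k hk a ha) ⟨k * l, K.mul_mem hk hl, rfl⟩

variable {K : Subalgebra F (Matrix ι ι F)}

lemma exists_generator [Nonempty ι] (hK : IsFieldSubalgebra 2 K) :
    ∃ w ∈ K, (∀ c : F, w ≠ c • 1) ∧ ∀ x ∈ K, ∃ a b : F, x = a • 1 + b • w := by
  classical
  have hbot : ∀ x : Matrix ι ι F, x ∈ (⊥ : Subalgebra F (Matrix ι ι F)) ↔ ∃ c : F, x = c • 1 := fun x => by
    rw [Algebra.mem_bot, Set.mem_range]
    exact ⟨fun ⟨c, hc⟩ => ⟨c, by rw [← hc, Algebra.algebraMap_eq_smul_one]⟩,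
      fun ⟨c, hc⟩ => ⟨c, by rw [hc, Algebra.algebraMap_eq_smul_one]⟩⟩
  obtain ⟨w, hw, hws⟩ : ∃ w ∈ K, ∀ c : F, w ≠ c • 1 := by
    by_contra hall
    push Not at hall
    have hKbot : K = ⊥ := le_antisymm (fun x hx => (hbot x).2 (hall x hx)) bot_le
    have := hK.finrank_eq
    rw [hKbot, Subalgebra.finrank_bot] at this
    omega
  refine ⟨w, hw, hws, fun x hx => ?_⟩
  have hli : LinearIndependent F ![(⟨1, K.one_mem⟩ : K), ⟨w, hw⟩] := by
    rw [LinearIndependent.pair_iff]
    intro s t hst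
    have h' : s • (1 : Matrix ι ι F) + t • w = 0 := congrArg Subtype.val hst
    have ht : t = 0 := by
      by_contra ht
      refine hws (-s / t) ?_
      have h3 := congrArg (fun M => t⁻¹ • M) (eq_neg_of_add_eq_zero_right h')
      rw [smul_smul, inv_mul_cancel₀ ht, one_smul] at h3
      rw [h3, smul_neg, smul_smul, ← neg_smul]
      congr 1
      ring
    refine ⟨?_, ht⟩
    rw [ht, zero_smul, add_zero] at h'
    exact (smul_eq_zero.mp h').resolve_right one_ne_zero
  have hsp := hli.span_eq_top_of_card_eq_finrank' (by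
    rw [Fintype.card_fin]; exact hK.finrank_eq.symm)
  have hx' : (⟨x, hx⟩ : K) ∈ Submodule.span F (Set.range ![(⟨1, K.one_mem⟩ : K), ⟨w, hw⟩]) :=
    hsp ▸ Submodule.mem_top
  rw [show Set.range ![(⟨1, K.one_mem⟩ : K), ⟨w, hw⟩] = {⟨1, K.one_mem⟩, ⟨w, hw⟩} by
    simp [Set.pair_comm]] at hx'
  obtain ⟨a, b, hab⟩ := Submodule.mem_span_pair.mp hx'
  exact ⟨a, b, (congrArg Subtype.val hab).symm⟩

/-- A largest invariant subspace on which `φ`-conditions hold. -/
lemma exists_max_invariant (P : Submodule F (ι → F) → Prop) (h0 : P ⊥) :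
    ∃ W, P W ∧ ∀ W', P W' → finrank F W' ≤ finrank F W := by
  classical
  let S := {j | ∃ W, P W ∧ finrank F W = j}
  have hS : ∀ j, (∃ W, P W ∧ finrank F W = j) → j ≤ Fintype.card ι := by
    rintro j ⟨W, -, rfl⟩
    have := Submodule.finrank_le W
    rwa [finrank_fintype_fun_eq_card] at this
  obtain ⟨W, hW, hWd⟩ := Nat.findGreatest_spec (P := fun j => ∃ W, P W ∧ finrank F W = j)
    (m := 0) (Nat.zero_le (Fintype.card ι)) ⟨⊥, h0, finrank_bot F (ι → F)⟩
  exact ⟨W, hW, fun W' hW' => hWd ▸ Nat.le_findGreatest (hS _ ⟨W', hW', rfl⟩) ⟨W', hW', rfl⟩⟩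

variable {H : Subgroup (GL ι F)}

/-- A self-adjoint quadratic field only occurs in odd characteristic. -/
theorem odd_of_selfAdjoint (hQ : Nondeg Q) {m : ℕ} (hn : Fintype.card ι = 2 * m) (hmodd : Odd m)
    (hiso : Isometric Q H) (hirr : ActsIrreducibly (matrixSet H)) (hK : IsFieldSubalgebra 2 K)
    (hsa : IsSelfAdjointFor (polar (⇑Q)) K) (hle : H ≤ subalgebraNormalizer K) : Odd (Fintype.card F) := by
  classical
  rcases two_eq_zero_or_ne (F := F) with ⟨h2, -⟩ | ⟨-, h⟩
  swap
  · exact h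
  exfalso
  obtain ⟨l, hl⟩ := hmodd
  have : Nonempty ι := Fintype.card_pos_iff.mp (by omega)
  obtain ⟨w, hw, hws, hspan⟩ := exists_generator hK
  let φ : (ι → F) → F := fun v => polar Q (w *ᵥ v) v
  have hadd : ∀ u v, φ (u + v) = φ u + φ v := fun u v => by
    show polar Q (w *ᵥ (u + v)) (u + v) = _
    rw [Matrix.mulVec_add, polar_add_left, polar_add_right, polar_add_right,
      show polar Q (w *ᵥ v) u = polar Q (w *ᵥ u) v by rw [QuadraticMap.polar_comm, ← hsa w hw]]
    linear_combination (polar Q (w *ᵥ u) v) * h2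
  have hsm : ∀ (a : F) v, φ (a • v) = a * a * φ v := fun a v => by
    show polar Q (w *ᵥ (a • v)) (a • v) = _
    rw [Matrix.mulVec_smul, polar_smul_left, polar_smul_right, smul_eq_mul, smul_eq_mul, mul_assoc]
  have hgen : ∀ x ∈ K, ∀ v, φ v = 0 → polar Q (x *ᵥ v) v = 0 := by
    intro x hx v hv
    obtain ⟨a, b, rfl⟩ := hspan x hx
    rw [Matrix.add_mulVec, Matrix.smul_mulVec, Matrix.smul_mulVec, Matrix.one_mulVec, polar_add_left,
      polar_smul_left, polar_smul_left, polar_self_mul, show polar Q (w *ᵥ v) v = 0 from hv, h2]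
    simp
  have hinv : ∀ g ∈ H, ∀ v ∈ sqZeros φ hadd hsm, act g v ∈ sqZeros φ hadd hsm := by
    intro g hg v hv
    show polar Q (w *ᵥ act g v) (act g v) = 0
    have hx := conj_mem_of_normalizer (hle (H.inv_mem hg)) hw
    rw [inv_inv] at hx
    have h := hgen _ hx v hv
    rw [← hiso.polar hg] at h
    simpa [act, Matrix.mulVec_mulVec, ← Units.val_mul, ← mul_assoc] using h
  have hZ : ∀ v, φ v = 0 := by
    rcases actsIrreducibly_iff.mp hirr _ hinv with h | h
    · exfalso
      have := finrank_inf_sqZeros h2 hadd hsm ⊤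
      rw [top_inf_eq, h, finrank_bot, finrank_top, finrank_fintype_fun_eq_card] at this
      omega
    · intro v
      exact (h ▸ Submodule.mem_top : v ∈ sqZeros φ hadd hsm)
  -- a largest invariant totally isotropic subspace
  obtain ⟨W, ⟨hW, hWK⟩, hmax⟩ := exists_max_invariant (F := F) (ι := ι)
    (fun W => (∀ x ∈ W, ∀ y ∈ W, polar Q x y = 0) ∧ ∀ k ∈ K, ∀ v ∈ W, k *ᵥ v ∈ W)
    ⟨fun x hx y hy => by simp [(Submodule.mem_bot F).1 hx],
      fun k _ v hv => by simp [(Submodule.mem_bot F).1 hv]⟩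
  set O := LinearMap.BilinForm.orthogonal (polarBilin Q) W with hO
  have hWO : W ≤ O := fun x hx y hy => hW y hy x hx
  have hOW : O ≤ W := by
    intro v hv
    by_contra hvW
    have hvx : ∀ y ∈ W, polar Q y v = 0 := fun y hy => hv y hy
    have hWv : ∀ x ∈ W, ∀ k ∈ K, polar Q x (k *ᵥ v) = 0 := fun x hx k hk => by
      rw [← hsa k hk]
      exact hvx _ (hWK k hk x hx)
    have hKv : ∀ k ∈ K, ∀ k' ∈ K, polar Q (k *ᵥ v) (k' *ᵥ v) = 0 := fun k hk k' hk' => by
      rw [QuadraticMap.polar_comm, ← hsa k hk, Matrix.mulVec_mulVec]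
      exact hgen _ (K.mul_mem hk hk') v (hZ v)
    have hlt : W < W ⊔ fieldSpan K v :=
      lt_of_le_of_ne le_sup_left fun e => hvW (e ▸ Submodule.mem_sup_right (mem_fieldSpan_self v))
    have hbig := hmax (W ⊔ fieldSpan K v) ⟨?_, ?_⟩
    · exact absurd (Submodule.finrank_lt_finrank_of_lt hlt) (by omega)
    · intro x hx y hy
      obtain ⟨a, ha, _, ⟨k, hk, rfl⟩, rfl⟩ := Submodule.mem_sup.1 hx
      obtain ⟨b, hb, _, ⟨k', hk', rfl⟩, rfl⟩ := Submodule.mem_sup.1 hy
      rw [polar_add_left, polar_add_right, polar_add_right, hW a ha b hb, hWv a ha k' hk',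
        QuadraticMap.polar_comm (⇑Q) (k *ᵥ v) b, hWv b hb k hk, hKv k hk k' hk']
      simp
    · intro k hk x hx
      obtain ⟨a, ha, _, ⟨l, hl, rfl⟩, rfl⟩ := Submodule.mem_sup.1 hx
      rw [Matrix.mulVec_add, Matrix.mulVec_mulVec]
      exact Submodule.add_mem_sup (hWK k hk a ha) ⟨k * l, K.mul_mem hk hl, rfl⟩
  have hdim : finrank F O = 2 * m - finrank F W := by
    rw [hO, LinearMap.BilinForm.finrank_orthogonal (nondeg_iff_polarBilin.mpr hQ), finrank_fintype_fun_eq_card, hn]
  rw [le_antisymm hOW hWO] at hdim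
  have hdvd := dvd_finrank_of_invariant hK hWK
  have hle' := Submodule.finrank_le W
  rw [finrank_fintype_fun_eq_card, hn] at hle'
  omega

/-- A quadratic field which is not self-adjoint acts by similarities. -/
theorem similarity_of_not_selfAdjoint (hn : 3 ≤ Fintype.card ι) (hQ : Nondeg Q)
    (hiso : Isometric Q H) (hirr : ActsIrreducibly (matrixSet H)) (hK : IsFieldSubalgebra 2 K)
    (hadj : IsAdjointClosedFor (polar (⇑Q)) K) (hns : ¬ IsSelfAdjointFor (polar (⇑Q)) K)
    (hle : H ≤ subalgebraNormalizer K) : ∀ k ∈ K, ∃ c : F, ∀ v : ι → F, Q (k *ᵥ v) = c * Q v := by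
  classical
  have hs := sesqui_polar Q
  have hnd := isNondegenerateForm_polar hQ
  have : Nonempty ι := Fintype.card_pos_iff.mp (by omega)
  obtain ⟨w, hw, hws, hspan⟩ := exists_generator hK
  obtain ⟨w', hw', hadjw⟩ := hadj w hw
  have hadjw' : ∀ u v, polar Q (w' *ᵥ u) v = polar Q u (w *ᵥ v) := fun u v => by
    rw [QuadraticMap.polar_comm, ← hadjw, QuadraticMap.polar_comm]
  -- self-adjoint members are scalars
  have hscal : ∀ x ∈ K, (∀ u v, polar Q (x *ᵥ u) v = polar Q u (x *ᵥ v)) → ∃ c : F, x = c • 1 := by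
    intro x hx hxs
    obtain ⟨a, b, rfl⟩ := hspan x hx
    by_cases hb : b = 0
    · exact ⟨a, by rw [hb, zero_smul, add_zero]⟩
    exfalso
    apply hns
    have hwsa : ∀ u v, polar Q (w *ᵥ u) v = polar Q u (w *ᵥ v) := fun u v => by
      have h := hxs u v
      simp only [Matrix.add_mulVec, Matrix.smul_mulVec, Matrix.one_mulVec, polar_add_left, polar_add_right,
        polar_smul_left, polar_smul_right, smul_eq_mul, add_right_inj] at h
      exact mul_left_cancel₀ hb h
    intro k hk u v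
    obtain ⟨a', b', rfl⟩ := hspan k hk
    simp only [Matrix.add_mulVec, Matrix.smul_mulVec, Matrix.one_mulVec, polar_add_left, polar_add_right,
      polar_smul_left, polar_smul_right, hwsa]
  obtain ⟨t, ht⟩ := hscal (w + w') (K.add_mem hw hw') fun u v => by
    rw [Matrix.add_mulVec, Matrix.add_mulVec, polar_add_left, polar_add_right, hadjw, hadjw', add_comm]
  obtain ⟨c, hc⟩ := hscal (w * w') (K.mul_mem hw hw') fun u v => by
    rw [← Matrix.mulVec_mulVec, hadjw, hadjw', Matrix.mulVec_mulVec]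
  let e : (ι → F) → F := fun v => Q (w *ᵥ v) - c * Q v
  let h : (ι → F) → F := fun v => polar Q (w *ᵥ v) v - t * Q v
  have hsplit : ∀ u v, polar Q (w *ᵥ u) v + polar Q (w *ᵥ v) u = t * polar Q u v := fun u v => by
    rw [hadjw, QuadraticMap.polar_comm (⇑Q) (w *ᵥ v) u, ← polar_add_right, ← Matrix.add_mulVec,
      add_comm w' w, ht, Matrix.smul_mulVec, Matrix.one_mulVec, polar_smul_right, smul_eq_mul]
  have hnorm : ∀ u v, polar Q (w *ᵥ u) (w *ᵥ v) = c * polar Q u v := fun u v => by
    rw [hadjw, Matrix.mulVec_mulVec, hK.comm w' hw' w hw, hc, Matrix.smul_mulVec, Matrix.one_mulVec,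
      polar_smul_right, smul_eq_mul]
  have hea : ∀ u v, e (u + v) = e u + e v := fun u v => by
    simp only [e, Matrix.mulVec_add, QuadraticMap.map_add ⇑Q]
    rw [hnorm]; ring
  have hha : ∀ u v, h (u + v) = h u + h v := fun u v => by
    simp only [h, Matrix.mulVec_add, QuadraticMap.map_add ⇑Q, polar_add_left, polar_add_right]
    linear_combination hsplit u v
  have hes : ∀ (a : F) v, e (a • v) = a * a * e v := fun a v => by
    simp only [e, Matrix.mulVec_smul, QuadraticMap.map_smul, smul_eq_mul]; ring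
  have hhs : ∀ (a : F) v, h (a • v) = a * a * h v := fun a v => by
    simp only [h, Matrix.mulVec_smul, QuadraticMap.map_smul, polar_smul_left, polar_smul_right, smul_eq_mul]; ring
  have hvals : ∀ (a b : F) v, Q ((a • (1 : Matrix ι ι F) + b • w) *ᵥ v) =
      (a * a + a * b * t + b * b * c) * Q v + b * b * e v + a * b * h v := fun a b v => by
    simp only [Matrix.add_mulVec, Matrix.smul_mulVec, Matrix.one_mulVec, QuadraticMap.map_add ⇑Q,
      QuadraticMap.map_smul, polar_smul_left, polar_smul_right, smul_eq_mul, e, h,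
      QuadraticMap.polar_comm (⇑Q) v (w *ᵥ v)]
    ring
  suffices hzero : ∀ v, e v = 0 ∧ h v = 0 by
    intro k hk
    obtain ⟨a, b, rfl⟩ := hspan k hk
    exact ⟨a * a + a * b * t + b * b * c, fun v => by rw [hvals, (hzero v).1, (hzero v).2]; ring⟩
  rcases two_eq_zero_or_ne (F := F) with ⟨h2, -⟩ | ⟨h2, -⟩
  swap
  · intro v
    have he2 : (2 : F) * e v = 0 := by
      have := hea v v
      rw [← two_smul F v, hes] at this
      linear_combination this
    have hh2 : (2 : F) * h v = 0 := by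
      have := hha v v
      rw [← two_smul F v, hhs] at this
      linear_combination this
    exact ⟨(mul_eq_zero.mp he2).resolve_left h2, (mul_eq_zero.mp hh2).resolve_left h2⟩
  set Z := sqZeros e hea hes ⊓ sqZeros h hha hhs
  have hinv : ∀ g ∈ H, ∀ v ∈ Z, act g v ∈ Z := by
    intro g hg v hv
    have hev : e v = 0 := hv.1
    have hhv : h v = 0 := hv.2
    set x : Matrix ι ι F := ((g⁻¹ : GL ι F) : Matrix ι ι F) * w * (g : Matrix ι ι F) with hx'
    have hx := conj_mem_of_normalizer (hle (H.inv_mem hg)) hw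
    rw [inv_inv] at hx
    obtain ⟨a, b, hab⟩ := hspan x hx
    have hgx : ∀ u, w *ᵥ act g u = act g (x *ᵥ u) := fun u => by
      simp [x, act, Matrix.mulVec_mulVec, ← mul_assoc]
    have hgx' : ∀ u, act g ((t • (1 : Matrix ι ι F) - x) *ᵥ u) = (t • (1 : Matrix ι ι F) - w) *ᵥ act g u :=
      fun u => by
        rw [Matrix.sub_mulVec, Matrix.sub_mulVec, hgx, Matrix.smul_mulVec, Matrix.smul_mulVec,
          Matrix.one_mulVec, Matrix.one_mulVec]
        simp [act, Matrix.mulVec_sub, Matrix.mulVec_smul]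
    have hw'eq : w' = t • 1 - w := by rw [← ht]; abel
    have hxadj : ∀ u u', polar Q (x *ᵥ u) u' = polar Q u ((t • (1 : Matrix ι ι F) - x) *ᵥ u') := fun u u' => by
      rw [← hiso.polar hg, ← hgx, hadjw, hw'eq, ← hgx', hiso.polar hg]
    -- coefficients of `x` and its adjoint
    have hcoef : b * t = t - 2 * a := by
      have hsum : ∀ u u', (2 * a + b * t - t) * polar Q u u' = 0 := fun u u' => by
        have h1 := hxadj u u'
        rw [hab] at h1
        simp only [Matrix.add_mulVec, Matrix.sub_mulVec, Matrix.smul_mulVec, Matrix.one_mulVec, polar_add_left,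
          polar_add_right, polar_sub_right, polar_smul_left, polar_smul_right, smul_eq_mul] at h1
        have h2' := hsplit u u'
        rw [QuadraticMap.polar_comm (⇑Q) (w *ᵥ u') u] at h2'
        linear_combination h1 - b * h2'
      obtain ⟨i⟩ := ‹Nonempty ι›
      obtain ⟨y, hy⟩ := (hnd (Pi.single i 1) (by simp)).2
      linear_combination (mul_eq_zero.mp (hsum _ y)).resolve_right hy
    have hnx : a * a + a * b * t + b * b * c = c := by
      have hq : ∀ u u', (a * a + a * b * t + b * b * c) * polar Q u u' = c * polar Q u u' := fun u u' => by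
        have h1 : polar Q (x *ᵥ u) (x *ᵥ u') = c * polar Q u u' := by
          rw [← hiso.polar hg, ← hgx, ← hgx, hnorm, hiso.polar hg]
        rw [← h1, hab]
        simp only [Matrix.add_mulVec, Matrix.smul_mulVec, Matrix.one_mulVec, polar_add_left, polar_add_right,
          polar_smul_left, polar_smul_right, smul_eq_mul, hnorm]
        have h2' := hsplit u u'
        rw [QuadraticMap.polar_comm (⇑Q) (w *ᵥ u') u] at h2'
        linear_combination -(a * b) * h2'
      obtain ⟨i⟩ := ‹Nonempty ι›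
      obtain ⟨y, hy⟩ := (hnd (Pi.single i 1) (by simp)).2
      exact mul_right_cancel₀ hy (hq _ y)
    refine ⟨show e (act g v) = 0 from ?_, show h (act g v) = 0 from ?_⟩
    · show Q (w *ᵥ act g v) - c * Q (act g v) = 0
      rw [hgx, hiso g hg, hiso g hg, hab, hvals, hev, hhv, hnx]
      ring
    · show polar Q (w *ᵥ act g v) (act g v) - t * Q (act g v) = 0
      rw [hgx, hiso.polar hg, hiso g hg, hab]
      simp only [Matrix.add_mulVec, Matrix.smul_mulVec, Matrix.one_mulVec, polar_add_left, polar_smul_left,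
        polar_self_mul, smul_eq_mul]
      have h3 : polar Q (w *ᵥ v) v = t * Q v := sub_eq_zero.mp hhv
      rw [h3]
      linear_combination (Q v) * hcoef
  rcases actsIrreducibly_iff.mp hirr Z hinv with hZ | hZ
  · exfalso
    have h1 := finrank_inf_sqZeros h2 hha hhs (sqZeros e hea hes)
    have h2' := finrank_inf_sqZeros h2 hea hes ⊤
    rw [show sqZeros e hea hes ⊓ sqZeros h hha hhs = Z from rfl, hZ, finrank_bot] at h1
    rw [top_inf_eq, finrank_top, finrank_fintype_fun_eq_card] at h2'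
    omega
  · intro v
    have hv : v ∈ Z := hZ ▸ Submodule.mem_top
    exact ⟨hv.1, hv.2⟩

/-- A field of similarities of degree two excludes plus type in dimension twice an odd number. -/
theorem not_isPlus_of_similarity (hQ : Nondeg Q) {m : ℕ} (hn : Fintype.card ι = 2 * m) (hmodd : Odd m)
    (hK : IsFieldSubalgebra 2 K) (hsim : ∀ k ∈ K, ∃ c : F, ∀ v : ι → F, Q (k *ᵥ v) = c * Q v) :
    ¬ IsPlusTypeOn (⇑Q) ⊤ := by
  classical
  rintro ⟨U₀, -, hU₀, hU₀d⟩
  rw [finrank_top, finrank_fintype_fun_eq_card] at hU₀d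
  obtain ⟨W, ⟨hW, hWK⟩, hmax⟩ := exists_max_invariant (F := F) (ι := ι)
    (fun W => (∀ x ∈ W, Q x = 0) ∧ ∀ k ∈ K, ∀ v ∈ W, k *ᵥ v ∈ W)
    ⟨fun x hx => by simp [(Submodule.mem_bot F).1 hx],
      fun k _ v hv => by simp [(Submodule.mem_bot F).1 hv]⟩
  have hWle : finrank F W ≤ m := by
    by_contra hlt
    have hpol : ∀ x ∈ W, ∀ y ∈ W, polar Q x y = 0 := fun x hx y hy => by
      simp [QuadraticMap.polar, hW _ (W.add_mem hx hy), hW x hx, hW y hy]
    have h1 : W ≤ LinearMap.BilinForm.orthogonal (polarBilin Q) W := fun x hx y hy => hpol y hy x hx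
    have h2 := Submodule.finrank_mono h1
    rw [LinearMap.BilinForm.finrank_orthogonal (nondeg_iff_polarBilin.mpr hQ), finrank_fintype_fun_eq_card] at h2
    omega
  obtain ⟨g, hg, hgle⟩ := Forms.exists_isometry_singular_le Q (nondeg_iff_polarBilin.mpr hQ) W U₀ hW hU₀ (by omega)
  set U := U₀.comap g.toLinearMap
  have hUd : finrank F U = m := by
    show finrank F (U₀.comap g.toLinearMap) = m
    rw [Submodule.comap_equiv_eq_map_symm, LinearEquiv.finrank_map_eq]
    omega
  have hU : ∀ x ∈ U, Q x = 0 := fun x hx => (hg x).symm.trans (hU₀ _ hx)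
  have hWU : W ≤ U := Submodule.map_le_iff_le_comap.mp hgle
  have hUW : U ≤ W := by
    intro v hv
    by_contra hvW
    have hpolU : ∀ x ∈ U, ∀ y ∈ U, polar Q x y = 0 := fun x hx y hy => by
      simp [QuadraticMap.polar, hU _ (U.add_mem hx hy), hU x hx, hU y hy]
    have hlt : W < W ⊔ fieldSpan K v :=
      lt_of_le_of_ne le_sup_left fun e => hvW (e ▸ Submodule.mem_sup_right (mem_fieldSpan_self v))
    have hbig := hmax (W ⊔ fieldSpan K v) ⟨?_, ?_⟩
    · exact absurd (Submodule.finrank_lt_finrank_of_lt hlt) (by omega)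
    · intro x hx
      obtain ⟨a, ha, _, ⟨k, hk, rfl⟩, rfl⟩ := Submodule.mem_sup.1 hx
      obtain ⟨c, hc⟩ := hsim k hk
      rw [QuadraticMap.map_add ⇑Q, hW a ha, hc, hU v hv, mul_zero, zero_add, zero_add]
      by_cases hk0 : k = 0
      · simp [hk0]
      obtain ⟨y, hy, hky⟩ := hK.inv k hk hk0
      have hya : y *ᵥ a ∈ U := hWU (hWK y hy a ha)
      have h1 : polar Q (k *ᵥ (y *ᵥ a)) (k *ᵥ v) = c * polar Q (y *ᵥ a) v := by
        simp only [QuadraticMap.polar, ← Matrix.mulVec_add, hc]; ring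
      rw [Matrix.mulVec_mulVec, hky, Matrix.one_mulVec, hpolU _ hya v hv, mul_zero] at h1
      exact h1
    · intro k hk x hx
      obtain ⟨a, ha, _, ⟨l, hl, rfl⟩, rfl⟩ := Submodule.mem_sup.1 hx
      rw [Matrix.mulVec_add, Matrix.mulVec_mulVec]
      exact Submodule.add_mem_sup (hWK k hk a ha) ⟨k * l, K.mul_mem hk hl, rfl⟩
  have hdvd := dvd_finrank_of_invariant hK hWK
  rw [show W = U from le_antisymm hWU hUW, hUd] at hdvd
  exact Nat.not_even_iff_odd.mpr hmodd (even_iff_two_dvd.mpr hdvd)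

end CfsgLib.SmallDim.OrthEven
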