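import Cfsg.Agent.Lib.SmallDim.OrthEvenFrames
import Cfsg.Agent.Lib.SmallDim.OrthEvenQuadField

/-!
Maximal subgroups of `Ω` in dimension ten: the decompositions and the assembled cases.
-/

set_option autoImplicit false
set_option linter.style.haveILetI false
set_option linter.unusedSectionVars false
set_option linter.unusedSimpArgs false

namespace CfsgLib.SmallDim.OrthEven

open scoped MatrixGroups Matrix
open Cfsg.Geo QuadraticMap CfsgLib.ClassicalForms Module

variable {ι : Type} [Fintype ι] [DecidableEq ι] {F : Type*} [Field F] [Fintype F] {Q : QuadraticForm F (ι → F)}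
variable {H : Subgroup (GL ι F)}

lemma small_ten (hQ : Nondeg Q) (hn : Fintype.card ι = 10) : SmallEven Q :=
  ⟨hQ, by omega, fun _ => by rw [hn]; decide, fun r hr hodd hdvd => by
    rw [hn] at hdvd
    have hr10 := Nat.le_of_dvd (by norm_num) hdvd
    have := Nat.odd_iff.mp hodd
    rw [hn]
    interval_cases r <;> first | omega | norm_num at hr,
   fun a b hab ha hb => by
    rw [hn] at hab
    have : a ≤ 5 := by nlinarith
    interval_cases a <;> omega⟩

lemma ten_ne_prime_pow {a b : ℕ} (hb : 2 ≤ b ∨ a.Prime) : 10 ≠ a ^ b := by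
  intro h
  have h2 : 2 ∣ a := Nat.prime_two.dvd_of_dvd_pow (n := b) (by omega)
  have h5 : 5 ∣ a := (by norm_num : Nat.Prime 5).dvd_of_dvd_pow (n := b) (by omega)
  rcases hb with hb | hp
  · have ha : 0 < a := by
      rcases Nat.eq_zero_or_pos a with h0 | h0
      · rw [h0, zero_pow (by omega)] at h; omega
      · exact h0
    have ha10 : 10 ≤ a := Nat.le_of_dvd ha (Nat.Coprime.mul_dvd_of_dvd_of_dvd (by norm_num) h2 h5)
    have h1 : a ^ 2 ≤ a ^ b := Nat.pow_le_pow_right ha hb
    have h3 : 100 ≤ a ^ 2 := by nlinarith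
    omega
  · have e2 := (Nat.prime_dvd_prime_iff_eq Nat.prime_two hp).mp h2
    have e5 := (Nat.prime_dvd_prime_iff_eq (by norm_num : Nat.Prime 5) hp).mp h5
    omega

/-- The irreducible cases in dimension ten. -/
theorem ten_cases (hQ : Nondeg Q) (hn : Fintype.card ι = 10) (hH : H ≤ omegaGL (⇑Q))
    (hirr : ActsIrreducibly (matrixSet H)) :
    OrthDecomp Q H ∨ QuadField Q H ∨ SubfieldCase Q H ∨ InOrthogonalResidualClass H := by
  have : Nonempty ι := Fintype.card_pos_iff.mp (by omega)
  rcases irreducible_cases (small_ten hQ hn) hH hirr with h | h | h | h | ⟨R, r, m, h⟩ |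
    ⟨N, k, L, hN, habs, hperf, h⟩
  · exact Or.inl h
  · exact Or.inr (Or.inl h)
  · exact Or.inr (Or.inr (Or.inl h))
  · exact Or.inr (Or.inr (Or.inr h))
  · exact absurd (hn.symm.trans h.dim) (ten_ne_prime_pow (Or.inr h.sympType.prime))
  · obtain ⟨m, hm⟩ := exists_dim_eq_pow' habs h
    exact absurd (hn.symm.trans hm) (ten_ne_prime_pow (Or.inl h.two_le))

/-- The count for the decompositions in dimension ten. -/
lemma count_ten (hn : Fintype.card ι = 10) {t m : ℕ} (htm : t * m = 10) (hm : m ≤ 5) :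
    t * Fintype.card F ^ m < Fintype.card F ^ (Fintype.card ι - 2) := by
  have h1 := Fintype.one_lt_card (α := F)
  have hm0 : 0 < m := by rcases Nat.eq_zero_or_pos m with h | h <;> simp_all
  have h2 : t ≤ 10 := Nat.le_of_dvd (by norm_num) (Dvd.intro m htm)
  have h3 : Fintype.card F ^ m ≤ Fintype.card F ^ 5 := Nat.pow_le_pow_right (by omega) hm
  have h4 : 8 ≤ Fintype.card F ^ 3 := le_trans (by norm_num) (Nat.pow_le_pow_left h1 3)
  have h5 : 0 < Fintype.card F ^ 5 := pow_pos (by omega) 5
  rw [hn, show Fintype.card F ^ (10 - 2) = Fintype.card F ^ 3 * Fintype.card F ^ 5 by rw [← pow_add]]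
  have h6 : Fintype.card F ^ m * 2 ≤ Fintype.card F ^ 5 ∨ m = 5 := by
    by_cases h : m = 5
    · exact Or.inr h
    · left
      calc Fintype.card F ^ m * 2 ≤ Fintype.card F ^ m * Fintype.card F := Nat.mul_le_mul_left _ h1
        _ = Fintype.card F ^ (m + 1) := (pow_succ _ _).symm
        _ ≤ _ := Nat.pow_le_pow_right (by omega) (by omega)
  rcases h6 with h6 | rfl
  · calc t * Fintype.card F ^ m ≤ 10 * Fintype.card F ^ m := Nat.mul_le_mul_right _ h2
      _ = 5 * (Fintype.card F ^ m * 2) := by ring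
      _ ≤ 5 * Fintype.card F ^ 5 := Nat.mul_le_mul_left 5 h6
      _ < Fintype.card F ^ 3 * Fintype.card F ^ 5 := by nlinarith
  · obtain rfl : t = 2 := by omega
    nlinarith

/-- The shapes of an orthogonal decomposition in dimension ten. -/
theorem ten_decomp_shapes (hn : Fintype.card ι = 10) (h : OrthDecomp Q H) :
    (∃ D : Fin 10 → Submodule F (ι → F), IsOrthogonalMDecomposition (⇑Q) 1 D ∧ H ≤ decompositionStabilizer D) ∨
    (∃ D : Fin 5 → Submodule F (ι → F), IsOrthogonalMDecomposition (⇑Q) 2 D ∧ H ≤ decompositionStabilizer D) ∨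
    ∃ D : Fin 2 → Submodule F (ι → F), IsOrthogonalMDecomposition (⇑Q) 5 D ∧ H ≤ decompositionStabilizer D := by
  obtain ⟨t, m, D, hD, hle⟩ := h
  have htm := decomp_mul_eq hD.decomp.decomp
  rw [hn] at htm
  have h2 := hD.decomp.decomp.two_le
  have ht : t = 2 ∨ t = 5 ∨ t = 10 := by
    have := Nat.le_of_dvd (by norm_num) (Dvd.intro m htm)
    interval_cases t <;> omega
  rcases ht with rfl | rfl | rfl
  · obtain rfl : m = 5 := by omega
    exact Or.inr (Or.inr ⟨D, hD, hle⟩)
  · obtain rfl : m = 2 := by omega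
    exact Or.inr (Or.inl ⟨D, hD, hle⟩)
  · obtain rfl : m = 1 := by omega
    exact Or.inl ⟨D, hD, hle⟩

/-- Five planes have the type of one of them. -/
theorem planes_type (hQ : Nondeg Q) (hn : Fintype.card ι = 10) {D : Fin 5 → Submodule F (ι → F)}
    (hD : IsOrthogonalMDecomposition (⇑Q) 2 D) :
    (IsPlusTypeOn (⇑Q) ⊤ → ∀ i, IsPlusTypeOn (⇑Q) (D i)) ∧
      (¬ IsPlusTypeOn (⇑Q) ⊤ → ∀ i, ¬ IsPlusTypeOn (⇑Q) (D i)) := by
  classical
  have hd := hD.decomp.decomp
  have hnd := hD.decomp.nondegenerate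
  have ho : ∀ i j, i ≠ j → ∀ x ∈ D i, ∀ y ∈ D j, polar Q x y = 0 := hD.decomp.orthogonal
  have hdisj : ∀ i (s : Finset (Fin 5)), i ∉ s → Disjoint (D i) (s.sup D) := fun i s hi =>
    (hd.indep i).mono_right (Finset.sup_le fun j hj => le_iSup₂_of_le j (fun e => hi (by rwa [e] at hj)) le_rfl)
  have hpair : ∀ i j, i ≠ j → Disjoint (D i) (D j) := fun i j hij => by
    simpa using hdisj i {j} (by simpa using hij)
  refine ⟨fun hp i => ?_, fun hm i hi => hm ?_⟩
  · by_contra hni
    have hani : ∀ v ∈ D 4, Q v = 0 → v = 0 := by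
      intro v hv hQv
      by_contra hv0
      refine hni (plus_congr (hD.isometric 4 i) ⟨Submodule.span F {v},
        (Submodule.span_singleton_le_iff_mem v _).mpr hv, fun x hx => ?_,
        by rw [finrank_span_singleton hv0, hd.finrank_eq]⟩)
      obtain ⟨c, rfl⟩ := Submodule.mem_span_singleton.mp hx
      rw [QuadraticMap.map_smul, hQv, smul_zero]
    obtain ⟨U₁, hU₁le, hU₁, hU₁d⟩ := exists_singular_of_isometric (hnd 0) ⟨1, by rw [hd.finrank_eq]⟩
      (ho 0 1 (by decide)) (hpair 0 1 (by decide)) (hD.isometric 0 1)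
    obtain ⟨U₂, hU₂le, hU₂, hU₂d⟩ := exists_singular_of_isometric (hnd 2) ⟨1, by rw [hd.finrank_eq]⟩
      (ho 2 3 (by decide)) (hpair 2 3 (by decide)) (hD.isometric 2 3)
    rw [hd.finrank_eq] at hU₁d hU₂d
    have ho12 : ∀ x ∈ U₁, ∀ y ∈ U₂, polar Q x y = 0 := fun x hx y hy => by
      obtain ⟨a, ha, b, hb, rfl⟩ := Submodule.mem_sup.1 (hU₁le hx)
      obtain ⟨c, hc, e, he, rfl⟩ := Submodule.mem_sup.1 (hU₂le hy)
      rw [polar_add_left, polar_add_right, polar_add_right, ho 0 2 (by decide) a ha c hc,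
        ho 0 3 (by decide) a ha e he, ho 1 2 (by decide) b hb c hc, ho 1 3 (by decide) b hb e he]
      ring
    set U := U₁ ⊔ U₂
    have hU : ∀ x ∈ U, Q x = 0 := fun x hx => by
      obtain ⟨a, ha, b, hb, rfl⟩ := Submodule.mem_sup.1 hx
      rw [QuadraticMap.map_add ⇑Q, hU₁ a ha, hU₂ b hb, ho12 a ha b hb, add_zero, add_zero]
    have hUsup : U ≤ ({0, 1, 2, 3} : Finset (Fin 5)).sup D := by
      refine sup_le (hU₁le.trans (sup_le ?_ ?_)) (hU₂le.trans (sup_le ?_ ?_)) <;>
        exact Finset.le_sup (by decide)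
    have hU4 : Disjoint U (D 4) := ((hdisj 4 {0, 1, 2, 3} (by decide)).mono_right hUsup).symm
    have hUd : finrank F U = 4 := by
      have h := Submodule.finrank_sup_add_finrank_inf_eq U₁ U₂
      have hdis : U₁ ⊓ U₂ = ⊥ := by
        rw [Submodule.eq_bot_iff]
        rintro x ⟨h1, h2⟩
        have hle01 : D 0 ⊔ D 1 ≤ LinearMap.ker (polarBilin Q x) := sup_le
          (fun z hz => by
            obtain ⟨c, hc, e, he, rfl⟩ := Submodule.mem_sup.1 (hU₂le h2)
            show polar Q (c + e) z = 0
            rw [polar_add_left, ho 2 0 (by decide) c hc z hz, ho 3 0 (by decide) e he z hz, add_zero])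
          (fun z hz => by
            obtain ⟨c, hc, e, he, rfl⟩ := Submodule.mem_sup.1 (hU₂le h2)
            show polar Q (c + e) z = 0
            rw [polar_add_left, ho 2 1 (by decide) c hc z hz, ho 3 1 (by decide) e he z hz, add_zero])
        by_contra hx0
        obtain ⟨y, hy, hxy⟩ := (nondegenerateOn_sup (hnd 0) (hnd 1) (ho 0 1 (by decide)) x (hU₁le h1) hx0).2
        exact hxy (hle01 hy)
      rw [hdis, finrank_bot, add_zero, hU₁d, hU₂d] at h
      exact h
    -- the orthogonal of `U` is `U + D 4`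
    set O := LinearMap.BilinForm.orthogonal (polarBilin Q) U
    have hle : U ⊔ D 4 ≤ O := by
      refine sup_le (fun x hx y hy => ?_) (fun x hx y hy => ?_)
      · show polar Q y x = 0
        simp [QuadraticMap.polar, hU _ (U.add_mem hy hx), hU y hy, hU x hx]
      · show polar Q y x = 0
        have : ({0, 1, 2, 3} : Finset (Fin 5)).sup D ≤ LinearMap.ker ((polarBilin Q).flip x) :=
          Finset.sup_le fun j hj z hz => by
            show polar Q z x = 0
            exact ho j 4 (fun e => by subst e; simp at hj) z hz x hx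
        exact this (hUsup hy)
    have hOd : finrank F O = 6 := by
      show finrank F (LinearMap.BilinForm.orthogonal (polarBilin Q) U) = 6
      rw [LinearMap.BilinForm.finrank_orthogonal (nondeg_iff_polarBilin.mpr hQ), finrank_fintype_fun_eq_card,
        hn, hUd]
    have hsupd : finrank F ↥(U ⊔ D 4) = 6 := by
      have h := Submodule.finrank_sup_add_finrank_inf_eq U (D 4)
      rw [disjoint_iff.1 hU4, finrank_bot, add_zero, hUd, hd.finrank_eq] at h
      exact h
    have hOeq : U ⊔ D 4 = O := Submodule.eq_of_le_of_finrank_eq hle (hsupd.trans hOd.symm)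
    obtain ⟨U₀, -, hU₀, hU₀d⟩ := hp
    rw [finrank_top, finrank_fintype_fun_eq_card, hn] at hU₀d
    obtain ⟨g, hg, hgle⟩ := Forms.exists_isometry_singular_le Q (nondeg_iff_polarBilin.mpr hQ) U U₀ hU hU₀ (by omega)
    set V := U₀.comap g.toLinearMap
    have hVd : finrank F V = 5 := by
      show finrank F (U₀.comap g.toLinearMap) = 5
      rw [Submodule.comap_equiv_eq_map_symm, LinearEquiv.finrank_map_eq]
      omega
    have hV : ∀ x ∈ V, Q x = 0 := fun x hx => (hg x).symm.trans (hU₀ _ hx)
    have hUV : U ≤ V := Submodule.map_le_iff_le_comap.mp hgle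
    have hVU : V ≤ U := fun v hv => by
      have hvO : v ∈ O := fun y hy => by
        show polar Q y v = 0
        simp [QuadraticMap.polar, hV _ (V.add_mem (hUV hy) hv), hV y (hUV hy), hV v hv]
      rw [← hOeq] at hvO
      obtain ⟨a, ha, b, hb, rfl⟩ := Submodule.mem_sup.1 hvO
      have hbV : b ∈ V := by simpa using V.sub_mem hv (hUV ha)
      rw [hani b hb (hV b hbV), add_zero]
      exact ha
    have := Submodule.finrank_mono hVU
    omega
  · -- five totally singular lines
    have hall : ∀ j, IsPlusTypeOn (⇑Q) (D j) := fun j => plus_congr (hD.isometric i j) hi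
    choose U hUD hU hUd using hall
    have hUne : ∀ j, U j ≠ ⊥ := fun j e => by
      have := hUd j
      rw [e, finrank_bot, hd.finrank_eq] at this
      omega
    choose u hu hu0 using fun j => (U j).ne_bot_iff.mp (hUne j)
    have hli : LinearIndependent F u :=
      hd.indep.linearIndependent _ (fun j => hUD j (hu j)) hu0
    refine ⟨Submodule.span F (Set.range u), le_top, ts_span (fun j => hU j _ (hu j)) fun a b => ?_,
      by rw [finrank_span_eq_card hli, Fintype.card_fin, finrank_top, finrank_fintype_fun_eq_card, hn]⟩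
    rcases eq_or_ne a b with rfl | hab
    · rw [polar_self_mul, hU a _ (hu a), mul_zero]
    · exact ho a b hab _ (hUD a (hu a)) _ (hUD b (hu b))

/-- Hyperbolic planes over two or three elements are not permuted irreducibly. -/
theorem not_small_planes {t : ℕ} (hn : Fintype.card ι = t * 2) (hiso : Isometric Q H) (hirr : ActsIrreducibly (matrixSet H))
    (hq : Fintype.card F < 4) {D : Fin t → Submodule F (ι → F)} (hD : IsOrthogonalMDecomposition (⇑Q) 2 D)
    (hle : H ≤ decompositionStabilizer D) (hall : ∀ i, IsPlusTypeOn (⇑Q) (D i)) : False := by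
  classical
  choose u w hu hw hQu hQw huw hval hspan using fun i =>
    exists_plane_pair (hD.decomp.nondegenerate i) (hD.decomp.decomp.finrank_eq i) (hall i)
  let s : Fin t → ι → F := fun i => u i + w i
  have hQs : ∀ i, Q (s i) = 1 := fun i => by
    show Q (u i + w i) = 1
    rw [QuadraticMap.map_add ⇑Q, hQu, hQw, huw, zero_add, zero_add]
  have hnorm : ∀ i, ∀ x ∈ D i, Q x = 1 → x ∈ Submodule.span F (Set.range s) := by
    intro i x hx hQx
    obtain ⟨a, b, rfl⟩ := hspan i x hx
    rw [hval] at hQx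
    have ha0 : a ≠ 0 := left_ne_zero_of_mul_eq_one hQx
    have ha2 : a * a = 1 := by
      have hp := FiniteField.pow_card_sub_one_eq_one a ha0
      have h2le := Fintype.one_lt_card (α := F)
      interval_cases h : Fintype.card F
      · simp at hp; simp [hp]
      · simpa [pow_two] using hp
    rw [show b = a from mul_left_cancel₀ ha0 (hQx.trans ha2.symm), ← smul_add]
    exact Submodule.smul_mem _ _ (Submodule.subset_span ⟨i, rfl⟩)
  have hinv : ∀ g ∈ H, ∀ v ∈ Submodule.span F (Set.range s), act g v ∈ Submodule.span F (Set.range s) := by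
    intro g hg v hv
    obtain ⟨π, hπ⟩ := hle hg
    have hle' : Submodule.span F (Set.range s) ≤
        (Submodule.span F (Set.range s)).comap (Matrix.toLin' (g : Matrix ι ι F)) := by
      rw [Submodule.span_le]
      rintro _ ⟨i, rfl⟩
      show Matrix.toLin' (g : Matrix ι ι F) (s i) ∈ Submodule.span F (Set.range s)
      rw [Matrix.toLin'_apply]
      exact hnorm (π i) _ (act_mem_of_map (hπ i) ((D i).add_mem (hu i) (hw i))) ((hiso g hg _).trans (hQs i))
    simpa [Matrix.toLin'_apply] using hle' hv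
  rcases actsIrreducibly_iff.mp hirr _ hinv with h | h
  · let i₀ : Fin t := ⟨0, by have := hD.decomp.decomp.two_le; omega⟩
    have : s i₀ ∈ (⊥ : Submodule F (ι → F)) := h ▸ Submodule.subset_span ⟨i₀, rfl⟩
    have h1 := hQs i₀
    rw [(Submodule.mem_bot F).1 this, QuadraticMap.map_zero] at h1
    exact zero_ne_one h1
  · have h1 := finrank_range_le_card (R := F) s
    rw [Set.finrank, h, finrank_top, finrank_fintype_fun_eq_card, hn, Fintype.card_fin] at h1
    have := hD.decomp.decomp.two_le
    omega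

/-- Hyperbolic planes over four elements give a structure over the prime field. -/
theorem subfieldCase_of_planes_four {t : ℕ} (hn : Fintype.card ι = t * 2) (hiso : Isometric Q H)
    (hq : Fintype.card F = 4) {D : Fin t → Submodule F (ι → F)} (hD : IsOrthogonalMDecomposition (⇑Q) 2 D)
    (hle : H ≤ decompositionStabilizer D) (hall : ∀ i, IsPlusTypeOn (⇑Q) (D i)) : SubfieldCase Q H := by
  classical
  choose u w hu hw hQu hQw huw hval hspan using fun i =>
    exists_plane_pair (hD.decomp.nondegenerate i) (hD.decomp.decomp.finrank_eq i) (hall i)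
  have hnp : ¬ (Fintype.card F).Prime := by rw [hq]; decide
  obtain ⟨K, r, hr, hcard, hK⟩ := exists_subfield_of_not_prime hnp
  have h2 : (2 : F) = 0 := two_eq_zero_of_not_odd (by rw [hq]; decide)
  obtain ⟨ω, hω0, hω1⟩ : ∃ ω : F, ω ≠ 0 ∧ ω ≠ 1 := by
    by_contra hall'
    push Not at hall'
    have : (Finset.univ : Finset F) ⊆ {0, 1} := fun x _ => by
      by_cases hx : x = 0
      · simp [hx]
      · simp [hall' x hx]
    have h := Finset.card_le_card this
    rw [Finset.card_univ, hq] at h
    have := Finset.card_le_two (a := (0 : F)) (b := 1)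
    omega
  have hcube : ∀ a : F, a ≠ 0 → a ^ 3 = 1 := fun a ha => by
    have h := FiniteField.pow_card_sub_one_eq_one a ha
    rwa [hq] at h
  have hmin : ω * ω + ω + 1 = 0 := by
    have h : (ω - 1) * (ω * ω + ω + 1) = 0 := by linear_combination hcube ω hω0
    exact (mul_eq_zero.mp h).resolve_left (sub_ne_zero.mpr hω1)
  let ev : Fin t × Fin 2 → ι → F := fun p =>
    if p.2 = 0 then (1 : F) • u p.1 + (1 : F) • w p.1 else ω • u p.1 + (ω * ω) • w p.1
  have hev0 : ∀ i, ev (i, 0) = (1 : F) • u i + (1 : F) • w i := fun i => rfl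
  have hev1 : ∀ i, ev (i, 1) = ω • u i + (ω * ω) • w i := fun i => rfl
  have hevD : ∀ p, ev p ∈ D p.1 := fun ⟨i, a⟩ => by
    fin_cases a
    · exact (D i).add_mem ((D i).smul_mem _ (hu i)) ((D i).smul_mem _ (hw i))
    · exact (D i).add_mem ((D i).smul_mem _ (hu i)) ((D i).smul_mem _ (hw i))
  have hQev : ∀ p, Q (ev p) = 1 := fun ⟨i, a⟩ => by
    fin_cases a
    · show Q (ev (i, 0)) = 1
      rw [hev0, hval, one_mul]
    · show Q (ev (i, 1)) = 1
      rw [hev1, hval]
      linear_combination hcube ω hω0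
  have hpolev : ∀ i, polar Q (ev (i, 0)) (ev (i, 1)) = 1 := fun i => by
    rw [hev0, hev1]
    simp only [polar_add_left, polar_add_right, polar_smul_left, polar_smul_right, polar_self_mul, hQu, hQw,
      huw, polar_comm Q (w i) (u i), smul_eq_mul]
    linear_combination hmin - h2
  have hspanev : ⊤ ≤ Submodule.span F (Set.range ev) := by
    rw [← hD.decomp.decomp.iSup_eq_top]
    refine iSup_le fun i x hx => ?_
    obtain ⟨a, b, rfl⟩ := hspan i x hx
    have h0 : ev (i, 0) ∈ Submodule.span F (Set.range ev) := Submodule.subset_span ⟨_, rfl⟩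
    have h1 : ev (i, 1) ∈ Submodule.span F (Set.range ev) := Submodule.subset_span ⟨_, rfl⟩
    have hid : a • u i + b • w i = (a * (ω * ω) + b * ω) • ev (i, 0) + (a + b) • ev (i, 1) := by
      have hv : ω * ω + ω = 1 := by linear_combination hmin - h2
      rw [hev0, hev1]
      linear_combination (norm := module) (-a) • congrArg (fun c => c • u i) hv +
        (-b) • congrArg (fun c => c • w i) hv - congrArg (fun c => (b * ω) • (c • u i)) h2
          - congrArg (fun c => (a * (ω * ω)) • (c • w i)) h2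
    rw [hid]
    exact Submodule.add_mem _ (Submodule.smul_mem _ _ h0) (Submodule.smul_mem _ _ h1)
  let ε : ι ≃ Fin t × Fin 2 := Fintype.equivOfCardEq (by simp [hn])
  have hlev : LinearIndependent F ev := linearIndependent_of_top_le_span_of_card_eq_finrank hspanev
    (by simp [finrank_fintype_fun_eq_card, hn])
  obtain ⟨P, hrat, hle'⟩ := subfield_of_frame (H := H) (Q := Q) (K := K) (hlev.comp ε ε.injective) (ζ := 1)
    (fun i => by rw [one_mul]; show Q (ev (ε i)) ∈ K; rw [hQev]; exact K.one_mem)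
    (fun i j hij => by
      rw [one_mul]
      show polar Q (ev (ε i)) (ev (ε j)) ∈ K
      have hne : ε i ≠ ε j := fun h => hij (ε.injective h)
      generalize ε i = p at hne ⊢
      generalize ε j = q at hne ⊢
      obtain ⟨a, x⟩ := p
      obtain ⟨b, y⟩ := q
      by_cases hab : a = b
      · subst hab
        fin_cases x <;> fin_cases y
        · exact absurd rfl hne
        · show polar Q (ev (a, 0)) (ev (a, 1)) ∈ K
          rw [hpolev]; exact K.one_mem
        · show polar Q (ev (a, 1)) (ev (a, 0)) ∈ K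
          rw [QuadraticMap.polar_comm, hpolev]; exact K.one_mem
        · exact absurd rfl hne
      · rw [hD.decomp.orthogonal a b hab _ (hevD (a, x)) _ (hevD (b, y))]
        exact K.zero_mem)
    (fun g hg j => by
      obtain ⟨π, hπ⟩ := hle hg
      set i := π (ε j).1
      have hx : act g (ev (ε j)) ∈ D i := act_mem_of_map (hπ _) (hevD _)
      obtain ⟨a, b, hab⟩ := hspan i _ hx
      have hQx : a * b = 1 := by rw [← hval i, ← hab, hiso g hg, hQev]
      have ha0 : a ≠ 0 := left_ne_zero_of_mul_eq_one hQx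
      have hb : b = a * a := mul_left_cancel₀ ha0 (by rw [hQx]; linear_combination -hcube a ha0)
      -- the three norm-one vectors of the plane
      obtain ⟨c₀, c₁, hc₀, hc₁, hc⟩ : ∃ c₀ c₁ : F, c₀ ∈ K ∧ c₁ ∈ K ∧
          a • u i + b • w i = c₀ • ev (i, 0) + c₁ • ev (i, 1) := by
        rw [hb]
        by_cases ha1 : a = 1
        · exact ⟨1, 0, K.one_mem, K.zero_mem, by rw [ha1, hev0]; module⟩
        have hamin : a * a + a + 1 = 0 := by
          have h : (a - 1) * (a * a + a + 1) = 0 := by linear_combination hcube a ha0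
          exact (mul_eq_zero.mp h).resolve_left (sub_ne_zero.mpr ha1)
        have hfac : (a - ω) * (a - (ω + 1)) = 0 := by
          linear_combination hamin + hmin - (ω * a + a + 1) * h2
        rcases mul_eq_zero.mp hfac with h | h
        · exact ⟨0, 1, K.zero_mem, K.one_mem, by rw [sub_eq_zero.mp h, hev1]; module⟩
        · refine ⟨1, 1, K.one_mem, K.one_mem, ?_⟩
          rw [sub_eq_zero.mp h, hev0, hev1]
          have hsq : (ω + 1) * (ω + 1) = ω * ω + 1 := by linear_combination ω * h2
          rw [hsq]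
          module
      refine ⟨fun k => if ε k = (i, 0) then c₀ else if ε k = (i, 1) then c₁ else 0, fun k => ?_, ?_⟩
      · show (if ε k = (i, 0) then c₀ else if ε k = (i, 1) then c₁ else 0) ∈ K
        split_ifs <;> first | exact hc₀ | exact hc₁ | exact K.zero_mem
      · show act g (ev (ε j)) = _
        rw [hab, hc, ← Equiv.sum_comp ε.symm]
        simp only [Equiv.apply_symm_apply, Function.comp_apply]
        rw [Finset.sum_eq_add (i, (0 : Fin 2)) (i, 1) (by simp)]
        · simp
        · intro p _ hp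
          simp [hp.1, hp.2]
        all_goals simp)
  exact ⟨K, r, P, 1, hr, hcard, hK, one_ne_zero, hrat, hle'⟩

lemma card_cases (h : Fintype.card F < 7) :
    Fintype.card F = 2 ∨ Fintype.card F = 3 ∨ Fintype.card F = 4 ∨ Fintype.card F = 5 := by
  obtain ⟨p, hchar⟩ := CharP.exists F
  obtain ⟨e, hp, hq⟩ := FiniteField.card F p
  have h1 := Fintype.one_lt_card (α := F)
  by_contra hne
  push Not at hne
  have h6 : Fintype.card F = 6 := by omega
  rw [hq] at h6
  have h2 := (Nat.prime_dvd_prime_iff_eq Nat.prime_two hp).mp (Nat.prime_two.dvd_of_dvd_pow (n := e) (by omega))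
  have h3 := (Nat.prime_dvd_prime_iff_eq Nat.prime_three hp).mp (Nat.prime_three.dvd_of_dvd_pow (n := e) (by omega))
  omega

/-- The decompositions in plus type. -/
theorem ten_plus_decomp (hQ : Nondeg Q) (hn : Fintype.card ι = 10) (hplus : IsPlusTypeOn (⇑Q) ⊤)
    (hiso : Isometric Q H) (hirr : ActsIrreducibly (matrixSet H)) (h : OrthDecomp Q H) :
    ((∃ p : ℕ, p.Prime ∧ Fintype.card F = p ∧ p % 4 = 1) ∧ ∃ D : Fin 10 → Submodule F (ι → F),
      IsOrthogonalMDecomposition (⇑Q) 1 D ∧ H ≤ decompositionStabilizer D) ∨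
    (7 ≤ Fintype.card F ∧ ∃ D : Fin 5 → Submodule F (ι → F),
      IsOrthogonalMDecomposition (⇑Q) 2 D ∧ H ≤ decompositionStabilizer D) ∨
    (Fintype.card F % 4 = 1 ∧ ∃ D : Fin 2 → Submodule F (ι → F),
      IsOrthogonalMDecomposition (⇑Q) 5 D ∧ H ≤ decompositionStabilizer D) ∨ SubfieldCase Q H := by
  have hlines : ∀ D : Fin 10 → Submodule F (ι → F), IsOrthogonalMDecomposition (⇑Q) 1 D →
      H ≤ decompositionStabilizer D → ((∃ p : ℕ, p.Prime ∧ Fintype.card F = p ∧ p % 4 = 1) ∧
        ∃ D : Fin 10 → Submodule F (ι → F), IsOrthogonalMDecomposition (⇑Q) 1 D ∧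
          H ≤ decompositionStabilizer D) ∨ SubfieldCase Q H := by
    intro D hD hle
    by_cases hp : (Fintype.card F).Prime
    · refine Or.inl ⟨⟨_, hp, rfl, ?_⟩, D, hD, hle⟩
      exact (plus_iff_mod_four hQ (m := 5) (by omega) (by decide)
        (isSquare_discTop_of_lines hiso hirr hD hle ⟨5, rfl⟩)).1 hplus
    · exact Or.inr (subfieldCase_of_lines hiso hirr hD hle hp)
  rcases ten_decomp_shapes hn h with ⟨D, hD, hle⟩ | ⟨D, hD, hle⟩ | ⟨D, hD, hle⟩
  · exact (hlines D hD hle).imp_right fun h => Or.inr (Or.inr h)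
  · by_cases hq : 7 ≤ Fintype.card F
    · exact Or.inr (Or.inl ⟨hq, D, hD, hle⟩)
    have hall := (planes_type hQ hn hD).1 hplus
    rcases card_cases (F := F) (by omega) with hq | hq | hq | hq
    · exact (not_small_planes (by omega) hiso hirr (by omega) hD hle hall).elim
    · exact (not_small_planes (by omega) hiso hirr (by omega) hD hle hall).elim
    · exact Or.inr (Or.inr (Or.inr (subfieldCase_of_planes_four (by omega) hiso hq hD hle hall)))
    · choose e he using fun i =>
        exists_planeFrame_five hq (hD.decomp.nondegenerate i) (hD.decomp.decomp.finrank_eq i) (hall i)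
      obtain ⟨D', hD', hle'⟩ := lines_of_planeFrames hn (two_ne_zero_of_odd_card (by rw [hq]; decide)) hiso hD hle he
      exact (hlines D' hD' hle').imp_right fun h => Or.inr (Or.inr h)
  · exact Or.inr (Or.inr (Or.inl ⟨(plus_iff_mod_four hQ (m := 5) (by omega) (by decide)
      (isSquare_discTop_of_halves (by decide) hD)).1 hplus, D, hD, hle⟩))

/-- The decompositions in minus type. -/
theorem ten_minus_decomp (hQ : Nondeg Q) (hn : Fintype.card ι = 10) (hminus : ¬ IsPlusTypeOn (⇑Q) ⊤)
    (hiso : Isometric Q H) (hirr : ActsIrreducibly (matrixSet H)) (h : OrthDecomp Q H) :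
    ((∃ p : ℕ, p.Prime ∧ Fintype.card F = p ∧ p % 4 = 3) ∧ ∃ D : Fin 10 → Submodule F (ι → F),
      IsOrthogonalMDecomposition (⇑Q) 1 D ∧ H ≤ decompositionStabilizer D) ∨
    (Fintype.card F ≠ 3 ∧ ∃ D : Fin 5 → Submodule F (ι → F),
      IsOrthogonalMDecomposition (⇑Q) 2 D ∧ H ≤ decompositionStabilizer D) ∨
    (Fintype.card F % 4 = 3 ∧ ∃ D : Fin 2 → Submodule F (ι → F),
      IsOrthogonalMDecomposition (⇑Q) 5 D ∧ H ≤ decompositionStabilizer D) ∨ SubfieldCase Q H := by
  have hlines : ∀ D : Fin 10 → Submodule F (ι → F), IsOrthogonalMDecomposition (⇑Q) 1 D →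
      H ≤ decompositionStabilizer D → ((∃ p : ℕ, p.Prime ∧ Fintype.card F = p ∧ p % 4 = 3) ∧
        ∃ D : Fin 10 → Submodule F (ι → F), IsOrthogonalMDecomposition (⇑Q) 1 D ∧
          H ≤ decompositionStabilizer D) ∨ SubfieldCase Q H := by
    intro D hD hle
    by_cases hp : (Fintype.card F).Prime
    · refine Or.inl ⟨⟨_, hp, rfl, ?_⟩, D, hD, hle⟩
      exact (plus_iff_mod_four hQ (m := 5) (by omega) (by decide)
        (isSquare_discTop_of_lines hiso hirr hD hle ⟨5, rfl⟩)).2 hminus
    · exact Or.inr (subfieldCase_of_lines hiso hirr hD hle hp)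
  rcases ten_decomp_shapes hn h with ⟨D, hD, hle⟩ | ⟨D, hD, hle⟩ | ⟨D, hD, hle⟩
  · exact (hlines D hD hle).imp_right fun h => Or.inr (Or.inr h)
  · by_cases hq : Fintype.card F = 3
    swap
    · exact Or.inr (Or.inl ⟨hq, D, hD, hle⟩)
    choose e he using fun i =>
      exists_planeFrame_three hq (hD.decomp.decomp.finrank_eq i) ((planes_type hQ hn hD).2 hminus i)
    obtain ⟨D', hD', hle'⟩ := lines_of_planeFrames hn (two_ne_zero_of_odd_card (by rw [hq]; decide)) hiso hD hle he
    exact (hlines D' hD' hle').imp_right fun h => Or.inr (Or.inr h)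
  · exact Or.inr (Or.inr (Or.inl ⟨(plus_iff_mod_four hQ (m := 5) (by omega) (by decide)
      (isSquare_discTop_of_halves (by decide) hD)).2 hminus, D, hD, hle⟩))

lemma isSquare_mul_of_not {a b : F} (ha : ¬ IsSquare a) (hb : ¬ IsSquare b) : IsSquare (a * b) := by
  classical
  have h2 : ringChar F ≠ 2 := fun h => ha (FiniteField.isSquare_of_char_two h a)
  have ha0 : a ≠ 0 := fun h => ha (h ▸ IsSquare.zero)
  have hb0 : b ≠ 0 := fun h => hb (h ▸ IsSquare.zero)
  rw [← quadraticChar_one_iff_isSquare (mul_ne_zero ha0 hb0), map_mul,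
    (quadraticChar_neg_one_iff_not_isSquare).mpr ha, (quadraticChar_neg_one_iff_not_isSquare).mpr hb]
  norm_num

/-- A pair of orthogonal five-spaces: isometric or not, according to the type and `q mod 4`. -/
theorem ten_pair (hQ : Nondeg Q) (hn : Fintype.card ι = 10) {D : Fin 2 → Submodule F (ι → F)}
    (hD : IsNondegenerateMDecomposition (polar (⇑Q)) 5 D) :
    (IsPlusTypeOn (⇑Q) ⊤ →
      (Fintype.card F % 4 = 1 ∧ IsOrthogonalMDecomposition (⇑Q) 5 D) ∨
      (Fintype.card F % 4 = 3 ∧ ¬ AreIsometricFor (⇑Q) (D 0) (D 1))) ∧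
    (¬ IsPlusTypeOn (⇑Q) ⊤ →
      (Fintype.card F % 4 = 3 ∧ IsOrthogonalMDecomposition (⇑Q) 5 D) ∨
      (Fintype.card F % 4 = 1 ∧ ¬ AreIsometricFor (⇑Q) (D 0) (D 1))) := by
  have hd := hD.decomp
  have hnd := hD.nondegenerate
  have h2 : (2 : F) ≠ 0 := fun h => by
    have := even_finrank_of_two_eq_zero h (hnd 0)
    rw [hd.finrank_eq] at this
    exact absurd this (by decide)
  have hodd := Nat.odd_iff.mp (odd_card_of_two_ne_zero h2)
  have hc : IsCompl (D 0) (D 1) := by
    have hind := hd.indep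
    rw [iSupIndep_pair (by decide : (0 : Fin 2) ≠ 1) (by decide)] at hind
    refine ⟨hind, codisjoint_iff.mpr (eq_top_iff.mpr ?_)⟩
    rw [← hd.iSup_eq_top]
    exact iSup_le fun i => by fin_cases i <;> simp
  have h1 := isSquare_discTop_mul hc (hD.orthogonal 0 1 (by decide))
  set dd := disc Q (D 0) * disc Q (D 1)
  have hdd0 : dd ≠ 0 :=
    mul_ne_zero (gdet_ne_zero _ (restr_nondegenerate (hnd 0))) (gdet_ne_zero _ (restr_nondegenerate (hnd 1)))
  have hT0 := discTop_ne_zero hQ
  have hiso : AreIsometricFor (⇑Q) (D 0) (D 1) ↔ IsSquare (discTop Q) := by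
    rw [areIsometricFor_iff h2 (hnd 0) (hnd 1) (by rw [hd.finrank_eq, hd.finrank_eq])]
    constructor
    · intro h
      have h' : IsSquare (discTop Q * 1) := isSquare_cancel hdd0 h1 (by rwa [mul_one])
      rwa [mul_one] at h'
    · intro h
      have h' : IsSquare (dd * 1) := isSquare_cancel hT0 (by rwa [mul_comm]) (by rwa [mul_one])
      rwa [mul_one] at h'
  have horth : AreIsometricFor (⇑Q) (D 0) (D 1) → IsOrthogonalMDecomposition (⇑Q) 5 D := fun ⟨e, he⟩ =>
    ⟨hD, fun i j => by
      fin_cases i <;> fin_cases j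
      · exact ⟨LinearEquiv.refl F _, fun _ => rfl⟩
      · exact ⟨e, he⟩
      · exact ⟨e.symm, fun w => by rw [← he, LinearEquiv.apply_symm_apply]⟩
      · exact ⟨LinearEquiv.refl F _, fun _ => rfl⟩⟩
  have htype : IsPlusTypeOn (⇑Q) ⊤ ↔ IsSquare (-1 * discTop Q) := by
    rw [isPlusTypeOn_top_iff h2 hQ (m := 5) (by omega), (by decide : Odd 5).neg_one_pow]
  refine ⟨fun hp => ?_, fun hp => ?_⟩ <;> rw [htype] at hp <;>
    by_cases hs : IsSquare (discTop Q)
  · refine Or.inl ⟨?_, horth (hiso.mpr hs)⟩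
    have h' : IsSquare ((-1 : F) * 1) := isSquare_cancel hT0 hp (by rwa [mul_one])
    rw [mul_one, FiniteField.isSquare_neg_one_iff] at h'
    omega
  · refine Or.inr ⟨?_, fun h => hs (hiso.mp h)⟩
    have hn1 : ¬ IsSquare (-1 : F) := fun h => hs (by simpa [← mul_assoc] using h.mul hp)
    rw [FiniteField.isSquare_neg_one_iff] at hn1
    omega
  · refine Or.inl ⟨?_, horth (hiso.mpr hs)⟩
    have hn1 : ¬ IsSquare (-1 : F) := fun h => hp (h.mul hs)
    rw [FiniteField.isSquare_neg_one_iff] at hn1
    omega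
  · refine Or.inr ⟨?_, fun h => hs (hiso.mp h)⟩
    have h' := isSquare_mul_of_not hp hs
    have h'' : IsSquare (-1 : F) := by
      obtain ⟨s, hs'⟩ := h'
      exact ⟨s / discTop Q, by field_simp; linear_combination hs'⟩
    rw [FiniteField.isSquare_neg_one_iff] at h''
    omega

end CfsgLib.SmallDim.OrthEven
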