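import Cfsg.Agent.Lib.SmallDim.OrthEvenTwelveType
import Cfsg.Agent.Lib.SmallDim.OmegaStructure

/-!
Refinements of orthogonal decompositions over very small fields.
-/

set_option autoImplicit false
set_option linter.style.haveILetI false
set_option linter.unusedSectionVars false
set_option linter.unusedSimpArgs false

namespace CfsgLib.SmallDim.OrthEven

open scoped MatrixGroups Matrix
open Cfsg.Geo QuadraticMap CfsgLib.ClassicalForms Module

variable {ι : Type} [Fintype ι] [DecidableEq ι] {F : Type*} [Field F] [Fintype F] {Q : QuadraticForm F (ι → F)}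
variable {H : Subgroup (GL ι F)}

/-- A set of orthogonal vectors permuted up to scalars gives isometric lines. -/
theorem orth_lines (hiso : Isometric Q H) (hirr : ActsIrreducibly (matrixSet H)) {t : ℕ}
    (ht : t = Fintype.card ι) (h2t : 2 ≤ t) (v : Fin t → ι → F) (hn : ∀ i, polar Q (v i) (v i) ≠ 0)
    (ho : ∀ i j, i ≠ j → polar Q (v i) (v j) = 0)
    (hmap : ∀ g ∈ H, ∀ i, ∃ (j : Fin t) (c : F), act g (v i) = c • v j) :
    ∃ D : Fin t → Submodule F (ι → F), IsOrthogonalMDecomposition (⇑Q) 1 D ∧ H ≤ decompositionStabilizer D := by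
  obtain ⟨D, hD, hle⟩ := lines_decomposition ht h2t v hn ho hmap
  exact ⟨D, ⟨hD, orth_isometric hiso hirr hD hle⟩, hle⟩

/-- Frames of all planes give lines. -/
theorem lines_of_frames {t n : ℕ} (hn : Fintype.card ι = n) (htn : t * 2 = n) (h2 : (2 : F) ≠ 0)
    (hiso : Isometric Q H) (hirr : ActsIrreducibly (matrixSet H)) {D : Fin t → Submodule F (ι → F)}
    (hD : IsOrthogonalMDecomposition (⇑Q) 2 D) (hle : H ≤ decompositionStabilizer D)
    {e : Fin t → Fin 2 → ι → F} (he : ∀ i, PlaneFrame Q (D i) (e i)) :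
    ∃ D' : Fin n → Submodule F (ι → F), IsOrthogonalMDecomposition (⇑Q) 1 D' ∧
      H ≤ decompositionStabilizer D' := by
  subst htn
  let ε : Fin (t * 2) ≃ Fin t × Fin 2 := finProdFinEquiv.symm
  refine orth_lines hiso hirr hn.symm (by have := hD.decomp.decomp.two_le; omega)
    (fun k => e (ε k).1 (ε k).2) (fun k => ?_) (fun k l hkl => ?_) fun g hg k => ?_
  · rw [polar_self_mul, (he _).2.1, mul_one]; exact h2
  · have hne : ε k ≠ ε l := fun h => hkl (ε.injective h)
    generalize ε k = p at hne ⊢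
    generalize ε l = q at hne ⊢
    obtain ⟨i, a⟩ := p
    obtain ⟨j, b⟩ := q
    by_cases h : i = j
    · subst h
      fin_cases a <;> fin_cases b
      · exact absurd rfl hne
      · exact (he _).2.2.1
      · rw [QuadraticMap.polar_comm]; exact (he _).2.2.1
      · exact absurd rfl hne
    · exact hD.decomp.orthogonal _ _ h _ ((he _).1 _) _ ((he _).1 _)
  · obtain ⟨π, hπ⟩ := hle hg
    obtain ⟨a, s, hs⟩ := (he (π (ε k).1)).2.2.2.2 _ (act_mem_of_map (hπ _) ((he _).1 (ε k).2))
      ((hiso g hg _).trans ((he _).2.1 _))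
    exact ⟨ε.symm (π (ε k).1, a), s, by simpa using hs⟩

/-- Over three elements three-spaces split into lines. -/
theorem lines_of_threes {t n : ℕ} (hn : Fintype.card ι = n) (htn : t * 3 = n) (hq : Fintype.card F = 3)
    (hiso : Isometric Q H) (hirr : ActsIrreducibly (matrixSet H)) {D : Fin t → Submodule F (ι → F)}
    (hD : IsOrthogonalMDecomposition (⇑Q) 3 D) (hle : H ≤ decompositionStabilizer D) :
    ∃ D' : Fin n → Submodule F (ι → F), IsOrthogonalMDecomposition (⇑Q) 1 D' ∧
      H ≤ decompositionStabilizer D' := by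
  classical
  subst htn
  have h2 : (2 : F) ≠ 0 := two_ne_zero_of_odd_card (by rw [hq]; decide)
  have hd := hD.decomp.decomp
  let i₀ : Fin t := ⟨0, by have := hd.two_le; omega⟩
  obtain ⟨c, e, hc, he⟩ := exists_scaled_dot h2 (restr Q (D i₀)) (restr_symm _)
    (restr_nondegenerate (hD.decomp.nondegenerate i₀)) (hd.finrank_eq i₀)
  choose f hf using fun j => hD.isometric i₀ j
  let w : Fin t → (Fin 3 → F) → ι → F := fun j x => (f j (e x) : ι → F)
  have hwmem : ∀ j x, w j x ∈ D j := fun j x => (f j (e x)).2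
  have hQ2 : ∀ j x, polar Q (w j x) (w j x) = c * (x ⬝ᵥ x) := fun j x => by
    rw [polar_self_mul, hf, ← polar_self_mul (Q := Q), ← he]
    rfl
  have hadd : ∀ j x y, w j (x + y) = w j x + w j y := fun j x y => by simp [w]
  have hpol : ∀ j x y, polar Q (w j x) (w j y) = c * (x ⬝ᵥ y) := fun j x y => by
    have h := hQ2 j (x + y)
    rw [hadd, polar_add_left, polar_add_right, polar_add_right, hQ2, hQ2,
      QuadraticMap.polar_comm (⇑Q) (w j y) (w j x)] at h
    simp only [dotProduct_add, add_dotProduct, dotProduct_comm y x] at h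
    exact mul_left_cancel₀ h2 (by linear_combination h)
  let ε : Fin (t * 3) ≃ Fin t × Fin 3 := finProdFinEquiv.symm
  refine orth_lines hiso hirr hn.symm (by have := hd.two_le; omega)
    (fun k => w (ε k).1 (Pi.single (ε k).2 1)) (fun k => ?_) (fun k l hkl => ?_) fun g hg k => ?_
  · rw [hpol]; simpa using hc
  · have hne : ε k ≠ ε l := fun h => hkl (ε.injective h)
    generalize ε k = p at hne ⊢
    generalize ε l = q at hne ⊢
    obtain ⟨i, a⟩ := p
    obtain ⟨j, b⟩ := q
    by_cases h : i = j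
    · subst h
      rw [hpol]
      simp [show a ≠ b from fun h => hne (by rw [h])]
    · exact hD.decomp.orthogonal _ _ h _ (hwmem _ _) _ (hwmem _ _)
  · obtain ⟨π, hπ⟩ := hle hg
    set j := π (ε k).1
    have hmem : act g (w (ε k).1 (Pi.single (ε k).2 1)) ∈ D j := act_mem_of_map (hπ _) (hwmem _ _)
    set x := e.symm ((f j).symm ⟨_, hmem⟩)
    have hwx : w j x = act g (w (ε k).1 (Pi.single (ε k).2 1)) := by simp [w, x]
    have hxx : x ⬝ᵥ x = 1 := by
      refine mul_left_cancel₀ hc ?_
      rw [← hQ2 j, hwx, hiso.polar hg, hQ2]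
      simp
    obtain ⟨a, s, hxs⟩ := eq_smul_single_of_norm_one hq hxx
    refine ⟨ε.symm (j, a), s, ?_⟩
    simp only [Equiv.apply_symm_apply]
    rw [← hwx, hxs]
    simp [w]

/-- Over two elements a four-space of plus type is the sum of two anisotropic planes holding all vectors of
norm one. -/
theorem split_four (hq : Fintype.card F = 2) {W : Submodule F (ι → F)} (hW : IsNondegenerateOn (polar (⇑Q)) W)
    (hd : finrank F W = 4) (hp : IsPlusTypeOn (⇑Q) W) :
    ∃ P : Fin 2 → Submodule F (ι → F), (∀ a, P a ≤ W) ∧ (∀ a, finrank F (P a) = 2) ∧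
      (∀ a, ∀ x ∈ P a, Q x = 0 → x = 0) ∧ (∀ x ∈ P 0, ∀ y ∈ P 1, polar Q x y = 0) ∧ P 0 ⊔ P 1 = W ∧
      ∀ x ∈ W, Q x = 1 → x ∈ P 0 ∨ x ∈ P 1 := by
  classical
  have hnd : (polarBilin (Q.comp W.subtype)).Nondegenerate := by
    have h : polarBilin (Q.comp W.subtype) = restr Q W := LinearMap.ext₂ fun x y => by
      simp [restr_apply, QuadraticMap.polar]
    rw [h]
    exact restr_nondegenerate hW
  rcases Classes.exists_equiv_even (m := 2) (by norm_num) hd (Q.comp W.subtype) hnd with ⟨E, hE⟩ | ⟨E, ζ, hζ, hE⟩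
  swap
  · exact absurd hp (not_plus_of_elliptic (ReflectionsSpinor.POmegaField.aniso_one hζ) E hE)
  have hval : ∀ z, Q ((E.symm z : W) : ι → F) =
      z (.inl 0) * z (.inr 0) + z (.inl 1) * z (.inr 1) := fun z => by
    refine (hE (E.symm z)).trans ?_
    simp [Cfsg.quadFormPlus, Fin.sum_univ_two]
  have h01 : ∀ c : F, c = 0 ∨ c = 1 := fun c => by
    by_cases hc : c = 0
    · exact Or.inl hc
    · right
      have := FiniteField.pow_card_sub_one_eq_one c hc
      rwa [hq, pow_one] at this
  have h2 : (2 : F) = 0 := two_eq_zero_of_not_odd (by rw [hq]; decide)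
  have h11 : (1 : F) + 1 = 0 := by rw [one_add_one_eq_two, h2]
  let L : Fin 2 → (Fin 2 → F) →ₗ[F] (Fin 2 ⊕ Fin 2 → F) := ![
    { toFun := fun c => Sum.elim ![c 0 + c 1, c 1] ![c 0, c 1]
      map_add' := fun c d => by funext i; rcases i with i | i <;> fin_cases i <;> simp [add_add_add_comm]
      map_smul' := fun s c => by funext i; rcases i with i | i <;> fin_cases i <;> simp [mul_add] },
    { toFun := fun c => Sum.elim ![c 1, c 0 + c 1] ![c 1, c 0]
      map_add' := fun c d => by funext i; rcases i with i | i <;> fin_cases i <;> simp [add_add_add_comm]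
      map_smul' := fun s c => by funext i; rcases i with i | i <;> fin_cases i <;> simp [mul_add] }]
  let M : Fin 2 → (Fin 2 → F) →ₗ[F] (ι → F) := fun a => W.subtype.comp (E.symm.toLinearMap.comp (L a))
  have hMinj : ∀ a, Function.Injective (M a) := fun a => by
    refine W.injective_subtype.comp (E.symm.injective.comp ?_)
    intro c d hcd
    have h0 := congrFun hcd (.inr 0)
    have h1 := congrFun hcd (.inr 1)
    funext i
    fin_cases a <;> fin_cases i <;> simp [L] at h0 h1 ⊢ <;> assumption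
  have hQM : ∀ a c, Q (M a c) = (c 0 * c 0 + c 0 * c 1 + c 1 * c 1) := fun a c => by
    show Q ((E.symm (L a c) : W) : ι → F) = _
    rw [hval]
    fin_cases a <;> simp [L] <;> ring
  refine ⟨fun a => LinearMap.range (M a), fun a => ?_, fun a => ?_, fun a => ?_, ?_, ?_, fun x hx hQx => ?_⟩
  · rintro _ ⟨c, rfl⟩
    exact (E.symm (L a c)).2
  · rw [LinearMap.finrank_range_of_inj (hMinj a), finrank_fin_fun]
  · rintro _ ⟨c, rfl⟩ h
    rw [hQM] at h
    have : c = 0 := funext fun i => by
      rcases h01 (c 0) with e0 | e0 <;> rcases h01 (c 1) with e1 | e1 <;> fin_cases i <;>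
        simp [e0, e1, h11] at h ⊢
    rw [this, map_zero]
  · rintro _ ⟨c, rfl⟩ _ ⟨d, rfl⟩
    show polar Q ((E.symm (L 0 c) : W) : ι → F) ((E.symm (L 1 d) : W) : ι → F) = 0
    simp only [QuadraticMap.polar, ← Submodule.coe_add, ← map_add, hval]
    simp [L]
    linear_combination (c 0 * d 1 + c 1 * d 0 + c 1 * d 1) * h2
  · refine le_antisymm (sup_le ?_ ?_) fun x hx => ?_
    · rintro _ ⟨c, rfl⟩; exact (E.symm (L 0 c)).2
    · rintro _ ⟨c, rfl⟩; exact (E.symm (L 1 c)).2
    set z := E ⟨x, hx⟩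
    have hz : z = L 0 ![z (.inr 0) + z (.inl 1) + z (.inr 1), z (.inl 0) + z (.inr 0)] +
        L 1 ![z (.inr 1) + z (.inl 0) + z (.inr 0), z (.inl 1) + z (.inr 1)] := by
      funext i
      rcases i with i | i <;> fin_cases i <;> simp [L]
      · linear_combination (-(z (.inr 0) + z (.inl 1) + z (.inr 1))) * h2
      · linear_combination (-(z (.inl 0) + z (.inr 0) + z (.inr 1))) * h2
      · linear_combination (-(z (.inl 1) + z (.inr 1))) * h2
      · linear_combination (-(z (.inl 0) + z (.inr 0))) * h2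
    have : x = M 0 ![z (.inr 0) + z (.inl 1) + z (.inr 1), z (.inl 0) + z (.inr 0)] +
        M 1 ![z (.inr 1) + z (.inl 0) + z (.inr 0), z (.inl 1) + z (.inr 1)] := by
      show x = W.subtype (E.symm _) + W.subtype (E.symm _)
      rw [← map_add, ← map_add, ← hz, LinearEquiv.symm_apply_apply]
      rfl
    rw [this]
    exact Submodule.add_mem_sup ⟨_, rfl⟩ ⟨_, rfl⟩
  · set z := E ⟨x, hx⟩ with hzdef
    have hxz : x = W.subtype (E.symm z) := by simp [hzdef]
    have hQz : z (.inl 0) * z (.inr 0) + z (.inl 1) * z (.inr 1) = 1 := by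
      rw [← hval, hzdef, LinearEquiv.symm_apply_apply]; exact hQx
    have key : ∀ a b c d : F, a * c + b * d = 1 → (b = d ∧ a = c + d) ∨ (a = c ∧ b = d + a) := by
      intro a b c d h
      rcases h01 a with rfl | rfl <;> rcases h01 b with rfl | rfl <;> rcases h01 c with rfl | rfl <;>
        rcases h01 d with rfl | rfl <;> simp [h11] at h ⊢
    rcases key _ _ _ _ hQz with ⟨e1, e2⟩ | ⟨e1, e2⟩
    · refine Or.inl ⟨![z (.inr 0), z (.inr 1)], ?_⟩
      rw [hxz]
      show W.subtype (E.symm _) = _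
      congr 2
      funext i
      rcases i with i | i <;> fin_cases i <;> simp [L, e1, e2]
    · refine Or.inr ⟨![z (.inr 1), z (.inl 0)], ?_⟩
      rw [hxz]
      show W.subtype (E.symm _) = _
      congr 2
      funext i
      rcases i with i | i <;> fin_cases i <;> simp [L, e1, e2]

/-- Over two elements four-spaces of plus type split into planes of minus type. -/
theorem planes_of_fours {t n : ℕ} (htn : t * 2 = n) (hq : Fintype.card F = 2) (hiso : Isometric Q H)
    (hirr : ActsIrreducibly (matrixSet H)) {D : Fin t → Submodule F (ι → F)}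
    (hD : IsOrthogonalMDecomposition (⇑Q) 4 D) (hle : H ≤ decompositionStabilizer D)
    (hall : ∀ i, IsPlusTypeOn (⇑Q) (D i)) :
    ∃ D' : Fin n → Submodule F (ι → F), IsOrthogonalMDecomposition (⇑Q) 2 D' ∧
      H ≤ decompositionStabilizer D' ∧ ∀ k, ¬ IsPlusTypeOn (⇑Q) (D' k) := by
  classical
  subst htn
  have hd := hD.decomp.decomp
  choose P hPle hPd hPan hPo hPsup hPone using fun i =>
    split_four hq (hD.decomp.nondegenerate i) (hd.finrank_eq i) (hall i)
  let ε : Fin (t * 2) ≃ Fin t × Fin 2 := finProdFinEquiv.symm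
  let D' : Fin (t * 2) → Submodule F (ι → F) := fun k => P (ε k).1 (ε k).2
  have hsupp : ∀ i a, P i a ≤ ⨆ k, D' k := fun i a =>
    le_iSup_of_le (ε.symm (i, a)) (by simp [D'])
  have horth : ∀ k l, k ≠ l → ∀ x ∈ D' k, ∀ y ∈ D' l, polar Q x y = 0 := by
    intro k l hkl x hx y hy
    have hne : ε k ≠ ε l := fun h => hkl (ε.injective h)
    obtain ⟨i, a⟩ : Fin t × Fin 2 := ε k
    revert hx hy hne
    show x ∈ P (ε k).1 (ε k).2 → y ∈ P (ε l).1 (ε l).2 → ε k ≠ ε l → _
    generalize ε k = p
    generalize ε l = q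
    obtain ⟨i, a⟩ := p
    obtain ⟨j, b⟩ := q
    intro hx hy hne
    by_cases hij : i = j
    · subst hij
      fin_cases a <;> fin_cases b
      · exact absurd rfl hne
      · exact hPo i x hx y hy
      · rw [QuadraticMap.polar_comm]; exact hPo i y hy x hx
      · exact absurd rfl hne
    · exact hD.decomp.orthogonal i j hij x (hPle i a hx) y (hPle j b hy)
  have hndP : ∀ k, IsNondegenerateOn (polar (⇑Q)) (D' k) := by
    intro k x hx hx0
    suffices h : ∃ y ∈ D' k, polar Q x y ≠ 0 by
      obtain ⟨y, hy, hxy⟩ := h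
      exact ⟨⟨y, hy, by rwa [QuadraticMap.polar_comm]⟩, ⟨y, hy, hxy⟩⟩
    obtain ⟨y, hy, hxy⟩ := (hD.decomp.nondegenerate _ x (hPle _ _ hx) hx0).2
    rw [← hPsup] at hy
    obtain ⟨a, ha, b, hb, rfl⟩ := Submodule.mem_sup.1 hy
    rw [polar_add_right] at hxy
    revert hx
    show x ∈ P (ε k).1 (ε k).2 → ∃ y ∈ P (ε k).1 (ε k).2, _
    generalize (ε k).2 = s
    intro hx
    fin_cases s
    · refine ⟨a, ha, ?_⟩
      rwa [hPo _ x hx b hb, add_zero] at hxy
    · refine ⟨b, hb, ?_⟩
      rwa [QuadraticMap.polar_comm (⇑Q) x a, hPo _ a ha x hx, zero_add] at hxy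
  have hind : iSupIndep D' := by
    intro k
    rw [disjoint_iff, Submodule.eq_bot_iff]
    rintro x ⟨hx, hx'⟩
    by_contra hx0
    obtain ⟨y, hy, hxy⟩ := (hndP k x hx hx0).1
    apply hxy
    have : (⨆ (l) (_ : l ≠ k), D' l) ≤ LinearMap.ker (polarBilin Q y) :=
      iSup₂_le fun l hl z hz => horth k l (Ne.symm hl) y hy z hz
    exact this hx'
  have htop : iSup D' = ⊤ := by
    rw [eq_top_iff, ← hd.iSup_eq_top]
    exact iSup_le fun i => (hPsup i).symm.le.trans (sup_le (hsupp i 0) (hsupp i 1))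
  have h2t : 2 ≤ t * 2 := by have := hd.two_le; omega
  have hndec : IsNondegenerateMDecomposition (polar (⇑Q)) 2 D' :=
    ⟨⟨h2t, by norm_num, fun k => hPd _ _, hind, htop⟩, hndP, horth⟩
  have hle' : H ≤ decompositionStabilizer D' := by
    intro g hg
    obtain ⟨π, hπ⟩ := hle hg
    have hmap : ∀ k, ∃ l, (D' k).map (Matrix.toLin' (g : Matrix ι ι F)) = D' l := by
      intro k
      set i := (ε k).1
      set S := (D' k).map (Matrix.toLin' (g : Matrix ι ι F))
      have hS : ∀ x ∈ S, x ∈ P (π i) 0 ∨ x ∈ P (π i) 1 := by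
        rintro _ ⟨y, hy, rfl⟩
        rw [Matrix.toLin'_apply]
        by_cases hy0 : y = 0
        · left; rw [hy0, Matrix.mulVec_zero]; exact Submodule.zero_mem _
        refine hPone (π i) _ (act_mem_of_map (hπ i) (hPle _ _ hy)) ((hiso g hg y).trans ?_)
        have := FiniteField.pow_card_sub_one_eq_one (Q y) (fun h => hy0 (hPan _ _ y hy h))
        rwa [hq, pow_one] at this
      have hone : S ≤ P (π i) 0 ∨ S ≤ P (π i) 1 := by
        by_contra hne
        simp only [not_or, SetLike.not_le_iff_exists] at hne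
        obtain ⟨⟨x, hx, hx0⟩, y, hy, hy1⟩ := hne
        rcases hS _ (S.add_mem hx hy) with h | h
        · exact hx0 (by simpa using Submodule.sub_mem _ h ((hS y hy).resolve_right hy1))
        · exact hy1 (by simpa using Submodule.sub_mem _ h ((hS x hx).resolve_left hx0))
      have hSd : finrank F S = 2 := (finrank_map_toLin g _).trans (hPd _ _)
      rcases hone with h | h
      · exact ⟨ε.symm (π i, 0), by simpa [D'] using Submodule.eq_of_le_of_finrank_eq h (hSd.trans (hPd _ _).symm)⟩
      · exact ⟨ε.symm (π i, 1), by simpa [D'] using Submodule.eq_of_le_of_finrank_eq h (hSd.trans (hPd _ _).symm)⟩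
    choose ρ hρ using hmap
    have hinj : Function.Injective ρ := fun k l hkl => by
      by_contra hne
      have h : D' k = D' l := Submodule.map_injective_of_injective
        (f := Matrix.toLin' (g : Matrix ι ι F)) (fun a b hab => act_injective g (by
          simpa [Matrix.toLin'_apply, act] using hab)) (by rw [hρ, hρ, hkl])
      have h1 : D' k ≤ ⊥ := by
        rw [← disjoint_iff.1 (hind.pairwiseDisjoint hne)]
        exact le_inf le_rfl h.le
      have := Submodule.finrank_mono h1
      rw [finrank_bot, show finrank F (D' k) = 2 from hPd _ _] at this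
      omega
    exact ⟨Equiv.ofBijective ρ (Finite.injective_iff_bijective.1 hinj), hρ⟩
  refine ⟨D', ⟨hndec, orth_isometric hiso hirr hndec hle'⟩, hle', fun k hk => ?_⟩
  obtain ⟨U, hU, hU0, hUd⟩ := hk
  obtain ⟨u, hu, hu0⟩ := U.ne_bot_iff.mp fun e => by
    rw [e, finrank_bot, show finrank F (D' k) = 2 from hPd _ _] at hUd; omega
  exact hu0 (hPan _ _ u (hU hu) (hU0 u hu))

end CfsgLib.SmallDim.OrthEven
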