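import Cfsg.Agent.Lib.SmallDim.OrthEvenTen
import Cfsg.Agent.Lib.ReflectionsSpinor.POmegaTypes

/-!
Types of non-degenerate subspaces of even dimension and of orthogonal sums, for the dimension twelve.
-/

set_option autoImplicit false
set_option linter.style.haveILetI false
set_option linter.unusedSectionVars false

namespace CfsgLib.SmallDim.OrthEven

open scoped MatrixGroups Matrix
open Cfsg.Geo QuadraticMap CfsgLib.ClassicalForms Module
open CfsgLib.ReflectionsSpinor.POmegaForms CfsgLib.ReflectionsSpinor.POmegaField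

variable {ι : Type} [Fintype ι] [DecidableEq ι] {F : Type*} [Field F] [Fintype F] {Q : QuadraticForm F (ι → F)}

/-- An elliptic space has no singular half. -/
lemma not_plus_of_elliptic {W : Submodule F (ι → F)} {k : ℕ} {a b : F} (hab : Aniso a b)
    (E : W ≃ₗ[F] ((Fin k ⊕ Fin k) ⊕ Fin 2 → F))
    (hE : ∀ x : W, Q (x : ι → F) = Cfsg.quadFormMinus k F a b (E x)) : ¬ IsPlusTypeOn (⇑Q) W := by
  rintro ⟨U, hUW, hU, hUd⟩
  set R := qM k a b
  have hnd := nondeg_qM k hab
  let X : Submodule F ((Fin k ⊕ Fin k) ⊕ Fin 2 → F) :=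
    LinearMap.ker (LinearMap.prod (LinearMap.funLeft F F (fun i : Fin k => Sum.inl (Sum.inr i)))
      (LinearMap.funLeft F F (fun i : Fin 2 => Sum.inr i)))
  have hX : ∀ v, v ∈ X ↔ (∀ i, v (Sum.inl (Sum.inr i)) = 0) ∧ ∀ i, v (Sum.inr i) = 0 := fun v => by
    show LinearMap.prod _ _ v = 0 ↔ _
    rw [LinearMap.prod_apply, Function.prod_apply, Prod.mk_eq_zero]
    exact and_congr ⟨fun h i => congrFun h i, fun h => funext h⟩
      ⟨fun h i => congrFun h i, fun h => funext h⟩
  have hX0 : ∀ v ∈ X, R v = 0 := fun v hv => by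
    obtain ⟨h1, h2⟩ := (hX v).1 hv
    show (∑ i, v (Sum.inl (Sum.inl i)) * v (Sum.inl (Sum.inr i))) + (v (Sum.inr 0) ^ 2 +
      a * v (Sum.inr 0) * v (Sum.inr 1) + b * v (Sum.inr 1) ^ 2) = 0
    simp [h1, h2]
  have hmax : ∀ V, X ≤ V → (∀ w ∈ V, R w = 0) → V ≤ X := fun V hle hV w hw => by
    have hy : ∀ i, w (Sum.inl (Sum.inr i)) = 0 := fun i => by
      set x : (Fin k ⊕ Fin k) ⊕ Fin 2 → F := Pi.single (Sum.inl (Sum.inl i)) 1 with hx
      have hxX : x ∈ X := (hX x).2 ⟨fun j => by simp [hx], fun j => by simp [hx]⟩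
      have h1 : R (w + x) = 0 := hV _ (V.add_mem hw (hle hxX))
      have h2 : R w = 0 := hV _ hw
      simp only [R, coe_qM, Cfsg.quadFormMinus, hx, Pi.add_apply] at h1 h2
      simp [Pi.single_apply, add_mul, Finset.sum_add_distrib] at h1
      linear_combination h1 - h2
    refine (hX w).2 ⟨hy, ?_⟩
    have h2 : R w = 0 := hV _ hw
    simp only [R, coe_qM, Cfsg.quadFormMinus, hy, mul_zero, Finset.sum_const_zero, zero_add] at h2
    obtain ⟨h0, h1⟩ := hab _ _ h2
    intro i
    fin_cases i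
    exacts [h0, h1]
  have hdX : finrank F X ≤ k := by
    refine (LinearMap.finrank_le_finrank_of_injective
      (f := (LinearMap.funLeft F F (fun i : Fin k => Sum.inl (Sum.inl i))).comp X.subtype) ?_).trans ?_
    · intro v w hvw
      refine Subtype.ext (funext fun x => ?_)
      obtain ⟨h1, h2⟩ := (hX _).1 v.2
      obtain ⟨h3, h4⟩ := (hX _).1 w.2
      rcases x with (x | x) | x
      · exact congrFun hvw x
      · rw [h1, h3]
      · rw [h2, h4]
    · simp
  set U' := (U.comap W.subtype).map E.toLinearMap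
  have hU' : ∀ w ∈ U', R w = 0 := by
    rintro _ ⟨x, hx, rfl⟩
    exact (hE x).symm.trans (hU _ hx)
  have hU'd : finrank F U' = k + 1 := by
    have hd := E.finrank_eq
    simp at hd
    rw [LinearEquiv.finrank_map_eq, (Submodule.comapSubtypeEquivOfLe hUW).finrank_eq]
    omega
  obtain ⟨g, hg, hgle⟩ := Forms.exists_isometry_singular_le R hnd X U' hX0 hU' (by omega)
  have h1 := Submodule.finrank_mono (hmax (U'.comap g.toLinearMap) (Submodule.map_le_iff_le_comap.mp hgle)
    fun v hv => (hg v).symm.trans (hU' _ hv))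
  rw [Submodule.comap_equiv_eq_map_symm, LinearEquiv.finrank_map_eq] at h1
  omega

/-- Non-degenerate subspaces of equal even dimension and equal type are isometric. -/
theorem areIsometric_of_type {W W' : Submodule F (ι → F)} (hW : IsNondegenerateOn (polar (⇑Q)) W)
    (hW' : IsNondegenerateOn (polar (⇑Q)) W') {m : ℕ} (hm : 1 ≤ m) (hd : finrank F W = 2 * m)
    (hd' : finrank F W' = 2 * m) (htype : IsPlusTypeOn (⇑Q) W ↔ IsPlusTypeOn (⇑Q) W') :
    AreIsometricFor (⇑Q) W W' := by
  have hnd : ∀ X : Submodule F (ι → F), IsNondegenerateOn (polar (⇑Q)) X →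
      (polarBilin (Q.comp X.subtype)).Nondegenerate := fun X hX => by
    have h : polarBilin (Q.comp X.subtype) = restr Q X := LinearMap.ext₂ fun x y => by
      simp [restr_apply, QuadraticMap.polar]
    rw [h]
    exact restr_nondegenerate hX
  obtain ⟨k, rfl⟩ : ∃ k, m = k + 1 := ⟨m - 1, by omega⟩
  have hypPlus : ∀ {X : Submodule F (ι → F)} (E : X ≃ₗ[F] (Fin (k + 1) ⊕ Fin (k + 1) → F)),
      (∀ x : X, Q (x : ι → F) = Cfsg.quadFormPlus (k + 1) F (E x)) → IsPlusTypeOn (⇑Q) X := fun {X} E hE => by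
    refine ⟨((Classes.hypU F (k + 1)).map E.symm.toLinearMap).map X.subtype, Submodule.map_subtype_le _ _, ?_, ?_⟩
    · rintro _ ⟨_, ⟨v, hv, rfl⟩, rfl⟩
      show Q ((E.symm v : X) : ι → F) = 0
      rw [hE, LinearEquiv.apply_symm_apply]
      simp [Cfsg.quadFormPlus, Classes.mem_hypU.1 hv]
    · rw [← (Submodule.equivMapOfInjective _ X.injective_subtype _).finrank_eq, LinearEquiv.finrank_map_eq,
        Classes.finrank_hypU, E.finrank_eq]
      simp
      omega
  rcases Classes.exists_equiv_even hm hd (Q.comp W.subtype) (hnd W hW) with ⟨E, hE⟩ | ⟨E, ζ, hζ, hE⟩ <;>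
    rcases Classes.exists_equiv_even hm hd' (Q.comp W'.subtype) (hnd W' hW') with ⟨E', hE'⟩ | ⟨E', ζ', hζ', hE'⟩
  · refine ⟨E.trans E'.symm, fun w => ?_⟩
    exact (hE' _).trans (by rw [LinearEquiv.trans_apply, LinearEquiv.apply_symm_apply]; exact (hE w).symm)
  · exact absurd (htype.1 (hypPlus E hE)) (not_plus_of_elliptic (aniso_one hζ') E' hE')
  · exact absurd (htype.2 (hypPlus E' hE')) (not_plus_of_elliptic (aniso_one hζ) E hE)
  · obtain ⟨g, hg⟩ := Parabolic.POmegaAut.exists_gl_minus (m := k) (aniso_one hζ') (aniso_one hζ) 1 one_ne_zero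
    refine ⟨(E.trans (CfsgLib.ClassicalForms.glEquiv g)).trans E'.symm, fun w => ?_⟩
    refine (hE' _).trans ?_
    rw [LinearEquiv.trans_apply, LinearEquiv.apply_symm_apply, LinearEquiv.trans_apply,
      CfsgLib.ClassicalForms.glEquiv_apply]
    exact (hg _).trans ((one_mul _).trans (hE w).symm)

/-- An orthogonal sum of two subspaces with singular halves has a singular half. -/
lemma plus_sup {X Y : Submodule F (ι → F)} (hd : Disjoint X Y) (ho : ∀ x ∈ X, ∀ y ∈ Y, polar Q x y = 0)
    (hX : IsPlusTypeOn (⇑Q) X) (hY : IsPlusTypeOn (⇑Q) Y) : IsPlusTypeOn (⇑Q) (X ⊔ Y) := by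
  obtain ⟨U, hUX, hU, hUd⟩ := hX
  obtain ⟨V, hVY, hV, hVd⟩ := hY
  refine ⟨U ⊔ V, sup_le_sup hUX hVY, fun x hx => ?_, ?_⟩
  · obtain ⟨u, hu, v, hv, rfl⟩ := Submodule.mem_sup.1 hx
    rw [QuadraticMap.map_add ⇑Q, hU u hu, hV v hv, ho u (hUX hu) v (hVY hv), add_zero, add_zero]
  · have h := Submodule.finrank_sup_add_finrank_inf_eq U V
    rw [disjoint_iff.1 (hd.mono hUX hVY), finrank_bot, add_zero] at h
    have h' := Submodule.finrank_sup_add_finrank_inf_eq X Y
    rw [disjoint_iff.1 hd, finrank_bot, add_zero] at h'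
    omega

/-- In a space of plus type the orthogonal of a part with a singular half has one as well. -/
theorem plus_of_perp (hQ : Nondeg Q) (hplus : IsPlusTypeOn (⇑Q) ⊤) {X Y : Submodule F (ι → F)}
    (hd : Disjoint X Y) (htop : X ⊔ Y = ⊤) (ho : ∀ x ∈ X, ∀ y ∈ Y, polar Q x y = 0)
    (hX : IsPlusTypeOn (⇑Q) X) : IsPlusTypeOn (⇑Q) Y := by
  obtain ⟨U, hUX, hU, hUd⟩ := hX
  obtain ⟨U₀, -, hU₀, hU₀d⟩ := hplus
  have hn := Submodule.finrank_sup_add_finrank_inf_eq X Y
  rw [disjoint_iff.1 hd, finrank_bot, add_zero, htop] at hn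
  rw [hn] at hU₀d
  have hpolU : ∀ x ∈ U, ∀ y ∈ U, polar Q x y = 0 := fun x hx y hy => by
    simp [QuadraticMap.polar, hU _ (U.add_mem hx hy), hU x hx, hU y hy]
  set O := LinearMap.BilinForm.orthogonal (polarBilin Q) U
  have hle : U ⊔ Y ≤ O := sup_le (fun x hx y hy => hpolU y hy x hx) (fun x hx y hy => ho y (hUX hy) x hx)
  have hOd : finrank F O + finrank F U = finrank F (⊤ : Submodule F (ι → F)) := by
    show finrank F (LinearMap.BilinForm.orthogonal (polarBilin Q) U) + _ = _
    rw [LinearMap.BilinForm.finrank_orthogonal (nondeg_iff_polarBilin.mpr hQ), finrank_top]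
    have := Submodule.finrank_le U
    omega
  have hUY := Submodule.finrank_sup_add_finrank_inf_eq U Y
  rw [disjoint_iff.1 (hd.mono_left hUX), finrank_bot, add_zero] at hUY
  have hOeq : U ⊔ Y = O := Submodule.eq_of_le_of_finrank_eq hle (by omega)
  obtain ⟨g, hg, hgle⟩ := Forms.exists_isometry_singular_le Q (nondeg_iff_polarBilin.mpr hQ) U U₀ hU hU₀ (by omega)
  set V := U₀.comap g.toLinearMap
  have hVd : finrank F V = finrank F U₀ := by
    show finrank F (U₀.comap g.toLinearMap) = _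
    rw [Submodule.comap_equiv_eq_map_symm, LinearEquiv.finrank_map_eq]
  have hV : ∀ x ∈ V, Q x = 0 := fun x hx => (hg x).symm.trans (hU₀ _ hx)
  have hUV : U ≤ V := Submodule.map_le_iff_le_comap.mp hgle
  have hVle : V ≤ U ⊔ (V ⊓ Y) := fun v hv => by
    have hvO : v ∈ O := fun y hy => by
      show polar Q y v = 0
      simp [QuadraticMap.polar, hV _ (V.add_mem (hUV hy) hv), hV y (hUV hy), hV v hv]
    rw [← hOeq] at hvO
    obtain ⟨a, ha, b, hb, rfl⟩ := Submodule.mem_sup.1 hvO
    exact Submodule.add_mem_sup ha ⟨by simpa using V.sub_mem hv (hUV ha), hb⟩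
  refine ⟨V ⊓ Y, inf_le_right, fun x hx => hV x hx.1, ?_⟩
  have hVY := Submodule.finrank_sup_add_finrank_inf_eq U (V ⊓ Y)
  rw [disjoint_iff.1 ((hd.mono_left hUX).mono_right inf_le_right), finrank_bot, add_zero] at hVY
  have h1 : U ⊔ (V ⊓ Y) = V := le_antisymm (sup_le hUV inf_le_left) hVle
  rw [h1] at hVY
  omega

/-- Orthogonal complementary parts of a space of plus type have the same type. -/
theorem plus_iff_perp (hQ : Nondeg Q) (hplus : IsPlusTypeOn (⇑Q) ⊤) {X Y : Submodule F (ι → F)}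
    (hd : Disjoint X Y) (htop : X ⊔ Y = ⊤) (ho : ∀ x ∈ X, ∀ y ∈ Y, polar Q x y = 0) :
    IsPlusTypeOn (⇑Q) X ↔ IsPlusTypeOn (⇑Q) Y :=
  ⟨plus_of_perp hQ hplus hd htop ho, plus_of_perp hQ hplus hd.symm (by rwa [sup_comm]) fun x hx y hy => by
    rw [polar_comm]; exact ho y hy x hx⟩

section Blocks

variable {t m : ℕ} {D : Fin t → Submodule F (ι → F)}

lemma decomp_orth_sup (hD : IsNondegenerateMDecomposition (polar (⇑Q)) m D) {s s' : Finset (Fin t)}
    (h : Disjoint s s') : ∀ x ∈ s.sup D, ∀ y ∈ s'.sup D, polar Q x y = 0 := by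
  intro x hx y hy
  have h1 : s'.sup D ≤ LinearMap.ker (polarBilin Q x) := by
    refine Finset.sup_le fun j hj z hz => ?_
    show polar Q x z = 0
    have h2 : s.sup D ≤ LinearMap.ker ((polarBilin Q).flip z) := Finset.sup_le fun i hi w hw => by
      show polar Q w z = 0
      exact hD.orthogonal i j (fun e => Finset.disjoint_left.1 h hi (e ▸ hj)) w hw z hz
    exact h2 hx
  exact h1 hy

lemma decomp_disjoint_sup (hD : IsMDecomposition m D) {s s' : Finset (Fin t)} (h : Disjoint s s') :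
    Disjoint (s.sup D) (s'.sup D) := by
  rw [Finset.sup_eq_iSup, Finset.sup_eq_iSup]
  simpa using hD.indep.disjoint_biSup_biSup' (s := (s : Set (Fin t))) (t := (s' : Set (Fin t)))
    (Finset.disjoint_coe.2 h) s.finite_toSet

lemma decomp_sup_univ (hD : IsMDecomposition m D) : Finset.univ.sup D = ⊤ := by
  rw [Finset.sup_univ_eq_iSup]; exact hD.iSup_eq_top

lemma plus_union (hD : IsNondegenerateMDecomposition (polar (⇑Q)) m D) {s s' : Finset (Fin t)}
    (h : Disjoint s s') (hs : IsPlusTypeOn (⇑Q) (s.sup D)) (hs' : IsPlusTypeOn (⇑Q) (s'.sup D)) :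
    IsPlusTypeOn (⇑Q) ((s ∪ s').sup D) := by
  rw [Finset.sup_union]
  exact plus_sup (decomp_disjoint_sup hD.decomp h) (decomp_orth_sup hD h) hs hs'

/-- Two isometric members of even dimension form a block of plus type. -/
lemma plus_pair (hD : IsOrthogonalMDecomposition (⇑Q) m D) (hev : Even m) {i j : Fin t} (hij : i ≠ j) :
    IsPlusTypeOn (⇑Q) (({i, j} : Finset (Fin t)).sup D) := by
  have hd : Disjoint (D i) (D j) := hD.decomp.decomp.indep.pairwiseDisjoint hij
  obtain ⟨U, hUle, hU, hUd⟩ := exists_singular_of_isometric (hD.decomp.nondegenerate i)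
    (by rwa [hD.decomp.decomp.finrank_eq]) (hD.decomp.orthogonal i j hij) hd (hD.isometric i j)
  rw [show ({i, j} : Finset (Fin t)).sup D = D i ⊔ D j by simp]
  refine ⟨U, hUle, hU, ?_⟩
  have h := Submodule.finrank_sup_add_finrank_inf_eq (D i) (D j)
  rw [disjoint_iff.1 hd, finrank_bot, add_zero, hD.decomp.decomp.finrank_eq, hD.decomp.decomp.finrank_eq] at h
  rw [hUd, hD.decomp.decomp.finrank_eq]
  omega

/-- Six isometric members of even dimension give plus type. -/
lemma isPlus_of_six {D : Fin 6 → Submodule F (ι → F)} (hD : IsOrthogonalMDecomposition (⇑Q) m D) (hev : Even m) :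
    IsPlusTypeOn (⇑Q) ⊤ := by
  rw [← decomp_sup_univ hD.decomp.decomp,
    show (Finset.univ : Finset (Fin 6)) = ({0, 1} ∪ {2, 3}) ∪ {4, 5} by decide]
  exact plus_union hD.decomp (by decide) (plus_union hD.decomp (by decide) (plus_pair hD hev (by decide))
    (plus_pair hD hev (by decide))) (plus_pair hD hev (by decide))

/-- Two isometric members of even dimension give plus type. -/
lemma isPlus_of_two {D : Fin 2 → Submodule F (ι → F)} (hD : IsOrthogonalMDecomposition (⇑Q) m D) (hev : Even m) :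
    IsPlusTypeOn (⇑Q) ⊤ := by
  rw [← decomp_sup_univ hD.decomp.decomp, show (Finset.univ : Finset (Fin 2)) = {0, 1} by decide]
  exact plus_pair hD hev (by decide)

/-- Three isometric members of even dimension have the type of the space. -/
theorem three_type (hQ : Nondeg Q) {D : Fin 3 → Submodule F (ι → F)} (hD : IsOrthogonalMDecomposition (⇑Q) m D)
    (hev : Even m) (i : Fin 3) : IsPlusTypeOn (⇑Q) (D i) ↔ IsPlusTypeOn (⇑Q) ⊤ := by
  have h01 := plus_pair hD hev (show (0 : Fin 3) ≠ 1 by decide)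
  have hdj : Disjoint ({0, 1} : Finset (Fin 3)) {2} := by decide
  constructor
  · intro hi
    rw [← decomp_sup_univ hD.decomp.decomp, show (Finset.univ : Finset (Fin 3)) = {0, 1} ∪ {2} by decide]
    exact plus_union hD.decomp hdj h01 (by rw [Finset.sup_singleton]; exact plus_congr (hD.isometric i 2) hi)
  · intro hp
    have h2 := plus_of_perp hQ hp (decomp_disjoint_sup hD.decomp.decomp hdj) (by
      rw [← Finset.sup_union, ← decomp_sup_univ hD.decomp.decomp]; congr 1) (decomp_orth_sup hD.decomp hdj) h01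
    rw [Finset.sup_singleton] at h2
    exact plus_congr (hD.isometric 2 i) h2

/-- Four isometric members give plus type. -/
theorem isPlus_of_four {D : Fin 4 → Submodule F (ι → F)} (hD : IsOrthogonalMDecomposition (⇑Q) m D) :
    IsPlusTypeOn (⇑Q) ⊤ := by
  obtain ⟨a, b, hab⟩ := Classes.exists_sq_add_sq (1 : F) 1 (-1) one_ne_zero one_ne_zero
  choose e he using fun j => hD.isometric 0 j
  have hd := hD.decomp.decomp
  let v : Fin 4 → D 0 →ₗ[F] (ι → F) := fun j => (D j).subtype.comp (e j).toLinearMap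
  let L : D 0 × D 0 →ₗ[F] (ι → F) :=
    (v 0).comp (LinearMap.fst _ _ _) + (v 1).comp (LinearMap.snd _ _ _) +
      (v 2).comp (a • LinearMap.fst _ _ _ + b • LinearMap.snd _ _ _) +
      (v 3).comp (b • LinearMap.fst _ _ _ - a • LinearMap.snd _ _ _)
  have hmem : ∀ j x, v j x ∈ D j := fun j x => (e j x).2
  have hQv : ∀ j x, Q (v j x) = Q (x : ι → F) := fun j x => he j x
  have ho : ∀ i j, i ≠ j → ∀ x y, polar Q (v i x) (v j y) = 0 := fun i j hij x y =>
    hD.decomp.orthogonal i j hij _ (hmem i x) _ (hmem j y)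
  have hL : ∀ x y : D 0, L (x, y) = v 0 x + v 1 y + v 2 (a • x + b • y) + v 3 (b • x - a • y) := fun x y => rfl
  have hinj : Function.Injective L := by
    rw [injective_iff_map_eq_zero]
    rintro ⟨x, y⟩ hxy
    rw [hL] at hxy
    have hv : ∀ j, Function.Injective (v j) := fun j => (D j).injective_subtype.comp (e j).injective
    have hzero : ∀ (j : Fin 4) (s : Finset (Fin 4)) (z w : ι → F), z ∈ D j → w ∈ s.sup D → j ∉ s → z + w = 0 →
        z = 0 := fun j s z w hz hw hj h =>
      Submodule.disjoint_def.1 (decomp_disjoint_sup hd (Finset.disjoint_singleton_left.2 hj)) z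
        (by rwa [Finset.sup_singleton]) (by rw [eq_neg_of_add_eq_zero_left h]; exact Submodule.neg_mem _ hw)
    have hsup : ∀ (s : Finset (Fin 4)) j, j ∈ s → ∀ z, v j z ∈ s.sup D := fun s j hj z => (Finset.le_sup (f := D) hj) (hmem j z)
    refine Prod.ext (hv 0 (Eq.trans ?_ (map_zero _).symm)) (hv 1 (Eq.trans ?_ (map_zero _).symm))
    · refine hzero 0 {1, 2, 3} _ (v 1 y + v 2 (a • x + b • y) + v 3 (b • x - a • y)) (hmem _ _) ?_ (by decide)
        (by rw [← hxy]; abel)
      exact Submodule.add_mem _ (Submodule.add_mem _ (hsup _ _ (by decide) _) (hsup _ _ (by decide) _))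
        (hsup _ _ (by decide) _)
    · refine hzero 1 {0, 2, 3} _ (v 0 x + v 2 (a • x + b • y) + v 3 (b • x - a • y)) (hmem _ _) ?_ (by decide)
        (by rw [← hxy]; abel)
      exact Submodule.add_mem _ (Submodule.add_mem _ (hsup _ _ (by decide) _) (hsup _ _ (by decide) _))
        (hsup _ _ (by decide) _)
  refine ⟨LinearMap.range L, le_top, ?_, ?_⟩
  · rintro _ ⟨⟨x, y⟩, rfl⟩
    rw [hL, QuadraticMap.map_add ⇑Q, QuadraticMap.map_add ⇑Q, QuadraticMap.map_add ⇑Q]
    simp only [polar_add_left, ho _ _ (show (0 : Fin 4) ≠ 1 by decide), ho _ _ (show (0 : Fin 4) ≠ 2 by decide),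
      ho _ _ (show (0 : Fin 4) ≠ 3 by decide), ho _ _ (show (1 : Fin 4) ≠ 2 by decide),
      ho _ _ (show (1 : Fin 4) ≠ 3 by decide), ho _ _ (show (2 : Fin 4) ≠ 3 by decide), hQv]
    simp only [Submodule.coe_add, Submodule.coe_sub, Submodule.coe_smul, QuadraticMap.map_add ⇑Q,
      CfsgLib.ClassicalForms.map_sub_eq, QuadraticMap.map_smul, polar_smul_left, polar_smul_right, smul_eq_mul]
    linear_combination (Q (x : ι → F) + Q (y : ι → F)) * hab
  · rw [LinearMap.finrank_range_of_inj hinj, finrank_prod, hd.finrank_eq, finrank_top,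
      finrank_fintype_fun_eq_card, ← decomp_mul_eq hd]
    omega

end Blocks

end CfsgLib.SmallDim.OrthEven
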