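import Cfsg.Agent.Lib.SmallDim.SympMaximal

/-!
Tensor decompositions refining to orthogonal decompositions: frames of symmetric forms over three elements.
-/

set_option autoImplicit false
set_option linter.style.haveILetI false

namespace CfsgLib.SmallDim

open scoped MatrixGroups Matrix Kronecker
open Cfsg.Geo

variable {F : Type*} [Field F] [Fintype F] {m n₁ n₂ : ℕ}

local notation "V" => (Fin m ⊕ Fin m → F)
local notation "M2" => Matrix (Fin m ⊕ Fin m) (Fin m ⊕ Fin m) F
local notation "ω" => Cfsg.sympForm m F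

omit [Fintype F] in
/-- The coordinate Gram matrix of a tensor form structure. -/
lemma coordGram_of_structure {e : (Fin m ⊕ Fin m) ≃ Fin n₁ × Fin n₂} {P : GL (Fin m ⊕ Fin m) F}
    {f₁ : (Fin n₁ → F) → (Fin n₁ → F) → F} {f₂ : (Fin n₂ → F) → (Fin n₂ → F) → F}
    (h : IsTensorFormStructure id ω f₁ f₂ e P) :
    ∃ c : F, c ≠ 0 ∧ coordGram ω e P = (c • gramMatrix f₁) ⊗ₖ gramMatrix f₂ := by
  obtain ⟨c, hc, h⟩ := h
  refine ⟨c, hc, Matrix.ext fun p q => ?_⟩
  have h' := h (Pi.single p 1) (Pi.single q 1)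
  rw [apply_coord isSymplecticForm_sympForm.bilinear] at h'
  simp [formOfGram, Pi.single_apply] at h'
  rw [Matrix.kronecker_apply, Matrix.smul_apply, smul_eq_mul, mul_assoc]
  exact h'

/-- A frame of the second factor which all similitudes permute gives an orthogonal decomposition. -/
theorem frame_decomposition {H : Subgroup (GL (Fin m ⊕ Fin m) F)} (hH : H ≤ Cfsg.spGL m F)
    (hn₁ : 0 < n₁) (hn₂ : 2 ≤ n₂) {e : (Fin m ⊕ Fin m) ≃ Fin n₁ × Fin n₂} {P : GL (Fin m ⊕ Fin m) F}
    (hle : H ≤ tensorProductSubgroup n₁ n₂ e P) {C : Matrix (Fin n₁) (Fin n₁) F} {G₀ : Matrix (Fin n₂) (Fin n₂) F}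
    (hC : IsUnit C.det) (hG₀ : G₀ ≠ 0) (hG : coordGram ω e P = C ⊗ₖ G₀) (Z : GL (Fin n₂) F) (d : Fin n₂ → F)
    (hd : ∀ j, d j ≠ 0) (hdiag : (Z : Matrix _ _ F)ᵀ * G₀ * (Z : Matrix _ _ F) = Matrix.diagonal d)
    (hmono : ∀ (b : GL (Fin n₂) F) (μ : F), μ ≠ 0 →
      (b : Matrix _ _ F)ᵀ * G₀ * (b : Matrix _ _ F) = μ • G₀ → ∃ π : Equiv.Perm (Fin n₂), ∀ j, ∃ s : F,
        (b : Matrix (Fin n₂) (Fin n₂) F) *ᵥ ((Z : Matrix (Fin n₂) (Fin n₂) F) *ᵥ Pi.single j 1) =
          s • ((Z : Matrix (Fin n₂) (Fin n₂) F) *ᵥ Pi.single (π j) 1)) :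
    ∃ D : Fin n₂ → Submodule F V, IsNondegenerateMDecomposition ω n₁ D ∧ H ≤ decompositionStabilizer D := by
  classical
  have hf := isSymplecticForm_sympForm (m := m) (F := F)
  haveI : Nonempty (Fin n₁) := ⟨⟨0, hn₁⟩⟩
  let z : Fin n₂ → Fin n₂ → F := fun j => (Z : Matrix _ _ F) *ᵥ Pi.single j 1
  let L : Fin n₂ → (Fin n₁ → F) →ₗ[F] V := fun j =>
    { toFun := fun x => (P : M2) *ᵥ ((fun p : Fin n₁ × Fin n₂ => x p.1 * z j p.2) ∘ e)
      map_add' := fun x y => by
        rw [← Matrix.mulVec_add]; congr 1; funext i; simp [add_mul]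
      map_smul' := fun c x => by
        rw [RingHom.id_apply, ← Matrix.mulVec_smul]; congr 1; funext i; simp [mul_assoc] }
  have hL : ∀ i j x y, ω (L i x) (L j y) = (x ⬝ᵥ (C *ᵥ y)) * (z i ⬝ᵥ (G₀ *ᵥ z j)) := fun i j x y => by
    show ω ((P : M2) *ᵥ _) ((P : M2) *ᵥ _) = _
    rw [apply_coord hf.bilinear, hG, dot_kronecker]
  have hz : ∀ i j, z i ⬝ᵥ (G₀ *ᵥ z j) = if i = j then d i else 0 := fun i j => by
    have h := congrFun (congrFun hdiag i) j
    rw [Matrix.diagonal_apply] at h
    rw [← h, Matrix.mul_assoc, Matrix.mul_apply]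
    simp [z, dotProduct, Matrix.mulVec, Matrix.mul_apply, Matrix.mulVec_single]
  have hCne : ∀ x : Fin n₁ → F, x ≠ 0 → (∃ y, y ⬝ᵥ (C *ᵥ x) ≠ 0) ∧ ∃ y, x ⬝ᵥ (C *ᵥ y) ≠ 0 := by
    intro x hx
    have hinj := Matrix.mulVec_injective_iff_isUnit.2 ((Matrix.isUnit_iff_isUnit_det C).2 hC)
    have hinj' := Matrix.vecMul_injective_iff_isUnit.2 ((Matrix.isUnit_iff_isUnit_det C).2 hC)
    refine ⟨?_, ?_⟩
    · by_contra h
      push Not at h
      refine hx (hinj ((?_ : C *ᵥ x = 0).trans (Matrix.mulVec_zero C).symm))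
      funext i
      simpa using h (Pi.single i 1)
    · by_contra h
      push Not at h
      refine hx (hinj' ((?_ : x ᵥ* C = 0).trans (Matrix.zero_vecMul C).symm))
      funext i
      have := h (Pi.single i 1)
      rw [Matrix.dotProduct_mulVec] at this
      simpa using this
  let D : Fin n₂ → Submodule F V := fun j => LinearMap.range (L j)
  have horth : ∀ i j, i ≠ j → ∀ u ∈ D i, ∀ v ∈ D j, ω u v = 0 := by
    rintro i j hij _ ⟨x, rfl⟩ _ ⟨y, rfl⟩
    rw [hL, hz, if_neg hij, mul_zero]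
  have hnd : ∀ i, IsNondegenerateOn ω (D i) := by
    rintro i _ ⟨x, rfl⟩ hx
    have hx0 : x ≠ 0 := fun h => hx (by rw [h, map_zero])
    obtain ⟨⟨y, hy⟩, ⟨y', hy'⟩⟩ := hCne x hx0
    refine ⟨⟨L i y, ⟨y, rfl⟩, ?_⟩, ⟨L i y', ⟨y', rfl⟩, ?_⟩⟩
    · rw [hL, hz, if_pos rfl]; exact mul_ne_zero hy (hd i)
    · rw [hL, hz, if_pos rfl]; exact mul_ne_zero hy' (hd i)
  have hinj : ∀ i, Function.Injective (L i) := fun i => by
    rw [injective_iff_map_eq_zero]
    intro x hx
    by_contra h0
    obtain ⟨⟨y, hy⟩, -⟩ := hCne x h0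
    have h := hL i i y x
    rw [hx, hz, if_pos rfl, sesqui_sympForm.zero_right] at h
    exact mul_ne_zero hy (hd i) h.symm
  have hD : IsMDecomposition n₁ D := by
    refine ⟨hn₂, hn₁, fun i => ?_, fun i => ?_, ?_⟩
    · rw [LinearMap.finrank_range_of_inj (hinj i), Module.finrank_fin_fun]
    · rw [Submodule.disjoint_def]
      intro x hx hx'
      by_contra h0
      obtain ⟨y, hy, hne⟩ := (hnd i x hx h0).2
      apply hne
      clear hne h0 hx
      induction hx' using Submodule.iSup_induction' with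
      | mem j x hxj =>
        by_cases hji : j = i
        · simp only [hji, ne_eq, not_true_eq_false, iSup_false, Submodule.mem_bot] at hxj
          rw [hxj]; exact sesqui_sympForm.zero_left y
        · simp only [ne_eq, hji, not_false_eq_true, iSup_pos] at hxj
          exact horth j i hji x hxj y hy
      | zero => exact sesqui_sympForm.zero_left y
      | add a b _ _ ha hb => rw [hf.bilinear.add_left, ha, hb, add_zero]
    · rw [eq_top_iff]
      intro v _
      have hv : v = ∑ j, L j (fun a => ∑ b, (↑Z⁻¹ : Matrix (Fin n₂) (Fin n₂) F) j b * coordMap e P v (a, b)) := by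
        conv_lhs => rw [← point_coordMap e P v]
        show _ = ∑ j, (P : M2) *ᵥ _
        rw [← Matrix.mulVec_sum]
        congr 1
        funext i
        simp only [Finset.sum_apply, Function.comp_apply]
        obtain ⟨a, b⟩ := e i
        have hone : ∀ c, ∑ j, (Z : Matrix (Fin n₂) (Fin n₂) F) b j * (↑Z⁻¹ : Matrix (Fin n₂) (Fin n₂) F) j c =
            if b = c then 1 else 0 := fun c => by
          rw [← Matrix.mul_apply, ← Units.val_mul, mul_inv_cancel, Units.val_one, Matrix.one_apply]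
        simp only [z, Matrix.mulVec_single_one, Finset.sum_mul]
        rw [Finset.sum_comm, Finset.sum_eq_single b]
        · conv_lhs => rw [← one_mul (coordMap e P v (a, b)), ← if_pos (c := b = b) (t := (1 : F)) (e := 0) rfl,
            ← hone b, Finset.sum_mul]
          exact Finset.sum_congr rfl fun j _ => by simp [Matrix.col_apply]; ring
        · intro c _ hc
          have h := hone c
          rw [if_neg (Ne.symm hc)] at h
          calc _ = (∑ j, (Z : Matrix (Fin n₂) (Fin n₂) F) b j * (↑Z⁻¹ : Matrix (Fin n₂) (Fin n₂) F) j c) *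
                coordMap e P v (a, c) := by
                rw [Finset.sum_mul]; exact Finset.sum_congr rfl fun j _ => by simp [Matrix.col_apply]; ring
            _ = 0 := by rw [h, zero_mul]
        · exact fun h => absurd (Finset.mem_univ b) h
      rw [hv]
      exact Submodule.sum_mem _ fun j _ => Submodule.mem_iSup_of_mem j ⟨_, rfl⟩
  refine ⟨D, ⟨hD, hnd, horth⟩, fun g hg => ?_⟩
  obtain ⟨y, a, b, μ, hgy, hy, hμ, -, hb⟩ := tensor_element hH hle (ne_zero_of_isUnit_det hC) hG₀ hG hg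
  obtain ⟨π, hπ⟩ := hmono b μ⁻¹ (inv_ne_zero hμ) hb
  refine ⟨π, fun j => map_toLin'_eq_of_mem ?_ (by rw [hD.finrank_eq, hD.finrank_eq])⟩
  rintro _ ⟨x, rfl⟩
  obtain ⟨s, hs⟩ := hπ j
  refine ⟨s • ((a : Matrix (Fin n₁) (Fin n₁) F) *ᵥ x), ?_⟩
  show _ = act g ((P : M2) *ᵥ _)
  rw [hgy, act_conj_reindex]
  show (P : M2) *ᵥ _ = _
  congr 1
  funext i
  simp only [Function.comp_apply, hy]
  obtain ⟨p, r⟩ := e i
  have hs' : ((b : Matrix (Fin n₂) (Fin n₂) F) *ᵥ z j) r = s * z (π j) r := congrFun hs r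
  show (s • ((a : Matrix (Fin n₁) (Fin n₁) F) *ᵥ x)) p * z (π j) r = _
  rw [Pi.smul_apply, smul_eq_mul, mul_comm s, mul_assoc, ← hs']
  simp only [Matrix.mulVec, dotProduct, Fintype.sum_prod_type, Matrix.kronecker_apply, Finset.sum_mul_sum]
  exact Finset.sum_congr rfl fun q _ => Finset.sum_congr rfl fun t _ => by ring

omit [Fintype F] in
lemma three_elements [Fintype F] (hq : Fintype.card F = 3) (x : F) : x = 0 ∨ x = 1 ∨ x = -1 := by
  classical
  have h2 : (2 : F) ≠ 0 := two_ne_zero_of_odd_card (by rw [hq]; decide)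
  by_contra h
  simp only [not_or] at h
  have hle : ({0, 1, -1, x} : Finset F).card ≤ 3 := hq ▸ Finset.card_le_univ _
  have h01 : (0 : F) ∉ ({1, -1, x} : Finset F) := by simp [Ne.symm h.1]
  have h11 : (1 : F) ∉ ({-1, x} : Finset F) := by
    simp only [Finset.mem_insert, Finset.mem_singleton, not_or]
    exact ⟨fun e => h2 (by linear_combination e), Ne.symm h.2.1⟩
  rw [Finset.card_insert_of_notMem h01, Finset.card_insert_of_notMem h11, Finset.card_pair (Ne.symm h.2.2)] at hle
  omega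

lemma three_eq_zero (hq : Fintype.card F = 3) : (3 : F) = 0 := by
  have := Nat.cast_card_eq_zero F
  rw [hq] at this
  exact_mod_cast this

lemma sq_eq_one_of_three (hq : Fintype.card F = 3) {x : F} (hx : x ≠ 0) : x * x = 1 := by
  rcases three_elements hq x with h | h | h
  · exact absurd h hx
  · rw [h]; ring
  · rw [h]; ring

/-- A unit vector in dimension three over three elements has a single non-zero entry. -/
lemma unit_vector_three (hq : Fintype.card F = 3) {x : Fin 3 → F} (hx : ∑ i, x i * x i = 1) :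
    ∃ i, x i ≠ 0 ∧ ∀ j, j ≠ i → x j = 0 := by
  rw [Fin.sum_univ_three] at hx
  have h3 := three_eq_zero hq
  have hne : (1 : F) ≠ 2 := fun h => one_ne_zero (by linear_combination -h : (1 : F) = 0)
  by_cases h0 : x 0 = 0 <;> by_cases h1 : x 1 = 0 <;> by_cases h2 : x 2 = 0
  · simp [h0, h1, h2] at hx
  · exact ⟨2, h2, fun j hj => by fin_cases j <;> simp_all⟩
  · exact ⟨1, h1, fun j hj => by fin_cases j <;> simp_all⟩
  · rw [h0, sq_eq_one_of_three hq h1, sq_eq_one_of_three hq h2] at hx
    exact absurd (show (1 : F) = 0 by linear_combination hx) one_ne_zero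
  · exact ⟨0, h0, fun j hj => by fin_cases j <;> simp_all⟩
  · rw [h1, sq_eq_one_of_three hq h0, sq_eq_one_of_three hq h2] at hx
    exact absurd (show (1 : F) = 0 by linear_combination hx) one_ne_zero
  · rw [h2, sq_eq_one_of_three hq h0, sq_eq_one_of_three hq h1] at hx
    exact absurd (show (1 : F) = 0 by linear_combination hx) one_ne_zero
  · rw [sq_eq_one_of_three hq h0, sq_eq_one_of_three hq h1, sq_eq_one_of_three hq h2] at hx
    exact absurd (show (1 : F) = 0 by linear_combination -hx + h3) one_ne_zero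

/-- An equal-norm orthogonal basis of a symmetric form in dimension three over three elements. -/
lemma exists_frame_three (hq : Fintype.card F = 3) {G : Matrix (Fin 3) (Fin 3) F} (hG : Gᵀ = G)
    (hdet : IsUnit G.det) : ∃ (Z : GL (Fin 3) F) (c : F), c ≠ 0 ∧
      (Z : Matrix _ _ F)ᵀ * G * (Z : Matrix _ _ F) = c • (1 : Matrix (Fin 3) (Fin 3) F) := by
  classical
  have h3 := three_eq_zero hq
  have h2 : (2 : F) ≠ 0 := two_ne_zero_of_odd_card (by rw [hq]; decide)
  haveI : Invertible (2 : F) := invertibleOfNonzero h2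
  let B : LinearMap.BilinForm F (Fin 3 → F) := Matrix.toBilin' G
  have hB : B.IsSymm := ⟨fun u v => by
    simp only [B, Matrix.toBilin'_apply', RingHom.id_apply]
    rw [Matrix.dotProduct_mulVec, ← Matrix.mulVec_transpose, hG, dotProduct_comm]⟩
  obtain ⟨w, hw⟩ := LinearMap.BilinForm.exists_orthogonal_basis (B := B) (LinearMap.BilinForm.isSymm_iff.1 hB)
  have hr : Module.finrank F (Fin 3 → F) = 3 := by simp
  let w' := w.reindex (finCongr hr)
  let T : Matrix (Fin 3) (Fin 3) F := (Pi.basisFun F (Fin 3)).toMatrix w'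
  have hTcol : ∀ i, T *ᵥ Pi.single i 1 = w' i := fun i => by
    funext j; simp [T, Module.Basis.toMatrix, Pi.basisFun_repr]
  have hTdet : T.det ≠ 0 := by
    haveI := (Pi.basisFun F (Fin 3)).invertibleToMatrix w'
    exact (Matrix.isUnit_det_of_invertible T).ne_zero
  let d : Fin 3 → F := fun i => B (w' i) (w' i)
  have hT : Tᵀ * G * T = Matrix.diagonal d := by
    ext i j
    have hij : (Tᵀ * G * T) i j = B (w' i) (w' j) := by
      rw [← hTcol i, ← hTcol j]
      simp [B, Matrix.toBilin'_apply', Matrix.mul_apply, Matrix.mulVec, dotProduct, Finset.mul_sum,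
        Finset.sum_mul, Pi.single_apply, mul_assoc]
      rw [Finset.sum_comm]
    rw [hij, Matrix.diagonal_apply]
    split
    · next h => subst h; rfl
    · next h =>
      rw [show w' i = w ((finCongr hr).symm i) from w.reindex_apply _ _,
        show w' j = w ((finCongr hr).symm j) from w.reindex_apply _ _]
      exact hw (show (finCongr hr).symm i ≠ (finCongr hr).symm j from fun he => h ((finCongr hr).symm.injective he))
  have hd : ∀ i, d i ≠ 0 := by
    intro i h0
    have h := congrArg Matrix.det hT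
    rw [Matrix.det_mul, Matrix.det_mul, Matrix.det_transpose, Matrix.det_diagonal,
      Finset.prod_eq_zero (Finset.mem_univ i) h0] at h
    exact mul_ne_zero (mul_ne_zero hTdet hdet.ne_zero) hTdet h
  have key : ∀ S : Matrix (Fin 3) (Fin 3) F, S.det ≠ 0 → ∀ c : F, c ≠ 0 →
      Sᵀ * Matrix.diagonal d * S = c • 1 → ∃ (Z : GL (Fin 3) F) (c : F), c ≠ 0 ∧
        (Z : Matrix _ _ F)ᵀ * G * (Z : Matrix _ _ F) = c • (1 : Matrix (Fin 3) (Fin 3) F) := by
    intro S hS c hc h
    refine ⟨Matrix.GeneralLinearGroup.mkOfDetNeZero (T * S) (by rw [Matrix.det_mul]; exact mul_ne_zero hTdet hS),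
      c, hc, ?_⟩
    show (T * S)ᵀ * G * (T * S) = _
    rw [← h, ← hT, Matrix.transpose_mul]
    simp only [Matrix.mul_assoc]
  have hd1 : ∀ i, d i = 1 ∨ d i = -1 := fun i => (three_elements hq (d i)).resolve_left (hd i)
  by_cases hall : d 0 = d 1 ∧ d 1 = d 2
  · refine key 1 (by simp) (d 0) (hd 0) ?_
    ext i j
    fin_cases i <;> fin_cases j <;> simp [hall.1, hall.2]
  · -- two entries equal, the third opposite
    have hcases : (d 0 = d 1 ∧ d 2 = -d 0) ∨ (d 0 = d 2 ∧ d 1 = -d 0) ∨ (d 1 = d 2 ∧ d 0 = -d 1) := by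
      have hne : (1 : F) ≠ -1 := fun h => h2 (by linear_combination h)
      rcases hd1 0 with a | a <;> rcases hd1 1 with b | b <;> rcases hd1 2 with c | c <;>
        simp [a, b, c] at hall ⊢ <;> first | exact absurd rfl hall | simp [hne, Ne.symm hne]
    rcases hcases with ⟨e1, e2⟩ | ⟨e1, e2⟩ | ⟨e1, e2⟩
    · refine key !![1, 1, 0; 1, -1, 0; 0, 0, 1] ?_ (-d 0) (neg_ne_zero.2 (hd 0)) ?_
      · simp [Matrix.det_fin_three]; intro h; exact h2 (by linear_combination -h)
      · ext i j
        fin_cases i <;> fin_cases j <;> simp [Matrix.mul_apply, Fin.sum_univ_three, ← e1, e2] <;>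
          linear_combination (d 0) * h3
    · refine key !![1, 0, 1; 0, 1, 0; 1, 0, -1] ?_ (-d 0) (neg_ne_zero.2 (hd 0)) ?_
      · simp [Matrix.det_fin_three]; intro h; exact h2 (by linear_combination -h)
      · ext i j
        fin_cases i <;> fin_cases j <;> simp [Matrix.mul_apply, Fin.sum_univ_three, ← e1, e2] <;>
          linear_combination (d 0) * h3
    · refine key !![1, 0, 0; 0, 1, 1; 0, 1, -1] ?_ (-d 1) (neg_ne_zero.2 (hd 1)) ?_
      · simp [Matrix.det_fin_three]; intro h; exact h2 (by linear_combination -h)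
      · ext i j
        fin_cases i <;> fin_cases j <;> simp [Matrix.mul_apply, Fin.sum_univ_three, ← e1, e2] <;>
          linear_combination (d 1) * h3

/-- Similitudes of a three-dimensional form over three elements permute an orthogonal frame. -/
lemma frame_three_mono (hq : Fintype.card F = 3) {G : Matrix (Fin 3) (Fin 3) F} (hG : IsUnit G.det)
    {Z : GL (Fin 3) F} {c : F} (hc : c ≠ 0)
    (hZ : (Z : Matrix _ _ F)ᵀ * G * (Z : Matrix _ _ F) = c • (1 : Matrix (Fin 3) (Fin 3) F))
    (b : GL (Fin 3) F) (μ : F) (hμ : μ ≠ 0) (hb : (b : Matrix _ _ F)ᵀ * G * (b : Matrix _ _ F) = μ • G) :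
    ∃ π : Equiv.Perm (Fin 3), ∀ j, ∃ s : F,
      (b : Matrix (Fin 3) (Fin 3) F) *ᵥ ((Z : Matrix (Fin 3) (Fin 3) F) *ᵥ Pi.single j 1) =
        s • ((Z : Matrix (Fin 3) (Fin 3) F) *ᵥ Pi.single (π j) 1) := by
  classical
  have hμ1 : μ = 1 := by
    have h := congrArg Matrix.det hb
    rw [Matrix.det_mul, Matrix.det_mul, Matrix.det_transpose, Matrix.det_smul, Fintype.card_fin] at h
    set δ := (b : Matrix (Fin 3) (Fin 3) F).det
    have hδ : δ ≠ 0 := (Matrix.GeneralLinearGroup.det b).ne_zero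
    have h1 : δ * δ = μ ^ 3 := mul_left_cancel₀ hG.ne_zero (by linear_combination h)
    rw [sq_eq_one_of_three hq hδ] at h1
    rcases three_elements hq μ with hm | hm | hm
    · exact absurd hm hμ
    · exact hm
    · rw [hm] at h1
      exact absurd (show (1 : F) = 0 by linear_combination -h1 + three_eq_zero hq) one_ne_zero
  let B : GL (Fin 3) F := Z⁻¹ * b * Z
  have hZB : (Z : Matrix (Fin 3) (Fin 3) F) * (B : Matrix _ _ F) = (b : Matrix _ _ F) * (Z : Matrix _ _ F) := by
    simp [B, ← Matrix.mul_assoc]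
  have hBB : (B : Matrix (Fin 3) (Fin 3) F)ᵀ * (B : Matrix _ _ F) = 1 := by
    apply smul_right_injective _ hc
    show c • ((B : Matrix (Fin 3) (Fin 3) F)ᵀ * (B : Matrix _ _ F)) = c • 1
    calc _ = (B : Matrix (Fin 3) (Fin 3) F)ᵀ * (c • 1) * (B : Matrix _ _ F) := by simp
      _ = ((Z : Matrix (Fin 3) (Fin 3) F) * (B : Matrix _ _ F))ᵀ * G * ((Z : Matrix _ _ F) * (B : Matrix _ _ F)) := by
          rw [← hZ, Matrix.transpose_mul]; simp only [Matrix.mul_assoc]
      _ = (Z : Matrix (Fin 3) (Fin 3) F)ᵀ * ((b : Matrix _ _ F)ᵀ * G * (b : Matrix _ _ F)) * (Z : Matrix _ _ F) := by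
          rw [hZB, Matrix.transpose_mul]; simp only [Matrix.mul_assoc]
      _ = _ := by rw [hb, hμ1, one_smul, hZ]
  have hcol : ∀ i j, ∑ k, (B : Matrix (Fin 3) (Fin 3) F) k i * (B : Matrix _ _ F) k j = if i = j then 1 else 0 :=
    fun i j => by
      have h := congrFun (congrFun hBB i) j
      rwa [Matrix.mul_apply, Matrix.one_apply] at h
  choose p hp hp' using fun j => unit_vector_three hq (x := fun k => (B : Matrix (Fin 3) (Fin 3) F) k j)
    (by simpa using hcol j j)
  have hpinj : Function.Injective p := by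
    intro i j hij
    by_contra hne
    have h := hcol i j
    rw [if_neg hne, Finset.sum_eq_single (p i) (fun k _ hk => by rw [hp' i k hk, zero_mul])
      (fun h => absurd (Finset.mem_univ _) h)] at h
    rcases mul_eq_zero.1 h with h | h
    · exact hp i h
    · exact hp j (hij ▸ h)
  refine ⟨Equiv.ofBijective p (Finite.injective_iff_bijective.1 hpinj), fun j => ⟨(B : Matrix _ _ F) (p j) j, ?_⟩⟩
  rw [Matrix.mulVec_mulVec, ← hZB, ← Matrix.mulVec_mulVec, ← Matrix.mulVec_smul]
  congr 1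
  funext k
  simp only [Matrix.mulVec_single_one, Matrix.col_apply, Equiv.ofBijective_apply, Pi.smul_apply, smul_eq_mul,
    Pi.single_apply]
  by_cases hk : k = p j
  · subst hk; simp
  · simp [hk, hp' j k hk]

end CfsgLib.SmallDim
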