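import Cfsg.Agent.Lib.SmallDim.OrthEvenTwelveSimil
import Cfsg.Agent.Lib.SmallDim.OrthEvenTwelveType
import Cfsg.Agent.Lib.SmallDim.OmegaStructure
import Cfsg.Agent.Lib.SmallDim.SympFrames

/-!
Tensor decompositions in dimension twelve: the types `2 × 6` and `3 × 4`.
-/

set_option autoImplicit false
set_option linter.style.haveILetI false
set_option linter.unusedSectionVars false
set_option linter.unusedSimpArgs false
set_option linter.unusedTactic false

namespace CfsgLib.SmallDim.OrthEven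

open scoped MatrixGroups Matrix Kronecker commutatorElement
open Cfsg.Geo QuadraticMap CfsgLib.ClassicalForms Module
open CfsgLib.Geometric.Orth (omegaGL_eq)

variable {ι : Type} [Fintype ι] [DecidableEq ι] {F : Type*} [Field F] [Fintype F] {Q : QuadraticForm F (ι → F)}
variable {H : Subgroup (GL ι F)} {n₁ n₂ : ℕ} {e : ι ≃ Fin n₁ × Fin n₂} {P : GL ι F}
  {C : Matrix (Fin n₁) (Fin n₁) F} {G₀ : Matrix (Fin n₂) (Fin n₂) F}

/-- Elements of `Ω` have determinant one. -/
lemma det_eq_one_of_omega {g : GL ι F} (hg : g ∈ omegaGL (⇑Q)) : (g : Matrix ι ι F).det = 1 := by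
  rw [omegaGL_eq] at hg
  have hle : ⁅Cfsg.isometryGroup F (⇑Q), Cfsg.isometryGroup F (⇑Q)⁆ ≤
      (Matrix.GeneralLinearGroup.det : GL ι F →* Fˣ).ker := by
    refine Subgroup.commutator_le.mpr fun a _ b _ => ?_
    rw [MonoidHom.mem_ker, map_commutatorElement, commutatorElement_eq_one_iff_mul_comm, mul_comm]
  have h := congrArg Units.val (MonoidHom.mem_ker.mp (hle hg))
  simpa using h

lemma det_ne_zero_of_congr {n : ℕ} {a C : Matrix (Fin n) (Fin n) F} {c : F} (hc : c ≠ 0) (hC : IsUnit C.det)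
    (h : aᵀ * C * a = c • C) : a.det ≠ 0 := fun h0 => by
  have h1 := congrArg Matrix.det h
  rw [Matrix.det_mul, Matrix.det_mul, h0, mul_zero, Matrix.det_smul] at h1
  exact mul_ne_zero (pow_ne_zero _ hc) hC.ne_zero h1.symm

lemma TensorForm.eq_conj (h : TensorForm Q H e P C G₀) {g : GL ι F} (hg : g ∈ H) :
    ∃ (a : GL (Fin n₁) F) (b : GL (Fin n₂) F) (z : GL (Fin n₁ × Fin n₂) F),
      (z : Matrix (Fin n₁ × Fin n₂) (Fin n₁ × Fin n₂) F) = (a : Matrix (Fin n₁) (Fin n₁) F) ⊗ₖ (b : Matrix (Fin n₂) (Fin n₂) F) ∧ g = P * glReindex e.symm z * P⁻¹ ∧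
      (∃ c : F, c ≠ 0 ∧ (a : Matrix (Fin n₁) (Fin n₁) F)ᵀ * C * (a : Matrix (Fin n₁) (Fin n₁) F) = c • C) ∧
      (∃ c : F, c ≠ 0 ∧ (b : Matrix (Fin n₂) (Fin n₂) F)ᵀ * G₀ * (b : Matrix (Fin n₂) (Fin n₂) F) = c • G₀) ∧
      ((a : Matrix (Fin n₁) (Fin n₁) F) ⊗ₖ (b : Matrix (Fin n₂) (Fin n₂) F))ᵀ * (C ⊗ₖ G₀) * ((a : Matrix (Fin n₁) (Fin n₁) F) ⊗ₖ (b : Matrix (Fin n₂) (Fin n₂) F)) = C ⊗ₖ G₀ ∧
      ∀ x, act g (point e P x) = point e P (((a : Matrix (Fin n₁) (Fin n₁) F) ⊗ₖ (b : Matrix (Fin n₂) (Fin n₂) F)) *ᵥ x) := by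
  obtain ⟨a, b, hact, ⟨c, hc, hac⟩, ⟨c', hc', hbc⟩, hfix⟩ := h.action g hg
  have ha := det_ne_zero_of_congr hc h.det_left hac
  have hb := det_ne_zero_of_congr hc' h.det_right hbc
  have hz : (a ⊗ₖ b).det ≠ 0 := by
    rw [Matrix.det_kronecker]; exact mul_ne_zero (pow_ne_zero _ ha) (pow_ne_zero _ hb)
  refine ⟨Matrix.GeneralLinearGroup.mkOfDetNeZero a ha, Matrix.GeneralLinearGroup.mkOfDetNeZero b hb,
    Matrix.GeneralLinearGroup.mkOfDetNeZero _ hz, rfl, Geometric.gl_ext fun v => ?_, ⟨c, hc, hac⟩,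
    ⟨c', hc', hbc⟩, hfix, hact⟩
  rw [← point_coordMap e P v]
  show act g (point e P _) = act _ ((P : Matrix ι ι F) *ᵥ _)
  rw [hact, act_conj_reindex]
  rfl

/-- The group lies in the stabiliser of its tensor decomposition. -/
lemma TensorForm.le_subgroup (h : TensorForm Q H e P C G₀) : H ≤ tensorProductSubgroup n₁ n₂ e P := by
  intro g hg
  obtain ⟨a, b, z, hz, hgz, -⟩ := h.eq_conj hg
  exact ⟨_, ⟨z, ⟨a, b, hz⟩, rfl⟩, hgz.symm⟩

lemma det_conj_reindex {κ : Type} [Fintype κ] [DecidableEq κ] (e : ι ≃ κ) (P : GL ι F) (z : GL κ F) :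
    ((P * glReindex e.symm z * P⁻¹ : GL ι F) : Matrix ι ι F).det = (z : Matrix κ κ F).det := by
  have hP : (P : Matrix ι ι F).det * ((P⁻¹ : GL ι F) : Matrix ι ι F).det = 1 := by
    rw [← Matrix.det_mul, ← Units.val_mul, mul_inv_cancel, Units.val_one, Matrix.det_one]
  have hR : (glReindex e.symm z : Matrix ι ι F).det = (z : Matrix κ κ F).det := by
    simp [glReindex, Matrix.det_reindexAlgEquiv]
  rw [Units.val_mul, Units.val_mul, Matrix.det_mul, Matrix.det_mul, hR]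
  linear_combination (z : Matrix κ κ F).det * hP

/-- Both factors are symmetric with `q` odd, or both are alternating. -/
theorem TensorForm.kinds (h : TensorForm Q H e P C G₀) (hirr : ActsIrreducibly (matrixSet H))
    (h₁ : 2 ≤ n₁) (h₂ : 2 ≤ n₂) :
    ((2 : F) ≠ 0 ∧ Cᵀ = C ∧ G₀ᵀ = G₀) ∨
      ((∀ i, C i i = 0) ∧ Cᵀ = -C ∧ (∀ k, G₀ k k = 0) ∧ G₀ᵀ = -G₀) := by
  classical
  haveI : Nonempty (Fin n₁) := ⟨⟨0, by omega⟩⟩
  haveI : Nonempty (Fin n₂) := ⟨⟨0, by omega⟩⟩
  have hC0 : C ≠ 0 := fun e0 => h.det_left.ne_zero (by rw [e0]; exact Matrix.det_zero)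
  have hG0 : G₀ ≠ 0 := fun e0 => h.det_right.ne_zero (by rw [e0]; exact Matrix.det_zero)
  have hsym : Cᵀ ⊗ₖ G₀ᵀ = C ⊗ₖ G₀ := by
    ext p r
    have h1 := h.gram (Pi.single p 1) (Pi.single r 1)
    have h2' := h.gram (Pi.single r 1) (Pi.single p 1)
    rw [QuadraticMap.polar_comm, h1] at h2'
    simpa [Matrix.mulVec_single_one] using h2'.symm
  have key : (Cᵀ = C ∧ G₀ᵀ = G₀) ∨ (Cᵀ = -C ∧ G₀ᵀ = -G₀) := by
    obtain ⟨⟨c, -, hc⟩, ⟨c', -, hc'⟩⟩ := exists_smul_of_kronecker hC0 hG0 hsym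
    have hcc : c * c = 1 := by
      have h1 := congrArg Matrix.transpose hc
      rw [Matrix.transpose_transpose, Matrix.transpose_smul, hc, smul_smul] at h1
      exact (smul_left_injective F hC0 ((one_smul F C).trans h1)).symm
    have hcc' : c * c' = 1 := by
      rw [hc, hc', Matrix.smul_kronecker, Matrix.kronecker_smul, smul_smul] at hsym
      refine smul_left_injective F (fun h0 => ?_) (hsym.trans (one_smul F _).symm)
      obtain ⟨i, j, hij⟩ : ∃ i j, C i j ≠ 0 := by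
        by_contra hall; push Not at hall; exact hC0 (Matrix.ext hall)
      obtain ⟨k, l, hkl⟩ : ∃ k l, G₀ k l ≠ 0 := by
        by_contra hall; push Not at hall; exact hG0 (Matrix.ext hall)
      exact mul_ne_zero hij hkl (congrFun (congrFun h0 (i, k)) (j, l))
    rcases mul_self_eq_one_iff.mp hcc with rfl | rfl
    · rw [one_mul] at hcc'
      subst hcc'
      rw [one_smul] at hc hc'
      exact Or.inl ⟨hc, hc'⟩
    · have : c' = -1 := by linear_combination -hcc'
      subst this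
      rw [neg_smul, one_smul] at hc hc'
      exact Or.inr ⟨hc, hc'⟩
  rcases two_eq_zero_or_ne (F := F) with ⟨h2, -⟩ | ⟨h2, -⟩
  · right
    have hneg : ∀ {m : ℕ} (M : Matrix (Fin m) (Fin m) F), -M = M := fun M => Matrix.ext fun i j => by
      show -M i j = M i j
      linear_combination (-M i j) * h2
    obtain ⟨hCt, hGt⟩ : Cᵀ = C ∧ G₀ᵀ = G₀ := by
      rcases key with h' | ⟨h', h''⟩
      · exact h'
      · exact ⟨by rw [h', hneg], by rw [h'', hneg]⟩
    exact ⟨fun i => h.diag_zero hirr h₁ (by omega) h2 hCt i, by rw [hneg, hCt],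
      fun k => h.swap.diag_zero hirr h₂ (by omega) h2 hGt k, by rw [hneg, hGt]⟩
  rcases key with h' | ⟨hCt, hGt⟩
  · exact Or.inl ⟨h2, h'⟩
  · right
    have hd : ∀ {m : ℕ} (M : Matrix (Fin m) (Fin m) F), Mᵀ = -M → ∀ i, M i i = 0 := fun M hM i => by
      have h1 : M i i = -M i i := congrFun (congrFun hM i) i
      rw [eq_neg_iff_add_eq_zero, ← two_mul] at h1
      exact (mul_eq_zero.mp h1).resolve_left h2
    exact ⟨hd C hCt, hCt, hd G₀ hGt, hGt⟩

/-- The form of an alternating invertible matrix is symplectic. -/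
lemma isSymplecticForm_matrixForm {k : ℕ} {M : Matrix (Fin k) (Fin k) F} (hd : ∀ i, M i i = 0) (ht : Mᵀ = -M)
    (hdet : M.det ≠ 0) : IsSymplecticForm (matrixForm M) := by
  have hskew : ∀ x y, matrixForm M x y = -matrixForm M y x := fun x y => by
    simp only [matrixForm]
    rw [Matrix.dotProduct_mulVec, ← Matrix.mulVec_transpose, ht, Matrix.neg_mulVec, neg_dotProduct, dotProduct_comm]
  have halt : ∀ x, matrixForm M x x = 0 := fun x => by
    simp only [matrixForm, dotProduct, Matrix.mulVec, Finset.mul_sum]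
    rw [← Fintype.sum_prod_type (f := fun p : Fin k × Fin k => x p.1 * (M p.1 p.2 * x p.2))]
    refine Finset.sum_involution (fun p _ => p.swap) ?_ ?_ (fun p _ => Finset.mem_univ _) (fun p _ => rfl)
    · rintro ⟨a, b⟩ -
      have : M b a = -M a b := congrFun (congrFun ht a) b
      simp only [Prod.swap_prod_mk, this]
      ring
    · rintro ⟨a, b⟩ - hne he
      simp only [Prod.swap_prod_mk, Prod.mk.injEq] at he
      simp [he.1, hd] at hne
  refine ⟨⟨fun x y v => add_dotProduct _ _ _, fun c x v => smul_dotProduct _ _ _,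
    fun v x y => by simp only [matrixForm, Matrix.mulVec_add, dotProduct_add],
    fun c v x => by simp only [matrixForm, Matrix.mulVec_smul, dotProduct_smul, smul_eq_mul]⟩, hskew, halt,
    fun v hv => ?_⟩
  have hne : M *ᵥ v ≠ 0 := fun h => hv (Matrix.eq_zero_of_mulVec_eq_zero hdet h)
  obtain ⟨i, hi⟩ := Function.ne_iff.1 hne
  have h1 : matrixForm M (Pi.single i 1) v ≠ 0 := by simpa [matrixForm] using hi
  exact ⟨⟨_, h1⟩, ⟨_, by rw [hskew] at h1; exact fun h0 => h1 (by rw [h0, neg_zero])⟩⟩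

/-- Two alternating factors in the shape `2 × n`: the data of the tensor class. -/
theorem TensorForm.symplectic_data {n : ℕ} {e : ι ≃ Fin 2 × Fin n} {C : Matrix (Fin 2) (Fin 2) F}
    {G₀ : Matrix (Fin n) (Fin n) F} (h : TensorForm Q H e P C G₀) (hQ : Nondeg Q) (hiso : Isometric Q H)
    (hirr : ActsIrreducibly (matrixSet H)) (hn : 2 ≤ n) (hC : ∀ i, C i i = 0) (hCt : Cᵀ = -C)
    (hG : ∀ k, G₀ k k = 0) (hGt : G₀ᵀ = -G₀) :
    ∃ (f₁ : (Fin 2 → F) → (Fin 2 → F) → F) (f₂ : (Fin n → F) → (Fin n → F) → F),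
      IsSymplecticForm f₁ ∧ IsSymplecticForm f₂ ∧ IsTensorFormStructure id (polar (⇑Q)) f₁ f₂ e P ∧
      (∀ (x₁ : Fin 2 → F) (x₂ : Fin n → F),
        Q ((P : Matrix ι ι F) *ᵥ ((fun a : Fin 2 × Fin n => x₁ a.1 * x₂ a.2) ∘ e)) = 0) ∧
      H ≤ tensorProductSubgroup 2 n e P :=
  ⟨matrixForm C, matrixForm G₀, isSymplecticForm_matrixForm hC hCt h.det_left.ne_zero,
    isSymplecticForm_matrixForm hG hGt h.det_right.ne_zero, isTensorForm_of_gram h.gram,
    h.pure_zero hQ hiso hirr rfl hn hC hG hCt hGt, h.le_subgroup⟩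

section ThreeFour

variable {e₁ : ι ≃ Fin 3 × Fin 4} {C₃ : Matrix (Fin 3) (Fin 3) F} {G₄ : Matrix (Fin 4) (Fin 4) F}

/-- The four-dimensional factor decides the type. -/
theorem TensorForm.isPlus_iff (h : TensorForm Q H e₁ P C₃ G₄) (hQ : Nondeg Q) (h2 : (2 : F) ≠ 0) :
    IsPlusTypeOn (⇑Q) ⊤ ↔ IsSquare G₄.det := by
  classical
  have hn : Fintype.card ι = 2 * 6 := by simp [Fintype.card_congr e₁]
  rw [isPlusTypeOn_top_iff h2 hQ hn, (by decide : Even 6).neg_one_pow, one_mul]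
  set P' : GL ι F := P
  let T : (Fin 3 × Fin 4 → F) ≃ₗ[F] (ι → F) :=
    { toFun := point e₁ P'
      map_add' := point_add e₁ P'
      map_smul' := point_smul e₁ P'
      invFun := coordMap e₁ P'
      left_inv := fun x => coordMap_point e₁ P' x
      right_inv := fun v => point_coordMap e₁ P' v }
  obtain ⟨s, hs0, hs⟩ := gdet_basis (polarBilin Q) ((Pi.basisFun F (Fin 3 × Fin 4)).map T)
  have hM : LinearMap.BilinForm.toMatrix ((Pi.basisFun F (Fin 3 × Fin 4)).map T) (polarBilin Q) = C₃ ⊗ₖ G₄ := by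
    ext p r
    rw [LinearMap.BilinForm.toMatrix_apply]
    simp only [Basis.map_apply, Pi.basisFun_apply, polarBilin_apply_apply]
    show polar Q (point e₁ P' _) (point e₁ P' _) = _
    rw [h.gram]
    simp [Matrix.mulVec_single_one]
  rw [hM, Matrix.det_kronecker, Fintype.card_fin, Fintype.card_fin] at hs
  have hdd : discTop Q * s ^ 2 = C₃.det ^ 4 * G₄.det ^ 2 * G₄.det := by
    show gdet (polarBilin Q) * s ^ 2 = _
    linear_combination -hs
  have hC := h.det_left.ne_zero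
  have hG := h.det_right.ne_zero
  constructor
  · rintro ⟨r, hr⟩
    refine ⟨r * s / (C₃.det ^ 2 * G₄.det), ?_⟩
    rw [hr] at hdd
    field_simp
    linear_combination -hdd
  · rintro ⟨r, hr⟩
    refine ⟨C₃.det ^ 2 * G₄.det * r / s, ?_⟩
    field_simp
    rw [hr] at hdd ⊢
    linear_combination hdd

/-- A four-dimensional form of plus type has square determinant. -/
lemma isSquare_det_of_plus (h2 : (2 : F) ≠ 0) {G : Matrix (Fin 4) (Fin 4) F} (hG : Gᵀ = G) (hdet : G.det ≠ 0)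
    (hp : IsPlusTypeOn (fun v : Fin 4 → F => matrixForm G v v) ⊤) : IsSquare G.det := by
  classical
  let Q₀ : QuadraticForm F (Fin 4 → F) := LinearMap.BilinMap.toQuadraticMap (Matrix.toBilin' G)
  have hQ₀ : (⇑Q₀ : (Fin 4 → F) → F) = fun v => matrixForm G v v := funext fun v => by
    simp [Q₀, LinearMap.BilinMap.toQuadraticMap_apply, Matrix.toBilin'_apply', matrixForm]
  have hsym : ∀ x y, matrixForm G x y = matrixForm G y x := (isSymmetricForm_matrixForm hG hdet).symm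
  have hpol : ∀ x y, polar Q₀ x y = 2 * matrixForm G x y := fun x y => by
    rw [hQ₀]
    simp only [QuadraticMap.polar, matrixForm, Matrix.mulVec_add, add_dotProduct, dotProduct_add]
    have h := hsym x y
    simp only [matrixForm] at h
    linear_combination -h
  have hnd : Nondeg Q₀ := fun x hx => by
    by_contra h0
    obtain ⟨y, hy⟩ := ((isSymmetricForm_matrixForm hG hdet).nondegenerate x h0).2
    have := hx y
    rw [hpol] at this
    exact hy ((mul_eq_zero.mp this).resolve_left h2)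
  rw [← hQ₀, isPlusTypeOn_top_iff h2 hnd (m := 2) (by simp), (by decide : Even 2).neg_one_pow, one_mul] at hp
  obtain ⟨s, hs0, hs⟩ := gdet_basis (polarBilin Q₀) (Pi.basisFun F (Fin 4))
  have hM : LinearMap.BilinForm.toMatrix (Pi.basisFun F (Fin 4)) (polarBilin Q₀) = (2 : F) • G := by
    ext i j
    rw [LinearMap.BilinForm.toMatrix_apply]
    simp only [Pi.basisFun_apply, polarBilin_apply_apply, hpol, matrixForm, Matrix.smul_apply, smul_eq_mul]
    simp [Matrix.mulVec_single_one]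
  rw [hM, Matrix.det_smul, Fintype.card_fin] at hs
  obtain ⟨r, hr⟩ := hp
  change gdet (polarBilin Q₀) = r * r at hr
  exact ⟨s * r / 4, by
    have h4 : (4 : F) ≠ 0 := by
      rw [show (4 : F) = 2 * 2 by norm_num]; exact mul_ne_zero h2 h2
    field_simp
    rw [hr] at hs
    linear_combination hs⟩

/-- A four-dimensional form of square determinant is the tensor square of the alternating plane. -/
lemma exists_planes_isometry (h2 : (2 : F) ≠ 0) {G : Matrix (Fin 4) (Fin 4) F} (hG : Gᵀ = G) (hdet : G.det ≠ 0)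
    (hsq : IsSquare G.det) :
    ∃ ε : (Fin 2 × Fin 2 → F) ≃ₗ[F] (Fin 4 → F),
      ∀ x y, (ε x) ⬝ᵥ (G *ᵥ ε y) = x ⬝ᵥ ((planeAlt F ⊗ₖ planeAlt F) *ᵥ y) := by
  classical
  set K := planeAlt F ⊗ₖ planeAlt F with hK
  have hKt : Kᵀ = K := by
    rw [hK, ← Matrix.kroneckerMap_transpose, transpose_planeAlt]
    ext ⟨i, k⟩ ⟨j, l⟩
    simp [Matrix.kroneckerMap_apply]
  have hKdet : K.det = 1 := by rw [hK, Matrix.det_kronecker, det_planeAlt, one_pow, one_mul]
  have hsymm : ∀ {κ : Type} [Fintype κ] [DecidableEq κ] (M : Matrix κ κ F), Mᵀ = M →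
      (Matrix.toBilin' M).IsSymm := fun M hM => ⟨fun x y => by
    rw [Matrix.toBilin'_apply', Matrix.toBilin'_apply', dotProduct_comm, ← Matrix.vecMul_transpose,
      ← Matrix.dotProduct_mulVec, hM]⟩
  obtain ⟨s, hs0, hs⟩ := gdet_basis (Matrix.toBilin' K) (Pi.basisFun F (Fin 2 × Fin 2))
  obtain ⟨s', hs0', hs'⟩ := gdet_basis (Matrix.toBilin' G) (Pi.basisFun F (Fin 4))
  rw [show LinearMap.BilinForm.toMatrix (Pi.basisFun F (Fin 2 × Fin 2)) (Matrix.toBilin' K) = K by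
    ext p r; simp [LinearMap.BilinForm.toMatrix_apply, Matrix.toBilin'_apply', Matrix.mulVec_single_one],
    hKdet] at hs
  rw [show LinearMap.BilinForm.toMatrix (Pi.basisFun F (Fin 4)) (Matrix.toBilin' G) = G by
    ext p r; simp [LinearMap.BilinForm.toMatrix_apply, Matrix.toBilin'_apply', Matrix.mulVec_single_one]] at hs'
  obtain ⟨ε, hε⟩ := exists_isometry h2 (Matrix.toBilin' K) (hsymm K hKt)
    (LinearMap.BilinForm.nondegenerate_toBilin'_of_det_ne_zero' _ (by rw [hKdet]; exact one_ne_zero))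
    (Matrix.toBilin' G) (hsymm G hG) (LinearMap.BilinForm.nondegenerate_toBilin'_of_det_ne_zero' _ hdet)
    (by simp) (by
      obtain ⟨r, hr⟩ := hsq
      refine ⟨r / (s * s'), ?_⟩
      field_simp
      linear_combination -hs' + hr - gdet (Matrix.toBilin' G) * s' ^ 2 * hs)
  exact ⟨ε, fun x y => by simpa [Matrix.toBilin'_apply'] using hε x y⟩

/-- Pairs in six positions. -/
def sixEquiv : Fin 3 × Fin 2 ≃ Fin 6 := finProdFinEquiv

/-- Regrouping `2 × (3 × 2)` as `3 × (2 × 2)`. -/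
noncomputable def regroup (ε : (Fin 2 × Fin 2 → F) ≃ₗ[F] (Fin 4 → F)) :
    (Fin 2 × Fin 6 → F) ≃ₗ[F] (Fin 3 × Fin 4 → F) where
  toFun z p := ε (fun q => z (q.1, sixEquiv (p.1, q.2))) p.2
  map_add' z z' := funext fun p => by
    show ε _ p.2 = ε _ p.2 + ε _ p.2
    rw [← Pi.add_apply (ε _) (ε _), ← map_add]
    rfl
  map_smul' c z := funext fun p => by
    show ε _ p.2 = c * ε _ p.2
    rw [← smul_eq_mul, ← Pi.smul_apply c (ε _), ← map_smul]
    rfl
  invFun y q := ε.symm (fun k => y ((sixEquiv.symm q.2).1, k)) (q.1, (sixEquiv.symm q.2).2)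
  left_inv z := funext fun q => by simp
  right_inv y := funext fun p => by
    have : (fun q : Fin 2 × Fin 2 => ε.symm (fun k => y ((sixEquiv.symm (sixEquiv (p.1, q.2))).1, k))
        (q.1, (sixEquiv.symm (sixEquiv (p.1, q.2))).2)) = ε.symm (fun k => y (p.1, k)) := by
      funext q; simp
    show ε _ p.2 = y p
    rw [this, LinearEquiv.apply_symm_apply]

lemma regroup_pure (ε : (Fin 2 × Fin 2 → F) ≃ₗ[F] (Fin 4 → F)) (u v : Fin 2 → F) (x : Fin 3 → F) :
    regroup ε (pure2 u (pure2 x v ∘ sixEquiv.symm)) = pure2 x (ε (pure2 u v)) := by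
  funext p
  show ε _ p.2 = x p.1 * ε (pure2 u v) p.2
  rw [← smul_eq_mul, ← Pi.smul_apply (x p.1) (ε _), ← map_smul]
  refine congrFun (congrArg ε (funext fun q => ?_)) _
  simp [pure2]
  ring

lemma single_eq_pure (a : Fin 2) (i : Fin 3) (j : Fin 2) :
    (Pi.single (a, sixEquiv (i, j)) 1 : Fin 2 × Fin 6 → F) =
      pure2 (Pi.single a 1) (pure2 (Pi.single i 1) (Pi.single j 1) ∘ sixEquiv.symm) := by
  have h : pure2 (Pi.single i (1 : F)) (Pi.single j 1) ∘ sixEquiv.symm = Pi.single (sixEquiv (i, j)) 1 := by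
    rw [pure_single]
    funext l
    simp [Pi.single_apply, Equiv.symm_apply_eq]
  rw [h, pure_single]

lemma six_kronecker_pure (A : Matrix (Fin 3) (Fin 3) F) (d : Matrix (Fin 2) (Fin 2) F) (x : Fin 3 → F)
    (v : Fin 2 → F) :
    Matrix.reindex sixEquiv sixEquiv (A ⊗ₖ d) *ᵥ (pure2 x v ∘ sixEquiv.symm) =
      pure2 (A *ᵥ x) (d *ᵥ v) ∘ sixEquiv.symm := by
  rw [Matrix.reindex_apply, Matrix.submatrix_mulVec_equiv, Function.comp_assoc, Equiv.symm_symm,
    sixEquiv.symm_comp_self, Function.comp_id, kronecker_pure]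

lemma regroup_action (ε : (Fin 2 × Fin 2 → F) ≃ₗ[F] (Fin 4 → F)) (A : Matrix (Fin 3) (Fin 3) F)
    (B : Matrix (Fin 4) (Fin 4) F) (c d : Matrix (Fin 2) (Fin 2) F)
    (h : ∀ x, ε ((c ⊗ₖ d) *ᵥ x) = B *ᵥ ε x) (z : Fin 2 × Fin 6 → F) :
    regroup ε ((c ⊗ₖ Matrix.reindex sixEquiv sixEquiv (A ⊗ₖ d)) *ᵥ z) = (A ⊗ₖ B) *ᵥ regroup ε z := by
  refine LinearMap.congr_fun (f := (regroup ε).toLinearMap.comp
    (Matrix.toLin' (c ⊗ₖ Matrix.reindex sixEquiv sixEquiv (A ⊗ₖ d))))
    (g := (Matrix.toLin' (A ⊗ₖ B)).comp (regroup ε).toLinearMap) ?_ z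
  refine LinearMap.pi_ext' fun q => LinearMap.ext_ring ?_
  obtain ⟨a, l⟩ := q
  obtain ⟨⟨i, j⟩, rfl⟩ := sixEquiv.surjective l
  show regroup ε (Matrix.toLin' _ (Pi.single _ 1)) = Matrix.toLin' _ (regroup ε (Pi.single _ 1))
  rw [Matrix.toLin'_apply, Matrix.toLin'_apply, single_eq_pure, kronecker_pure, six_kronecker_pure, regroup_pure,
    regroup_pure, kronecker_pure, ← kronecker_pure c d, h]

lemma regroup_gram (ε : (Fin 2 × Fin 2 → F) ≃ₗ[F] (Fin 4 → F)) {G : Matrix (Fin 4) (Fin 4) F}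
    (hε : ∀ x y, (ε x) ⬝ᵥ (G *ᵥ ε y) = x ⬝ᵥ ((planeAlt F ⊗ₖ planeAlt F) *ᵥ y)) (C : Matrix (Fin 3) (Fin 3) F)
    (z w : Fin 2 × Fin 6 → F) :
    regroup ε z ⬝ᵥ ((C ⊗ₖ G) *ᵥ regroup ε w) =
      z ⬝ᵥ ((planeAlt F ⊗ₖ Matrix.reindex sixEquiv sixEquiv (C ⊗ₖ planeAlt F)) *ᵥ w) := by
  have key : (Matrix.toBilin' (C ⊗ₖ G)).comp (regroup ε).toLinearMap (regroup ε).toLinearMap =
      Matrix.toBilin' (planeAlt F ⊗ₖ Matrix.reindex sixEquiv sixEquiv (C ⊗ₖ planeAlt F)) := by
    refine LinearMap.BilinForm.ext_basis (Pi.basisFun F (Fin 2 × Fin 6)) fun p q => ?_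
    obtain ⟨a, l⟩ := p
    obtain ⟨⟨i, j⟩, rfl⟩ := sixEquiv.surjective l
    obtain ⟨a', l'⟩ := q
    obtain ⟨⟨i', j'⟩, rfl⟩ := sixEquiv.surjective l'
    rw [LinearMap.BilinForm.comp_apply, Pi.basisFun_apply, Pi.basisFun_apply, LinearEquiv.coe_coe,
      Matrix.toBilin'_apply', Matrix.toBilin'_apply', single_eq_pure, single_eq_pure, regroup_pure,
      regroup_pure, kronecker_pure, dot_pure, hε, kronecker_pure, dot_pure, kronecker_pure, six_kronecker_pure,
      dot_pure]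
    have : ∀ (f g : Fin 3 × Fin 2 → F), (f ∘ sixEquiv.symm) ⬝ᵥ (g ∘ sixEquiv.symm) = f ⬝ᵥ g := fun f g => by
      simp only [dotProduct, Function.comp_apply]
      exact Equiv.sum_comp sixEquiv.symm fun t => f t * g t
    rw [this, dot_pure]
    ring
  have h := LinearMap.congr_fun (LinearMap.congr_fun key z) w
  simpa [Matrix.toBilin'_apply'] using h

/-- The determinant of the second factor of an element of `Ω`. -/
lemma TensorForm.det_right_factor (h : TensorForm Q H e₁ P C₃ G₄) (hH : H ≤ omegaGL (⇑Q)) (h2 : (2 : F) ≠ 0)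
    {g : GL ι F} (hg : g ∈ H) :
    ∃ (A : Matrix (Fin 3) (Fin 3) F) (B : Matrix (Fin 4) (Fin 4) F) (lam μ : F), lam ≠ 0 ∧ μ ≠ 0 ∧
      Aᵀ * C₃ * A = lam • C₃ ∧ Bᵀ * G₄ * B = μ • G₄ ∧ lam * μ = 1 ∧ B.det = μ * μ ∧
      ∀ x, act g (point e₁ P x) = point e₁ P ((A ⊗ₖ B) *ᵥ x) := by
  obtain ⟨a, b, z, hz, hgz, ⟨lam, hlam, ha⟩, ⟨μ, hμ, hb⟩, hfix, hact⟩ := h.eq_conj hg
  have hlm : lam * μ = 1 := by
    rw [← Matrix.kroneckerMap_transpose, ← Matrix.mul_kronecker_mul, ← Matrix.mul_kronecker_mul, ha, hb,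
      Matrix.smul_kronecker, Matrix.kronecker_smul, smul_smul] at hfix
    refine smul_left_injective F (fun h0 => ?_) (hfix.trans (one_smul F _).symm)
    have hd := congrArg Matrix.det h0
    haveI : Nonempty (Fin 3 × Fin 4) := ⟨(0, 0)⟩
    rw [Matrix.det_kronecker, Matrix.det_zero] at hd
    exact mul_ne_zero (pow_ne_zero _ h.det_left.ne_zero) (pow_ne_zero _ h.det_right.ne_zero) hd
  refine ⟨_, _, lam, μ, hlam, hμ, ha, hb, hlm, ?_, hact⟩
  have h1 := det_eq_one_of_omega (hH hg)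
  rw [hgz, det_conj_reindex, hz, Matrix.det_kronecker, Fintype.card_fin, Fintype.card_fin] at h1
  have h3 := congrArg Matrix.det ha
  have h4 := congrArg Matrix.det hb
  rw [Matrix.det_mul, Matrix.det_mul, Matrix.det_transpose, Matrix.det_smul, Fintype.card_fin] at h3 h4
  set A := (a : Matrix (Fin 3) (Fin 3) F).det
  set B := (b : Matrix (Fin 4) (Fin 4) F).det
  have hA : A ^ 2 = lam ^ 3 := mul_right_cancel₀ h.det_left.ne_zero (by linear_combination h3)
  have hB : B ^ 2 = μ ^ 4 := mul_right_cancel₀ h.det_right.ne_zero (by linear_combination h4)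
  rcases (sq_eq_sq_iff_eq_or_eq_neg.mp (show B ^ 2 = (μ * μ) ^ 2 by linear_combination hB)) with e0 | e0
  · exact e0
  · exfalso
    refine h2 ?_
    rw [e0] at h1
    have h7 : (lam * μ) ^ 6 = 1 := by rw [hlm, one_pow]
    have h8 : (A ^ 2) ^ 2 * (-(μ * μ)) ^ 3 = 1 := by linear_combination h1
    rw [hA] at h8
    linear_combination -h8 - h7

/-- A plus type form `3 × 4` refines to a form `2 × 6`. -/
theorem TensorForm.two_six (h : TensorForm Q H e₁ P C₃ G₄) (hH : H ≤ omegaGL (⇑Q)) (h2 : (2 : F) ≠ 0)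
    (hC : C₃ᵀ = C₃) (hG : G₄ᵀ = G₄) (hsq : IsSquare G₄.det) :
    ∃ (e' : ι ≃ Fin 2 × Fin 6) (P' : GL ι F) (C' : Matrix (Fin 6) (Fin 6) F),
      TensorForm Q H e' P' (planeAlt F) C' ∧ (∀ k, C' k k = 0) ∧ C'ᵀ = -C' := by
  classical
  obtain ⟨ε, hε⟩ := exists_planes_isometry h2 hG h.det_right.ne_zero hsq
  have hcard : Fintype.card ι = Fintype.card (Fin 2 × Fin 6) := by simp [Fintype.card_congr e₁]
  let e' : ι ≃ Fin 2 × Fin 6 := Fintype.equivOfCardEq hcard
  let Φ : (ι → F) ≃ₗ[F] (ι → F) :=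
    { toFun := fun v => point e₁ P (regroup ε (v ∘ e'.symm))
      map_add' := fun v w => by rw [← point_add, ← map_add]; rfl
      map_smul' := fun c v => by rw [RingHom.id_apply, ← point_smul, ← map_smul]; rfl
      invFun := fun v => (regroup ε).symm (coordMap e₁ P v) ∘ e'
      left_inv := fun v => by
        simp only [point, coordMap_point, LinearEquiv.symm_apply_apply]
        funext i; simp
      right_inv := fun v => by
        simp only [Function.comp_assoc, e'.self_comp_symm, Function.comp_id, LinearEquiv.apply_symm_apply]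
        exact point_coordMap e₁ P v }
  obtain ⟨P', hP'⟩ : ∃ P' : GL ι F, CfsgLib.ClassicalForms.glEquiv P' = Φ := ⟨_, MulEquiv.apply_symm_apply _ Φ⟩
  have hpt : ∀ z, point e' P' z = point e₁ P (regroup ε z) := fun z => by
    show (P' : Matrix ι ι F) *ᵥ (z ∘ e') = _
    rw [← CfsgLib.ClassicalForms.glEquiv_apply, hP']
    show point e₁ P (regroup ε ((z ∘ e') ∘ e'.symm)) = _
    rw [Function.comp_assoc, e'.self_comp_symm, Function.comp_id]
  have hC'det : (Matrix.reindex sixEquiv sixEquiv (C₃ ⊗ₖ planeAlt F)).det ≠ 0 := by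
    rw [Matrix.det_reindex_self, Matrix.det_kronecker, det_planeAlt, one_pow, mul_one]
    exact pow_ne_zero _ h.det_left.ne_zero
  refine ⟨e', P', Matrix.reindex sixEquiv sixEquiv (C₃ ⊗ₖ planeAlt F),
    ⟨by rw [det_planeAlt]; exact isUnit_one, isUnit_iff_ne_zero.mpr hC'det, fun x y => ?_, fun g hg => ?_⟩,
    fun k => ?_, ?_⟩
  · rw [hpt, hpt, h.gram, regroup_gram ε hε]
  · obtain ⟨A, B, lam, μ, hlam, hμ, ha, hb, hlm, hdb, hact⟩ := h.det_right_factor hH h2 hg
    obtain ⟨b', hb'⟩ : ∃ b' : Matrix (Fin 2 × Fin 2) (Fin 2 × Fin 2) F, ∀ x, ε (b' *ᵥ x) = B *ᵥ ε x :=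
      ⟨LinearMap.toMatrix' (ε.symm.toLinearMap.comp ((Matrix.toLin' B).comp ε.toLinearMap)), fun x => by
        simp [← Matrix.toLin'_apply]⟩
    have hb'K : b'ᵀ * (planeAlt F ⊗ₖ planeAlt F) * b' = μ • (planeAlt F ⊗ₖ planeAlt F) := by
      ext p q
      have h1 : (b' *ᵥ Pi.single p 1) ⬝ᵥ ((planeAlt F ⊗ₖ planeAlt F) *ᵥ (b' *ᵥ Pi.single q 1)) =
          μ * ((Pi.single p 1 : Fin 2 × Fin 2 → F) ⬝ᵥ ((planeAlt F ⊗ₖ planeAlt F) *ᵥ Pi.single q 1)) := by
        rw [← hε, hb', hb', ← hε]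
        rw [← Matrix.vecMul_transpose, ← Matrix.dotProduct_mulVec, Matrix.mulVec_mulVec, Matrix.mulVec_mulVec, hb,
          Matrix.smul_mulVec, dotProduct_smul, smul_eq_mul]
      rw [← Matrix.vecMul_transpose, ← Matrix.dotProduct_mulVec, Matrix.mulVec_mulVec, Matrix.mulVec_mulVec] at h1
      simpa [Matrix.mulVec_single_one] using h1
    have hb'det : b'.det = μ * μ := by
      rw [← hdb, ← LinearMap.det_toLin', ← LinearMap.det_toLin']
      have : Matrix.toLin' b' = ε.symm.toLinearMap.comp ((Matrix.toLin' B).comp ε.toLinearMap) :=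
        LinearMap.ext fun x => ε.injective (by simp [Matrix.toLin'_apply, hb'])
      rw [this]
      exact LinearMap.det_conj _ ε.symm
    obtain ⟨c, d, hcd, hbcd⟩ := kronecker_of_proper h2 hμ hb'K hb'det
    subst hbcd
    have hc0 : c.det ≠ 0 := fun h0 => hμ (by rw [← hcd, h0, zero_mul])
    have hd0 : d.det ≠ 0 := fun h0 => hμ (by rw [← hcd, h0, mul_zero])
    have hDC : (Matrix.reindex sixEquiv sixEquiv (A ⊗ₖ d))ᵀ * Matrix.reindex sixEquiv sixEquiv (C₃ ⊗ₖ planeAlt F) *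
        Matrix.reindex sixEquiv sixEquiv (A ⊗ₖ d) =
          (lam * d.det) • Matrix.reindex sixEquiv sixEquiv (C₃ ⊗ₖ planeAlt F) := by
      simp only [Matrix.reindex_apply, Matrix.transpose_submatrix, Matrix.submatrix_mul_equiv]
      rw [← Matrix.kroneckerMap_transpose, ← Matrix.mul_kronecker_mul, ← Matrix.mul_kronecker_mul, ha,
        planeAlt_congr, Matrix.smul_kronecker, Matrix.kronecker_smul, smul_smul]
      rfl
    refine ⟨c, _, fun x => ?_, ⟨c.det, hc0, planeAlt_congr c⟩, ⟨_, mul_ne_zero hlam hd0, hDC⟩, ?_⟩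
    · rw [hpt, hact, hpt, regroup_action ε A B c d hb']
    · rw [← Matrix.kroneckerMap_transpose, ← Matrix.mul_kronecker_mul, ← Matrix.mul_kronecker_mul, planeAlt_congr,
        hDC, Matrix.smul_kronecker, Matrix.kronecker_smul, smul_smul]
      rw [show c.det * (lam * d.det) = 1 by linear_combination hlm + lam * hcd, one_smul]
  · obtain ⟨⟨i, a⟩, rfl⟩ := sixEquiv.surjective k
    fin_cases a <;> simp [planeAlt, Matrix.kroneckerMap_apply]
  · rw [Matrix.transpose_reindex, ← Matrix.kroneckerMap_transpose, hC, transpose_planeAlt]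
    ext k l
    simp [Matrix.kroneckerMap_apply]

end ThreeFour

/-- An orthogonal frame of the second factor permuted by all similitudes gives an orthogonal decomposition. -/
theorem TensorForm.frame_decomposition (h : TensorForm Q H e P C G₀) (h₁ : 0 < n₁) (h₂ : 2 ≤ n₂)
    (Z : GL (Fin n₂) F) (d : F) (hd : d ≠ 0)
    (hZ : (Z : Matrix (Fin n₂) (Fin n₂) F)ᵀ * G₀ * (Z : Matrix (Fin n₂) (Fin n₂) F) = d • (1 : Matrix (Fin n₂) (Fin n₂) F))
    (hmono : ∀ (b : GL (Fin n₂) F) (μ : F), μ ≠ 0 →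
      (b : Matrix (Fin n₂) (Fin n₂) F)ᵀ * G₀ * (b : Matrix (Fin n₂) (Fin n₂) F) = μ • G₀ → ∃ π : Equiv.Perm (Fin n₂), ∀ j, ∃ s : F,
        (b : Matrix (Fin n₂) (Fin n₂) F) *ᵥ ((Z : Matrix (Fin n₂) (Fin n₂) F) *ᵥ Pi.single j 1) =
          s • ((Z : Matrix (Fin n₂) (Fin n₂) F) *ᵥ Pi.single (π j) 1)) :
    ∃ D : Fin n₂ → Submodule F (ι → F),
      IsNondegenerateMDecomposition (polar (⇑Q)) n₁ D ∧ H ≤ decompositionStabilizer D := by
  classical
  let z : Fin n₂ → Fin n₂ → F := fun j => (Z : Matrix (Fin n₂) (Fin n₂) F) *ᵥ Pi.single j 1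
  let L : Fin n₂ → (Fin n₁ → F) →ₗ[F] (ι → F) := fun j =>
    { toFun := fun x => point e P (pure2 x (z j))
      map_add' := fun x y => by rw [← point_add]; congr 1; funext i; simp [pure2, add_mul]
      map_smul' := fun c x => by
        rw [RingHom.id_apply, ← point_smul]; congr 1; funext i; simp [pure2, mul_assoc] }
  have hz : ∀ i j, z i ⬝ᵥ (G₀ *ᵥ z j) = if i = j then d else 0 := fun i j => by
    show ((Z : Matrix (Fin n₂) (Fin n₂) F) *ᵥ _) ⬝ᵥ (G₀ *ᵥ ((Z : Matrix (Fin n₂) (Fin n₂) F) *ᵥ _)) = _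
    rw [← Matrix.vecMul_transpose, ← Matrix.dotProduct_mulVec, Matrix.mulVec_mulVec, Matrix.mulVec_mulVec, hZ]
    simp [Matrix.mulVec_single_one, Matrix.smul_apply, Matrix.one_apply]
  have hL : ∀ i j x y, polar Q (L i x) (L j y) = (x ⬝ᵥ (C *ᵥ y)) * if i = j then d else 0 := fun i j x y => by
    show polar Q (point e P _) (point e P _) = _
    rw [h.polar_pure, hz]
  have hne : ∀ x : Fin n₁ → F, x ≠ 0 → ∃ y, x ⬝ᵥ (C *ᵥ y) ≠ 0 := by
    intro x hx
    by_contra hall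
    push Not at hall
    refine hx (Matrix.eq_zero_of_vecMul_eq_zero h.det_left.ne_zero (dotProduct_eq_zero _ fun y => ?_))
    rw [← Matrix.dotProduct_mulVec]
    exact hall y
  let D : Fin n₂ → Submodule F (ι → F) := fun j => LinearMap.range (L j)
  have horth : ∀ i j, i ≠ j → ∀ u ∈ D i, ∀ v ∈ D j, polar Q u v = 0 := by
    rintro i j hij _ ⟨x, rfl⟩ _ ⟨y, rfl⟩
    rw [hL, if_neg hij, mul_zero]
  have hnd : ∀ i, IsNondegenerateOn (polar (⇑Q)) (D i) := by
    rintro i _ ⟨x, rfl⟩ hx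
    obtain ⟨y, hy⟩ := hne x fun h0 => hx (by rw [h0, map_zero])
    have h1 : polar Q (L i x) (L i y) ≠ 0 := by rw [hL, if_pos rfl]; exact mul_ne_zero hy hd
    exact ⟨⟨L i y, ⟨y, rfl⟩, by rwa [QuadraticMap.polar_comm]⟩, ⟨L i y, ⟨y, rfl⟩, h1⟩⟩
  have hinj : ∀ i, Function.Injective (L i) := fun i => by
    rw [injective_iff_map_eq_zero]
    intro x hx
    by_contra h0
    obtain ⟨y, hy⟩ := hne x h0
    have h1 := hL i i x y
    rw [hx, if_pos rfl, QuadraticMap.polar_zero_left] at h1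
    exact mul_ne_zero hy hd h1.symm
  have hind : iSupIndep D := by
    intro k
    rw [disjoint_iff, Submodule.eq_bot_iff]
    rintro x ⟨hx, hx'⟩
    by_contra hx0
    obtain ⟨y, hy, hxy⟩ := (hnd k x hx hx0).1
    apply hxy
    have : (⨆ (l) (_ : l ≠ k), D l) ≤ LinearMap.ker (polarBilin Q y) :=
      iSup₂_le fun l hl w hw => horth k l (Ne.symm hl) y hy w hw
    exact this hx'
  have htop : iSup D = ⊤ := by
    rw [eq_top_iff]
    intro v _
    rw [← point_coordMap e P v]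
    show point e P _ ∈ _
    set x := coordMap e P v
    have hx : x = ∑ j, pure2 (fun a => (((Z⁻¹ : GL (Fin n₂) F) : Matrix (Fin n₂) (Fin n₂) F) *ᵥ fun b => x (a, b)) j) (z j) := by
      funext p
      obtain ⟨a, b⟩ := p
      have h1 : (Z : Matrix (Fin n₂) (Fin n₂) F) *ᵥ (((Z⁻¹ : GL (Fin n₂) F) : Matrix (Fin n₂) (Fin n₂) F) *ᵥ fun b => x (a, b)) =
          fun b => x (a, b) := act_act_inv Z _
      conv_lhs => rw [show x (a, b) = ((Z : Matrix (Fin n₂) (Fin n₂) F) *ᵥ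
        (((Z⁻¹ : GL (Fin n₂) F) : Matrix (Fin n₂) (Fin n₂) F) *ᵥ fun b => x (a, b))) b from (congrFun h1 b).symm]
      rw [Finset.sum_apply]
      conv_lhs => rw [Matrix.mulVec, dotProduct]
      refine Finset.sum_congr rfl fun j _ => ?_
      simp [pure2, z, Matrix.mulVec_single_one, Matrix.col_apply]
      ring
    let M : (Fin n₁ × Fin n₂ → F) →ₗ[F] (ι → F) :=
      { toFun := point e P, map_add' := point_add e P, map_smul' := point_smul e P }
    show M x ∈ _
    rw [hx, map_sum]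
    exact Submodule.sum_mem _ fun j _ => Submodule.mem_iSup_of_mem j ⟨_, rfl⟩
  have hD : IsNondegenerateMDecomposition (polar (⇑Q)) n₁ D :=
    ⟨⟨h₂, h₁, fun i => by rw [LinearMap.finrank_range_of_inj (hinj i), Module.finrank_fin_fun], hind, htop⟩,
      hnd, horth⟩
  refine ⟨D, hD, fun g hg => ?_⟩
  obtain ⟨a, b, w, -, -, -, ⟨μ, hμ, hb⟩, -, hact⟩ := h.eq_conj hg
  obtain ⟨π, hπ⟩ := hmono b μ hμ hb
  refine ⟨π, fun j => Submodule.eq_of_le_of_finrank_eq ?_ (by
    rw [finrank_map_toLin, hD.decomp.finrank_eq, hD.decomp.finrank_eq])⟩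
  rintro _ ⟨_, ⟨x, rfl⟩, rfl⟩
  obtain ⟨s, hs⟩ := hπ j
  refine ⟨s • ((a : Matrix (Fin n₁) (Fin n₁) F) *ᵥ x), ?_⟩
  rw [Matrix.toLin'_apply]
  show point e P _ = act g (point e P _)
  rw [hact, kronecker_pure, hs]
  congr 1
  funext p
  simp [pure2, z]
  ring

/-- An invertible matrix over two elements normalises the field of order four. -/
lemma conj_of_two (h01 : ∀ c : F, c = 0 ∨ c = 1) (h11 : (1 : F) + 1 = 0) {M : Matrix (Fin 2) (Fin 2) F}
    (hdet : M.det ≠ 0) : M * !![0, 1; 1, 1] = !![0, 1; 1, 1] * M ∨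
      M * !![0, 1; 1, 1] = (!![0, 1; 1, 1] + 1) * M := by
  obtain ⟨p, q, s, t, rfl⟩ : ∃ p q s t, M = !![p, q; s, t] := ⟨_, _, _, _, Matrix.eta_fin_two M⟩
  rw [Matrix.det_fin_two_of] at hdet
  rcases h01 p with rfl | rfl <;> rcases h01 q with rfl | rfl <;> rcases h01 s with rfl | rfl <;>
    rcases h01 t with rfl | rfl <;>
    first
      | (exfalso; revert hdet; simp [h11]; done)
      | (left; ext i j; fin_cases i <;> fin_cases j <;> simp [Matrix.mul_apply, Fin.sum_univ_two, h11]; done)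
      | (right; ext i j; fin_cases i <;> fin_cases j <;> simp [Matrix.mul_apply, Fin.sum_univ_two, h11]; done)

/-- Over two elements a plane factor gives a field of degree two. -/
theorem TensorForm.field_two {n : ℕ} {e : ι ≃ Fin 2 × Fin n} {C : Matrix (Fin 2) (Fin 2) F}
    {G₀ : Matrix (Fin n) (Fin n) F} (h : TensorForm Q H e P C G₀) (hn : 0 < n) (hq : Fintype.card F = 2) :
    ∃ K : Subalgebra F (Matrix ι ι F), IsFieldSubalgebra 2 K ∧ H ≤ subalgebraNormalizer K := by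
  classical
  have h01 : ∀ c : F, c = 0 ∨ c = 1 := fun c => by
    by_cases hc : c = 0
    · exact Or.inl hc
    · right
      have := FiniteField.pow_card_sub_one_eq_one c hc
      rwa [hq, pow_one] at this
  have h2 : (2 : F) = 0 := two_eq_zero_of_not_odd (by rw [hq]; decide)
  have h11 : (1 : F) + 1 = 0 := by rw [one_add_one_eq_two, h2]
  set W : Matrix (Fin 2) (Fin 2) F := !![0, 1; 1, 1] with hWdef
  have hWW : W * W = W + 1 := by
    ext i j; fin_cases i <;> fin_cases j <;> simp [W, Matrix.mul_apply, Fin.sum_univ_two, h11]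
  let φ : Matrix (Fin 2) (Fin 2) F →ₐ[F] Matrix ι ι F :=
    AlgHom.ofLinearMap
      { toFun := fun A => (P : Matrix ι ι F) *
          Matrix.reindexAlgEquiv F F e.symm (A ⊗ₖ (1 : Matrix (Fin n) (Fin n) F)) *
          ((P⁻¹ : GL ι F) : Matrix ι ι F)
        map_add' := fun A B => by rw [Matrix.add_kronecker, map_add, Matrix.mul_add, Matrix.add_mul]
        map_smul' := fun c A => by
          rw [Matrix.smul_kronecker, map_smul, Matrix.mul_smul, Matrix.smul_mul, RingHom.id_apply] }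
      (by simp only [LinearMap.coe_mk, AddHom.coe_mk]
          rw [Matrix.one_kronecker_one, map_one, Matrix.mul_one, ← Units.val_mul, mul_inv_cancel, Units.val_one])
      (fun A B => by
        simp only [LinearMap.coe_mk, AddHom.coe_mk]
        conv_lhs => rw [show (A * B) ⊗ₖ (1 : Matrix (Fin n) (Fin n) F) = (A ⊗ₖ 1) * (B ⊗ₖ 1) by
          rw [← Matrix.mul_kronecker_mul, Matrix.one_mul], map_mul]
        simp only [← Matrix.mul_assoc]
        rw [Matrix.mul_assoc _ ((P⁻¹ : GL ι F) : Matrix ι ι F) (P : Matrix ι ι F), ← Units.val_mul,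
          inv_mul_cancel, Units.val_one, Matrix.mul_one])
  let K₀ : Subalgebra F (Matrix (Fin 2) (Fin 2) F) :=
    { carrier := {A | ∃ a b : F, A = a • (1 : Matrix (Fin 2) (Fin 2) F) + b • W}
      mul_mem' := by
        rintro _ _ ⟨a, b, rfl⟩ ⟨a', b', rfl⟩
        refine ⟨a * a' + b * b', a * b' + b * a' + b * b', ?_⟩
        simp only [Matrix.mul_add, Matrix.add_mul, smul_mul_smul_comm, Matrix.one_mul, Matrix.mul_one, hWW]
        module
      add_mem' := by
        rintro _ _ ⟨a, b, rfl⟩ ⟨a', b', rfl⟩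
        exact ⟨a + a', b + b', by module⟩
      algebraMap_mem' := fun c => ⟨c, 0, by rw [Algebra.algebraMap_eq_smul_one]; module⟩ }
  have hmem : ∀ a b : F, a • (1 : Matrix (Fin 2) (Fin 2) F) + b • W ∈ K₀ := fun a b => ⟨a, b, rfl⟩
  have hφinj : Function.Injective φ := by
    rw [injective_iff_map_eq_zero]
    intro A hA
    have hA' : (P : Matrix ι ι F) * Matrix.reindexAlgEquiv F F e.symm (A ⊗ₖ (1 : Matrix (Fin n) (Fin n) F)) *
        ((P⁻¹ : GL ι F) : Matrix ι ι F) = 0 := hA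
    have h1 : Matrix.reindexAlgEquiv F F e.symm (A ⊗ₖ (1 : Matrix (Fin n) (Fin n) F)) = 0 :=
      (P.isUnit).mul_right_injective (((P⁻¹ : GL ι F).isUnit.mul_left_injective (hA'.trans (zero_mul _).symm)).trans
        (mul_zero _).symm)
    have h2' := (Matrix.reindexAlgEquiv F F e.symm).injective (h1.trans (map_zero _).symm)
    ext i j
    simpa using congrFun (congrFun h2' (i, ⟨0, hn⟩)) (j, ⟨0, hn⟩)
  let K := K₀.map φ
  have hK : IsFieldSubalgebra 2 K := by
    refine ⟨?_, ?_, ?_⟩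
    · rintro _ ⟨_, ⟨a, b, rfl⟩, rfl⟩ _ ⟨_, ⟨a', b', rfl⟩, rfl⟩
      rw [← map_mul, ← map_mul]
      congr 1
      simp only [Matrix.mul_add, Matrix.add_mul, smul_mul_smul_comm, Matrix.one_mul, Matrix.mul_one]
      module
    · rintro _ ⟨_, ⟨a, b, rfl⟩, rfl⟩ hne
      obtain ⟨a', b', hab⟩ : ∃ a' b' : F, (a • (1 : Matrix (Fin 2) (Fin 2) F) + b • W) * (a' • 1 + b' • W) = 1 := by
        rcases h01 a with rfl | rfl <;> rcases h01 b with rfl | rfl
        · exact absurd (by simp) hne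
        · exact ⟨1, 1, by ext i j; fin_cases i <;> fin_cases j <;>
            simp [W, Matrix.mul_apply, Fin.sum_univ_two, h11]⟩
        · exact ⟨1, 0, by simp⟩
        · exact ⟨0, 1, by ext i j; fin_cases i <;> fin_cases j <;>
            simp [W, Matrix.mul_apply, Fin.sum_univ_two, h11]⟩
      exact ⟨φ _, ⟨_, hmem a' b', rfl⟩, (map_mul φ _ _).symm.trans ((congrArg φ hab).trans (map_one φ))⟩
    · let L : (Fin 2 → F) →ₗ[F] K :=
        { toFun := fun c => ⟨φ (c 0 • 1 + c 1 • W), ⟨_, hmem _ _, rfl⟩⟩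
          map_add' := fun c c' => Subtype.ext (by
            show φ ((c + c') 0 • 1 + (c + c') 1 • W) = φ (c 0 • 1 + c 1 • W) + φ (c' 0 • 1 + c' 1 • W)
            rw [← map_add]; congr 1; simp only [Pi.add_apply]; module)
          map_smul' := fun s c => Subtype.ext (by
            show φ ((s • c) 0 • 1 + (s • c) 1 • W) = s • φ (c 0 • 1 + c 1 • W)
            rw [← map_smul φ s, smul_add, smul_smul, smul_smul]; rfl) }
      have hL : Function.Bijective L := by
        constructor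
        · rw [injective_iff_map_eq_zero]
          intro c hc
          have h1 : c 0 • (1 : Matrix (Fin 2) (Fin 2) F) + c 1 • W = 0 :=
            hφinj ((congrArg Subtype.val hc).trans (map_zero φ).symm)
          have h00 := congrFun (congrFun h1 0) 0
          have h01' := congrFun (congrFun h1 0) 1
          simp [W] at h00 h01'
          funext i; fin_cases i <;> assumption
        · rintro ⟨_, _, ⟨a, b, rfl⟩, rfl⟩
          exact ⟨![a, b], Subtype.ext (by simp [L])⟩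
      rw [← (LinearEquiv.ofBijective L hL).finrank_eq, finrank_fin_fun]
  refine ⟨K, hK, ?_⟩
  have hstep : ∀ g ∈ H, ∀ k ∈ K, conjAlg g k ∈ K := by
    rintro g hg _ ⟨A, ⟨c₀, c₁, rfl⟩, rfl⟩
    obtain ⟨a, b, z, hz, hgz, -⟩ := h.eq_conj hg
    obtain ⟨A', hA', hconj⟩ : ∃ A' ∈ K₀, (a : Matrix (Fin 2) (Fin 2) F) * (c₀ • 1 + c₁ • W) =
        A' * (a : Matrix (Fin 2) (Fin 2) F) := by
      have hdet : (a : Matrix (Fin 2) (Fin 2) F).det ≠ 0 :=
        ((Matrix.isUnit_iff_isUnit_det _).mp a.isUnit).ne_zero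
      have hW' : (a : Matrix (Fin 2) (Fin 2) F) * W = W * (a : Matrix (Fin 2) (Fin 2) F) ∨
          (a : Matrix (Fin 2) (Fin 2) F) * W = (W + 1) * (a : Matrix (Fin 2) (Fin 2) F) :=
        conj_of_two h01 h11 hdet
      rcases hW' with hW' | hW'
      · exact ⟨_, hmem c₀ c₁, by rw [Matrix.mul_add, Matrix.add_mul, Matrix.mul_smul, Matrix.mul_smul, hW']; simp⟩
      · refine ⟨_, hmem (c₀ + c₁) c₁, ?_⟩
        rw [Matrix.mul_add, Matrix.add_mul, Matrix.mul_smul, Matrix.mul_smul, hW', Matrix.add_mul W]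
        simp only [Matrix.smul_mul, Matrix.one_mul, Matrix.mul_one]
        module
    refine ⟨A', hA', ?_⟩
    rw [conjAlg_apply]
    show φ A' = (g : Matrix ι ι F) * φ (c₀ • 1 + c₁ • W) * _
    have hg' : (g : Matrix ι ι F) * φ (c₀ • 1 + c₁ • W) = φ A' * (g : Matrix ι ι F) := by
      have hmul : ∀ X Y : Matrix ι ι F, ((P : Matrix ι ι F) * X * ((P⁻¹ : GL ι F) : Matrix ι ι F)) *
          ((P : Matrix ι ι F) * Y * ((P⁻¹ : GL ι F) : Matrix ι ι F)) =
            (P : Matrix ι ι F) * (X * Y) * ((P⁻¹ : GL ι F) : Matrix ι ι F) := fun X Y => by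
        simp only [Matrix.mul_assoc]
        rw [← Matrix.mul_assoc ((P⁻¹ : GL ι F) : Matrix ι ι F) (P : Matrix ι ι F), ← Units.val_mul, inv_mul_cancel,
          Units.val_one, Matrix.one_mul]
      rw [hgz, Units.val_mul, Units.val_mul]
      show ((P : Matrix ι ι F) * Matrix.reindexAlgEquiv F F e.symm (z : Matrix _ _ F) * _) *
          ((P : Matrix ι ι F) * _ * _) = ((P : Matrix ι ι F) * _ * _) *
          ((P : Matrix ι ι F) * Matrix.reindexAlgEquiv F F e.symm (z : Matrix _ _ F) * _)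
      rw [hmul, hmul, ← map_mul, ← map_mul, hz, ← Matrix.mul_kronecker_mul, ← Matrix.mul_kronecker_mul, hconj,
        Matrix.mul_one, Matrix.one_mul]
    rw [hg', Matrix.mul_assoc, ← Units.val_mul, mul_inv_cancel, Units.val_one, Matrix.mul_one]
  intro g hg k
  refine ⟨fun hk => by have := hstep g hg k hk; rwa [conjAlg_apply] at this, fun hk => ?_⟩
  have := hstep g⁻¹ (H.inv_mem hg) _ hk
  rwa [← conjAlg_apply, conjAlg_inv_self] at this

/-- `Ω` preserves no tensor decomposition with small factors. -/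
theorem omega_not_le_tensorProductSubgroup (hQ : Nondeg Q) (hn : 5 ≤ Fintype.card ι) (h₁ : 0 < n₁) (h₂ : 0 < n₂)
    (hsmall : n₁ + n₂ < Fintype.card ι - 2) (e : ι ≃ Fin n₁ × Fin n₂) (P : GL ι F) :
    ¬ omegaGL (⇑Q) ≤ tensorProductSubgroup n₁ n₂ e P := by
  classical
  intro hle
  let f : (Fin n₁ → F) × (Fin n₂ → F) → (ι → F) := fun v => point e P (pure2 v.1 v.2)
  have h := omega_orbit_card hQ hn (S := Set.range f)
    (d := point e P (Pi.single (⟨0, h₁⟩, ⟨0, h₂⟩) 1))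
    ⟨(Pi.single ⟨0, h₁⟩ 1, Pi.single ⟨0, h₂⟩ 1), congrArg (point e P) (pure_single _ _)⟩ ?_ ?_
  · have h' : Nat.card (Set.range f) ≤ Fintype.card F ^ (n₁ + n₂) := by
      refine (Finite.card_range_le f).trans_eq ?_
      rw [Nat.card_eq_fintype_card, Fintype.card_prod, Fintype.card_fun, Fintype.card_fun, Fintype.card_fin,
        Fintype.card_fin, ← pow_add]
    have := Nat.pow_lt_pow_right (Fintype.one_lt_card (α := F)) hsmall
    omega
  · intro h0
    have h1 := congrArg (coordMap e P) h0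
    rw [map_zero] at h1
    simp only [point, coordMap_point] at h1
    exact one_ne_zero (Pi.single_eq_zero_iff.mp h1)
  · rintro g hg _ ⟨v, rfl⟩
    obtain ⟨_, ⟨z, ⟨a, b, hz⟩, rfl⟩, rfl⟩ := hle hg
    refine ⟨((a : Matrix _ _ F) *ᵥ v.1, (b : Matrix _ _ F) *ᵥ v.2), ?_⟩
    show point e P _ = act (P * glReindex e.symm z * P⁻¹) ((P : Matrix ι ι F) *ᵥ _)
    rw [act_conj_reindex, hz, kronecker_pure]
    rfl

end CfsgLib.SmallDim.OrthEven
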