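import Cfsg.Agent.Lib.SmallDim.OrthEvenTen
import Cfsg.Agent.Lib.SmallDim.OrthEvenTwelveRefine
import Cfsg.Agent.Lib.SmallDim.OrthEvenTwelveTensor

/-!
Maximal subgroups of `Ω` in dimension twelve: the irreducible cases and the decompositions.
-/

set_option autoImplicit false
set_option linter.style.haveILetI false
set_option linter.unusedSectionVars false
set_option linter.unusedSimpArgs false

namespace CfsgLib.SmallDim.OrthEven

open scoped MatrixGroups Matrix
open Cfsg.Geo QuadraticMap CfsgLib.ClassicalForms Module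

variable {ι : Type} [Fintype ι] [DecidableEq ι] {F : Type*} [Field F] [Fintype F] {Q : QuadraticForm F (ι → F)}
variable {H : Subgroup (GL ι F)}

/-- `H` normalises a field of degree two or three. -/
def TwelveField (H : Subgroup (GL ι F)) : Prop :=
  ∃ (r : ℕ) (K : Subalgebra F (Matrix ι ι F)), (r = 2 ∨ r = 3) ∧ IsFieldSubalgebra r K ∧ H ≤ subalgebraNormalizer K

/-- `H` preserves two alternating factors of shape `2 × 6`. -/
def AltTwoSix (Q : QuadraticForm F (ι → F)) (H : Subgroup (GL ι F)) : Prop :=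
  ∃ (e : ι ≃ Fin 2 × Fin 6) (P : GL ι F) (C : Matrix (Fin 2) (Fin 2) F) (G₀ : Matrix (Fin 6) (Fin 6) F),
    TensorForm Q H e P C G₀ ∧ (∀ i, C i i = 0) ∧ Cᵀ = -C ∧ (∀ k, G₀ k k = 0) ∧ G₀ᵀ = -G₀

/-- `H` preserves two symmetric factors of shape `3 × 4`. -/
def SymThreeFour (Q : QuadraticForm F (ι → F)) (H : Subgroup (GL ι F)) : Prop :=
  ∃ (e : ι ≃ Fin 3 × Fin 4) (P : GL ι F) (C : Matrix (Fin 3) (Fin 3) F) (G₀ : Matrix (Fin 4) (Fin 4) F),
    TensorForm Q H e P C G₀ ∧ (2 : F) ≠ 0 ∧ Cᵀ = C ∧ G₀ᵀ = G₀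

lemma QuadField.twelve (h : QuadField Q H) : TwelveField H := by
  obtain ⟨K, hK, -, hle⟩ := h
  exact ⟨2, K, Or.inl rfl, hK, hle⟩

lemma twelve_ne_pow {a b : ℕ} (hb : 2 ≤ b ∨ a.Prime) : 12 ≠ a ^ b := by
  intro h
  have h2 : 2 ∣ a := Nat.prime_two.dvd_of_dvd_pow (n := b) (by omega)
  have h3 : 3 ∣ a := Nat.prime_three.dvd_of_dvd_pow (n := b) (by omega)
  rcases hb with hb | hp
  · rcases Nat.eq_zero_or_pos a with h0 | h0
    · rw [h0, zero_pow (by omega)] at h; omega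
    have h6 : 6 ≤ a := Nat.le_of_dvd h0 (Nat.Coprime.mul_dvd_of_dvd_of_dvd (by norm_num) h2 h3)
    have h1 : a ^ 2 ≤ a ^ b := Nat.pow_le_pow_right h0 hb
    have h36 : 36 ≤ a ^ 2 := by nlinarith
    omega
  · have e2 := (Nat.prime_dvd_prime_iff_eq Nat.prime_two hp).mp h2
    have e3 := (Nat.prime_dvd_prime_iff_eq Nat.prime_three hp).mp h3
    omega

/-- Clifford's theorem for a normal subgroup in dimension twelve. -/
theorem twelve_normal_cases (hQ : Nondeg Q) (hn : Fintype.card ι = 12) (hH : H ≤ omegaGL (⇑Q))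
    (hirr : ActsIrreducibly (matrixSet H)) {N : Subgroup (GL ι F)} (hN : NormalIn N H)
    (hNs : ¬ N ≤ scalars ι F) :
    ActsAbsolutelyIrreducibly (matrixSet N) ∨ OrthDecomp Q H ∨ SingularPair Q H ∨ TwelveField H ∨
      AltTwoSix Q H ∨ SymThreeFour Q H := by
  have hiso := isometric_of_le_omega hH
  have h5 : 5 ≤ Fintype.card ι := by omega
  have : Nonempty ι := Fintype.card_pos_iff.mp (by omega)
  rcases form_clifford (sesqui_polar Q) (reflexive_polar Q) (isNondegenerateForm_polar hQ) hirr hN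
    hiso.fixesForm hNs with h | ⟨t, m, D, hD, hle⟩ | ⟨t, m, D, τ, hD, hle, h1, h2, h3, h4⟩ |
      ⟨r, K, hr, hK, -, hle⟩ | ⟨n₁, n₂, e, P, hT⟩
  · exact Or.inl h
  · exact Or.inr (Or.inl (orthDecomp_of_nondegenerate hiso hirr hD hle))
  · rcases paired_or_pair hQ h5 hH hirr hD hle h1 h2 h3 h4 with h | h
    · exact Or.inr (Or.inl h)
    · exact Or.inr (Or.inr (Or.inl h))
  · refine Or.inr (Or.inr (Or.inr (Or.inl ⟨r, K, ?_, hK, hle⟩)))
    have hdvd := dvd_card_of_isFieldSubalgebra hK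
    rw [hn] at hdvd
    have h12 := Nat.le_of_dvd (by norm_num) hdvd
    have h2 := hr.two_le
    interval_cases r <;> first | omega | norm_num at hr
  have h₁ := hT.two_le_left
  have h₂ := hT.two_le_right
  obtain ⟨C, G₀, h, -⟩ := exists_tensorForm hQ hiso hN hT
  have hmul : n₁ * n₂ = 12 := by
    rw [← hn, Fintype.card_congr e, Fintype.card_prod, Fintype.card_fin, Fintype.card_fin]
  have hcases : (n₁ = 2 ∧ n₂ = 6) ∨ (n₁ = 6 ∧ n₂ = 2) ∨ (n₁ = 3 ∧ n₂ = 4) ∨ (n₁ = 4 ∧ n₂ = 3) := by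
    have hle : n₁ ≤ 6 := by nlinarith
    interval_cases n₁ <;> omega
  refine Or.inr ?_
  have hor : ∀ {X : Prop}, (OrthDecomp Q H ∨ SingularPair Q H ∨ QuadField Q H) →
      OrthDecomp Q H ∨ SingularPair Q H ∨ TwelveField H ∨ X := fun {X} h => by
    rcases h with h | h | h
    · exact Or.inl h
    · exact Or.inr (Or.inl h)
    · exact Or.inr (Or.inr (Or.inl h.twelve))
  rcases h.kinds hirr h₁ h₂ with ⟨h2, hC, hG⟩ | ⟨hC, hCt, hG, hGt⟩
  · rcases hcases with ⟨rfl, rfl⟩ | ⟨rfl, rfl⟩ | ⟨rfl, rfl⟩ | ⟨rfl, rfl⟩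
    · exact hor (h.left_symmetric_or_pair hQ h5 hH hirr h2 hC)
    · exact hor (h.swap.left_symmetric_or_pair hQ h5 hH hirr h2 hG)
    · exact Or.inr (Or.inr (Or.inr (Or.inr ⟨_, _, _, _, h, h2, hC, hG⟩)))
    · exact Or.inr (Or.inr (Or.inr (Or.inr ⟨_, _, _, _, h.swap, h2, hG, hC⟩)))
  · have he₁ := even_of_alternating hC hCt h.det_left
    have he₂ := even_of_alternating hG hGt h.det_right
    rcases hcases with ⟨rfl, rfl⟩ | ⟨rfl, rfl⟩ | ⟨rfl, rfl⟩ | ⟨rfl, rfl⟩
    · exact Or.inr (Or.inr (Or.inr (Or.inl ⟨_, _, _, _, h, hC, hCt, hG, hGt⟩)))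
    · exact Or.inr (Or.inr (Or.inr (Or.inl ⟨_, _, _, _, h.swap, hG, hGt, hC, hCt⟩)))
    · exact absurd he₁ (by decide)
    · exact absurd he₂ (by decide)

/-- The irreducible cases in dimension twelve. -/
theorem twelve_cases (hQ : Nondeg Q) (hn : Fintype.card ι = 12) (hH : H ≤ omegaGL (⇑Q))
    (hirr : ActsIrreducibly (matrixSet H)) :
    OrthDecomp Q H ∨ SingularPair Q H ∨ TwelveField H ∨ AltTwoSix Q H ∨ SymThreeFour Q H ∨
      SubfieldCase Q H ∨ InOrthogonalResidualClass H := by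
  classical
  have : Nonempty ι := Fintype.card_pos_iff.mp (by omega)
  have hiso := isometric_of_le_omega hH
  by_cases habs : ∀ N, NormalIn N H → ¬ N ≤ scalars ι F → ActsAbsolutelyIrreducibly (matrixSet N)
  swap
  · push Not at habs
    obtain ⟨N, hN, hNs, hNa⟩ := habs
    rcases (twelve_normal_cases hQ hn hH hirr hN hNs).resolve_left hNa with h | h | h | h | h
    · exact Or.inl h
    · exact Or.inr (Or.inl h)
    · exact Or.inr (Or.inr (Or.inl h))
    · exact Or.inr (Or.inr (Or.inr (Or.inl h)))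
    · exact Or.inr (Or.inr (Or.inr (Or.inr (Or.inl h))))
  iterate 5 right
  by_cases hsub : ∀ N, NormalIn N H → ¬ N ≤ scalars ι F → ∀ K : Subfield F, K ≠ ⊤ →
      ¬ RealisableOver K (matrixSet N)
  swap
  · push Not at hsub
    obtain ⟨N, hN, hNs, K, hK, B, hB⟩ := hsub
    obtain ⟨K₁, r, hr, hle, hcardK⟩ := exists_prime_index_overfield hK
    obtain ⟨P, ζ, hζ, hrat, hle'⟩ := subfield_case hQ (by omega) hN hiso (habs N hN hNs) (K := K₁)
      ⟨B, fun s hs i j => hle (hB s hs i j)⟩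
    exact Or.inl ⟨K₁, r, P, ζ, hr, hcardK, ne_top_of_card hr hcardK, hζ, hrat, hle'⟩
  have hHs : ¬ H ≤ scalars ι F := not_le_scalars_of_irreducible (by omega) hirr
  rcases generic_cases (by omega) hHs habs hsub with ⟨R, r, m, h⟩ | ⟨N, k, L, hN, hNabs, -, h⟩ | ⟨P, hP, hcore⟩
  · exact absurd (hn.symm.trans h.dim) (twelve_ne_pow (Or.inr h.sympType.prime))
  · obtain ⟨m, hm⟩ := exists_dim_eq_pow' hNabs h
    exact absurd (hn.symm.trans hm) (twelve_ne_pow (Or.inl h.two_le))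
  · exact Or.inr ⟨P, hcore, no_unitary hQ (by omega) (hiso.mono hP.le)
      hcore.absIrred (hsub P hP (not_le_scalars_of_irreducible (by omega) hcore.absIrred.1))⟩

/-- The count for the decompositions in dimension twelve. -/
lemma count_twelve (hn : Fintype.card ι = 12) {t m : ℕ} (htm : t * m = 12) (hm : m ≤ 6) :
    t * Fintype.card F ^ m < Fintype.card F ^ (Fintype.card ι - 2) := by
  have h1 := Fintype.one_lt_card (α := F)
  have h2 : t ≤ 12 := Nat.le_of_dvd (by norm_num) (Dvd.intro m htm)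
  have h3 : Fintype.card F ^ m ≤ Fintype.card F ^ 6 := Nat.pow_le_pow_right (by omega) hm
  have h4 : 16 ≤ Fintype.card F ^ 4 := le_trans (by norm_num) (Nat.pow_le_pow_left h1 4)
  have h5 : 0 < Fintype.card F ^ 6 := pow_pos (by omega) 6
  rw [hn, show Fintype.card F ^ (12 - 2) = Fintype.card F ^ 4 * Fintype.card F ^ 6 by rw [← pow_add]]
  calc t * Fintype.card F ^ m ≤ 12 * Fintype.card F ^ 6 := Nat.mul_le_mul h2 h3
    _ < Fintype.card F ^ 4 * Fintype.card F ^ 6 := Nat.mul_lt_mul_of_pos_right (by omega) h5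

/-- The shapes of an orthogonal decomposition in dimension twelve. -/
theorem twelve_decomp_shapes (hn : Fintype.card ι = 12) (h : OrthDecomp Q H) :
    (∃ D : Fin 12 → Submodule F (ι → F), IsOrthogonalMDecomposition (⇑Q) 1 D ∧ H ≤ decompositionStabilizer D) ∨
    (∃ D : Fin 6 → Submodule F (ι → F), IsOrthogonalMDecomposition (⇑Q) 2 D ∧ H ≤ decompositionStabilizer D) ∨
    (∃ D : Fin 4 → Submodule F (ι → F), IsOrthogonalMDecomposition (⇑Q) 3 D ∧ H ≤ decompositionStabilizer D) ∨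
    (∃ D : Fin 3 → Submodule F (ι → F), IsOrthogonalMDecomposition (⇑Q) 4 D ∧ H ≤ decompositionStabilizer D) ∨
    ∃ D : Fin 2 → Submodule F (ι → F), IsOrthogonalMDecomposition (⇑Q) 6 D ∧ H ≤ decompositionStabilizer D := by
  obtain ⟨t, m, D, hD, hle⟩ := h
  have htm := decomp_mul_eq hD.decomp.decomp
  rw [hn] at htm
  have h2 := hD.decomp.decomp.two_le
  have ht : (t = 2 ∧ m = 6) ∨ (t = 3 ∧ m = 4) ∨ (t = 4 ∧ m = 3) ∨ (t = 6 ∧ m = 2) ∨ (t = 12 ∧ m = 1) := by
    have := Nat.le_of_dvd (by norm_num) (Dvd.intro m htm)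
    interval_cases t <;> omega
  rcases ht with ⟨rfl, rfl⟩ | ⟨rfl, rfl⟩ | ⟨rfl, rfl⟩ | ⟨rfl, rfl⟩ | ⟨rfl, rfl⟩
  · exact Or.inr (Or.inr (Or.inr (Or.inr ⟨D, hD, hle⟩)))
  · exact Or.inr (Or.inr (Or.inr (Or.inl ⟨D, hD, hle⟩)))
  · exact Or.inr (Or.inr (Or.inl ⟨D, hD, hle⟩))
  · exact Or.inr (Or.inl ⟨D, hD, hle⟩)
  · exact Or.inl ⟨D, hD, hle⟩

/-- A decomposition permuted by an irreducible group of isometries has isometric members. -/
lemma orth_of_nondegenerate (hiso : Isometric Q H) (hirr : ActsIrreducibly (matrixSet H)) {t m : ℕ}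
    {D : Fin t → Submodule F (ι → F)} (hD : IsNondegenerateMDecomposition (polar (⇑Q)) m D)
    (hle : H ≤ decompositionStabilizer D) : IsOrthogonalMDecomposition (⇑Q) m D := by
  refine ⟨hD, fun i j => ?_⟩
  obtain ⟨g, hg, hgD⟩ := exists_map_member hirr hD.decomp hle i j
  let e0 : D i →ₗ[F] D j :=
    ((Matrix.toLin' (g : Matrix ι ι F)).domRestrict (D i)).codRestrict (D j) fun w => by
      rw [← hgD]; exact ⟨w, w.2, rfl⟩
  have hinj : Function.Injective e0 := fun a b hab => Subtype.ext (act_injective g (by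
    simpa [e0, Matrix.toLin'_apply] using congrArg Subtype.val hab))
  refine ⟨e0.linearEquivOfInjective hinj ((hD.decomp.finrank_eq i).trans (hD.decomp.finrank_eq j).symm),
    fun w => ?_⟩
  simp [e0, LinearMap.linearEquivOfInjective, Matrix.toLin'_apply]
  exact hiso g hg _

/-- The decompositions in plus type. -/
theorem twelve_plus_decomp (hQ : Nondeg Q) (hn : Fintype.card ι = 12) (hplus : IsPlusTypeOn (⇑Q) ⊤)
    (hiso : Isometric Q H) (hirr : ActsIrreducibly (matrixSet H)) (h : OrthDecomp Q H) :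
    ((∃ p : ℕ, p.Prime ∧ Odd p ∧ Fintype.card F = p) ∧ ∃ D : Fin 12 → Submodule F (ι → F),
      IsOrthogonalMDecomposition (⇑Q) 1 D ∧ H ≤ decompositionStabilizer D) ∨
    (7 ≤ Fintype.card F ∧ ∃ D : Fin 6 → Submodule F (ι → F),
      IsOrthogonalMDecomposition (⇑Q) 2 D ∧ (∀ i, IsPlusTypeOn (⇑Q) (D i)) ∧ H ≤ decompositionStabilizer D) ∨
    (Fintype.card F ≠ 3 ∧ ∃ D : Fin 6 → Submodule F (ι → F),
      IsOrthogonalMDecomposition (⇑Q) 2 D ∧ (∀ i, ¬ IsPlusTypeOn (⇑Q) (D i)) ∧ H ≤ decompositionStabilizer D) ∨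
    (Odd (Fintype.card F) ∧ 5 ≤ Fintype.card F ∧ ∃ D : Fin 4 → Submodule F (ι → F),
      IsOrthogonalMDecomposition (⇑Q) 3 D ∧ H ≤ decompositionStabilizer D) ∨
    (3 ≤ Fintype.card F ∧ ∃ D : Fin 3 → Submodule F (ι → F),
      IsOrthogonalMDecomposition (⇑Q) 4 D ∧ H ≤ decompositionStabilizer D) ∨
    (∃ D : Fin 2 → Submodule F (ι → F), IsOrthogonalMDecomposition (⇑Q) 6 D ∧ H ≤ decompositionStabilizer D) ∨
    SubfieldCase Q H := by
  classical
  have hlines : ∀ D : Fin 12 → Submodule F (ι → F), IsOrthogonalMDecomposition (⇑Q) 1 D →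
      H ≤ decompositionStabilizer D → ((∃ p : ℕ, p.Prime ∧ Odd p ∧ Fintype.card F = p) ∧
        ∃ D : Fin 12 → Submodule F (ι → F), IsOrthogonalMDecomposition (⇑Q) 1 D ∧
          H ≤ decompositionStabilizer D) ∨ SubfieldCase Q H := by
    intro D hD hle
    by_cases hp : (Fintype.card F).Prime
    · exact Or.inl ⟨⟨_, hp, odd_card_of_two_ne_zero (isSquare_discTop_of_lines hiso hirr hD hle ⟨6, rfl⟩).1, rfl⟩,
        D, hD, hle⟩
    · exact Or.inr (subfieldCase_of_lines hiso hirr hD hle hp)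
  have h2 := Fintype.one_lt_card (α := F)
  rcases twelve_decomp_shapes hn h with ⟨D, hD, hle⟩ | ⟨D, hD, hle⟩ | ⟨D, hD, hle⟩ | ⟨D, hD, hle⟩ | ⟨D, hD, hle⟩
  · exact (hlines D hD hle).imp_right fun h => Or.inr (Or.inr (Or.inr (Or.inr (Or.inr h))))
  · by_cases hall : ∀ i, IsPlusTypeOn (⇑Q) (D i)
    · by_cases hq : 7 ≤ Fintype.card F
      · exact Or.inr (Or.inl ⟨hq, D, hD, hall, hle⟩)
      rcases card_cases (F := F) (by omega) with hq | hq | hq | hq
      · exact (not_small_planes (by omega) hiso hirr (by omega) hD hle hall).elim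
      · exact (not_small_planes (by omega) hiso hirr (by omega) hD hle hall).elim
      · iterate 6 right
        exact subfieldCase_of_planes_four (by omega) hiso hq hD hle hall
      · choose e he using fun i =>
          exists_planeFrame_five hq (hD.decomp.nondegenerate i) (hD.decomp.decomp.finrank_eq i) (hall i)
        obtain ⟨D', hD', hle'⟩ := lines_of_frames hn (by norm_num) (two_ne_zero_of_odd_card (by rw [hq]; decide))
          hiso hirr hD hle he
        exact (hlines D' hD' hle').imp_right fun h => Or.inr (Or.inr (Or.inr (Or.inr (Or.inr h))))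
    · have hnone : ∀ i, ¬ IsPlusTypeOn (⇑Q) (D i) := fun i hi => hall fun j => plus_congr (hD.isometric i j) hi
      by_cases hq : Fintype.card F = 3
      · choose e he using fun i => exists_planeFrame_three hq (hD.decomp.decomp.finrank_eq i) (hnone i)
        obtain ⟨D', hD', hle'⟩ := lines_of_frames hn (by norm_num) (two_ne_zero_of_odd_card (by rw [hq]; decide))
          hiso hirr hD hle he
        exact (hlines D' hD' hle').imp_right fun h => Or.inr (Or.inr (Or.inr (Or.inr (Or.inr h))))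
      · exact Or.inr (Or.inr (Or.inl ⟨hq, D, hD, hnone, hle⟩))
  · have h2' : (2 : F) ≠ 0 := fun h0 => by
      have := even_finrank_of_two_eq_zero h0 (hD.decomp.nondegenerate 0)
      rw [hD.decomp.decomp.finrank_eq] at this
      exact absurd this (by decide)
    have hodd := odd_card_of_two_ne_zero h2'
    by_cases hq : 5 ≤ Fintype.card F
    · exact Or.inr (Or.inr (Or.inr (Or.inl ⟨hodd, hq, D, hD, hle⟩)))
    have hq3 : Fintype.card F = 3 := by
      obtain ⟨k, hk⟩ := hodd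
      omega
    obtain ⟨D', hD', hle'⟩ := lines_of_threes hn (by norm_num) hq3 hiso hirr hD hle
    exact (hlines D' hD' hle').imp_right fun h => Or.inr (Or.inr (Or.inr (Or.inr (Or.inr h))))
  · by_cases hq : 3 ≤ Fintype.card F
    · exact Or.inr (Or.inr (Or.inr (Or.inr (Or.inl ⟨hq, D, hD, hle⟩))))
    obtain ⟨D', hD', hle', hnone⟩ := planes_of_fours (n := 6) (by norm_num) (by omega) hiso hirr hD hle
      fun i => (three_type hQ hD (by decide) i).2 hplus
    exact Or.inr (Or.inr (Or.inl ⟨by omega, D', hD', hnone, hle'⟩))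
  · exact Or.inr (Or.inr (Or.inr (Or.inr (Or.inr (Or.inl ⟨D, hD, hle⟩)))))

/-- The decompositions in minus type. -/
theorem twelve_minus_decomp (hQ : Nondeg Q) (hn : Fintype.card ι = 12) (hminus : ¬ IsPlusTypeOn (⇑Q) ⊤)
    (hiso : Isometric Q H) (hirr : ActsIrreducibly (matrixSet H)) (h : OrthDecomp Q H) :
    ∃ D : Fin 3 → Submodule F (ι → F), IsOrthogonalMDecomposition (⇑Q) 4 D ∧
      (∀ i, ¬ IsPlusTypeOn (⇑Q) (D i)) ∧ H ≤ decompositionStabilizer D := by
  rcases twelve_decomp_shapes hn h with ⟨D, hD, hle⟩ | ⟨D, hD, hle⟩ | ⟨D, hD, hle⟩ | ⟨D, hD, hle⟩ | ⟨D, hD, hle⟩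
  · obtain ⟨h2, hsq⟩ := isSquare_discTop_of_lines hiso hirr hD hle ⟨6, rfl⟩
    refine absurd ((isPlusTypeOn_top_iff h2 hQ (m := 6) (by omega)).mpr ?_) hminus
    rwa [(by decide : Even 6).neg_one_pow, one_mul]
  · exact absurd (isPlus_of_six hD (by decide)) hminus
  · exact absurd (isPlus_of_four hD) hminus
  · exact ⟨D, hD, fun i hi => hminus ((three_type hQ hD (by decide) i).1 hi), hle⟩
  · exact absurd (isPlus_of_two hD (by decide)) hminus

/-- The tensor data in plus type. -/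
theorem twelve_plus_tensor (hQ : Nondeg Q) (hplus : IsPlusTypeOn (⇑Q) ⊤) (hH : H ≤ omegaGL (⇑Q))
    (hirr : ActsIrreducibly (matrixSet H)) (h : AltTwoSix Q H ∨ SymThreeFour Q H) :
    (3 ≤ Fintype.card F ∧ ∃ (e : ι ≃ Fin 2 × Fin 6) (P : GL ι F) (f₁ : (Fin 2 → F) → (Fin 2 → F) → F)
      (f₂ : (Fin 6 → F) → (Fin 6 → F) → F), IsSymplecticForm f₁ ∧ IsSymplecticForm f₂ ∧
      IsTensorFormStructure id (polar (⇑Q)) f₁ f₂ e P ∧
      (∀ (x₁ : Fin 2 → F) (x₂ : Fin 6 → F),
        Q ((P : Matrix ι ι F) *ᵥ ((fun a : Fin 2 × Fin 6 => x₁ a.1 * x₂ a.2) ∘ e)) = 0) ∧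
      H ≤ tensorProductSubgroup 2 6 e P) ∨
    TwelveField H := by
  have hiso := isometric_of_le_omega hH
  have h2le := Fintype.one_lt_card (α := F)
  have halt : AltTwoSix Q H := by
    rcases h with h | ⟨e, P, C, G₀, h, h2, hC, hG⟩
    · exact h
    · obtain ⟨e', P', C', h', hd, ht⟩ := h.two_six hH h2 hC hG ((h.isPlus_iff hQ h2).1 hplus)
      exact ⟨e', P', _, C', h', fun i => by fin_cases i <;> simp [planeAlt], transpose_planeAlt, hd, ht⟩
  obtain ⟨e, P, C, G₀, h', hC, hCt, hG, hGt⟩ := halt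
  by_cases hq : 3 ≤ Fintype.card F
  · exact Or.inl ⟨hq, e, P, h'.symplectic_data hQ hiso hirr (by norm_num) hC hCt hG hGt⟩
  · obtain ⟨K, hK, hle⟩ := h'.field_two (by norm_num) (by omega)
    exact Or.inr ⟨2, K, Or.inl rfl, hK, hle⟩

/-- The tensor data in minus type. -/
theorem twelve_minus_tensor (hQ : Nondeg Q) (hminus : ¬ IsPlusTypeOn (⇑Q) ⊤) (hH : H ≤ omegaGL (⇑Q))
    (hirr : ActsIrreducibly (matrixSet H)) (h : AltTwoSix Q H ∨ SymThreeFour Q H) :
    (Odd (Fintype.card F) ∧ 5 ≤ Fintype.card F ∧ ∃ (e : ι ≃ Fin 3 × Fin 4) (P : GL ι F)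
      (f₁ : (Fin 3 → F) → (Fin 3 → F) → F) (f₂ : (Fin 4 → F) → (Fin 4 → F) → F),
      IsSymmetricForm f₁ ∧ IsSymmetricForm f₂ ∧ ¬ IsPlusTypeOn (fun v : Fin 4 → F => f₂ v v) ⊤ ∧
      IsTensorFormStructure id (polar (⇑Q)) f₁ f₂ e P ∧ H ≤ tensorProductSubgroup 3 4 e P) ∨
    ∃ D : Fin 3 → Submodule F (ι → F), IsOrthogonalMDecomposition (⇑Q) 4 D ∧
      (∀ i, ¬ IsPlusTypeOn (⇑Q) (D i)) ∧ H ≤ decompositionStabilizer D := by
  have hiso := isometric_of_le_omega hH
  rcases h with ⟨e, P, C, G₀, h, hC, hCt, hG, hGt⟩ | ⟨e, P, C, G₀, h, h2, hC, hG⟩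
  · exact absurd (h.isPlus_of_alternating hQ hiso hirr rfl (by norm_num) hC hG hCt hGt) hminus
  have hodd := odd_card_of_two_ne_zero h2
  by_cases hq : 5 ≤ Fintype.card F
  · exact Or.inl ⟨hodd, hq, e, P, matrixForm C, matrixForm G₀, isSymmetricForm_matrixForm hC h.det_left.ne_zero,
      isSymmetricForm_matrixForm hG h.det_right.ne_zero,
      fun hp => hminus ((h.isPlus_iff hQ h2).2 (isSquare_det_of_plus h2 hG h.det_right.ne_zero hp)),
      isTensorForm_of_gram h.gram, h.le_subgroup⟩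
  right
  have hq3 : Fintype.card F = 3 := by
    have := Fintype.one_lt_card (α := F)
    obtain ⟨k, hk⟩ := hodd
    omega
  obtain ⟨Z, c, hc, hZ⟩ := exists_frame_three hq3 hC h.det_left
  obtain ⟨D, hD, hle⟩ := h.swap.frame_decomposition (by norm_num) (by norm_num) Z c hc hZ
    fun b μ hμ hb => frame_three_mono hq3 h.det_left hc hZ b μ hμ hb
  exact ⟨D, orth_of_nondegenerate hiso hirr hD hle, fun i hi =>
    hminus ((three_type hQ (orth_of_nondegenerate hiso hirr hD hle) (by decide) i).1 hi), hle⟩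

/-- Two complementary six-spaces in plus type are isometric. -/
theorem pair_isometric (hQ : Nondeg Q) (hplus : IsPlusTypeOn (⇑Q) ⊤) {D : Fin 2 → Submodule F (ι → F)}
    (hD : IsNondegenerateMDecomposition (polar (⇑Q)) 6 D) : IsOrthogonalMDecomposition (⇑Q) 6 D := by
  have hd := hD.decomp
  have hind := hd.indep
  rw [iSupIndep_pair (by decide : (0 : Fin 2) ≠ 1) (by decide)] at hind
  have htop : D 0 ⊔ D 1 = ⊤ := eq_top_iff.mpr (hd.iSup_eq_top ▸ iSup_le fun i => by fin_cases i <;> simp)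
  have htype := plus_iff_perp hQ hplus hind htop (hD.orthogonal 0 1 (by decide))
  refine ⟨hD, fun i j => areIsometric_of_type (hD.nondegenerate i) (hD.nondegenerate j) (m := 3) (by norm_num)
    (hd.finrank_eq i) (hd.finrank_eq j) ?_⟩
  fin_cases i <;> fin_cases j
  · exact Iff.rfl
  · exact htype
  · exact htype.symm
  · exact Iff.rfl

end CfsgLib.SmallDim.OrthEven
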