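import Cfsg.Agent.Lib.SmallDim.OrthEvenTensor

/-!
A proper similitude of the tensor square of the alternating plane is a tensor product.
-/

set_option autoImplicit false
set_option linter.style.haveILetI false
set_option linter.unusedSectionVars false
set_option linter.unusedSimpArgs false

namespace CfsgLib.SmallDim.OrthEven

open scoped MatrixGroups Matrix Kronecker
open Cfsg.Geo QuadraticMap CfsgLib.ClassicalForms Module

variable {F : Type*} [Field F] [Finite F]

/-- The alternating Gram matrix of a plane. -/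
def planeAlt (F : Type*) [Field F] : Matrix (Fin 2) (Fin 2) F := !![0, 1; -1, 0]

lemma det_planeAlt : (planeAlt F).det = 1 := by simp [planeAlt, Matrix.det_fin_two_of]

lemma transpose_planeAlt : (planeAlt F)ᵀ = -planeAlt F := by
  ext i j; fin_cases i <;> fin_cases j <;> simp [planeAlt]

lemma planeAlt_congr (a : Matrix (Fin 2) (Fin 2) F) : aᵀ * planeAlt F * a = a.det • planeAlt F := by
  ext i j
  fin_cases i <;> fin_cases j <;>
    simp [planeAlt, Matrix.mul_apply, Matrix.det_fin_two, Fin.sum_univ_two] <;> ring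

lemma exists_pure_of_singular {x : Fin 2 × Fin 2 → F} (hx : x (0, 0) * x (1, 1) = x (0, 1) * x (1, 0)) :
    ∃ u v : Fin 2 → F, x = pure2 u v := by
  by_cases h0 : x (0, 0) = 0
  · by_cases h1 : x (0, 1) = 0
    · refine ⟨![0, 1], ![x (1, 0), x (1, 1)], funext fun p => ?_⟩
      obtain ⟨a, b⟩ := p
      fin_cases a <;> fin_cases b <;> simp [pure2, h0, h1]
    · refine ⟨![x (0, 1), x (1, 1)], ![0, 1], funext fun p => ?_⟩
      have h10 : x (1, 0) = 0 := by
        rw [h0, zero_mul] at hx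
        exact (mul_eq_zero.mp hx.symm).resolve_left h1
      obtain ⟨a, b⟩ := p
      fin_cases a <;> fin_cases b <;> simp [pure2, h0, h10]
  · refine ⟨![x (0, 0), x (1, 0)], ![1, x (0, 1) / x (0, 0)], funext fun p => ?_⟩
    obtain ⟨a, b⟩ := p
    fin_cases a <;> fin_cases b <;> simp [pure2] <;> field_simp
    linear_combination hx

lemma dot_planeAlt_square (x y : Fin 2 × Fin 2 → F) :
    x ⬝ᵥ ((planeAlt F ⊗ₖ planeAlt F) *ᵥ y) =
      x (0, 0) * y (1, 1) - x (0, 1) * y (1, 0) - x (1, 0) * y (0, 1) + x (1, 1) * y (0, 0) := by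
  simp [dotProduct, Matrix.mulVec, Fintype.sum_prod_type, Fin.sum_univ_two, planeAlt, Matrix.kroneckerMap_apply]
  ring

lemma congr_apply {b M M' : Matrix (Fin 2 × Fin 2) (Fin 2 × Fin 2) F} (h : bᵀ * M * b = M')
    (x y : Fin 2 × Fin 2 → F) : (b *ᵥ x) ⬝ᵥ (M *ᵥ (b *ᵥ y)) = x ⬝ᵥ (M' *ᵥ y) := by
  rw [← h, ← Matrix.mulVec_mulVec, ← Matrix.mulVec_mulVec, Matrix.dotProduct_mulVec x, Matrix.vecMul_transpose]

/-- A similitude of `J ⊗ J` with determinant the square of its multiplier is a tensor product. -/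
theorem kronecker_of_proper (h2 : (2 : F) ≠ 0) {b : Matrix (Fin 2 × Fin 2) (Fin 2 × Fin 2) F} {μ : F}
    (hμ : μ ≠ 0) (hb : bᵀ * (planeAlt F ⊗ₖ planeAlt F) * b = μ • (planeAlt F ⊗ₖ planeAlt F))
    (hdet : b.det = μ * μ) :
    ∃ c d : Matrix (Fin 2) (Fin 2) F, c.det * d.det = μ ∧ b = c ⊗ₖ d := by
  classical
  set K := planeAlt F ⊗ₖ planeAlt F with hK
  have hval : ∀ x y, (b *ᵥ x) ⬝ᵥ (K *ᵥ (b *ᵥ y)) = μ * (x ⬝ᵥ (K *ᵥ y)) := fun x y => by
    rw [congr_apply hb, Matrix.smul_mulVec, dotProduct_smul, smul_eq_mul]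
  have hsing : ∀ p : Fin 2 × Fin 2, (p = (0, 0) ∨ p = (1, 1)) → ∃ u v : Fin 2 → F, b *ᵥ Pi.single p 1 = pure2 u v := by
    intro p hp
    refine exists_pure_of_singular ?_
    have h := hval (Pi.single p 1) (Pi.single p 1)
    rw [dot_planeAlt_square, dot_planeAlt_square] at h
    rcases hp with rfl | rfl <;> simp at h <;>
      exact mul_left_cancel₀ h2 (by simp only [Matrix.mulVec_single_one, Matrix.col_apply]; linear_combination h)
  obtain ⟨u, v, huv⟩ := hsing (0, 0) (Or.inl rfl)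
  obtain ⟨u', v', huv'⟩ := hsing (1, 1) (Or.inr rfl)
  set c₀ : Matrix (Fin 2) (Fin 2) F := !![u 0, u' 0; u 1, u' 1] with hc₀
  set d₀ : Matrix (Fin 2) (Fin 2) F := !![v 0, v' 0; v 1, v' 1] with hd₀
  have hcd : c₀.det * d₀.det = μ := by
    have h := hval (Pi.single (0, 0) 1) (Pi.single (1, 1) 1)
    rw [huv, huv', dot_planeAlt_square, dot_planeAlt_square] at h
    simp [pure2] at h
    simp [c₀, d₀, Matrix.det_fin_two_of]
    linear_combination h
  set z := c₀ ⊗ₖ d₀ with hz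
  have hzK : zᵀ * K * z = μ • K := by
    rw [hz, hK, ← Matrix.kroneckerMap_transpose, ← Matrix.mul_kronecker_mul, ← Matrix.mul_kronecker_mul,
      planeAlt_congr, planeAlt_congr, Matrix.smul_kronecker, Matrix.kronecker_smul, smul_smul, hcd]
  have hzdet : z.det = μ * μ := by
    rw [hz, Matrix.det_kronecker, Fintype.card_fin, ← mul_pow, hcd, pow_two]
  have hzu : IsUnit z.det := by rw [hzdet]; exact isUnit_iff_ne_zero.mpr (mul_ne_zero hμ hμ)
  obtain ⟨b', hb'⟩ : ∃ b', b' = z⁻¹ * b := ⟨_, rfl⟩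
  have hbz : b = z * b' := by rw [hb', ← Matrix.mul_assoc, Matrix.mul_nonsing_inv _ hzu, Matrix.one_mul]
  have hb'K : b'ᵀ * K * b' = K := by
    refine smul_right_injective _ hμ ?_
    show μ • (b'ᵀ * K * b') = μ • K
    calc μ • (b'ᵀ * K * b') = b'ᵀ * (zᵀ * K * z) * b' := by rw [hzK, Matrix.mul_smul, Matrix.smul_mul]
      _ = (z * b')ᵀ * K * (z * b') := by rw [Matrix.transpose_mul]; simp only [Matrix.mul_assoc]
      _ = μ • K := by rw [← hbz, hb]
  have hdet' : b'.det = 1 := by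
    have h := congrArg Matrix.det hbz
    rw [Matrix.det_mul, hdet, hzdet] at h
    exact mul_left_cancel₀ (mul_ne_zero hμ hμ) (h.symm.trans (mul_one _).symm)
  have hcol : ∀ p : Fin 2 × Fin 2, z *ᵥ Pi.single p 1 = b *ᵥ Pi.single p 1 →
      b' *ᵥ Pi.single p 1 = Pi.single p 1 := fun p h => by
    rw [hb', ← Matrix.mulVec_mulVec, ← h, Matrix.mulVec_mulVec, Matrix.nonsing_inv_mul _ hzu, Matrix.one_mulVec]
  have hc00 : b' *ᵥ Pi.single (0, 0) 1 = Pi.single (0, 0) 1 := hcol _ (by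
    rw [huv]; funext p; obtain ⟨i, k⟩ := p
    fin_cases i <;> fin_cases k <;> simp [z, c₀, d₀, pure2, Matrix.mulVec_single_one])
  have hc11 : b' *ᵥ Pi.single (1, 1) 1 = Pi.single (1, 1) 1 := hcol _ (by
    rw [huv']; funext p; obtain ⟨i, k⟩ := p
    fin_cases i <;> fin_cases k <;> simp [z, c₀, d₀, pure2, Matrix.mulVec_single_one])
  have hform : ∀ x y, (b' *ᵥ x) ⬝ᵥ (K *ᵥ (b' *ᵥ y)) = x ⬝ᵥ (K *ᵥ y) := congr_apply hb'K
  have hent : ∀ p q, (b' *ᵥ Pi.single q 1) p = b' p q := fun p q => by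
    rw [Matrix.mulVec_single_one, Matrix.col_apply]
  have hr11 : ∀ q, b' (1, 1) q = (Pi.single q 1 : Fin 2 × Fin 2 → F) (1, 1) := fun q => by
    have h := hform (Pi.single (0, 0) 1) (Pi.single q 1)
    rw [hc00, dot_planeAlt_square, dot_planeAlt_square, hent, hent, hent, hent] at h
    simpa using h
  have hr00 : ∀ q, b' (0, 0) q = (Pi.single q 1 : Fin 2 × Fin 2 → F) (0, 0) := fun q => by
    have h := hform (Pi.single (1, 1) 1) (Pi.single q 1)
    rw [hc11, dot_planeAlt_square, dot_planeAlt_square, hent, hent, hent, hent] at h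
    simpa using h
  have hq0 : ∀ p, b' p (0, 0) = (Pi.single (0, 0) 1 : Fin 2 × Fin 2 → F) p := fun p => by rw [← hent, hc00]
  have hq1 : ∀ p, b' p (1, 1) = (Pi.single (1, 1) 1 : Fin 2 × Fin 2 → F) p := fun p => by rw [← hent, hc11]
  have hblock : ∀ q q', b' (0, 1) q * b' (1, 0) q' + b' (1, 0) q * b' (0, 1) q' =
      b' (0, 0) q * b' (1, 1) q' + b' (1, 1) q * b' (0, 0) q' -
        ((Pi.single q 1 : Fin 2 × Fin 2 → F) ⬝ᵥ (K *ᵥ Pi.single q' 1)) := fun q q' => by
    have h := hform (Pi.single q 1) (Pi.single q' 1)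
    rw [dot_planeAlt_square, hent, hent, hent, hent, hent, hent, hent, hent] at h
    linear_combination -h
  have e1 := hblock (0, 1) (0, 1)
  have e2 := hblock (1, 0) (1, 0)
  have e3 := hblock (0, 1) (1, 0)
  rw [dot_planeAlt_square] at e1 e2 e3
  simp [hr00, hr11] at e1 e2 e3
  have hpr : b' (0, 1) (0, 1) * b' (1, 0) (0, 1) = 0 := mul_left_cancel₀ h2 (by linear_combination e1)
  have hqs : b' (0, 1) (1, 0) * b' (1, 0) (1, 0) = 0 := mul_left_cancel₀ h2 (by linear_combination e2)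
  by_cases hp : b' (0, 1) (0, 1) = 0
  · -- the exchange of the two middle coordinates has determinant minus one
    exfalso
    have hr : b' (1, 0) (0, 1) ≠ 0 := fun h => by rw [hp, h] at e3; simp at e3
    have hq : b' (0, 1) (1, 0) ≠ 0 := fun h => by rw [hp, h] at e3; simp at e3
    have hs : b' (1, 0) (1, 0) = 0 := (mul_eq_zero.mp hqs).resolve_left hq
    set σ : Equiv.Perm (Fin 2 × Fin 2) := Equiv.swap (0, 1) (1, 0) with hσ
    have hfac : b' = (Matrix.diagonal ![1, b' (1, 0) (0, 1)] ⊗ₖ Matrix.diagonal ![1, b' (0, 1) (1, 0)]) *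
        σ.permMatrix F := by
      rw [hp, hs] at e3
      simp at e3
      ext ⟨i, k⟩ ⟨j, l⟩
      rw [Matrix.mul_apply, Fintype.sum_prod_type, Fin.sum_univ_two, Fin.sum_univ_two, Fin.sum_univ_two]
      fin_cases i <;> fin_cases k <;> fin_cases j <;> fin_cases l <;>
        simp [hr00, hr11, hq0, hq1, hp, hs, σ, Equiv.Perm.permMatrix, PEquiv.toMatrix_apply,
          Equiv.swap_apply_def, Matrix.kroneckerMap_apply, Matrix.diagonal_apply] <;>
        linear_combination -e3
    have h := congrArg Matrix.det hfac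
    rw [Matrix.det_mul, Matrix.det_kronecker, Matrix.det_diagonal, Matrix.det_diagonal, Matrix.det_permutation,
      hdet', hσ, Equiv.Perm.sign_swap (by decide : ((0, 1) : Fin 2 × Fin 2) ≠ (1, 0))] at h
    simp [Fin.prod_univ_two] at h
    rw [hp, hs] at e3
    simp at e3
    exact h2 (by linear_combination h - (b' (1, 0) (0, 1) * b' (0, 1) (1, 0) + 1) * e3)
  · have hr : b' (1, 0) (0, 1) = 0 := (mul_eq_zero.mp hpr).resolve_left hp
    rw [hr] at e3
    simp at e3
    have hs : b' (1, 0) (1, 0) ≠ 0 := fun h => by rw [h] at e3; simp at e3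
    have hq : b' (0, 1) (1, 0) = 0 := (mul_eq_zero.mp hqs).resolve_right hs
    refine ⟨c₀ * Matrix.diagonal ![1, b' (1, 0) (1, 0)], d₀ * Matrix.diagonal ![1, b' (0, 1) (0, 1)], ?_, ?_⟩
    · rw [Matrix.det_mul, Matrix.det_mul, Matrix.det_diagonal, Matrix.det_diagonal]
      simp [Fin.prod_univ_two]
      linear_combination hcd + (c₀.det * d₀.det) * e3
    · rw [Matrix.mul_kronecker_mul, ← hz, hbz]
      congr 1
      ext ⟨i, k⟩ ⟨j, l⟩
      fin_cases i <;> fin_cases k <;> fin_cases j <;> fin_cases l <;>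
        simp [hr00, hr11, hq0, hq1, hr, hq, Matrix.kroneckerMap_apply, Matrix.diagonal_apply] <;>
        linear_combination -e3

end CfsgLib.SmallDim.OrthEven
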