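import Cfsg.Agent.Lib.SmallDim.Pauli

/-!
The quaternion group and the dihedral group of order eight in two dimensions over three elements.
-/

set_option autoImplicit false
set_option linter.style.haveILetI false

namespace CfsgLib.SmallDim

open scoped MatrixGroups Matrix Kronecker
open Cfsg.Geo

variable {F : Type*} [Field F]

local notation "M22" => Matrix (Fin 2) (Fin 2) F

/-- Traceless matrices of determinant one. -/
def IsQuatUnit (a : M22) : Prop := a 1 1 = -a 0 0 ∧ a.det = 1

lemma IsQuatUnit.mul_self {a : M22} (ha : IsQuatUnit a) : a * a = -1 := by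
  obtain ⟨h, hd⟩ := ha
  rw [Matrix.det_fin_two, h] at hd
  ext i j
  fin_cases i <;> fin_cases j <;> simp [Matrix.mul_apply, Fin.sum_univ_two, h]
  · linear_combination -hd
  · ring
  · ring
  · linear_combination -hd

lemma isQuatUnit_conj {a : M22} (ha : IsQuatUnit a) (g : GL (Fin 2) F) :
    IsQuatUnit ((g : M22) * a * ((g⁻¹ : GL (Fin 2) F) : M22)) := by
  constructor
  · have h : Matrix.trace ((g : M22) * a * ((g⁻¹ : GL (Fin 2) F) : M22)) = Matrix.trace a := by
      rw [Matrix.trace_mul_comm, ← mul_assoc, Units.inv_mul, one_mul]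
    rw [Matrix.trace_fin_two, Matrix.trace_fin_two] at h
    linear_combination h + ha.1
  · rw [Matrix.det_mul, Matrix.det_mul, mul_right_comm, ← Matrix.det_mul, Units.mul_inv, Matrix.det_one,
      one_mul, ha.2]

/-- Commuting or anticommuting. -/
def SignComm (a b : M22) : Prop := a * b = b * a ∨ a * b = -(b * a)

variable [Fintype F]

lemma no_root_neg_one (hq : Fintype.card F = 3) (c : F) : c * c ≠ -1 := by
  intro h
  by_cases hc : c = 0
  · rw [hc, mul_zero] at h; exact one_ne_zero (by linear_combination h : (1 : F) = 0)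
  · rw [sq_eq_one_of_three hq hc] at h
    exact two_ne_zero_of_odd_card (by rw [hq]; decide) (by linear_combination h : (2 : F) = 0)

set_option maxHeartbeats 1000000 in
lemma quatUnit_cases (hq : Fintype.card F = 3) {a : M22} (ha : IsQuatUnit a) :
    ∃ s : F, s * s = 1 ∧ (a = s • !![0, 1; -1, 0] ∨ a = s • !![1, 1; 1, -1] ∨ a = s • !![1, -1; -1, -1]) := by
  have h3 := three_eq_zero hq
  obtain ⟨h, hd⟩ := ha
  rw [Matrix.det_fin_two, h] at hd
  rw [Matrix.eta_fin_two a, h]
  by_cases hx : a 0 0 = 0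
  · rw [hx] at hd ⊢
    have hy : a 0 1 ≠ 0 := fun h0 => one_ne_zero (by rw [h0] at hd; linear_combination -hd : (1 : F) = 0)
    have hz : a 1 0 = -a 0 1 := by
      linear_combination (-(a 1 0)) * sq_eq_one_of_three hq hy - (a 0 1) * hd
    refine ⟨a 0 1, sq_eq_one_of_three hq hy, Or.inl ?_⟩
    rw [hz]
    ext i j
    fin_cases i <;> fin_cases j <;> simp
  · have hxx := sq_eq_one_of_three hq hx
    have hy : a 0 1 ≠ 0 := fun h0 => two_ne_zero_of_odd_card (F := F) (by rw [hq]; decide)
      (by rw [h0] at hd; linear_combination -hd - hxx)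
    have hz : a 1 0 = a 0 1 := by
      linear_combination (-(a 1 0)) * sq_eq_one_of_three hq hy - (a 0 1) * hd - (a 0 1) * hxx - (a 0 1) * h3
    refine ⟨a 0 0, hxx, Or.inr ?_⟩
    rw [hz]
    rcases three_elements hq (a 0 1 * a 0 0) with h' | h' | h'
    · exact absurd h' (mul_ne_zero hy hx)
    · left
      have e : a 0 1 = a 0 0 := by linear_combination (-(a 0 1)) * hxx + (a 0 0) * h'
      rw [e]; ext i j; fin_cases i <;> fin_cases j <;> simp
    · right
      have e : a 0 1 = -a 0 0 := by linear_combination (-(a 0 1)) * hxx + (a 0 0) * h'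
      rw [e]; ext i j; fin_cases i <;> fin_cases j <;> simp

lemma quatUnit_signComm (hq : Fintype.card F = 3) {a b : M22} (ha : IsQuatUnit a) (hb : IsQuatUnit b) :
    SignComm a b := by
  have h3 := three_eq_zero hq
  obtain ⟨s, -, ha⟩ := quatUnit_cases hq ha
  obtain ⟨t, -, hb⟩ := quatUnit_cases hq hb
  unfold SignComm
  rcases ha with rfl | rfl | rfl <;> rcases hb with rfl | rfl | rfl <;>
    simp only [Matrix.smul_mul, Matrix.mul_smul, smul_smul] <;> rw [mul_comm t s, ← smul_neg] <;>
    first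
      | (left; rfl)
      | right
        congr 1
        ext i j
        fin_cases i <;> fin_cases j <;> simp [Matrix.mul_apply, Fin.sum_univ_two]

/-- The quaternion subgroup. -/
def quatGroup (F : Type*) [Field F] : Subgroup (GL (Fin 2) F) where
  carrier := {g | (g : Matrix (Fin 2) (Fin 2) F).det = 1 ∧
    ∀ a : Matrix (Fin 2) (Fin 2) F, IsQuatUnit a → SignComm (g : Matrix (Fin 2) (Fin 2) F) a}
  mul_mem' {g h} hg hh := ⟨by rw [Units.val_mul, Matrix.det_mul, hg.1, hh.1, one_mul], fun a ha => by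
    rcases hg.2 a ha with p | p <;> rcases hh.2 a ha with q | q <;> unfold SignComm <;> rw [Units.val_mul]
    · left; rw [mul_assoc, q, ← mul_assoc, p, mul_assoc]
    · right; rw [mul_assoc, q, mul_neg, ← mul_assoc, p, mul_assoc]
    · right; rw [mul_assoc, q, ← mul_assoc, p, neg_mul, mul_assoc]
    · left; rw [mul_assoc, q, mul_neg, ← mul_assoc, p, neg_mul, neg_neg, mul_assoc]⟩
  one_mem' := ⟨by simp, fun a _ => Or.inl (by simp)⟩
  inv_mem' {g} hg := by
    refine ⟨?_, fun a ha => ?_⟩
    · have h := congrArg Matrix.det (Units.inv_mul g)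
      rw [Matrix.det_mul, hg.1, mul_one, Matrix.det_one] at h
      exact h
    · set G := (g : Matrix (Fin 2) (Fin 2) F)
      set G' := ((g⁻¹ : GL (Fin 2) F) : Matrix (Fin 2) (Fin 2) F)
      have e1 : G' * G = 1 := Units.inv_mul g
      have e2 : G * G' = 1 := Units.mul_inv g
      have key : G' * (G * a) * G' = a * G' := by rw [← mul_assoc G', e1, one_mul]
      rcases hg.2 a ha with (p : G * a = a * G) | (p : G * a = -(a * G))
      · left; rw [← key, p]; simp only [mul_assoc, e2, mul_one]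
      · right; rw [← key, p]; simp only [mul_neg, neg_mul, mul_assoc, e2, mul_one, neg_neg]

omit [Fintype F] in
lemma quatGroup_conj {g x : GL (Fin 2) F} (hx : x ∈ quatGroup F) : g * x * g⁻¹ ∈ quatGroup F := by
  refine ⟨?_, fun a ha => ?_⟩
  · rw [Units.val_mul, Units.val_mul, Matrix.det_mul, Matrix.det_mul, mul_right_comm, ← Matrix.det_mul,
      Units.mul_inv, Matrix.det_one, one_mul, hx.1]
  · have h := hx.2 _ (isQuatUnit_conj ha g⁻¹)
    rw [inv_inv] at h
    set G := (g : M22)
    set G' := ((g⁻¹ : GL (Fin 2) F) : M22)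
    set X := (x : M22)
    have e1 : G' * G = 1 := Units.inv_mul g
    have e2 : G * G' = 1 := Units.mul_inv g
    have key : G * (X * (G' * a * G)) * G' = G * X * G' * a := by simp only [mul_assoc, e2, mul_one]
    have key' : G * (G' * a * G * X) * G' = a * (G * X * G') := by
      simp only [← mul_assoc, e2, one_mul]
    show SignComm (G * X * G') a
    rcases h with p | p
    · left; rw [← key, p, key']
    · right; rw [← key, p, mul_neg, neg_mul, key']

omit [Fintype F] in
lemma quatUnit_i : IsQuatUnit (!![0, 1; -1, 0] : M22) := by simp [IsQuatUnit, Matrix.det_fin_two]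

lemma quatUnit_j (hq : Fintype.card F = 3) : IsQuatUnit (!![1, 1; 1, -1] : M22) := by
  refine ⟨by simp, ?_⟩
  simp [Matrix.det_fin_two]
  linear_combination -three_eq_zero hq

lemma quatUnit_k (hq : Fintype.card F = 3) : IsQuatUnit (!![1, -1; -1, -1] : M22) := by
  refine ⟨by simp, ?_⟩
  simp [Matrix.det_fin_two]
  linear_combination -three_eq_zero hq

lemma mem_quatGroup_cases (hq : Fintype.card F = 3) {g : GL (Fin 2) F} (hg : g ∈ quatGroup F) :
    (∃ c : F, c * c = 1 ∧ (g : M22) = c • 1) ∨ IsQuatUnit (g : M22) := by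
  have h2 : (2 : F) ≠ 0 := two_ne_zero_of_odd_card (by rw [hq]; decide)
  obtain ⟨hd, hg⟩ := hg
  set G := (g : M22) with hG
  by_cases htr : G 1 1 = -G 0 0
  · exact Or.inr ⟨htr, hd⟩
  left
  have hcomm : ∀ a : M22, IsQuatUnit a → G * a = a * G := fun a ha => (hg a ha).resolve_right fun h => htr (by
    have e : Matrix.trace G = -Matrix.trace G := by
      calc Matrix.trace G = Matrix.trace (G * a * -a) := by
            rw [mul_assoc, mul_neg, ha.mul_self, neg_neg, mul_one]
        _ = -Matrix.trace (a * G * -a) := by rw [h, Matrix.neg_mul, Matrix.trace_neg]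
        _ = _ := by rw [Matrix.trace_mul_comm, ← mul_assoc, neg_mul, ha.mul_self, neg_neg, one_mul]
    have : (2 : F) * Matrix.trace G = 0 := by linear_combination e
    have htr0 := (mul_eq_zero.1 this).resolve_left h2
    rw [Matrix.trace_fin_two] at htr0
    linear_combination htr0)
  have hi := hcomm _ quatUnit_i
  have hj := hcomm _ (quatUnit_j hq)
  have e00 := congrFun (congrFun hi 0) 0
  have e01 := congrFun (congrFun hi 0) 1
  have f00 := congrFun (congrFun hj 0) 0
  have f01 := congrFun (congrFun hj 0) 1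
  simp [Matrix.mul_apply, Fin.sum_univ_two] at e00 e01 f00 f01
  have h01 : G 0 1 = 0 :=
    (mul_eq_zero.1 (show (2 : F) * G 0 1 = 0 by linear_combination f00 - e00)).resolve_left h2
  have h10 : G 1 0 = 0 := by linear_combination -e00 - h01
  refine ⟨G 0 0, ?_, ?_⟩
  · rw [Matrix.det_fin_two, ← e01, h01] at hd
    linear_combination hd
  · ext i j
    fin_cases i <;> fin_cases j <;> simp [h01, h10, e01]

theorem quatGroup_pauli (hq : Fintype.card F = 3) : IsPauli (quatGroup F) := by
  have h2 : (2 : F) ≠ 0 := two_ne_zero_of_odd_card (by rw [hq]; decide)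
  refine ⟨fun g hg => ?_, fun x hx y hy => ?_, ?_⟩
  · rcases mem_quatGroup_cases hq hg with ⟨c, hc, h⟩ | h
    · left; rw [h, Matrix.smul_mul, one_mul, smul_smul, hc, one_smul]
    · right; exact h.mul_self
  · rcases mem_quatGroup_cases hq hy with ⟨c, -, h⟩ | h
    · left; rw [h, Matrix.smul_mul, Matrix.mul_smul, one_mul, mul_one]
    · exact hx.2 _ h
  · rw [eq_top_iff]
    intro M _
    have hmem : ∀ a : M22, IsQuatUnit a → a ∈ Submodule.span F (matrixSet (quatGroup F)) := fun a ha =>
      Submodule.subset_span ⟨Matrix.GeneralLinearGroup.mkOfDetNeZero a (by rw [ha.2]; exact one_ne_zero),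
        ⟨ha.2, fun b hb => quatUnit_signComm hq ha hb⟩, rfl⟩
    have h1 : (1 : M22) ∈ Submodule.span F (matrixSet (quatGroup F)) :=
      Submodule.subset_span ⟨1, (quatGroup F).one_mem, Units.val_one⟩
    have hM : M = ((M 0 0 + M 1 1) / 2) • (1 : M22) + ((M 0 1 - M 1 0) / 2) • !![0, 1; -1, 0] +
        ((M 0 0 - M 1 1 + M 0 1 + M 1 0) / 4) • !![1, 1; 1, -1] +
        ((M 0 0 - M 1 1 - M 0 1 - M 1 0) / 4) • !![1, -1; -1, -1] := by
      have h4 : (4 : F) ≠ 0 := fun h => h2 ((mul_self_eq_zero).1 (by linear_combination h))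
      ext i j
      fin_cases i <;> fin_cases j <;> simp <;> field_simp <;> ring
    rw [hM]
    exact Submodule.add_mem _ (Submodule.add_mem _ (Submodule.add_mem _ (Submodule.smul_mem _ _ h1)
      (Submodule.smul_mem _ _ (hmem _ quatUnit_i))) (Submodule.smul_mem _ _ (hmem _ (quatUnit_j hq))))
      (Submodule.smul_mem _ _ (hmem _ (quatUnit_k hq)))

omit [Fintype F] in
lemma quatGroup_iso {g : GL (Fin 2) F} (hg : g ∈ quatGroup F) :
    (g : M22)ᵀ * altTwo * (g : M22) = altTwo := by
  rw [transpose_mul_altTwo, hg.1, one_smul]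

/-- The orthogonal group of the standard form in two dimensions. -/
def orthTwo (F : Type*) [Field F] : Subgroup (GL (Fin 2) F) where
  carrier := {g | (g : Matrix (Fin 2) (Fin 2) F)ᵀ * (g : Matrix (Fin 2) (Fin 2) F) = 1}
  mul_mem' {g h} hg hh := by
    show ((g * h : GL (Fin 2) F) : Matrix (Fin 2) (Fin 2) F)ᵀ * _ = 1
    rw [Units.val_mul, Matrix.transpose_mul, mul_assoc, ← mul_assoc (g : Matrix (Fin 2) (Fin 2) F)ᵀ, hg, one_mul, hh]
  one_mem' := by simp
  inv_mem' {g} hg := by
    have hg' : (g : Matrix (Fin 2) (Fin 2) F)ᵀ * (g : Matrix (Fin 2) (Fin 2) F) = 1 := hg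
    have h : ((g⁻¹ : GL (Fin 2) F) : Matrix (Fin 2) (Fin 2) F) = (g : Matrix (Fin 2) (Fin 2) F)ᵀ := by
      rw [← one_mul ((g⁻¹ : GL (Fin 2) F) : Matrix (Fin 2) (Fin 2) F), ← hg', mul_assoc, Units.mul_inv, mul_one]
    show ((g⁻¹ : GL (Fin 2) F) : Matrix (Fin 2) (Fin 2) F)ᵀ * _ = 1
    rw [h, Matrix.transpose_transpose]
    exact mul_eq_one_comm.1 hg'

omit [Fintype F] in
lemma orthTwo_conj {g x : GL (Fin 2) F} (hx : x ∈ orthTwo F) {μ : F}
    (hg : (g : M22)ᵀ * (g : M22) = μ • 1) : g * x * g⁻¹ ∈ orthTwo F := by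
  set G := (g : M22)
  set G' := ((g⁻¹ : GL (Fin 2) F) : M22)
  set X := (x : M22)
  have e1 : G' * G = 1 := Units.inv_mul g
  have e2 : G * G' = 1 := Units.mul_inv g
  have e3 : G'ᵀ * Gᵀ = 1 := by rw [← Matrix.transpose_mul, e2, Matrix.transpose_one]
  have hX : Xᵀ * X = 1 := hx
  show (G * X * G')ᵀ * (G * X * G') = 1
  calc (G * X * G')ᵀ * (G * X * G') = G'ᵀ * (Xᵀ * (Gᵀ * G) * X) * G' := by
        simp only [Matrix.transpose_mul, mul_assoc]
    _ = μ • (G'ᵀ * G') := by
        rw [hg, Matrix.mul_smul, mul_one, Matrix.smul_mul, hX, Matrix.mul_smul, mul_one, Matrix.smul_mul]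
    _ = G'ᵀ * (μ • 1) * G' := by rw [Matrix.mul_smul, mul_one, Matrix.smul_mul]
    _ = (G'ᵀ * Gᵀ) * (G * G') := by rw [← hg]; simp only [mul_assoc]
    _ = 1 := by rw [e3, e2, one_mul]

lemma orth_cases (hq : Fintype.card F = 3) {a : M22} (h : aᵀ * a = 1) :
    ∃ s t : F, s * s = 1 ∧ t * t = 1 ∧ (a = !![s, 0; 0, t] ∨ a = !![0, s; t, 0]) := by
  have h3 := three_eq_zero hq
  have hne : (1 : F) ≠ 2 := fun h => one_ne_zero (by linear_combination -h : (1 : F) = 0)
  have h00 := congrFun (congrFun h 0) 0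
  have h11 := congrFun (congrFun h 1) 1
  have h01 := congrFun (congrFun h 0) 1
  simp [Matrix.mul_apply, Fin.sum_univ_two] at h00 h11 h01
  by_cases hx : a 0 0 = 0
  · have hz : a 1 0 ≠ 0 := fun h0 => by rw [hx, h0] at h00; simp at h00
    rw [hx, zero_mul, zero_add] at h01
    have hw := (mul_eq_zero.1 h01).resolve_left hz
    rw [hw, mul_zero, add_zero] at h11
    refine ⟨a 0 1, a 1 0, h11, sq_eq_one_of_three hq hz, Or.inr ?_⟩
    ext i j; fin_cases i <;> fin_cases j <;> simp [hx, hw]
  · have hz : a 1 0 = 0 := by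
      by_contra hz
      rw [sq_eq_one_of_three hq hx, sq_eq_one_of_three hq hz] at h00
      exact one_ne_zero (by linear_combination h00 : (1 : F) = 0)
    rw [hz, zero_mul, add_zero] at h01
    have hy := (mul_eq_zero.1 h01).resolve_left hx
    rw [hy, mul_zero, zero_add] at h11
    refine ⟨a 0 0, a 1 1, sq_eq_one_of_three hq hx, h11, Or.inl ?_⟩
    ext i j; fin_cases i <;> fin_cases j <;> simp [hy, hz]

set_option maxHeartbeats 1000000 in
theorem orthTwo_pauli (hq : Fintype.card F = 3) : IsPauli (orthTwo F) := by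
  have h2 : (2 : F) ≠ 0 := two_ne_zero_of_odd_card (by rw [hq]; decide)
  refine ⟨fun g hg => ?_, fun x hx y hy => ?_, ?_⟩
  · obtain ⟨s, t, hs, ht, h | h⟩ := orth_cases hq hg
    · left; rw [h]; ext i j; fin_cases i <;> fin_cases j <;> simp [Matrix.mul_apply, Fin.sum_univ_two, hs, ht]
    · rcases mul_self_eq_one_iff.1 hs with rfl | rfl <;> rcases mul_self_eq_one_iff.1 ht with rfl | rfl <;>
        rw [h] <;> first
          | (left; ext i j; fin_cases i <;> fin_cases j <;> simp [Matrix.mul_apply, Fin.sum_univ_two]; done)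
          | (right; ext i j; fin_cases i <;> fin_cases j <;> simp [Matrix.mul_apply, Fin.sum_univ_two]; done)
  · obtain ⟨s, t, hs, ht, h⟩ := orth_cases hq hx
    obtain ⟨u, v, hu, hv, h'⟩ := orth_cases hq hy
    rcases mul_self_eq_one_iff.1 hs with rfl | rfl <;> rcases mul_self_eq_one_iff.1 ht with rfl | rfl <;>
      rcases mul_self_eq_one_iff.1 hu with rfl | rfl <;> rcases mul_self_eq_one_iff.1 hv with rfl | rfl <;>
      rcases h with h | h <;> rcases h' with h' | h' <;> rw [h, h'] <;> first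
          | (left; ext i j; fin_cases i <;> fin_cases j <;> simp [Matrix.mul_apply, Fin.sum_univ_two]; done)
          | (right; ext i j; fin_cases i <;> fin_cases j <;> simp [Matrix.mul_apply, Fin.sum_univ_two]; done)
  · rw [eq_top_iff]
    intro M _
    have hmem : ∀ a : M22, aᵀ * a = 1 → a ∈ Submodule.span F (matrixSet (orthTwo F)) := fun a ha =>
      Submodule.subset_span ⟨Matrix.GeneralLinearGroup.mkOfDetNeZero a (fun h => by
        have := congrArg Matrix.det ha; simp [h] at this), ha, rfl⟩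
    have hM : M = ((M 0 0 + M 1 1) / 2) • (1 : M22) + ((M 0 0 - M 1 1) / 2) • !![1, 0; 0, -1] +
        ((M 0 1 + M 1 0) / 2) • !![0, 1; 1, 0] + ((M 0 1 - M 1 0) / 2) • !![0, 1; -1, 0] := by
      ext i j
      fin_cases i <;> fin_cases j <;> simp <;> field_simp <;> ring
    rw [hM]
    refine Submodule.add_mem _ (Submodule.add_mem _ (Submodule.add_mem _ (Submodule.smul_mem _ _ (hmem _ ?_))
      (Submodule.smul_mem _ _ (hmem _ ?_))) (Submodule.smul_mem _ _ (hmem _ ?_))) (Submodule.smul_mem _ _ (hmem _ ?_))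
    · simp
    all_goals (ext i j; fin_cases i <;> fin_cases j <;> simp [Matrix.mul_apply, Fin.sum_univ_two])

end CfsgLib.SmallDim
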