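import Cfsg.Agent.Lib.SmallDim.SympFourThree

/-!
Tensor decompositions `2 ⊗ 4` of a symplectic form with a second factor of plus type refine to three factors
of dimension two.
-/

set_option autoImplicit false
set_option linter.style.haveILetI false

namespace CfsgLib.SmallDim

open scoped MatrixGroups Matrix Kronecker
open Cfsg.Geo

variable {F : Type*} [Field F]

local notation "K4" => Fin 2 × Fin 2
local notation "K8" => Fin 2 × (Fin 2 × Fin 2)

/-- The tensor square of the alternating binary form. -/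
def altFour : Matrix (Fin 2 × Fin 2) (Fin 2 × Fin 2) F := altTwo ⊗ₖ altTwo

/-- The binary alternating product. -/
def brTwo (x y : Fin 2 → F) : F := x 0 * y 1 - x 1 * y 0

lemma dot_altTwo (x y : Fin 2 → F) : x ⬝ᵥ ((altTwo : Matrix (Fin 2) (Fin 2) F) *ᵥ y) = brTwo x y := by
  simp [altTwo, brTwo, dotProduct, Matrix.mulVec, Fin.sum_univ_two]
  ring

/-- A pure tensor. -/
def pureTwo (x y : Fin 2 → F) : Fin 2 × Fin 2 → F := fun p => x p.1 * y p.2

lemma dot_altFour_pure (x y x' y' : Fin 2 → F) :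
    pureTwo x y ⬝ᵥ ((altFour : Matrix K4 K4 F) *ᵥ pureTwo x' y') = brTwo x x' * brTwo y y' := by
  rw [← dot_altTwo, ← dot_altTwo]
  exact dot_kronecker _ _ x x' y y'

lemma dot_altFour_self (v : K4 → F) :
    v ⬝ᵥ ((altFour : Matrix K4 K4 F) *ᵥ v) = 2 * (v (0, 0) * v (1, 1) - v (0, 1) * v (1, 0)) := by
  simp [altFour, altTwo, dotProduct, Matrix.mulVec, Fintype.sum_prod_type, Fin.sum_univ_two]
  ring

lemma altFour_det_ne_zero : (altFour : Matrix K4 K4 F).det ≠ 0 := by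
  rw [altFour, Matrix.det_kronecker, det_altTwo]
  simp

lemma pureTwo_smul (x y : Fin 2 → F) (s : F) :
    pureTwo (s • x) y = s • pureTwo x y ∧ pureTwo x (s • y) = s • pureTwo x y := by
  constructor <;> funext p <;> simp [pureTwo] <;> ring

lemma exists_pure {v : K4 → F} (hv : v ≠ 0) (h : v (0, 0) * v (1, 1) = v (0, 1) * v (1, 0)) :
    ∃ x y : Fin 2 → F, v = pureTwo x y := by
  obtain ⟨⟨i, j⟩, hij⟩ := Function.ne_iff.1 hv
  change v (i, j) ≠ 0 at hij
  refine ⟨fun a => v (a, j), fun b => v (i, b) / v (i, j), funext fun ⟨a, b⟩ => ?_⟩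
  show v (a, b) = v (a, j) * (v (i, b) / v (i, j))
  rw [← mul_div_assoc, eq_div_iff hij]
  fin_cases i <;> fin_cases j <;> fin_cases a <;> fin_cases b <;>
    simp only [Fin.zero_eta, Fin.mk_one, Fin.isValue] <;>
    first
      | ring1
      | linear_combination h
      | linear_combination -h

lemma brTwo_eq_zero {x y : Fin 2 → F} (hx : x ≠ 0) (h : brTwo x y = 0) : ∃ s : F, y = s • x := by
  obtain ⟨i, hi⟩ := Function.ne_iff.1 hx
  change x i ≠ 0 at hi
  refine ⟨y i / x i, funext fun j => ?_⟩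
  rw [Pi.smul_apply, smul_eq_mul, div_mul_eq_mul_div, eq_div_iff hi]
  unfold brTwo at h
  fin_cases i <;> fin_cases j <;> simp only [Fin.zero_eta, Fin.mk_one, Fin.isValue] <;>
    first | ring1 | linear_combination h | linear_combination -h

/-- The exchange of the two factors. -/
def swapTwo : GL (Fin 2 × Fin 2) F :=
  ⟨Matrix.of fun p q => if q = p.swap then 1 else 0, Matrix.of fun p q => if q = p.swap then 1 else 0,
    by ext ⟨i, j⟩ ⟨k, l⟩; fin_cases i <;> fin_cases j <;> fin_cases k <;> fin_cases l <;>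
      simp [Matrix.mul_apply, Matrix.one_apply, Fintype.sum_prod_type, Fin.sum_univ_two],
    by ext ⟨i, j⟩ ⟨k, l⟩; fin_cases i <;> fin_cases j <;> fin_cases k <;> fin_cases l <;>
      simp [Matrix.mul_apply, Matrix.one_apply, Fintype.sum_prod_type, Fin.sum_univ_two]⟩

lemma mul_swapTwo_apply (M : Matrix K4 K4 F) (p q : K4) :
    (M * (swapTwo : GL K4 F).val) p q = M p q.swap := by
  obtain ⟨i, j⟩ := q
  fin_cases i <;> fin_cases j <;> simp [swapTwo, Matrix.mul_apply, Fintype.sum_prod_type, Fin.sum_univ_two]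

lemma swapTwo_mul_swapTwo : (swapTwo : GL K4 F) * swapTwo = 1 := Units.ext (swapTwo : GL K4 F).mul_inv

lemma swapTwo_altFour : (swapTwo : GL K4 F).valᵀ * altFour * (swapTwo : GL K4 F).val = altFour := by
  ext ⟨i, j⟩ ⟨k, l⟩
  rw [mul_swapTwo_apply]
  simp [swapTwo, Matrix.mul_apply, Fintype.sum_prod_type, Prod.ext_iff]
  fin_cases i <;> fin_cases j <;> fin_cases k <;> fin_cases l <;> simp [altFour, altTwo]

lemma swapTwo_kron (b c : GL (Fin 2) F) :
    (swapTwo : GL K4 F) * kronHom (b, c) * swapTwo = kronHom (c, b) := by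
  apply Units.ext
  ext ⟨i, j⟩ ⟨k, l⟩
  rw [Units.val_mul, mul_swapTwo_apply, Units.val_mul]
  fin_cases i <;> fin_cases j <;>
    simp [swapTwo, Matrix.mul_apply, Fintype.sum_prod_type, Fin.sum_univ_two, kronHom_val, mul_comm]

/-- The similitudes of the tensor square: products of factors, possibly followed by the exchange. -/
theorem similitude_altFour (h2 : (2 : F) ≠ 0) (B : GL K4 F) {μ : F} (hμ : μ ≠ 0)
    (hB : B.valᵀ * altFour * B.val = μ • (altFour : Matrix K4 K4 F)) :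
    ∃ b c : GL (Fin 2) F, B = kronHom (b, c) ∨ B = kronHom (b, c) * swapTwo := by
  have hcols : ∀ (M : Matrix K4 K4 F), Mᵀ * altFour * M = μ • (altFour : Matrix K4 K4 F) → ∀ p q,
      (fun r => M r p) ⬝ᵥ ((altFour : Matrix K4 K4 F) *ᵥ fun r => M r q) = μ * (altFour : Matrix K4 K4 F) p q := by
    intro M hM p q
    have h := congrFun (congrFun hM p) q
    rw [Matrix.smul_apply, smul_eq_mul] at h
    rw [← h, Matrix.mul_assoc]
    simp [Matrix.mul_apply, dotProduct, Matrix.mulVec]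
  have key : ∀ (M : GL K4 F), M.valᵀ * altFour * M.val = μ • (altFour : Matrix K4 K4 F) →
      (∃ x y y₁ x₁ : Fin 2 → F, (fun r => M.val r (0, 0)) = pureTwo x y ∧
        (fun r => M.val r (0, 1)) = pureTwo x y₁ ∧ (fun r => M.val r (1, 0)) = pureTwo x₁ y) →
      ∃ b c : GL (Fin 2) F, M = kronHom (b, c) := by
    rintro M hM ⟨x, y, y₁, x₁, h00, h01, h10⟩
    have hC := hcols _ hM
    have e := hC (0, 1) (1, 0)
    rw [h01, h10, dot_altFour_pure] at e
    have hxx : brTwo x x₁ * brTwo y₁ y = -μ := by simpa [altFour, altTwo] using e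
    have hne : (fun r => M.val r (1, 1)) ≠ 0 := fun h0 => by
      have e' := hC (0, 0) (1, 1)
      rw [h0] at e'
      simp [altFour, altTwo] at e'
      exact hμ e'.symm
    obtain ⟨x₂, y₂, h11⟩ := exists_pure hne (by
      have e' := hC (1, 1) (1, 1)
      rw [dot_altFour_self] at e'
      simp [altFour, altTwo] at e'
      exact sub_eq_zero.1 (e'.resolve_left h2))
    have e0 := hC (0, 0) (1, 1)
    rw [h00, h11, dot_altFour_pure] at e0
    have hpair : brTwo x x₂ * brTwo y y₂ = μ := by simpa [altFour, altTwo] using e0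
    have e1 := hC (0, 1) (1, 1)
    rw [h01, h11, dot_altFour_pure] at e1
    have e2 := hC (1, 0) (1, 1)
    rw [h10, h11, dot_altFour_pure] at e2
    simp [altFour, altTwo] at e1 e2
    have hb1 : brTwo y₁ y₂ = 0 := e1.resolve_left fun h => hμ (by rw [← hpair, h, zero_mul])
    have hb2 : brTwo x₁ x₂ = 0 := e2.resolve_right fun h => hμ (by rw [← hpair, h, mul_zero])
    have hy₁ : y₁ ≠ 0 := fun h => hμ (by rw [h] at hxx; simpa [brTwo] using hxx.symm)
    have hx₁ : x₁ ≠ 0 := fun h => hμ (by rw [h] at hxx; simpa [brTwo] using hxx.symm)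
    obtain ⟨s, rfl⟩ := brTwo_eq_zero hy₁ hb1
    obtain ⟨t, rfl⟩ := brTwo_eq_zero hx₁ hb2
    have hanti : brTwo y₁ y = -brTwo y y₁ := by unfold brTwo; ring
    have hst : t * s = 1 := by
      rw [hanti] at hxx
      have h' : (t * s) * (brTwo x x₁ * brTwo y y₁) = μ := by
        rw [← hpair]; simp only [brTwo, Pi.smul_apply, smul_eq_mul]; ring
      have h'' : brTwo x x₁ * brTwo y y₁ = μ := by linear_combination -hxx
      rw [h''] at h'
      exact mul_right_cancel₀ hμ (h'.trans (one_mul μ).symm)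
    rw [(pureTwo_smul _ _ t).1, (pureTwo_smul _ _ s).2, smul_smul, hst, one_smul] at h11
    have hx : brTwo x x₁ ≠ 0 := fun h => hμ (by rw [h, zero_mul] at hxx; exact neg_eq_zero.1 hxx.symm)
    have hy : brTwo y y₁ ≠ 0 := fun h => hμ (by
      rw [hanti, h, neg_zero, mul_zero] at hxx; exact neg_eq_zero.1 hxx.symm)
    refine ⟨Matrix.GeneralLinearGroup.mkOfDetNeZero !![x 0, x₁ 0; x 1, x₁ 1] ?_,
      Matrix.GeneralLinearGroup.mkOfDetNeZero !![y 0, y₁ 0; y 1, y₁ 1] ?_, Units.ext ?_⟩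
    · rw [Matrix.det_fin_two]; simpa [brTwo, mul_comm] using hx
    · rw [Matrix.det_fin_two]; simpa [brTwo, mul_comm] using hy
    ext ⟨i, j⟩ ⟨k, l⟩
    have e00 := congrFun h00 (i, j)
    have e01 := congrFun h01 (i, j)
    have e10 := congrFun h10 (i, j)
    have e11 := congrFun h11 (i, j)
    simp only [pureTwo] at e00 e01 e10 e11
    rw [kronHom_val, Matrix.kronecker_apply, Matrix.GeneralLinearGroup.val_mkOfDetNeZero,
      Matrix.GeneralLinearGroup.val_mkOfDetNeZero]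
    fin_cases k <;> fin_cases l <;> fin_cases i <;> fin_cases j <;> simp_all
  have hC := hcols _ hB
  have hpure : ∀ p, ∃ x y : Fin 2 → F, (fun r => B.val r p) = pureTwo x y ∧ x ≠ 0 ∧ y ≠ 0 := by
    intro p
    have hne : (fun r => B.val r p) ≠ 0 := fun h0 => by
      obtain ⟨i, j⟩ := p
      have e := hC (i, j) (1 - i, 1 - j)
      rw [h0] at e
      fin_cases i <;> fin_cases j <;> simp [altFour, altTwo] at e <;>
        first | exact hμ e | exact hμ e.symm
    obtain ⟨x, y, h⟩ := exists_pure hne (by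
      have e' := hC p p
      rw [dot_altFour_self] at e'
      obtain ⟨i, j⟩ := p
      fin_cases i <;> fin_cases j <;> simp [altFour, altTwo] at e' <;>
        exact sub_eq_zero.1 (e'.resolve_left h2))
    exact ⟨x, y, h, fun hx => hne (by rw [h, hx]; funext r; simp [pureTwo]),
      fun hy => hne (by rw [h, hy]; funext r; simp [pureTwo])⟩
  obtain ⟨x, y, h00, hx, hy⟩ := hpure (0, 0)
  obtain ⟨xa, ya, h01, -, -⟩ := hpure (0, 1)
  obtain ⟨xb, yb, h10, -, -⟩ := hpure (1, 0)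
  have ea := hC (0, 0) (0, 1)
  rw [h00, h01, dot_altFour_pure] at ea
  have eb := hC (0, 0) (1, 0)
  rw [h00, h10, dot_altFour_pure] at eb
  have ec := hC (0, 1) (1, 0)
  rw [h01, h10, dot_altFour_pure] at ec
  simp [altFour, altTwo] at ea eb ec
  rcases ea with ea | ea <;> rcases eb with eb | eb
  · exfalso
    obtain ⟨s, rfl⟩ := brTwo_eq_zero hx ea
    obtain ⟨t, rfl⟩ := brTwo_eq_zero hx eb
    exact hμ (neg_eq_zero.1 (ec.symm.trans (by simp only [brTwo, Pi.smul_apply, smul_eq_mul]; ring)))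
  · obtain ⟨s, rfl⟩ := brTwo_eq_zero hx ea
    obtain ⟨t, rfl⟩ := brTwo_eq_zero hy eb
    obtain ⟨b, c, h⟩ := key B hB ⟨x, y, s • ya, t • xb, h00,
      by rw [h01, (pureTwo_smul _ _ s).1, (pureTwo_smul _ _ s).2],
      by rw [h10, (pureTwo_smul _ _ t).2, (pureTwo_smul _ _ t).1]⟩
    exact ⟨b, c, Or.inl h⟩
  · obtain ⟨s, rfl⟩ := brTwo_eq_zero hy ea
    obtain ⟨t, rfl⟩ := brTwo_eq_zero hx eb
    have hS : (B * swapTwo : GL K4 F).valᵀ * altFour * (B * swapTwo : GL K4 F).val =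
        μ • (altFour : Matrix K4 K4 F) := by
      rw [Units.val_mul, Matrix.transpose_mul]
      calc (swapTwo : GL K4 F).valᵀ * B.valᵀ * altFour * (B.val * (swapTwo : GL K4 F).val)
          = (swapTwo : GL K4 F).valᵀ * (B.valᵀ * altFour * B.val) * (swapTwo : GL K4 F).val := by
            simp only [mul_assoc]
        _ = _ := by rw [hB, Matrix.mul_smul, Matrix.smul_mul, swapTwo_altFour]
    obtain ⟨b, c, h⟩ := key (B * swapTwo) hS ⟨x, y, t • yb, s • xa,
      (by funext r; rw [Units.val_mul, mul_swapTwo_apply]; exact congrFun h00 r),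
      (by
        funext r
        rw [Units.val_mul, mul_swapTwo_apply]
        refine (congrFun h10 r).trans ?_
        rw [(pureTwo_smul _ _ t).1, (pureTwo_smul _ _ t).2]),
      (by
        funext r
        rw [Units.val_mul, mul_swapTwo_apply]
        refine (congrFun h01 r).trans ?_
        rw [(pureTwo_smul _ _ s).2, (pureTwo_smul _ _ s).1])⟩
    exact ⟨b, c, Or.inr (by rw [← h, mul_assoc, swapTwo_mul_swapTwo, mul_one])⟩
  · exfalso
    obtain ⟨s, rfl⟩ := brTwo_eq_zero hy ea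
    obtain ⟨t, rfl⟩ := brTwo_eq_zero hy eb
    exact hμ (neg_eq_zero.1 (ec.symm.trans (by simp only [brTwo, Pi.smul_apply, smul_eq_mul]; ring)))

/-- A symmetric form in four dimensions with a totally singular plane is a tensor square. -/
theorem exists_hyperbolic_four (h2 : (2 : F) ≠ 0) {G : Matrix K4 K4 F} (hG : Gᵀ = G) (hdet : G.det ≠ 0)
    {U : Submodule F (K4 → F)} (hU : Module.finrank F U = 2) (hts : ∀ u ∈ U, u ⬝ᵥ (G *ᵥ u) = 0) :
    ∃ Z : GL K4 F, Z.valᵀ * G * Z.val = altFour := by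
  let f : (K4 → F) → (K4 → F) → F := fun u v => u ⬝ᵥ (G *ᵥ v)
  have al : ∀ u u' v, f (u + u') v = f u v + f u' v := fun u u' v => add_dotProduct u u' _
  have ar : ∀ u v v', f u (v + v') = f u v + f u v' := fun u v v' => by
    simp only [f, Matrix.mulVec_add, dotProduct_add]
  have sl : ∀ (c : F) u v, f (c • u) v = c * f u v := fun c u v => by simp only [f, smul_dotProduct, smul_eq_mul]
  have sr : ∀ (c : F) u v, f u (c • v) = c * f u v := fun c u v => by
    simp only [f, Matrix.mulVec_smul, dotProduct_smul, smul_eq_mul]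
  have hsym : ∀ u v, f u v = f v u := fun u v => by
    simp only [f]
    rw [Matrix.dotProduct_mulVec, ← Matrix.mulVec_transpose, hG, dotProduct_comm]
  have hUU : ∀ u ∈ U, ∀ v ∈ U, f u v = 0 := by
    intro u hu v hv
    have e : f (u + v) (u + v) = 0 := hts _ (U.add_mem hu hv)
    rw [al, ar, ar, show f u u = 0 from hts u hu, show f v v = 0 from hts v hv, hsym v u] at e
    exact (mul_eq_zero.1 (show (2 : F) * f u v = 0 by linear_combination e)).resolve_left h2
  have hdual : ∀ u : K4 → F, u ≠ 0 → ∃ v, f u v = 1 := by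
    intro u hu
    obtain ⟨i, hi⟩ : ∃ i, (G *ᵥ u) i ≠ 0 := Function.ne_iff.1 fun h =>
      hu (Matrix.mulVec_injective_iff_isUnit.2 ((Matrix.isUnit_iff_isUnit_det G).2 hdet.isUnit)
        (h.trans (Matrix.mulVec_zero G).symm))
    refine ⟨((G *ᵥ u) i)⁻¹ • Pi.single i 1, ?_⟩
    rw [sr, hsym]
    simp only [f, single_one_dotProduct]
    exact inv_mul_cancel₀ hi
  obtain ⟨u₁, hu₁, hu₁0⟩ : ∃ u ∈ U, u ≠ 0 := (Submodule.ne_bot_iff _).1 fun h => by
    rw [h, finrank_bot] at hU; omega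
  obtain ⟨u, hu, hun⟩ : ∃ u ∈ U, u ∉ F ∙ u₁ := by
    by_contra hall
    push Not at hall
    have h := Submodule.finrank_mono (show U ≤ F ∙ u₁ from hall)
    rw [finrank_span_singleton hu₁0, hU] at h
    omega
  obtain ⟨v₁, hv₁⟩ := hdual u₁ hu₁0
  set u₂ := u + (-(f u v₁)) • u₁ with hu₂
  have hu₂U : u₂ ∈ U := U.add_mem hu (U.smul_mem _ hu₁)
  have hu₂v : f u₂ v₁ = 0 := by rw [hu₂, al, sl, hv₁]; ring
  obtain ⟨v, hv⟩ := hdual u₂ fun h => hun (Submodule.mem_span_singleton.2 ⟨f u v₁, by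
    rw [hu₂, neg_smul, ← sub_eq_add_neg, sub_eq_zero] at h
    exact h.symm⟩)
  set v₂ := v + (-(f u₁ v)) • v₁ with hv₂
  have hu₁v₂ : f u₁ v₂ = 0 := by rw [hv₂, ar, sr, hv₁]; ring
  have hu₂v₂ : f u₂ v₂ = 1 := by rw [hv₂, ar, sr, hu₂v, hv]; ring
  set w₁ := v₁ + (-(f v₁ v₁) / 2) • u₁ with hw₁
  set w₂ := v₂ + ((-(f v₂ v₂) / 2) • u₂ + (-(f w₁ v₂)) • u₁) with hw₂
  have hfdef : ∀ x y, f x y = x ⬝ᵥ (G *ᵥ y) := fun _ _ => rfl
  have hnl : ∀ x y, f (-x) y = -f x y := fun x y => by rw [← neg_one_smul F x, sl, neg_one_mul]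
  have hnr : ∀ x y, f x (-y) = -f x y := fun x y => by rw [← neg_one_smul F y, sr, neg_one_mul]
  clear_value u₂ v₂ w₁ w₂ f
  have a11 : f u₁ u₁ = 0 := hUU _ hu₁ _ hu₁
  have a12 : f u₁ u₂ = 0 := hUU _ hu₁ _ hu₂U
  have a22 : f u₂ u₂ = 0 := hUU _ hu₂U _ hu₂U
  have b11 : f u₁ w₁ = 1 := by rw [hw₁, ar, sr, hv₁, a11]; ring
  have b21 : f u₂ w₁ = 0 := by rw [hw₁, ar, sr, hu₂v, hsym u₂ u₁, a12]; ring
  have b12 : f u₁ w₂ = 0 := by rw [hw₂, ar u₁ v₂, ar u₁ _ _, sr, sr, hu₁v₂, a11, a12]; ring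
  have b22 : f u₂ w₂ = 1 := by rw [hw₂, ar u₂ v₂, ar u₂ _ _, sr, sr, hu₂v₂, a22, hsym u₂ u₁, a12]; ring
  have c11 : f w₁ w₁ = 0 := by
    rw [hw₁, al, ar, ar, sl, sl, sr, sr, a11, hsym v₁ u₁, hv₁]
    field_simp; ring
  have c12 : f w₁ w₂ = 0 := by
    rw [hw₂, ar w₁ v₂, ar w₁ _ _, sr, sr, hsym w₁ u₂, b21, hsym w₁ u₁, b11]; ring
  have c22 : f w₂ w₂ = 0 := by
    have e1 : f v₂ w₂ = f v₂ v₂ / 2 := by
      rw [hw₂, ar v₂ v₂, ar v₂ _ _, sr, sr, hsym v₂ u₂, hu₂v₂, hsym v₂ u₁, hu₁v₂]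
      field_simp; ring
    conv_lhs => arg 1; rw [hw₂]
    rw [al v₂, al, sl, sl, b12, b22, e1]
    field_simp; ring
  let z : K4 → K4 → F := fun p => (![![u₁, u₂], ![(-1 : F) • w₂, w₁]] p.1) p.2
  let Z : Matrix K4 K4 F := Matrix.of fun i p => z p i
  have hZ : Zᵀ * G * Z = altFour := by
    ext p q
    have h : (Zᵀ * G * Z) p q = f (z p) (z q) := by
      simp only [hfdef, Matrix.mul_assoc]
      simp [Z, Matrix.mul_apply, dotProduct, Matrix.mulVec]
    rw [h]
    obtain ⟨i, j⟩ := p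
    obtain ⟨k, l⟩ := q
    fin_cases i <;> fin_cases j <;> fin_cases k <;> fin_cases l <;>
      simp [z, sl, sr, hnl, hnr, altFour, altTwo, a11, a12, a22, b11, b12, b21, b22, c11, c12, c22, hsym u₂ u₁, hsym w₁ u₁,
        hsym w₁ u₂, hsym w₂ u₁, hsym w₂ u₂, hsym w₂ w₁, al, ar]
  refine ⟨Matrix.GeneralLinearGroup.mkOfDetNeZero Z fun h0 => ?_, hZ⟩
  have h := congrArg Matrix.det hZ
  rw [Matrix.det_mul, h0, mul_zero] at h
  exact altFour_det_ne_zero h.symm

variable [Fintype F]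

/-- The plus-type case refines to three binary factors. -/
theorem plus_type_refine {H : Subgroup (GL (Fin 4 ⊕ Fin 4) F)} (hodd : Odd (Fintype.card F))
    (hH : H ≤ Cfsg.spGL 4 F) {e : (Fin 4 ⊕ Fin 4) ≃ Fin 2 × Fin 4} {P : GL (Fin 4 ⊕ Fin 4) F}
    {f₁ : (Fin 2 → F) → (Fin 2 → F) → F} {f₂ : (Fin 4 → F) → (Fin 4 → F) → F}
    (hf₁ : IsSymplecticForm f₁) (hf₂ : IsSymmetricForm f₂)
    (hplus : IsPlusTypeOn (fun v : Fin 4 → F => f₂ v v) ⊤)
    (hts : IsTensorFormStructure id (Cfsg.sympForm 4 F) f₁ f₂ e P) (hle : H ≤ tensorProductSubgroup 2 4 e P) :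
    ∃ (e' : (Fin 4 ⊕ Fin 4) ≃ K8) (P' : GL (Fin 4 ⊕ Fin 4) F) (d δ : F), d ≠ 0 ∧ δ ≠ 0 ∧
      gramMatrix f₁ = δ • altTwo ∧
      coordGram (Cfsg.sympForm 4 F) e' P' = (d • altTwo) ⊗ₖ (altFour : Matrix K4 K4 F) ∧
      ∀ g ∈ H, ∃ (a b c : GL (Fin 2) F) (w : GL K4 F), (w = 1 ∨ w = swapTwo) ∧
        g = coordHom e' P' (kronHom (a, kronHom (b, c) * w)) := by
  classical
  have h2 := two_ne_zero_of_odd_card hodd
  obtain ⟨cc, hcc, hG⟩ := coordGram_of_structure hts
  set δ := gramMatrix f₁ 0 1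
  have hg1 : gramMatrix f₁ = δ • altTwo := by
    have h10 : gramMatrix f₁ 1 0 = -δ := hf₁.skew _ _
    have h00 : gramMatrix f₁ 0 0 = 0 := hf₁.alternating _
    have h11 : gramMatrix f₁ 1 1 = 0 := hf₁.alternating _
    ext i j
    fin_cases i <;> fin_cases j <;> simp [altTwo, h00, h11, h10, δ]
  have hdet1 := (IsSesqui.of_bilinear hf₁.bilinear).isUnit_det_gram Function.surjective_id hf₁.nondegenerate
  have hδ : δ ≠ 0 := fun h => hdet1.ne_zero (by rw [hg1, h, zero_smul, Matrix.det_zero])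
  have hdet2 := (IsSesqui.of_bilinear hf₂.bilinear).isUnit_det_gram Function.surjective_id hf₂.nondegenerate
  set ε : Fin 4 ≃ K4 := (finProdFinEquiv : K4 ≃ Fin (2 * 2)).symm
  set G₂ : Matrix (Fin 4) (Fin 4) F := gramMatrix f₂
  set G' := Matrix.reindex ε ε G₂ with hG'
  obtain ⟨U, -, hUts, hUd⟩ := hplus
  let L : (Fin 4 → F) ≃ₗ[F] (K4 → F) := LinearEquiv.funCongrLeft F F ε.symm
  have hU2 : Module.finrank F (U.map (L : (Fin 4 → F) →ₗ[F] (K4 → F))) = 2 := by
    rw [LinearEquiv.finrank_map_eq]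
    rw [finrank_top, Module.finrank_fin_fun] at hUd
    omega
  have hsym : G'ᵀ = G' := by
    ext i j
    exact hf₂.symm _ _
  have hzero : ∀ x ∈ U.map (L : (Fin 4 → F) →ₗ[F] (K4 → F)), x ⬝ᵥ (G' *ᵥ x) = 0 := by
    rintro _ ⟨u, hu, rfl⟩
    have h : f₂ u u = 0 := hUts u hu
    rw [(IsSesqui.of_bilinear hf₂.bilinear).apply_eq] at h
    rw [← h]
    simp only [G', G₂, L, dotProduct, Matrix.mulVec, RingHom.id_apply, LinearEquiv.coe_coe,
      LinearEquiv.funCongrLeft_apply, LinearMap.funLeft_apply, Matrix.reindex_apply, Matrix.submatrix_apply]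
    refine (Fintype.sum_equiv ε _ _ fun i => ?_).symm
    rw [Equiv.symm_apply_apply]
    congr 1
  obtain ⟨Z, hZ⟩ := exists_hyperbolic_four h2 hsym
    (by rw [hG', Matrix.det_reindex_self]; exact hdet2.ne_zero) hU2 hzero
  set e' : (Fin 4 ⊕ Fin 4) ≃ K8 := e.trans (Equiv.prodCongr (Equiv.refl _) ε)
  set z₀ : GL K8 F := kronHom (1, Z)
  set P' := P * glReindex e'.symm z₀
  have hG8 : coordGram (Cfsg.sympForm 4 F) e' P = ((cc * δ) • altTwo) ⊗ₖ G' := by
    ext ⟨i, p⟩ ⟨j, q⟩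
    have h := congrFun (congrFun hG (i, ε.symm p)) (j, ε.symm q)
    simp [coordGram, e', G', G₂, hg1] at h ⊢
    linear_combination h
  have hP' : coordGram (Cfsg.sympForm 4 F) e' P' = z₀.valᵀ * coordGram (Cfsg.sympForm 4 F) e' P * z₀.val := by
    let E := Matrix.reindexAlgEquiv F F e'
    have hv : P'.val = P.val * E.symm z₀.val := rfl
    show E (P'.valᵀ * gramMatrix (Cfsg.sympForm 4 F) * P'.val) =
      z₀.valᵀ * E (P.valᵀ * gramMatrix (Cfsg.sympForm 4 F) * P.val) * z₀.val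
    rw [hv, Matrix.transpose_mul]
    have ht : (E.symm z₀.val)ᵀ = E.symm z₀.valᵀ := rfl
    rw [ht]
    simp only [map_mul, mul_assoc, AlgEquiv.apply_symm_apply]
  refine ⟨e', P', cc * δ, δ, mul_ne_zero hcc hδ, hδ, hg1, ?_, fun g hg => ?_⟩
  · rw [hP', hG8, kronHom_val, ← Matrix.kroneckerMap_transpose, ← Matrix.mul_kronecker_mul,
      ← Matrix.mul_kronecker_mul, Units.val_one, Matrix.transpose_one, one_mul, mul_one, hZ]
  have hC : cc • gramMatrix f₁ ≠ 0 := smul_ne_zero hcc fun h => hdet1.ne_zero (by rw [h, Matrix.det_zero])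
  obtain ⟨y, a, b, μ, hgy, hy, hμ, -, hb⟩ :=
    tensor_element hH hle hC (ne_zero_of_isUnit_det hdet2) hG hg
  set b' : GL K4 F := glReindex ε b with hb'
  have hb'v : b'.val = Matrix.reindexAlgEquiv F F ε b.val := rfl
  set B : GL K4 F := Z⁻¹ * b' * Z with hBdef
  have hBG : B.valᵀ * altFour * B.val = μ⁻¹ • (altFour : Matrix K4 K4 F) := by
    have hZB : Z.val * B.val = b'.val * Z.val := by
      rw [← Units.val_mul, ← Units.val_mul, hBdef]
      congr 1
      group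
    have hb'G : b'.valᵀ * G' * b'.val = μ⁻¹ • G' := by
      have h := congrArg (Matrix.reindexAlgEquiv F F ε) hb
      rw [map_mul, map_mul, map_smul] at h
      exact h
    calc B.valᵀ * altFour * B.val = (Z.val * B.val)ᵀ * G' * (Z.val * B.val) := by
          rw [← hZ, Matrix.transpose_mul]; simp only [mul_assoc]
      _ = Z.valᵀ * (b'.valᵀ * G' * b'.val) * Z.val := by
          rw [hZB, Matrix.transpose_mul]; simp only [mul_assoc]
      _ = _ := by rw [hb'G, Matrix.mul_smul, Matrix.smul_mul, hZ]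
  have hconj : ∀ w : GL K4 F, B = w → g = coordHom e' P' (kronHom (a, w)) := by
    rintro _ rfl
    have hgy' : g = coordHom e' P (kronHom (a, b')) := by
      rw [hgy, coordHom_apply]
      congr 2
      apply Units.ext
      ext i j
      simp [glReindex, e', hy, b']
    have hpr : kronHom (a, B) = z₀⁻¹ * kronHom (a, b') * z₀ := by
      simp only [z₀, hBdef, ← map_inv, ← map_mul, Prod.inv_mk, Prod.mk_mul_mk, inv_one, one_mul, mul_one]
    rw [hgy', hpr, coordHom_apply, coordHom_apply, map_mul, map_mul, map_inv]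
    simp only [P']
    group
  obtain ⟨b₁, c₁, h | h⟩ := similitude_altFour h2 B (inv_ne_zero hμ) hBG
  · exact ⟨a, b₁, c₁, 1, Or.inl rfl, by rw [mul_one]; exact hconj _ h⟩
  · exact ⟨a, b₁, c₁, swapTwo, Or.inr rfl, hconj _ h⟩

/-- Identification of nested pairs with triples. -/
def tripleEquiv : Fin 2 × (Fin 2 × Fin 2) ≃ (Fin 3 → Fin 2) where
  toFun x := ![x.1, x.2.1, x.2.2]
  invFun v := (v 0, v 1, v 2)
  left_inv x := by simp
  right_inv v := by funext i; fin_cases i <;> simp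

omit [Fintype F] in
lemma prod_tripleEquiv (G : Fin 3 → Matrix (Fin 2) (Fin 2) F) (x y : Fin 3 → Fin 2) :
    ∏ i, G i (x i) (y i) =
      (G 0 ⊗ₖ (G 1 ⊗ₖ G 2)) (tripleEquiv.symm x) (tripleEquiv.symm y) := by
  rw [Fin.prod_univ_three]
  simp [tripleEquiv, mul_assoc]

omit [Fintype F] in
/-- Triple Kronecker products and the exchange lie in the wreath product. -/
lemma triple_mem_wreath (e' : (Fin 4 ⊕ Fin 4) ≃ K8) (P : GL (Fin 4 ⊕ Fin 4) F) (a b c : GL (Fin 2) F)
    (w : GL K4 F) (hw : w = 1 ∨ w = swapTwo) :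
    coordHom e' P (kronHom (a, kronHom (b, c) * w)) ∈ tensorWreathSubgroup 2 3 (e'.trans tripleEquiv) P := by
  have hsplit : kronHom (a, kronHom (b, c) * w) = kronHom (a, kronHom (b, c)) * kronHom (1, w) := by
    rw [← map_mul, Prod.mk_mul_mk, mul_one]
  have hpure : glReindex tripleEquiv (kronHom (a, kronHom (b, c))) ∈ tensorWreathStandard 2 3 F := by
    refine Subgroup.subset_closure (Or.inl ⟨![a, b, c], fun x y => ?_⟩)
    rw [prod_tripleEquiv]
    rfl
  have hperm : glReindex tripleEquiv (kronHom ((1 : GL (Fin 2) F), w)) ∈ tensorWreathStandard 2 3 F := by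
    rcases hw with rfl | rfl
    · rw [show ((1 : GL (Fin 2) F), (1 : GL K4 F)) = 1 from rfl, map_one, map_one]
      exact one_mem _
    · refine Subgroup.subset_closure (Or.inr ⟨Equiv.swap 1 2, fun x y => ?_⟩)
      obtain ⟨⟨i, j, k⟩, rfl⟩ := tripleEquiv.surjective x
      obtain ⟨⟨i', j', k'⟩, rfl⟩ := tripleEquiv.surjective y
      show Matrix.reindex tripleEquiv tripleEquiv (((1 : GL (Fin 2) F) : Matrix (Fin 2) (Fin 2) F) ⊗ₖ
        (swapTwo : GL K4 F).val) _ _ = _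
      simp only [Matrix.reindex_apply, Matrix.submatrix_apply, Equiv.symm_apply_apply, Matrix.kronecker_apply,
        Units.val_one]
      have hiff : tripleEquiv (i', j', k') = tripleEquiv (i, j, k) ∘ ⇑(Equiv.swap (1 : Fin 3) 2) ↔
          i = i' ∧ (j', k') = ((j, k) : K4).swap := by
        simp [tripleEquiv, funext_iff, Fin.forall_fin_succ, Equiv.swap_apply_def, Prod.ext_iff, eq_comm]
      by_cases h : tripleEquiv (i', j', k') = tripleEquiv (i, j, k) ∘ ⇑(Equiv.swap (1 : Fin 3) 2)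
      · obtain ⟨rfl, hjk⟩ := hiff.1 h
        rw [if_pos h, Matrix.one_apply_eq, one_mul]
        exact if_pos hjk
      · rw [if_neg h]
        by_cases hi : i = i'
        · rw [show (swapTwo : GL K4 F).val (j, k) (j', k') = 0 from if_neg fun hjk => h (hiff.2 ⟨hi, hjk⟩),
            mul_zero]
        · rw [Matrix.one_apply_ne hi, zero_mul]
  rw [hsplit]
  exact ⟨_, ⟨glReindex tripleEquiv (kronHom (a, kronHom (b, c)) * kronHom (1, w)),
    by rw [map_mul]; exact mul_mem hpure hperm, rfl⟩, by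
      rw [coordHom_apply]
      show P * _ * P⁻¹ = _
      congr 2⟩

/-- The quaternion tensor cube is normalised. -/
theorem plus_type_three (hq : Fintype.card F = 3) {H : Subgroup (GL (Fin 4 ⊕ Fin 4) F)}
    {e' : (Fin 4 ⊕ Fin 4) ≃ K8} {P' : GL (Fin 4 ⊕ Fin 4) F} {d : F}
    (hG : coordGram (Cfsg.sympForm 4 F) e' P' = (d • altTwo) ⊗ₖ (altFour : Matrix K4 K4 F))
    (hH : ∀ g ∈ H, ∃ (a b c : GL (Fin 2) F) (w : GL K4 F), (w = 1 ∨ w = swapTwo) ∧
        g = coordHom e' P' (kronHom (a, kronHom (b, c) * w))) :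
    ∃ R : Subgroup (GL (Fin 4 ⊕ Fin 4) F), IsPauli R ∧ R ≤ Cfsg.spGL 4 F ∧ H ≤ subgroupNormalizer R := by
  have hQ := quatGroup_pauli (F := F) hq
  refine ⟨_, ((hQ.kron (hQ.kron hQ)).coord e' P'), ?_, ?_⟩
  · rintro _ ⟨_, ⟨⟨a, _⟩, ⟨ha, ⟨⟨b, c⟩, ⟨hb, hc⟩, rfl⟩⟩, rfl⟩, rfl⟩
    refine coordHom_mem_sp ?_
    rw [hG, kronHom_val, kronHom_val, ← Matrix.kroneckerMap_transpose, ← Matrix.mul_kronecker_mul,
      ← Matrix.mul_kronecker_mul, ← Matrix.kroneckerMap_transpose, altFour, ← Matrix.mul_kronecker_mul,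
      ← Matrix.mul_kronecker_mul, Matrix.mul_smul, Matrix.smul_mul, quatGroup_iso ha, quatGroup_iso hb,
      quatGroup_iso hc]
  intro g hg
  obtain ⟨a, b, c, w, hw, rfl⟩ := hH g hg
  set Q := quatGroup F
  set S := (Q.prod Q).map (kronHom : GL (Fin 2) F × GL (Fin 2) F →* GL K4 F)
  rw [Subgroup.map_map]
  have hconj : ∀ (u v : GL (Fin 2) F), ∀ x ∈ S, kronHom (u, v) * x * (kronHom (u, v))⁻¹ ∈ S := by
    rintro u v _ ⟨⟨x, y⟩, ⟨hx, hy⟩, rfl⟩
    exact ⟨(u * x * u⁻¹, v * y * v⁻¹), ⟨quatGroup_conj hx, quatGroup_conj hy⟩,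
      by simp only [← map_inv, ← map_mul, Prod.inv_mk, Prod.mk_mul_mk]⟩
  have hw' : ∀ x ∈ S, w * x * w ∈ S ∧ w * w = 1 := by
    rintro _ ⟨⟨x, y⟩, ⟨hx, hy⟩, rfl⟩
    rcases hw with rfl | rfl
    · exact ⟨⟨(x, y), ⟨hx, hy⟩, by simp⟩, one_mul 1⟩
    · exact ⟨⟨(y, x), ⟨hy, hx⟩, (swapTwo_kron x y).symm⟩, swapTwo_mul_swapTwo⟩
  refine mem_normalizer_map ((coordHom e' P').comp kronHom) ?_ ?_
  · rintro ⟨u, s⟩ ⟨hu, hs⟩
    refine ⟨quatGroup_conj hu, ?_⟩
    obtain ⟨hws, hww⟩ := hw' s hs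
    have := hconj b c _ hws
    have hwi : w⁻¹ = w := inv_eq_of_mul_eq_one_right hww
    show kronHom (b, c) * w * s * (kronHom (b, c) * w)⁻¹ ∈ S
    convert this using 1
    rw [mul_inv_rev, hwi]; group
  · rintro ⟨u, s⟩ ⟨hu, hs⟩
    refine ⟨by simpa using quatGroup_conj (g := a⁻¹) hu, ?_⟩
    have h1 := hconj b⁻¹ c⁻¹ s hs
    obtain ⟨hws, hww⟩ := hw' _ h1
    have hwi : w⁻¹ = w := inv_eq_of_mul_eq_one_right hww
    show (kronHom (b, c) * w)⁻¹ * s * (kronHom (b, c) * w) ∈ S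
    convert hws using 1
    rw [mul_inv_rev, hwi, ← map_inv, Prod.inv_mk]
    rw [show (kronHom (b⁻¹, c⁻¹) : GL K4 F)⁻¹ = kronHom (b, c) by rw [← map_inv, Prod.inv_mk, inv_inv, inv_inv]]
    group

/-- The tensor power structure in nested coordinates. -/
lemma power_structure {e' : (Fin 4 ⊕ Fin 4) ≃ K8} {P' : GL (Fin 4 ⊕ Fin 4) F}
    {f₁ : (Fin 2 → F) → (Fin 2 → F) → F} {d δ : F} (hd : d ≠ 0) (hδ : δ ≠ 0) (hg1 : gramMatrix f₁ = δ • altTwo)
    (hG : coordGram (Cfsg.sympForm 4 F) e' P' = (d • altTwo) ⊗ₖ (altFour : Matrix K4 K4 F)) :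
    IsTensorPowerFormStructure id (Cfsg.sympForm 4 F) f₁ (e'.trans tripleEquiv) P' := by
  refine ⟨d / (δ * δ * δ), div_ne_zero hd (mul_ne_zero (mul_ne_zero hδ hδ) hδ), fun x y => ?_⟩
  have hval : ∀ a b : Fin 3 → Fin 2, coordGram (Cfsg.sympForm 4 F) (e'.trans tripleEquiv) P' a b =
      d / (δ * δ * δ) * ∏ i, gramMatrix f₁ (a i) (b i) := by
    intro a b
    have h : coordGram (Cfsg.sympForm 4 F) (e'.trans tripleEquiv) P' a b =
        coordGram (Cfsg.sympForm 4 F) e' P' (tripleEquiv.symm a) (tripleEquiv.symm b) := rfl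
    rw [h, hG, prod_tripleEquiv (fun _ => gramMatrix f₁), hg1, altFour]
    show (d • altTwo) (tripleEquiv.symm a).1 (tripleEquiv.symm b).1 *
        (altTwo (tripleEquiv.symm a).2.1 (tripleEquiv.symm b).2.1 *
          altTwo (tripleEquiv.symm a).2.2 (tripleEquiv.symm b).2.2) =
      d / (δ * δ * δ) * ((δ • altTwo) (tripleEquiv.symm a).1 (tripleEquiv.symm b).1 *
        ((δ • altTwo) (tripleEquiv.symm a).2.1 (tripleEquiv.symm b).2.1 *
          (δ • altTwo) (tripleEquiv.symm a).2.2 (tripleEquiv.symm b).2.2))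
    simp only [Matrix.smul_apply, smul_eq_mul]
    field_simp
  rw [apply_coord isSymplecticForm_sympForm.bilinear]
  simp only [dotProduct, Matrix.mulVec, hval, Finset.mul_sum, id_eq]
  exact Finset.sum_congr rfl fun a _ => Finset.sum_congr rfl fun b _ => by ring

end CfsgLib.SmallDim
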