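import Cfsg.Agent.Lib.SmallDim.SympCases

/-!
Forms fixed by absolutely irreducible groups of symplectic isometries, and the type of two-groups.
-/

set_option autoImplicit false
set_option linter.style.haveILetI false

namespace CfsgLib.SmallDim

open scoped MatrixGroups Matrix
open Cfsg.Geo

variable {F : Type*} [Field F] [Fintype F] {m : ℕ} {H P : Subgroup (GL (Fin m ⊕ Fin m) F)}

local notation "V" => (Fin m ⊕ Fin m → F)
local notation "M2" => Matrix (Fin m ⊕ Fin m) (Fin m ⊕ Fin m) F
local notation "ω" => Cfsg.sympForm m F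

lemma bilinear_multiple (hP : P ≤ Cfsg.spGL m F) (habs : ActsAbsolutelyIrreducibly (matrixSet P))
    {b : V → V → F} (hb : IsBilinearForm b) (hfix : FixesForm (matrixSet P) b) :
    ∃ c : F, ∀ u v, b u v = c * ω u v :=
  form_unique Function.surjective_id sesqui_sympForm isSymplecticForm_sympForm.nondegenerate
    (IsSesqui.of_bilinear hb) habs (fun _ hs => isUnit_of_mem_matrixSet hs) (fixesForm_of_le_spGL hP) hfix

/-- An absolutely irreducible normal subgroup fixing a quadratic form forces characteristic two and an
orthogonal group. -/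
theorem inSympCase_of_quad (hm : 0 < m) (hH : H ≤ Cfsg.spGL m F) (hPH : NormalIn P H)
    (habs : ActsAbsolutelyIrreducibly (matrixSet P)) {Q : V → F} (hQ : IsNondegenerateQuadraticForm Q)
    (hfix : FixesQuadForm (matrixSet P) Q) : InSympCase H := by
  classical
  have hf := isSymplecticForm_sympForm (m := m) (F := F)
  obtain ⟨c, hc⟩ := bilinear_multiple (hPH.le.trans hH) habs hQ.polar_bilinear (fixesForm_polar hfix)
  have hne : (Pi.single (Sum.inl ⟨0, hm⟩) 1 : V) ≠ 0 := by simp
  obtain ⟨⟨x, hx⟩, -⟩ := hQ.nondegenerate _ hne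
  have hc0 : c ≠ 0 := fun h => hx (by rw [hc, h, zero_mul])
  by_cases hodd : Odd (Fintype.card F)
  · exfalso
    have hQ0 : ∀ v, Q v = 0 := fun v => by
      have h := polar_self_eq hQ v
      rw [hc, hf.alternating, mul_zero] at h
      exact (mul_eq_zero.1 h.symm).resolve_left (two_ne_zero_of_odd_card hodd)
    exact hx (by simp [QuadraticMap.polar, hQ0])
  let Q' : V → F := fun v => c⁻¹ * Q v
  have hpol : ∀ u v, QuadraticMap.polar Q' u v = ω u v := fun u v => by
    have h := hc u v
    simp only [QuadraticMap.polar] at h ⊢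
    simp only [Q', ← mul_sub]
    rw [h, inv_mul_cancel_left₀ hc0]
  refine inSympCase_quad hodd hH (Q := Q')
    (fun a v => by simp only [Q', hQ.smul]; ring) hpol fun g hg => ?_
  let d : V → F := fun v => Q' (act g v) - Q' v
  have hadd : ∀ x y, d (x + y) = d x + d y := by
    intro x y
    have h1 := mem_spGL.1 (hH hg) x y
    rw [← hpol, ← hpol] at h1
    simp only [QuadraticMap.polar] at h1
    simp only [d]
    rw [show act g (x + y) = act g x + act g y from Matrix.mulVec_add _ _ _]
    linear_combination h1
  have hsmul : ∀ (a : F) x, d (a • x) = a ^ 2 * d x := by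
    intro a x
    simp only [d, Q']
    rw [show act g (a • x) = a • act g x from Matrix.mulVec_smul _ _ _, hQ.smul, hQ.smul]
    ring
  let Z : Submodule F V :=
    { carrier := {v | d v = 0}
      add_mem' := fun {a b} (ha : d a = 0) (hb : d b = 0) => by
        show d (a + b) = 0
        rw [hadd, ha, hb, add_zero]
      zero_mem' := by
        show d 0 = 0
        simpa using hsmul 0 0
      smul_mem' := fun a x (hx : d x = 0) => by
        show d (a • x) = 0
        rw [hsmul, hx, mul_zero] }
  have hZ : ∀ x ∈ P, ∀ v ∈ Z, act x v ∈ Z := by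
    intro x hx v (hv : d v = 0)
    show Q' (act g (act x v)) - Q' (act x v) = 0
    have e : act g (act x v) = act (g * x * g⁻¹) (act g v) := by
      rw [← act_mul, ← act_mul]; congr 1; group
    have h1 : ∀ y ∈ P, ∀ w, Q' (act y w) = Q' w := fun y hy w => by
      simp only [Q']
      rw [show Q (act y w) = Q w from hfix _ (coe_mem_matrixSet hy) w]
    rw [e, h1 _ (hPH.conj g hg x hx), h1 _ hx]
    exact hv
  rcases actsIrreducibly_iff.1 habs.1 Z hZ with h | h
  · exfalso
    have hinj : Function.Injective d := by
      intro a b hab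
      have : a - b ∈ Z := by
        show d (a - b) = 0
        have := hadd (a - b) b
        rw [sub_add_cancel] at this
        linear_combination hab - this
      rw [h, Submodule.mem_bot, sub_eq_zero] at this
      exact this
    have := Fintype.card_le_of_injective d hinj
    rw [Fintype.card_fun, card_idx] at this
    exact absurd this (not_le.2 (lt_self_pow₀ Fintype.one_lt_card (by omega)))
  · intro v
    exact sub_eq_zero.1 (show d v = 0 from h.ge (Submodule.mem_top (x := v)))

/-- An absolutely irreducible group of symplectic isometries fixing a unitary form is realised over a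
proper subfield. -/
theorem realisable_of_unitary (hm : 0 < m) (hP : P ≤ Cfsg.spGL m F)
    (habs : ActsAbsolutelyIrreducibly (matrixSet P)) {σ : F ≃+* F} {b : V → V → F}
    (hb : IsUnitaryForm σ b) (hfix : FixesForm (matrixSet P) b) :
    ∃ K : Subfield F, K ≠ ⊤ ∧ RealisableOver K (matrixSet P) := by
  classical
  haveI : Nonempty (Fin m ⊕ Fin m) := ⟨Sum.inl ⟨0, hm⟩⟩
  refine ⟨(σ : F →+* F).eqLocusField (RingHom.id F), fun h => hb.ne_refl (RingEquiv.ext fun x =>
    (show x ∈ (σ : F →+* F).eqLocusField (RingHom.id F) from h ▸ Subfield.mem_top x)),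
    realisableOver_of_trace habs fun g hg => ?_⟩
  show σ _ = _
  have hS := IsSesqui.of_unitary hb
  set B := gramMatrix b
  have hB := hS.isUnit_det_gram σ.surjective hb.nondegenerate
  set J := gramMatrix ω
  have hJ := (sesqui_sympForm (m := m) (F := F)).isUnit_det_gram Function.surjective_id
    isSymplecticForm_sympForm.nondegenerate
  set X : M2 := (g : M2)
  have h1 : Xᵀ * B * X.map σ = B := by
    have := hS.gram_transform X
    rw [show (fun u v => b (X *ᵥ u) (X *ᵥ v)) = b from funext₂ (hfix _ (coe_mem_matrixSet hg))] at this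
    exact this.symm
  have h2 : Xᵀ * J * X = J := by
    have := (sesqui_sympForm (m := m) (F := F)).gram_transform X
    rw [show (fun u v => ω (X *ᵥ u) (X *ᵥ v)) = ω from funext₂ (mem_spGL.1 (hP hg))] at this
    rw [show X.map (RingHom.id F) = X from Matrix.ext fun _ _ => rfl] at this
    exact this.symm
  have h3 : Xᵀ * (J * X * J⁻¹) = 1 := by
    rw [← mul_assoc, ← mul_assoc, h2, Matrix.mul_nonsing_inv _ hJ]
  have h4 : J * X * J⁻¹ * Xᵀ = 1 := mul_eq_one_comm.1 h3
  have h5 : B * X.map σ = J * X * J⁻¹ * B := by
    calc B * X.map σ = J * X * J⁻¹ * Xᵀ * (B * X.map σ) := by rw [h4, one_mul]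
      _ = J * X * J⁻¹ * (Xᵀ * B * X.map σ) := by simp only [mul_assoc]
      _ = _ := by rw [h1]
  have h6 : X.map σ = B⁻¹ * (J * X * J⁻¹ * B) := by
    rw [← h5, ← mul_assoc, Matrix.nonsing_inv_mul _ hB, one_mul]
  calc σ X.trace = (X.map σ).trace := by simp [Matrix.trace, map_sum]
    _ = X.trace := by
      rw [h6, Matrix.trace_mul_comm, mul_assoc, mul_assoc, mul_assoc, Matrix.trace_mul_comm,
        Matrix.mul_nonsing_inv _ hB, mul_one, mul_assoc, Matrix.nonsing_inv_mul _ hJ, mul_one]

set_option maxHeartbeats 800000 in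
/-- A two-group of symplectic isometries with few cosets of an abelian subgroup of exponent two. -/
theorem isOfMinusType_of_symp (hodd : Odd (Fintype.card F)) {k : ℕ} (hdim : 2 * m = 2 ^ k) {R : Subgroup (GL (Fin m ⊕ Fin m) F)}
    (hR : R ≤ Cfsg.spGL m F) (habs : ActsAbsolutelyIrreducibly (matrixSet R))
    (hcard : Nat.card R = 2 ^ (1 + 2 * k)) : IsOfMinusType k R := by
  classical
  intro A hA hsq
  by_contra hlt
  push Not at hlt
  have h2 := two_ne_zero_of_odd_card hodd
  have hAc : ∀ a ∈ A, ∀ b ∈ A, a * b = b * a := fun a ha b hb =>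
    congrArg Subtype.val (hA.is_comm.comm ⟨a, ha⟩ ⟨b, hb⟩)
  -- a common eigenvector
  have hev : ∀ s : Finset R, (∀ a ∈ s, a ∈ A) →
      ∃ v : V, v ≠ 0 ∧ ∀ a ∈ s, act (a : GL _ F) v = v ∨ act (a : GL _ F) v = -v := by
    intro s
    induction s using Finset.induction_on with
    | empty =>
      intro _
      exact ⟨Pi.single (Sum.inl ⟨0, by have := Nat.one_le_two_pow (n := k); omega⟩) 1, by simp, by simp⟩
    | @insert a s _ ih =>
      intro hs
      obtain ⟨v, hv, hsv⟩ := ih fun b hb => hs b (Finset.mem_insert_of_mem hb)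
      have ha := hs a (Finset.mem_insert_self a s)
      by_cases hav : act (a : GL _ F) v + v = 0
      · refine ⟨v, hv, fun b hb => ?_⟩
        rcases Finset.mem_insert.1 hb with rfl | hb
        · exact Or.inr (eq_neg_of_add_eq_zero_left hav)
        · exact hsv b hb
      · have haa : act (a : GL _ F) (act (a : GL _ F) v) = v := by
          rw [← act_mul, ← Subgroup.coe_mul, hsq a ha, Subgroup.coe_one, act_one]
        refine ⟨act (a : GL _ F) v + v, hav, fun b hb => ?_⟩
        rcases Finset.mem_insert.1 hb with rfl | hb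
        · left
          rw [show act (b : GL _ F) (act (b : GL _ F) v + v) = _ from Matrix.mulVec_add _ _ _]
          show act (b : GL _ F) (act (b : GL _ F) v) + act (b : GL _ F) v = _
          rw [haa, add_comm]
        · have hcomm : act (b : GL _ F) (act (a : GL _ F) v) = act (a : GL _ F) (act (b : GL _ F) v) := by
            rw [← act_mul, ← act_mul, ← Subgroup.coe_mul, ← Subgroup.coe_mul,
              hAc b (hs b (Finset.mem_insert_of_mem hb)) a ha]
          have e : act (b : GL _ F) (act (a : GL _ F) v + v) =
              act (a : GL _ F) (act (b : GL _ F) v) + act (b : GL _ F) v := by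
            rw [← hcomm]; exact Matrix.mulVec_add _ _ _
          rcases hsv b hb with h | h
          · left; rw [e, h]
          · right
            rw [e, h, show act (a : GL _ F) (-v) = -act (a : GL _ F) v from Matrix.mulVec_neg _ _, neg_add]
  haveI : Fintype R := Fintype.ofFinite R
  obtain ⟨v, hv, hAv⟩ := hev (Finset.univ.filter (· ∈ A)) (fun a ha => (Finset.mem_filter.1 ha).2)
  -- the lines in the orbit of `v`
  let S : Subgroup R :=
    { carrier := {a | act (a : GL _ F) v = v ∨ act (a : GL _ F) v = -v}
      one_mem' := Or.inl (act_one v)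
      mul_mem' := fun {a b} ha hb => by
        show act ((a : GL (Fin m ⊕ Fin m) F) * (b : GL (Fin m ⊕ Fin m) F)) v = v ∨
          act ((a : GL (Fin m ⊕ Fin m) F) * (b : GL (Fin m ⊕ Fin m) F)) v = -v
        rw [act_mul]
        have hn : act (a : GL _ F) (-v) = -act (a : GL _ F) v := Matrix.mulVec_neg _ _
        rcases ha with ha | ha <;> rcases hb with hb | hb <;> rw [hb] <;> simp [hn, ha]
      inv_mem' := fun {a} ha => by
        show act (a : GL _ F)⁻¹ v = v ∨ act (a : GL _ F)⁻¹ v = -v
        rcases ha with ha | ha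
        · left; conv_lhs => rw [← ha, act_inv_act]
        · right
          conv_lhs => rw [← neg_neg v, ← ha]
          rw [show act (a : GL _ F)⁻¹ (-act (a : GL _ F) v) = _ from Matrix.mulVec_neg _ _]
          exact congrArg Neg.neg (act_inv_act _ v) }
  have hAS : A ≤ S := fun a ha => hAv a (Finset.mem_filter.2 ⟨Finset.mem_univ a, ha⟩)
  haveI : Fintype (R ⧸ S) := Fintype.ofFinite _
  let w : R ⧸ S → V := fun q => act ((q.out : R) : GL _ F) v
  have hw : ∀ (a : R), act (a : GL _ F) v = w a ∨ act (a : GL _ F) v = -w a := by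
    intro a
    obtain ⟨s, hs⟩ := QuotientGroup.mk_out_eq_mul S a
    have hn : act (a : GL _ F) (-v) = -act (a : GL _ F) v := Matrix.mulVec_neg _ _
    simp only [w, hs, Subgroup.coe_mul, act_mul]
    rcases s.2 with h | h <;> rw [h]
    · exact Or.inl rfl
    · right; rw [hn, neg_neg]
  have hspan : Submodule.span F (Set.range w) = ⊤ := by
    refine (actsIrreducibly_iff.1 habs.1 _ fun g hg x hx => ?_).resolve_left fun h => ?_
    · induction hx using Submodule.span_induction with
      | mem x hx =>
        obtain ⟨q, rfl⟩ := hx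
        show act g (act _ v) ∈ _
        rw [← act_mul]
        rcases hw (⟨g, hg⟩ * q.out) with h | h
        · exact (show act (g * _) v = _ from h) ▸ Submodule.subset_span ⟨_, rfl⟩
        · exact (show act (g * _) v = _ from h) ▸ Submodule.neg_mem _ (Submodule.subset_span ⟨_, rfl⟩)
      | zero => rw [show act g 0 = 0 from Matrix.mulVec_zero _]; exact Submodule.zero_mem _
      | add x y _ _ hx hy =>
        rw [show act g (x + y) = act g x + act g y from Matrix.mulVec_add _ _ _]
        exact Submodule.add_mem _ hx hy
      | smul c x _ hx =>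
        rw [show act g (c • x) = c • act g x from Matrix.mulVec_smul _ _ _]
        exact Submodule.smul_mem _ _ hx
    · have h0 : w ((1 : R) : R ⧸ S) ∈ Submodule.span F (Set.range w) := Submodule.subset_span ⟨_, rfl⟩
      rw [h, Submodule.mem_bot] at h0
      exact act_ne_zero _ hv h0
  have hindex : Fintype.card (R ⧸ S) ≤ Module.finrank F V := by
    rw [Module.finrank_fintype_fun_eq_card, card_idx, hdim, ← Nat.card_eq_fintype_card]
    have h1 := Subgroup.card_eq_card_quotient_mul_card_subgroup S
    have h3 : 2 ^ (k + 1) ≤ Nat.card S := hlt.trans (Subgroup.card_le_of_le hAS)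
    rw [hcard] at h1
    by_contra hlt'
    push Not at hlt'
    have := Nat.mul_lt_mul_of_lt_of_le hlt' h3 Nat.card_pos
    rw [← pow_add, ← h1, show k + (k + 1) = 1 + 2 * k by ring] at this
    exact lt_irrefl _ this
  have hli : LinearIndependent F w := by
    rw [linearIndependent_iff_card_le_finrank_span, Set.finrank, hspan, finrank_top]
    exact hindex
  let B := Module.Basis.mk hli hspan.ge
  have hB : ∀ q, B q = w q := fun q => Module.Basis.mk_apply _ _ q
  let b : V → V → F := fun x y => ∑ q, B.repr x q * B.repr y q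
  have hb : IsBilinearForm b := by
    refine ⟨fun x y z => ?_, fun c x z => ?_, fun z x y => ?_, fun c z x => ?_⟩
    · simp only [b, map_add, Finsupp.add_apply, add_mul, Finset.sum_add_distrib]
    · simp only [b, map_smul, Finsupp.smul_apply, smul_eq_mul, mul_assoc, Finset.mul_sum]
    · simp only [b, map_add, Finsupp.add_apply, mul_add, Finset.sum_add_distrib]
    · simp only [b, map_smul, Finsupp.smul_apply, smul_eq_mul, Finset.mul_sum]
      exact Finset.sum_congr rfl fun q _ => mul_left_comm _ _ _
  have hfix : FixesForm (matrixSet R) b := by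
    rintro _ ⟨g, hg, rfl⟩ x y
    let g' : R := ⟨g, hg⟩
    let π : R ⧸ S ≃ R ⧸ S := MulAction.toPerm g'
    choose ε hε2 hεw using fun q : R ⧸ S => show ∃ ε : F, ε * ε = 1 ∧ act g (w q) = ε • w (π q) by
      have hq : π q = ((g' * q.out : R) : R ⧸ S) := by
        conv_lhs => rw [← QuotientGroup.out_eq' q]
        rfl
      rw [hq, show act g (w q) = act ((g' * q.out : R) : GL _ F) v from (act_mul _ _ _).symm]
      rcases hw (g' * q.out) with h | h
      · exact ⟨1, one_mul 1, by rw [h, one_smul]⟩
      · exact ⟨-1, by ring, by rw [h, neg_one_smul]⟩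
    have hrep : ∀ z q, B.repr (act g z) (π q) = ε q * B.repr z q := by
      intro z q
      conv_lhs => rw [← B.sum_repr z]
      rw [show act g (∑ p, B.repr z p • B p) = ∑ p, B.repr z p • act g (B p) by
        simp only [act, Matrix.mulVec_sum, Matrix.mulVec_smul]]
      simp only [hB, hεw]
      simp only [← hB, map_sum, map_smul, Finsupp.coe_finset_sum, Finset.sum_apply,
        Finsupp.smul_apply, Module.Basis.repr_self, Finsupp.single_apply, π.injective.eq_iff, smul_eq_mul,
        mul_ite, mul_one, mul_zero, Finset.sum_ite_eq', Finset.mem_univ, if_true]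
      ring
    show b (act g x) (act g y) = b x y
    simp only [b]
    rw [← π.sum_comp]
    refine Finset.sum_congr rfl fun q _ => ?_
    rw [hrep, hrep, mul_mul_mul_comm, hε2, one_mul]
  obtain ⟨c, hc⟩ := bilinear_multiple hR habs hb hfix
  have h := hc (B ((1 : R) : R ⧸ S)) (B ((1 : R) : R ⧸ S))
  rw [isSymplecticForm_sympForm.alternating, mul_zero] at h
  simp [b, Finsupp.single_apply] at h

end CfsgLib.SmallDim
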