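import Cfsg.Agent.Lib.SmallDim.PauliThree

/-!
The four-dimensional symplectic group over three elements: two totally isotropic planes and the unitary
subgroup reduce to other classes.
-/

set_option autoImplicit false
set_option linter.style.haveILetI false

namespace CfsgLib.SmallDim

open scoped MatrixGroups Matrix Kronecker
open Cfsg.Geo

variable {F : Type*} [Field F] [Fintype F]

/-- A Pauli group inside the symplectic group normalised by a maximal subgroup gives the normaliser class. -/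
theorem pauli_maximal {m : ℕ} (hq : Fintype.card F = 3) {k : ℕ} (hk : 2 ≤ k) (hdim : 2 * m = 2 ^ k)
    {H R : Subgroup (GL (Fin m ⊕ Fin m) F)} (hH : IsMaximalIn (Cfsg.spGL m F) H) (hR : IsPauli R)
    (hRsp : R ≤ Cfsg.spGL m F) (hle : H ≤ subgroupNormalizer R) :
    IsSymplecticTypeGroup 2 R ∧ ActsAbsolutelyIrreducibly (matrixSet R) ∧
      R ≤ similarityGroup (Cfsg.sympForm m F) ∧ Nat.card R = 2 ^ (1 + 2 * k) ∧
      Nat.card (Subgroup.center R) = 2 ∧ IsOfMinusType k R ∧ H = subgroupNormalizer R ⊓ Cfsg.spGL m F := by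
  have hodd : Odd (Fintype.card F) := by rw [hq]; decide
  have h2 := two_ne_zero_of_odd_card hodd
  have hns := fun c : F => no_root_neg_one hq c
  have hdim' : Fintype.card (Fin m ⊕ Fin m) = 2 ^ k := card_idx.trans hdim
  have hne : ((Fintype.card (Fin m ⊕ Fin m) : ℕ) : F) ≠ 0 := by
    rw [hdim']; push_cast; exact pow_ne_zero _ h2
  have h4 : 4 ≤ 2 * m := by
    have := Nat.pow_le_pow_right (show 1 ≤ 2 by omega) hk
    omega
  have hn : 1 < Fintype.card (Fin m ⊕ Fin m) := by rw [card_idx]; omega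
  have hG := hR.symplGen h2 hne hns hk hdim'
  have hcard : Nat.card R = 2 ^ (1 + 2 * k) := by
    rw [hR.card_eq hn h2 hne hns, hdim']; ring
  have hz := hR.card_center hn h2 hns
  refine ⟨hR.sympType h2 hne hns hk hdim', hR.absIrred, fun g hg => ⟨1, fun u v => ?_⟩, hcard, hz,
    isOfMinusType_of_symp hodd hdim hRsp hR.absIrred hcard,
    IsMaximalIn.eq_inf hH hle (sp_not_le_subgroupNormalizer hodd (by omega) hG hRsp hz)⟩
  rw [Units.val_one, one_mul]
  exact mem_spGL.1 (hRsp hg) u v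

local notation "V" => (Fin 2 ⊕ Fin 2 → F)
local notation "M4" => Matrix (Fin 2 ⊕ Fin 2) (Fin 2 ⊕ Fin 2) F
local notation "ω" => Cfsg.sympForm 2 F

omit [Fintype F] in
/-- Two totally isotropic planes over three elements refine to two orthogonal planes. -/
theorem planes_three [Fintype F] (hq : Fintype.card F = 3) {H : Subgroup (GL (Fin 2 ⊕ Fin 2) F)}
    (hH : H ≤ Cfsg.spGL 2 F) {D : Fin 2 → Submodule F V} (hD : IsMDecomposition 2 D)
    (hts : ∀ i, IsTotallySingularFor ω (D i)) (hle : H ≤ decompositionStabilizer D) :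
    ∃ D' : Fin 2 → Submodule F V, IsNondegenerateMDecomposition ω 2 D' ∧ H ≤ decompositionStabilizer D' := by
  classical
  have hodd : Odd (Fintype.card F) := by rw [hq]; decide
  have h2 := two_ne_zero_of_odd_card hodd
  have hf := isSymplecticForm_sympForm (m := 2) (F := F)
  have hS := sesqui_sympForm (m := 2) (F := F)
  have hdis : ∀ x ∈ D 0, x ∈ D 1 → x = 0 :=
    Submodule.disjoint_def.1 (hD.indep.pairwiseDisjoint (by decide : (0 : Fin 2) ≠ 1))
  have hdec : ∀ v : V, ∃ x ∈ D 0, ∃ y ∈ D 1, v = x + y := by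
    intro v
    have hv : v ∈ D 0 ⊔ D 1 := by
      have h : ⨆ i, D i ≤ D 0 ⊔ D 1 := iSup_le fun i => by
        fin_cases i
        · exact le_sup_left
        · exact le_sup_right
      exact h (hD.iSup_eq_top ▸ Submodule.mem_top)
    obtain ⟨x, hx, y, hy, h⟩ := Submodule.mem_sup.1 hv
    exact ⟨x, hx, y, hy, h.symm⟩
  -- vectors pairing to one
  have hpair : ∀ (i j : Fin 2), i ≠ j → ∀ u ∈ D i, u ≠ 0 → ∃ v ∈ D j, ω u v = 1 := by
    intro i j hij u hu hu0
    obtain ⟨v, hv⟩ := (hf.nondegenerate u hu0).2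
    obtain ⟨x, hx, y, hy, rfl⟩ := hdec v
    rw [hf.bilinear.add_right] at hv
    have key : ∀ z ∈ D j, ω u z ≠ 0 → ∃ v ∈ D j, ω u v = 1 := fun z hz hne =>
      ⟨(ω u z)⁻¹ • z, Submodule.smul_mem _ _ hz, by rw [hf.bilinear.smul_right, inv_mul_cancel₀ hne]⟩
    fin_cases i <;> fin_cases j
    · exact absurd rfl hij
    · rw [hts 0 u hu x hx, zero_add] at hv; exact key y hy hv
    · rw [hts 1 u hu y hy, add_zero] at hv; exact key x hx hv
    · exact absurd rfl hij
  obtain ⟨a, ha, ha0⟩ : ∃ a ∈ D 0, a ≠ 0 := (Submodule.ne_bot_iff _).1 fun h => by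
    have := hD.finrank_eq 0
    rw [h, finrank_bot] at this
    omega
  obtain ⟨d, hd, had⟩ := hpair 0 1 (by decide) a ha ha0
  obtain ⟨b, hb, hb0, hab⟩ : ∃ b ∈ D 1, b ≠ 0 ∧ ω a b = 0 := by
    let φ : D 1 →ₗ[F] F :=
      { toFun := fun z => ω a z
        map_add' := fun z z' => by rw [Submodule.coe_add, hf.bilinear.add_right]
        map_smul' := fun c z => by rw [Submodule.coe_smul, hf.bilinear.smul_right, RingHom.id_apply, smul_eq_mul] }
    have hker : LinearMap.ker φ ≠ ⊥ := fun h => by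
      have h' := LinearMap.finrank_le_finrank_of_injective (LinearMap.ker_eq_bot.1 h)
      rw [hD.finrank_eq, Module.finrank_self] at h'
      omega
    obtain ⟨z, hz, hz0⟩ := (Submodule.ne_bot_iff _).1 hker
    exact ⟨z, z.2, fun h => hz0 (Subtype.ext h), hz⟩
  obtain ⟨c₀, hc₀, hbc₀⟩ := hpair 1 0 (by decide) b hb hb0
  set c := c₀ + ω d c₀ • a
  have hc : c ∈ D 0 := Submodule.add_mem _ hc₀ (Submodule.smul_mem _ _ ha)
  have hbc : ω b c = 1 := by
    rw [hf.bilinear.add_right, hf.bilinear.smul_right, hf.skew b a, hab, neg_zero, mul_zero, add_zero, hbc₀]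
  have hdc : ω d c = 0 := by
    rw [hf.bilinear.add_right, hf.bilinear.smul_right, hf.skew d a, had]; ring
  let G : Matrix (Fin 2) (Fin 2) F := !![0, 1; 1, 0]
  let J : Matrix (Fin 2) (Fin 2) F := !![1, 0; 0, -1]
  let u : Fin 2 × Fin 2 → V := fun p => (![![a, b], ![c, d]] p.1) p.2
  have hu0 : ∀ i, u (i, 0) ∈ D 0 := fun i => by fin_cases i <;> simp [u, ha, hc]
  have hu1 : ∀ i, u (i, 1) ∈ D 1 := fun i => by fin_cases i <;> simp [u, hb, hd]
  have hdetG : G.det ≠ 0 := by simp [G, Matrix.det_fin_two]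
  have hX : ((altTwo : Matrix (Fin 2) (Fin 2) F) ⊗ₖ G).det ≠ 0 := by
    rw [Matrix.det_kronecker, det_altTwo]
    exact mul_ne_zero (pow_ne_zero _ one_ne_zero) (pow_ne_zero _ hdetG)
  have hac : ω a c = 0 := hts 0 a ha c hc
  have hbd : ω b d = 0 := hts 1 b hb d hd
  have hgram : ∀ p q, ω (u p) (u q) = ((altTwo : Matrix (Fin 2) (Fin 2) F) ⊗ₖ G) p q := by
    rintro ⟨i, k⟩ ⟨j, l⟩
    fin_cases i <;> fin_cases k <;> fin_cases j <;> fin_cases l <;>
      simp [u, G, altTwo, hab, had, hbc, hdc, hac, hbd, hf.alternating, hf.skew b a, hf.skew c a, hf.skew d a,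
        hf.skew c b, hf.skew d b, hf.skew c d]
  obtain ⟨P, hcol, hP⟩ := exists_coordinates (Fintype.equivOfCardEq (by simp)) u hX hgram
  set e : (Fin 2 ⊕ Fin 2) ≃ Fin 2 × Fin 2 := Fintype.equivOfCardEq (by simp)
  set M : M4 := (P : M4) * Matrix.reindex e.symm e.symm ((1 : Matrix (Fin 2) (Fin 2) F) ⊗ₖ J) *
    ((P⁻¹ : GL (Fin 2 ⊕ Fin 2) F) : M4) with hM
  have hMu : ∀ p, M *ᵥ u p = (if p.2 = 0 then (1 : F) else -1) • u p := by
    intro p
    rw [← hcol p, hM]
    simp only [← Matrix.mulVec_mulVec]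
    rw [Matrix.mulVec_mulVec _ ((P⁻¹ : GL _ F) : M4) (P : M4), Units.inv_mul, Matrix.one_mulVec,
      ← Matrix.mulVec_smul]
    congr 1
    funext x
    obtain ⟨i, k⟩ := p
    simp only [Matrix.mulVec, dotProduct, Function.comp_apply, Pi.smul_apply]
    rw [← Equiv.sum_comp e.symm]
    simp only [Matrix.reindex_apply, Matrix.submatrix_apply, Equiv.symm_symm, Equiv.apply_symm_apply]
    obtain ⟨i', k'⟩ := e x
    fin_cases i <;> fin_cases k <;> fin_cases i' <;> fin_cases k' <;>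
      simp [J, Fintype.sum_prod_type, Fin.sum_univ_two]
  have hdec4 : ∀ v : V, ∃ z : Fin 2 × Fin 2 → F, v = ∑ p, z p • u p := by
    intro v
    refine ⟨coordMap e P v, ?_⟩
    conv_lhs => rw [← point_coordMap e P v]
    simp only [← hcol, ← Matrix.mulVec_smul, ← Matrix.mulVec_sum]
    congr 1
    funext x
    simp [Finset.sum_apply, Pi.single_apply]
  have hMD : ∀ (k : Fin 2), ∀ v ∈ D k, M *ᵥ v = (if k = 0 then (1 : F) else -1) • v := by
    intro k v hv
    obtain ⟨z, hz⟩ := hdec4 v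
    have h0 : z (0, 0) • u (0, 0) + z (1, 0) • u (1, 0) ∈ D 0 :=
      Submodule.add_mem _ (Submodule.smul_mem _ _ (hu0 0)) (Submodule.smul_mem _ _ (hu0 1))
    have h1 : z (0, 1) • u (0, 1) + z (1, 1) • u (1, 1) ∈ D 1 :=
      Submodule.add_mem _ (Submodule.smul_mem _ _ (hu1 0)) (Submodule.smul_mem _ _ (hu1 1))
    set x := z (0, 0) • u (0, 0) + z (1, 0) • u (1, 0) with hx
    set y := z (0, 1) • u (0, 1) + z (1, 1) • u (1, 1) with hy
    have hv' : v = x + y := by
      rw [hz, Fintype.sum_prod_type, Fin.sum_univ_two, Fin.sum_univ_two, Fin.sum_univ_two]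
      simp only [x, y]; abel
    have hMv : M *ᵥ v = x - y := by
      rw [hv', hx, hy]
      simp only [Matrix.mulVec_add, Matrix.mulVec_smul, hMu]
      simp
      abel
    fin_cases k
    · have : y = 0 := hdis y (by
        have : y = v - x := by rw [hv']; abel
        rw [this]; exact Submodule.sub_mem _ hv h0) h1
      rw [hMv, hv', this]; simp
    · have : x = 0 := hdis x h0 (by
        have : x = v - y := by rw [hv']; abel
        rw [this]; exact Submodule.sub_mem _ hv h1)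
      rw [hMv, hv', this]; simp
  have hconj : ∀ g ∈ H, ∃ ε : F, (ε = 1 ∨ ε = -1) ∧ (g : M4) * M = ε • (M * (g : M4)) := by
    intro g hg
    obtain ⟨σ, hσ⟩ := hle hg
    refine ⟨if σ 0 = 0 then 1 else -1, by split <;> simp, ?_⟩
    have hσinj : σ 0 ≠ σ 1 := fun h => absurd (σ.injective h) (by decide)
    apply Matrix.toLin'.injective
    refine LinearMap.ext fun v => ?_
    simp only [Matrix.toLin'_apply, Matrix.smul_mulVec, ← Matrix.mulVec_mulVec]
    obtain ⟨x, hx, y, hy, rfl⟩ := hdec v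
    have hgx : (g : M4) *ᵥ x ∈ D (σ 0) := hσ 0 ▸ ⟨x, hx, Matrix.toLin'_apply _ _⟩
    have hgy : (g : M4) *ᵥ y ∈ D (σ 1) := hσ 1 ▸ ⟨y, hy, Matrix.toLin'_apply _ _⟩
    simp only [Matrix.mulVec_add, hMD 0 x hx, hMD 1 y hy, hMD _ _ hgx, hMD _ _ hgy, Matrix.mulVec_smul,
      smul_add, smul_smul]
    generalize σ 0 = p, σ 1 = q at hσinj
    fin_cases p <;> fin_cases q <;> first | exact absurd rfl hσinj | simp
  have hR : (Matrix.GeneralLinearGroup.mkOfDetNeZero G hdetG : Matrix (Fin 2) (Fin 2) F) = G := rfl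
  have hten : H ≤ tensorProductSubgroup 2 2 e P :=
    le_tensor_of_sqrt h2 hH hP (by ext i j; fin_cases i <;> fin_cases j <;> simp [G]) hdetG one_ne_zero
      (by ext i j; fin_cases i <;> fin_cases j <;> simp [J, Matrix.mul_apply, Fin.sum_univ_two])
      (by ext i j; fin_cases i <;> fin_cases j <;> simp [G, J, Matrix.mul_apply, Fin.sum_univ_two])
      (Matrix.GeneralLinearGroup.mkOfDetNeZero G hdetG) one_ne_zero
      (by rw [hR]; ext i j; fin_cases i <;> fin_cases j <;> simp [G, J, Matrix.mul_apply, Fin.sum_univ_two])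
      (by rw [hR]; ext i j; fin_cases i <;> fin_cases j <;> simp [G, Matrix.mul_apply, Fin.sum_univ_two])
      hconj
  let Z : Matrix (Fin 2) (Fin 2) F := !![1, 1; 1, -1]
  have hZ : Z.det ≠ 0 := by
    simp [Z, Matrix.det_fin_two]
    intro h; exact h2 (by linear_combination -h)
  refine frame_decomposition hH (by norm_num) le_rfl hten (by rw [det_altTwo]; exact isUnit_one)
    (fun h => hdetG (by rw [h]; simp)) hP (Matrix.GeneralLinearGroup.mkOfDetNeZero Z hZ) ![2, -2]
    (fun j => by fin_cases j <;> simp [h2]) ?_ ?_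
  · show Zᵀ * G * Z = _
    ext i j
    fin_cases i <;> fin_cases j <;> simp [Z, G, Matrix.mul_apply, Fin.sum_univ_two] <;> ring
  intro g μ hμ hg
  set B := (g : Matrix (Fin 2) (Fin 2) F)
  have q00 := congrFun (congrFun hg 0) 0
  have q01 := congrFun (congrFun hg 0) 1
  have q11 := congrFun (congrFun hg 1) 1
  simp [G, Matrix.mul_apply, Fin.sum_univ_two] at q00 q01 q11
  have p0 : B 0 0 = 0 ∨ B 1 0 = 0 :=
    mul_eq_zero.1 ((mul_eq_zero.1 (show (2 : F) * (B 0 0 * B 1 0) = 0 by linear_combination q00)).resolve_left h2)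
  have p1 : B 0 1 = 0 ∨ B 1 1 = 0 :=
    mul_eq_zero.1 ((mul_eq_zero.1 (show (2 : F) * (B 0 1 * B 1 1) = 0 by linear_combination q11)).resolve_left h2)
  have hpm : ∀ s t : F, s ≠ 0 → t ≠ 0 → t = s ∨ t = -s := fun s t hs ht => by
    rcases (three_elements hq s).resolve_left hs with rfl | rfl <;>
      rcases (three_elements hq t).resolve_left ht with rfl | rfl <;> simp
  show ∃ π : Equiv.Perm (Fin 2), ∀ j, ∃ s : F, B *ᵥ (Z *ᵥ Pi.single j 1) = s • (Z *ᵥ Pi.single (π j) 1)
  have hdiag : (B 0 1 = 0 ∧ B 1 0 = 0 ∧ B 0 0 ≠ 0 ∧ B 1 1 ≠ 0) ∨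
      (B 0 0 = 0 ∧ B 1 1 = 0 ∧ B 0 1 ≠ 0 ∧ B 1 0 ≠ 0) := by
    rcases p0 with p0 | p0
    · have hb10 : B 1 0 ≠ 0 := fun h => hμ (by rw [p0, h] at q01; linear_combination -q01)
      have hb01 : B 0 1 ≠ 0 := fun h => hμ (by rw [p0, h] at q01; linear_combination -q01)
      exact Or.inr ⟨p0, p1.resolve_left hb01, hb01, hb10⟩
    · have hb00 : B 0 0 ≠ 0 := fun h => hμ (by rw [p0, h] at q01; linear_combination -q01)
      have hb11 : B 1 1 ≠ 0 := fun h => hμ (by rw [p0, h] at q01; linear_combination -q01)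
      exact Or.inl ⟨p1.resolve_right hb11, p0, hb00, hb11⟩
  rcases hdiag with ⟨z0, z1, n0, n1⟩ | ⟨z0, z1, n0, n1⟩
  · rcases hpm _ _ n0 n1 with h | h
    · refine ⟨1, fun j => ⟨B 0 0, ?_⟩⟩
      funext i
      fin_cases i <;> fin_cases j <;> simp [Z, Matrix.mulVec, dotProduct, Fin.sum_univ_two, z0, z1, h]
    · refine ⟨Equiv.swap 0 1, fun j => ⟨B 0 0, ?_⟩⟩
      funext i
      fin_cases i <;> fin_cases j <;> simp [Z, Matrix.mulVec, dotProduct, Fin.sum_univ_two, z0, z1, h]
  · rcases hpm _ _ n0 n1 with h | h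
    · refine ⟨1, fun j => ⟨if j = 0 then B 0 1 else -B 0 1, ?_⟩⟩
      funext i
      fin_cases i <;> fin_cases j <;> simp [Z, Matrix.mulVec, dotProduct, Fin.sum_univ_two, z0, z1, h]
    · refine ⟨Equiv.swap 0 1, fun j => ⟨if j = 0 then B 0 1 else -B 0 1, ?_⟩⟩
      funext i
      fin_cases i <;> fin_cases j <;> simp [Z, Matrix.mulVec, dotProduct, Fin.sum_univ_two, z0, z1, h]

omit [Fintype F] in
/-- The unitary subgroup over three elements normalises a group of symplectic type. -/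
theorem unitary_three [Fintype F] (hq : Fintype.card F = 3) {H : Subgroup (GL (Fin 2 ⊕ Fin 2) F)}
    (hH : H ≤ Cfsg.spGL 2 F) {K : Subalgebra F M4} (hK : IsFieldSubalgebra 2 K) (hadj : IsAdjointClosedFor ω K)
    (hnsa : ¬ IsSelfAdjointFor ω K) (hle : H ≤ subalgebraNormalizer K) :
    ∃ R : Subgroup (GL (Fin 2 ⊕ Fin 2) F), IsPauli R ∧ R ≤ Cfsg.spGL 2 F ∧ H ≤ subgroupNormalizer R := by
  classical
  have hodd : Odd (Fintype.card F) := by rw [hq]; decide
  have h2 := two_ne_zero_of_odd_card hodd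
  have hns := fun c : F => no_root_neg_one hq c
  have hf := isSymplecticForm_sympForm (m := 2) (F := F)
  have hS := sesqui_sympForm (m := 2) (F := F)
  have hsubl : ∀ x y z : V, ω (x - y) z = ω x z - ω y z := fun x y z => by
    rw [sub_eq_add_neg, ← neg_one_smul F y, hf.bilinear.add_left, hf.bilinear.smul_left]; ring
  have hsubr : ∀ x y z : V, ω x (y - z) = ω x y - ω x z := fun x y z => by
    rw [sub_eq_add_neg, ← neg_one_smul F z, hf.bilinear.add_right, hf.bilinear.smul_right]; ring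
  have hmext : ∀ X Y : M4, (∀ u v, ω u (X *ᵥ v) = ω u (Y *ᵥ v)) → X = Y := by
    intro X Y h
    refine Matrix.toLin'.injective (LinearMap.ext fun v => ?_)
    rw [Matrix.toLin'_apply, Matrix.toLin'_apply, ← sub_eq_zero]
    by_contra hne
    obtain ⟨w, hw⟩ := (hf.nondegenerate _ hne).1
    exact hw (by rw [hsubr, h, sub_self])
  -- a skew element squaring to minus one
  obtain ⟨M, hMK, hskew, hM2⟩ :
      ∃ M ∈ K, (∀ u v, ω (M *ᵥ u) v = -ω u (M *ᵥ v)) ∧ M * M = -1 := by
    obtain ⟨k, hk, hne⟩ : ∃ k ∈ K, ¬ ∀ u v, ω (k *ᵥ u) v = ω u (k *ᵥ v) := by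
      by_contra hall
      push Not at hall
      exact hnsa hall
    obtain ⟨k', hk', hadjk⟩ := hadj k hk
    set M := k - k'
    have hMK : M ∈ K := sub_mem hk hk'
    have hskew : ∀ u v, ω (M *ᵥ u) v = -ω u (M *ᵥ v) := by
      intro u v
      have e1 := hadjk u v
      have e2 := hadjk v u
      rw [hf.skew (k *ᵥ v) u, hf.skew v (k' *ᵥ u), neg_inj] at e2
      simp only [M, Matrix.sub_mulVec, hsubl, hsubr]
      linear_combination e1 + e2
    have hM0 : M ≠ 0 := fun h => hne fun u v => by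
      rw [show k = k' from sub_eq_zero.1 h, ← hadjk, show k = k' from sub_eq_zero.1 h]
    refine ⟨M, hMK, hskew, ?_⟩
    have hscal : ∀ c : F, M ≠ c • 1 := by
      intro c hc
      apply hM0
      have h := hmext M (-M) fun u v => by
        rw [Matrix.neg_mulVec, ← neg_one_smul F (M *ᵥ v), hf.bilinear.smul_right, neg_one_mul, ← hskew]
        rw [hc]; simp only [Matrix.smul_mulVec, Matrix.one_mulVec, hf.bilinear.smul_left, hf.bilinear.smul_right]
      have : (2 : F) • M = 0 := by rw [two_smul]; nth_rewrite 2 [h]; exact add_neg_cancel M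
      exact (smul_eq_zero.1 this).resolve_left h2
    have hli : LinearIndependent F ![(⟨1, K.one_mem⟩ : K), ⟨M, hMK⟩] := by
      rw [LinearIndependent.pair_iff]
      intro s t h
      have h' : s • (1 : M4) + t • M = 0 := congrArg Subtype.val h
      by_cases ht : t = 0
      · subst ht
        rw [zero_smul, add_zero] at h'
        exact ⟨(smul_eq_zero.1 h').resolve_right one_ne_zero, rfl⟩
      · refine absurd ?_ (hscal (-(t⁻¹ * s)))
        calc M = t⁻¹ • (s • (1 : M4) + t • M) - (t⁻¹ * s) • 1 := by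
              rw [smul_add, smul_smul, smul_smul, inv_mul_cancel₀ ht, one_smul]; abel
          _ = _ := by rw [h', smul_zero, zero_sub, neg_smul]
    have hspan : ∀ x ∈ K, ∃ s t : F, x = s • (1 : M4) + t • M := by
      intro x hx
      have hb := hli.span_eq_top_of_card_eq_finrank (by rw [Fintype.card_fin, hK.finrank_eq])
      have hx' : (⟨x, hx⟩ : K) ∈ Submodule.span F (Set.range ![(⟨1, K.one_mem⟩ : K), ⟨M, hMK⟩]) :=
        hb ▸ Submodule.mem_top
      obtain ⟨c, hc⟩ := Submodule.mem_span_range_iff_exists_fun (R := F) |>.1 hx'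
      rw [Fin.sum_univ_two] at hc
      exact ⟨c 0, c 1, (congrArg Subtype.val hc).symm⟩
    obtain ⟨s, t, hst⟩ := hspan (M * M) (mul_mem hMK hMK)
    have hsa : ∀ u v, ω ((M * M) *ᵥ u) v = ω u ((M * M) *ᵥ v) := fun u v => by
      rw [← Matrix.mulVec_mulVec, ← Matrix.mulVec_mulVec, hskew, hskew, neg_neg]
    have ht : t = 0 := by
      by_contra ht
      apply hM0
      have h := hmext M (-M) fun u v => by
        have h' := hsa u v
        simp only [hst, Matrix.add_mulVec, Matrix.smul_mulVec, Matrix.one_mulVec, hf.bilinear.add_left,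
          hf.bilinear.add_right, hf.bilinear.smul_left, hf.bilinear.smul_right, hskew] at h'
        rw [Matrix.neg_mulVec, ← neg_one_smul F (M *ᵥ v), hf.bilinear.smul_right]
        exact mul_left_cancel₀ ht (by linear_combination -h')
      have : (2 : F) • M = 0 := by rw [two_smul]; nth_rewrite 2 [h]; exact add_neg_cancel M
      exact (smul_eq_zero.1 this).resolve_left h2
    rw [ht, zero_smul, add_zero] at hst
    rcases three_elements hq s with rfl | rfl | rfl
    · exfalso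
      obtain ⟨y, -, hy⟩ := hK.inv M hMK hM0
      exact hM0 (by rw [← mul_one M, ← hy, ← mul_assoc, hst, zero_smul, zero_mul])
    · exfalso
      rw [one_smul] at hst
      by_cases h1 : M - 1 = 0
      · exact hscal 1 (by rw [one_smul]; exact sub_eq_zero.1 h1)
      obtain ⟨y, hy', hy⟩ := hK.inv (M - 1) (sub_mem hMK K.one_mem) h1
      refine hscal (-1) ?_
      rw [neg_one_smul, ← add_eq_zero_iff_eq_neg]
      calc M + 1 = (M + 1) * ((M - 1) * y) := by rw [hy, mul_one]
        _ = (M + 1) * (M - 1) * y := (mul_assoc _ _ _).symm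
        _ = 0 := by rw [show (M + 1) * (M - 1) = 0 by rw [mul_sub, mul_one, add_mul, one_mul, hst]; abel, zero_mul]
    · rw [hst, neg_one_smul]
  have hMM : ∀ v : V, M *ᵥ (M *ᵥ v) = -v := fun v => by
    rw [Matrix.mulVec_mulVec, hM2, Matrix.neg_mulVec, Matrix.one_mulVec]
  have hneg : ∀ u v : V, ω u (-v) = -ω u v := fun u v => by
    rw [← neg_one_smul F v, hf.bilinear.smul_right, neg_one_mul]
  have hnegl : ∀ u v : V, ω (-u) v = -ω u v := fun u v => by rw [hf.skew, hneg, hf.skew v u, neg_neg]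
  have hMM' : ∀ u v : V, ω (M *ᵥ u) (M *ᵥ v) = ω u v := fun u v => by rw [hskew, hMM, hneg, neg_neg]
  have hsym : ∀ u v : V, ω u (M *ᵥ v) = ω v (M *ᵥ u) := fun u v => by rw [hf.skew u, hskew, neg_neg]
  -- an isotropic vector
  obtain ⟨v, hv0, hvv⟩ : ∃ v : V, v ≠ 0 ∧ ω v (M *ᵥ v) = 0 := by
    have hne : (Pi.single (Sum.inl 0) 1 : V) ≠ 0 := by simp
    obtain ⟨v₀, hv₀⟩ : ∃ v₀ : V, v₀ ≠ 0 := ⟨_, hne⟩
    by_cases h0 : ω v₀ (M *ᵥ v₀) = 0
    · exact ⟨v₀, hv₀, h0⟩
    let φ : V →ₗ[F] F × F := LinearMap.prod (hS.lf v₀) (hS.lf (M *ᵥ v₀))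
    have hker : LinearMap.ker φ ≠ ⊥ := fun h => by
      have h' := LinearMap.finrank_le_finrank_of_injective (LinearMap.ker_eq_bot.1 h)
      rw [Module.finrank_fintype_fun_eq_card, Module.finrank_prod, Module.finrank_self] at h'
      simp at h'
    obtain ⟨u, hu, hu0⟩ := (Submodule.ne_bot_iff _).1 hker
    have hu1 : ω u v₀ = 0 := congrArg Prod.fst hu
    have hu2 : ω u (M *ᵥ v₀) = 0 := congrArg Prod.snd hu
    by_cases hu' : ω u (M *ᵥ u) = 0
    · exact ⟨u, hu0, hu'⟩
    have hx : ω v₀ (M *ᵥ u) = 0 := by rw [hsym]; exact hu2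
    rcases three_elements hq (ω v₀ (M *ᵥ v₀) + ω u (M *ᵥ u)) with hs | hs
    · refine ⟨v₀ + u, fun h => h0 ?_, ?_⟩
      · rw [eq_neg_of_add_eq_zero_left h, Matrix.mulVec_neg, hneg, hnegl, neg_neg]
        exfalso
        apply hu'
        have := congrArg (fun w => ω w (M *ᵥ u)) h
        simp only [hf.bilinear.add_left, hx, zero_add, hS.zero_left] at this
        exact this
      · rw [Matrix.mulVec_add, hf.bilinear.add_left, hf.bilinear.add_right, hf.bilinear.add_right, hx, hu2]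
        linear_combination hs
    · have heq : ω u (M *ᵥ u) = ω v₀ (M *ᵥ v₀) := by
        rcases (three_elements hq (ω v₀ (M *ᵥ v₀))).resolve_left h0 with h | h <;>
          rcases (three_elements hq (ω u (M *ᵥ u))).resolve_left hu' with h' | h' <;> rw [h, h'] <;>
          rw [h, h'] at hs <;> rcases hs with hs | hs <;>
          first | rfl | exact absurd (show (1 : F) = 0 by linear_combination -hs) one_ne_zero
                | exact absurd (show (1 : F) = 0 by linear_combination hs) one_ne_zero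
      refine ⟨v₀ + (u + M *ᵥ u), fun h => h0 ?_, ?_⟩
      · have := congrArg (fun w => ω w (M *ᵥ v₀)) h
        simp only [hf.bilinear.add_left, hu2, hMM', hu1, add_zero, hS.zero_left] at this
        exact this
      · simp only [Matrix.mulVec_add, hMM, hf.bilinear.add_left, hf.bilinear.add_right, hneg, hu2, hx, hMM',
          hu1, hf.skew v₀ u, hskew u u, hf.alternating]
        linear_combination (2 : F) * heq + (ω v₀ (M *ᵥ v₀)) * three_eq_zero hq
  -- its partner
  obtain ⟨w₁, hvw₁, hMvw₁⟩ : ∃ w : V, ω v w = 1 ∧ ω (M *ᵥ v) w = 0 := by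
    obtain ⟨w₀, hw₀⟩ := (hf.nondegenerate v hv0).2
    set s := ω v w₀
    set t := ω v (M *ᵥ w₀) with ht
    have hst : s * s + t * t ≠ 0 := fun h => hns (t / s) (by field_simp; linear_combination h)
    refine ⟨(s / (s * s + t * t)) • w₀ + (t / (s * s + t * t)) • (M *ᵥ w₀), ?_, ?_⟩
    · rw [hf.bilinear.add_right, hf.bilinear.smul_right, hf.bilinear.smul_right, ← ht,
        show ω v w₀ = s from rfl, div_mul_eq_mul_div, div_mul_eq_mul_div, ← add_div, div_self hst]
    · rw [hf.bilinear.add_right, hf.bilinear.smul_right, hf.bilinear.smul_right, hskew, hMM', ← ht]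
      field_simp
      ring
  set w := w₁ + (-(ω w₁ (M *ᵥ w₁)) / 2) • (M *ᵥ v) with hw
  have hvw : ω v w = 1 := by
    rw [hw, hf.bilinear.add_right, hf.bilinear.smul_right, hvv, mul_zero, add_zero, hvw₁]
  have hMvw : ω (M *ᵥ v) w = 0 := by
    rw [hw, hf.bilinear.add_right, hf.bilinear.smul_right, hf.alternating, mul_zero, add_zero, hMvw₁]
  have hvMw : ω v (M *ᵥ w) = 0 := by
    have := hskew v w
    rw [hMvw] at this
    linear_combination this
  have hww : ω w (M *ᵥ w) = 0 := by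
    have e1 : ω (M *ᵥ v) (M *ᵥ w₁) = 1 := by rw [hMM', hvw₁]
    have e2 : ω w₁ v = -1 := by rw [hf.skew, hvw₁]
    simp only [hw, Matrix.mulVec_add, Matrix.mulVec_smul, hMM, hf.bilinear.add_left, hf.bilinear.add_right,
      hf.bilinear.smul_left, hf.bilinear.smul_right, hneg, e1, e2, hskew v v, hvv]
    field_simp
    ring
  let J : Matrix (Fin 2) (Fin 2) F := !![0, -1; 1, 0]
  let R₂ : Matrix (Fin 2) (Fin 2) F := !![1, 0; 0, -1]
  let u : Fin 2 × Fin 2 → V := fun p => (![![v, M *ᵥ v], ![w, M *ᵥ w]] p.1) p.2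
  have hX : ((altTwo : Matrix (Fin 2) (Fin 2) F) ⊗ₖ (1 : Matrix (Fin 2) (Fin 2) F)).det ≠ 0 := by
    rw [Matrix.det_kronecker, det_altTwo, Matrix.det_one]
    simp
  have hgram : ∀ p q, ω (u p) (u q) =
      ((altTwo : Matrix (Fin 2) (Fin 2) F) ⊗ₖ (1 : Matrix (Fin 2) (Fin 2) F)) p q := by
    rintro ⟨i, k⟩ ⟨j, l⟩
    fin_cases i <;> fin_cases k <;> fin_cases j <;> fin_cases l <;>
      simp [u, altTwo, hvv, hvw, hMvw, hvMw, hww, hMM', hf.alternating, hf.skew w v, hf.skew w (M *ᵥ v),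
        hf.skew (M *ᵥ w) v, hskew v v, hskew w w]
  obtain ⟨P, hcol, hP⟩ := exists_coordinates (Fintype.equivOfCardEq (by simp)) u hX hgram
  set e : (Fin 2 ⊕ Fin 2) ≃ Fin 2 × Fin 2 := Fintype.equivOfCardEq (by simp)
  have hMP : M * (P : M4) = (P : M4) * Matrix.reindex e.symm e.symm ((1 : Matrix (Fin 2) (Fin 2) F) ⊗ₖ J) := by
    refine Matrix.ext_of_mulVec_single fun x => ?_
    have hx : (Pi.single x 1 : V) = Pi.single (e x) 1 ∘ e := by
      funext y
      by_cases hy : y = x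
      · subst hy; simp
      · simp [Pi.single_eq_of_ne hy, Pi.single_eq_of_ne (e.injective.ne hy)]
    rw [← Matrix.mulVec_mulVec, ← Matrix.mulVec_mulVec, hx, hcol]
    generalize e x = p
    have hlin : (P : M4) *ᵥ (Matrix.reindex e.symm e.symm ((1 : Matrix (Fin 2) (Fin 2) F) ⊗ₖ J) *ᵥ
        (Pi.single p 1 ∘ e)) = J 0 p.2 • u (p.1, 0) + J 1 p.2 • u (p.1, 1) := by
      rw [← hcol, ← hcol, ← Matrix.mulVec_smul, ← Matrix.mulVec_smul, ← Matrix.mulVec_add]
      congr 1
      funext y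
      obtain ⟨i, k⟩ := p
      simp only [Matrix.mulVec, dotProduct, Function.comp_apply, Pi.add_apply, Pi.smul_apply]
      rw [← Equiv.sum_comp e.symm]
      simp only [Matrix.reindex_apply, Matrix.submatrix_apply, Equiv.symm_symm, Equiv.apply_symm_apply]
      obtain ⟨i', k'⟩ := e y
      fin_cases i <;> fin_cases k <;> fin_cases i' <;> fin_cases k' <;>
        simp [J, Fintype.sum_prod_type, Fin.sum_univ_two]
    rw [hlin]
    obtain ⟨i, k⟩ := p
    fin_cases i <;> fin_cases k <;> simp [u, J, hMM]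
  have hMeq : (P : M4) * Matrix.reindex e.symm e.symm ((1 : Matrix (Fin 2) (Fin 2) F) ⊗ₖ J) *
      ((P⁻¹ : GL (Fin 2 ⊕ Fin 2) F) : M4) = M := by rw [← hMP]; simp [mul_assoc]
  have hconj : ∀ g ∈ H, ∃ ε : F, (ε = 1 ∨ ε = -1) ∧ (g : M4) * M = ε • (M * (g : M4)) := by
    intro g hg
    set G := (g : M4)
    set G' := ((g⁻¹ : GL (Fin 2 ⊕ Fin 2) F) : M4)
    set N := G * M * G' with hN
    have hNK : N ∈ K := ((hle hg) M).1 hMK
    have hgG : ∀ u v, ω (G *ᵥ u) (G *ᵥ v) = ω u v := mem_spGL.1 (hH hg)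
    have hN2 : N * N = -1 := by
      calc N * N = G * (M * (G' * G) * M) * G' := by simp only [hN, mul_assoc]
        _ = -1 := by rw [Units.inv_mul, mul_one, hM2, mul_neg, mul_one, neg_mul, Units.mul_inv]
    have hNskew : ∀ u v, ω (N *ᵥ u) v = -ω u (N *ᵥ v) := by
      intro u v
      have hGG : ∀ x : V, G *ᵥ (G' *ᵥ x) = x := fun x => by rw [Matrix.mulVec_mulVec, Units.mul_inv, Matrix.one_mulVec]
      conv_lhs => rw [← hGG v]
      conv_rhs => rw [← hGG u]
      simp only [hN, ← Matrix.mulVec_mulVec, hgG]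
      exact hskew _ _
    -- skew elements of the field are multiples of `M`
    have hyK : N * M ∈ K := mul_mem hNK hMK
    have hsq : (N - M) * (N + M) = 0 := by
      rw [sub_mul, mul_add, mul_add, hN2, hM2, hK.comm N hNK M hMK]; abel
    have hGM : G * M = N * G := by
      rw [hN, mul_assoc, Units.inv_mul, mul_one]
    by_cases h1 : N - M = 0
    · refine ⟨1, Or.inl rfl, ?_⟩
      rw [one_smul, hGM, sub_eq_zero.1 h1]
    · obtain ⟨y, hy', hy⟩ := hK.inv _ (sub_mem hNK hMK) h1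
      have hy2 := (hK.comm _ (sub_mem hNK hMK) y hy').symm.trans hy
      have h0 : N + M = 0 := by rw [← one_mul (N + M), ← hy2, mul_assoc, hsq, mul_zero]
      refine ⟨-1, Or.inr rfl, ?_⟩
      rw [neg_one_smul, hGM, eq_neg_of_add_eq_zero_left h0, neg_mul]
  have hdet2 : R₂.det ≠ 0 := by simp [R₂, Matrix.det_fin_two]
  have hR : (Matrix.GeneralLinearGroup.mkOfDetNeZero R₂ hdet2 : Matrix (Fin 2) (Fin 2) F) = R₂ := rfl
  have hten : H ≤ tensorProductSubgroup 2 2 e P :=
    le_tensor_of_sqrt (J := J) (d := -1) h2 hH hP Matrix.transpose_one (by simp) (neg_ne_zero.2 one_ne_zero)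
      (by ext i j; fin_cases i <;> fin_cases j <;> simp [J, Matrix.mul_apply, Fin.sum_univ_two])
      (by ext i j; fin_cases i <;> fin_cases j <;> simp [J, Matrix.mul_apply, Fin.sum_univ_two])
      (Matrix.GeneralLinearGroup.mkOfDetNeZero R₂ hdet2) one_ne_zero
      (by rw [hR]; ext i j; fin_cases i <;> fin_cases j <;> simp [R₂, J, Matrix.mul_apply, Fin.sum_univ_two])
      (by rw [hR]; ext i j; fin_cases i <;> fin_cases j <;> simp [R₂, Matrix.mul_apply, Fin.sum_univ_two])
      (by rw [hMeq]; exact hconj)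
  refine ⟨_, ((quatGroup_pauli hq).kron (orthTwo_pauli hq)).coord e P, ?_, ?_⟩
  · rintro _ ⟨_, ⟨⟨a, b⟩, ⟨ha, hb⟩, rfl⟩, rfl⟩
    refine coordHom_mem_sp ?_
    rw [hP, kronHom_val, ← Matrix.kroneckerMap_transpose, ← Matrix.mul_kronecker_mul,
      ← Matrix.mul_kronecker_mul, quatGroup_iso ha, Matrix.mul_one,
      show (b : Matrix (Fin 2) (Fin 2) F)ᵀ * (b : Matrix (Fin 2) (Fin 2) F) = 1 from hb]
  · intro g hg
    obtain ⟨z, a, b, μ, hgz, hz, hμ, -, hb⟩ := tensor_element hH hten altTwo_ne_zero one_ne_zero hP hg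
    have hz' : z = kronHom (a, b) := Units.ext hz
    rw [hgz, ← coordHom_apply, hz', Subgroup.map_map]
    refine mem_normalizer_map ((coordHom e P).comp kronHom) (fun x hx => ⟨quatGroup_conj hx.1, ?_⟩)
      fun x hx => ⟨?_, ?_⟩
    · exact orthTwo_conj hx.2 (by simpa using hb)
    · have := quatGroup_conj (g := a⁻¹) hx.1
      simpa using this
    · have hb' : ((b⁻¹ : GL (Fin 2) F) : Matrix (Fin 2) (Fin 2) F)ᵀ * ((b⁻¹ : GL (Fin 2) F) : Matrix _ _ F) =
          μ • (1 : Matrix (Fin 2) (Fin 2) F) := by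
        set B := (b : Matrix (Fin 2) (Fin 2) F)
        set B' := ((b⁻¹ : GL (Fin 2) F) : Matrix (Fin 2) (Fin 2) F)
        have e1 : B * B' = 1 := Units.mul_inv b
        rw [Matrix.mul_one] at hb
        calc B'ᵀ * B' = μ • (B'ᵀ * (μ⁻¹ • (1 : Matrix (Fin 2) (Fin 2) F)) * B') := by
              rw [Matrix.mul_smul, Matrix.smul_mul, mul_one, smul_smul, mul_inv_cancel₀ hμ, one_smul]
          _ = μ • ((B * B')ᵀ * (B * B')) := by rw [← hb]; simp only [Matrix.transpose_mul, mul_assoc]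
          _ = _ := by rw [e1, Matrix.transpose_one, one_mul]
      have := orthTwo_conj (g := b⁻¹) hx.2 hb'
      simpa using this

end CfsgLib.SmallDim
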