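import Cfsg.Agent.Lib.SmallDim.SympPure
import Cfsg.Agent.Lib.CharTheory.Burnside

/-!
Aschbacher's theorem for symplectic groups: the tensor-induced case.
-/

set_option autoImplicit false
set_option linter.style.haveILetI false

namespace CfsgLib.SmallDim

open scoped MatrixGroups Matrix commutatorElement
open Cfsg.Geo

lemma isSolvable_GL_two_three {F : Type*} [Field F] [Fintype F] (hq : Fintype.card F = 3) :
    Group.IsSolvable (GL (Fin 2) F) := by
  refine CfsgLib.CharTheory.isSolvable_of_card_dvd_pow_mul_pow 2 3 4 1 Nat.prime_two Nat.prime_three ?_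
  rw [Matrix.card_GL_field]
  simp [hq, Fin.prod_univ_two]

variable {F : Type*} [Field F] [Fintype F] {m : ℕ} {H : Subgroup (GL (Fin m ⊕ Fin m) F)}

local notation "V" => (Fin m ⊕ Fin m → F)
local notation "M2" => Matrix (Fin m ⊕ Fin m) (Fin m ⊕ Fin m) F
local notation "ω" => Cfsg.sympForm m F

/-- A tensor power decomposition in characteristic two gives an invariant quadratic form. -/
lemma symp_power_even (hev : ¬ Odd (Fintype.card F)) (hH : H ≤ Cfsg.spGL m F) {k n : ℕ} (hk : 2 ≤ k)
    {e : (Fin m ⊕ Fin m) ≃ (Fin k → Fin n)} {P : GL (Fin m ⊕ Fin m) F}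
    (hle : H ≤ tensorWreathSubgroup n k e P) {G₀ : Matrix (Fin n) (Fin n) F} {c : F} (hc : c ≠ 0)
    (hG : coordGram ω e P = c • pureMat (fun _ => G₀)) (hG₀t : G₀ᵀ = G₀) : InSympCase H := by
  classical
  have hf := isSymplecticForm_sympForm (m := m) (F := F)
  have h2 := two_eq_zero_of_not_odd hev
  have hd : ∀ p, G₀ p p = 0 := by
    intro p
    have h := coordGram_diag hf.bilinear hf.alternating e P (fun _ => p)
    rw [hG] at h
    simp only [Matrix.smul_apply, smul_eq_mul, pureMat, Matrix.of_apply, Finset.prod_const, Finset.card_univ,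
      Fintype.card_fin, mul_eq_zero, hc, false_or] at h
    exact eq_zero_of_pow_eq_zero h
  obtain ⟨q, hq, hpol, hq0⟩ := exists_triangular_quad (coordGram ω e P)
    (by rw [hG, Matrix.transpose_smul, pureMat_transpose, hG₀t]) (coordGram_diag hf.bilinear hf.alternating e P)
  have hzero : ∀ (s : Finset (Fin k)) (v : Fin k → Fin n → F),
      (∀ i, i ∉ s → ∃ a, v i = Pi.single a 1) → q (pureTensorVec v) = 0 := by
    intro s
    induction s using Finset.induction_on with
    | empty =>
      intro v hv
      choose a ha using fun i => hv i (Finset.notMem_empty i)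
      rw [show v = fun i => (Pi.single (a i) 1 : Fin n → F) from funext ha, pureVec_single, hq0]
    | @insert j s hj ih =>
      intro v hv
      rw [← Function.update_eq_self j v]
      refine eq_zero_of_additive_sq (d := fun y : Fin n → F => q (pureTensorVec (Function.update v j y)))
        (fun x y => ?_) (fun a x => ?_) (T := Set.range fun i => (Pi.single i 1 : Fin n → F)) ?_ ?_
      · have h := hpol (pureTensorVec (Function.update v j x)) (pureTensorVec (Function.update v j y))
        obtain ⟨i, hi⟩ : ∃ i, i ≠ j := by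
          haveI : Nontrivial (Fin k) := Fin.nontrivial_iff_two_le.2 hk
          exact exists_ne j
        rw [hG, Matrix.smul_mulVec, dotProduct_smul, pureMat_mulVec, pureVec_dot,
          Finset.prod_eq_zero (Finset.mem_univ i) (by
            rw [Function.update_of_ne hi, Function.update_of_ne hi]
            exact dot_self_eq_zero h2 hG₀t hd (v i)), smul_zero, QuadraticMap.polar, ← pureVec_update_add] at h
        linear_combination h
      · simp only [pureVec_update_smul, hq]
      · rintro _ ⟨a, rfl⟩
        refine ih _ fun i hi => ?_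
        by_cases hij : i = j
        · subst hij; exact ⟨a, Function.update_self _ _ _⟩
        · rw [Function.update_of_ne hij]
          exact hv i (by simp [hi, hij])
      · rw [show (Set.range fun i => (Pi.single i 1 : Fin n → F)) = Set.range (Pi.basisFun F (Fin n)) from
          congrArg Set.range (funext fun i => (Pi.basisFun_apply F (Fin n) i).symm), Module.Basis.span_eq]
        trivial
  have hpure : ∀ v : Fin k → Fin n → F, q (pureTensorVec v) = 0 := fun v =>
    hzero Finset.univ v fun i hi => absurd (Finset.mem_univ i) hi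
  refine inSympCase_quad_of_span hev hH (Q := fun v => q (coordMap e P v))
    (fun c v => by rw [map_smul, hq]) (fun u v => ?_)
    (T := {v | ∃ w : Fin k → Fin n → F, coordMap e P v = pureTensorVec w}) ?_ ?_ ?_
  · have h := hpol (coordMap e P u) (coordMap e P v)
    rw [← apply_coord hf.bilinear, point_coordMap, point_coordMap] at h
    simp only [QuadraticMap.polar, map_add] at h ⊢
    exact h
  · rintro v ⟨w, hv⟩
    show q (coordMap e P v) = 0
    rw [hv, hpure]
  · rw [eq_top_iff]
    intro v _
    rw [← point_coordMap e P v, pi_eq_sum_univ' (coordMap e P v)]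
    have hlin : ∀ (w : (Fin k → Fin n) → F), (P : M2) *ᵥ (w ∘ e) =
        (Matrix.toLin' (P : M2)).comp (LinearMap.funLeft F F e) w := fun w => by
      simp [Matrix.toLin'_apply, LinearMap.funLeft]
    rw [hlin, map_sum]
    refine Submodule.sum_mem _ fun p _ => ?_
    rw [map_smul, ← hlin]
    refine Submodule.smul_mem _ _ (Submodule.subset_span ⟨fun i => Pi.single (p i) 1, ?_⟩)
    rw [coordMap_point, pureVec_single]
  · rintro g hg v ⟨w, hv⟩
    obtain ⟨_, ⟨z, hz, rfl⟩, rfl⟩ := hle hg
    show q (coordMap e P (act (P * glReindex e.symm z * P⁻¹) v)) = 0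
    rw [← point_coordMap e P v, act_conj_reindex, coordMap_point, hv]
    obtain ⟨w', hw'⟩ := tensorWreathStandard_pureVec hz w
    rw [hw', hpure]

/-- The tensor-induced case for symplectic groups. -/
theorem symp_induced (hH : H ≤ Cfsg.spGL m F) (hm : 0 < m) {N : Subgroup (GL (Fin m ⊕ Fin m) F)} {k : ℕ}
    {L : Fin k → Subgroup (GL (Fin m ⊕ Fin m) F)} (hN : N ≤ H) (hNa : ActsAbsolutelyIrreducibly (matrixSet N))
    (hL : InducedData H N k L) : InSympCase H := by
  classical
  haveI : Nonempty (Fin m ⊕ Fin m) := ⟨Sum.inl ⟨0, hm⟩⟩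
  have hf := isSymplecticForm_sympForm (m := m) (F := F)
  obtain ⟨n, e, P, S, hn, hle, hS, hslot, hconv⟩ := exists_tensorWreath_slots (H := H) hL.two_le hL.comm
    (hL.iSup_eq.symm ▸ hNa) hL.nonscalar hL.perm (fun i => (hL.trans i).imp fun h hh => hh.2 _ rfl)
  have hmapid : ∀ {κ : Type} (X : Matrix κ κ F), X.map (RingHom.id F) = X := fun X => Matrix.ext fun _ _ => rfl
  obtain ⟨G₀, c, hc, hG₀, hinv₀, hG⟩ := exists_pureMat_of_invariant (σ := RingHom.id F) (by omega) hS k
    (coordGram ω e P) (isUnit_det_coordGram hf.bilinear hf.nondegenerate e P) (fun i b hb => by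
      obtain ⟨a, ha, hab⟩ := hslot i b hb
      rw [hmapid]
      exact coordGram_fixed hf.bilinear e P
        (fun u v => mem_spGL.1 (hH (hN (hL.iSup_eq ▸ Subgroup.mem_iSup_of_mem i ha))) u v) hab)
    (by have := hL.two_le; omega)
  obtain ⟨lam, hlam⟩ := hinv₀.exists_smul (X := G₀ᵀ) hS hG₀ (fun b hb => by
    have := congrArg Matrix.transpose (hinv₀ b hb)
    rw [hmapid] at this ⊢
    simpa [Matrix.transpose_mul, mul_assoc] using this)
  haveI : Nonempty (Fin n) := ⟨⟨0, by omega⟩⟩
  obtain ⟨p, r, hpr⟩ := exists_entry_ne_zero (ne_zero_of_isUnit_det hG₀)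
  have hlam2 : lam * lam = 1 := by
    have h := congrFun (congrFun hlam p) r
    have h' := congrFun (congrFun hlam r) p
    simp only [Matrix.transpose_apply, Matrix.smul_apply, smul_eq_mul] at h h'
    exact mul_right_cancel₀ hpr (by linear_combination -lam * h - h')
  by_cases hodd : Odd (Fintype.card F)
  swap
  · have h2 := two_eq_zero_of_not_odd hodd
    have hl1 : lam = 1 := by
      rcases mul_self_eq_one_iff.1 hlam2 with h | h
      · exact h
      · rw [h]; linear_combination -h2
    rw [hl1, one_smul] at hlam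
    exact symp_power_even hodd hH hL.two_le hle hc hG hlam
  have h2 := two_ne_zero_of_odd_card hodd
  have hpow : lam ^ k = -1 := by
    have h := congrFun (congrFun (coordGram_transpose hf.bilinear hf.skew e P) (fun _ => p)) (fun _ => r)
    have hrp : G₀ r p = lam * G₀ p r := by
      have := congrFun (congrFun hlam p) r
      simpa using this
    simp only [hG, Matrix.transpose_apply, Matrix.neg_apply, Matrix.smul_apply, smul_eq_mul, pureMat,
      Matrix.of_apply, Finset.prod_const, Finset.card_univ, Fintype.card_fin, hrp, mul_pow] at h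
    apply mul_right_cancel₀ (mul_ne_zero hc (pow_ne_zero k hpr))
    linear_combination h
  have hkodd : Odd k := by
    rcases Nat.even_or_odd k with ⟨j, hj⟩ | h
    · exfalso
      rw [hj, pow_add, ← mul_pow, hlam2, one_pow] at hpow
      exact h2 (by linear_combination hpow)
    · exact h
  have hl : lam = -1 := by
    obtain ⟨j, hj⟩ := hkodd
    rw [hj, pow_succ, pow_mul, pow_two, hlam2, one_pow, one_mul] at hpow
    exact hpow
  rw [hl, neg_one_smul] at hlam
  have h3 : 3 ≤ k := by
    obtain ⟨j, hj⟩ := hkodd
    have := hL.two_le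
    omega
  have hnot : ¬ (Fintype.card F = 3 ∧ n = 2) := by
    rintro ⟨hq, rfl⟩
    haveI := isSolvable_GL_two_three hq
    let i₀ : Fin k := ⟨0, by omega⟩
    let ψ : GL (Fin 2) F →* GL (Fin m ⊕ Fin m) F :=
      (MulAut.conj P).toMonoidHom.comp ((glReindex e.symm).toMonoidHom.comp (slotHom i₀))
    have hmem : L i₀ ≤ ψ.range := by
      intro a ha
      obtain ⟨b, hb, hab⟩ := hconv i₀ a ha
      have hbdet : b.det ≠ 0 := by
        intro h0
        have := congrArg Matrix.det (hinv₀ b hb)
        rw [hmapid, Matrix.det_mul, Matrix.det_mul, h0, mul_zero] at this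
        exact hG₀.ne_zero this.symm
      refine ⟨Matrix.GeneralLinearGroup.mkOfDetNeZero b hbdet, ?_⟩
      show P * glReindex e.symm (slotHom i₀ _) * P⁻¹ = a
      rw [mul_inv_eq_iff_eq_mul]
      apply Units.ext
      rw [Units.val_mul, Units.val_mul, hab]
      show (P : M2) * Matrix.reindex e.symm e.symm
        (slotHom i₀ (Matrix.GeneralLinearGroup.mkOfDetNeZero b hbdet)).val = _
      rw [slotHom_val]
      rfl
    haveI : Group.IsSolvable ψ.range := Group.isSolvable_of_surjective ψ.rangeRestrict_surjective
    haveI : Group.IsSolvable (L i₀) :=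
      Group.isSolvable_of_isSolvable_injective (f := Subgroup.inclusion hmem) (Subgroup.inclusion_injective hmem)
    haveI : Nontrivial (L i₀) := by
      rw [Subgroup.nontrivial_iff_ne_bot]
      exact fun h => hL.nonscalar i₀ (h ▸ bot_le)
    have hlt := Group.IsSolvable.commutator_lt_top_of_nontrivial (G := L i₀)
    refine hlt.ne (Subgroup.map_injective (L i₀).subtype_injective ?_)
    rw [Subgroup.map_subtype_commutator, ← MonoidHom.range_eq_map, Subgroup.range_subtype, hL.perfect]
  have hts : IsTensorPowerFormStructure id ω (gramForm (RingEquiv.refl F) G₀) e P := by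
    refine ⟨c, hc, fun x y => ?_⟩
    have h₁ : gramMatrix (gramForm (⇑(RingEquiv.refl F)) G₀) = G₀ :=
      gramMatrix_gramForm ((RingEquiv.refl F : F ≃+* F) : F →+* F) G₀
    rw [h₁, apply_coord hf.bilinear, hG, Matrix.smul_mulVec, dotProduct_smul, smul_eq_mul]
    simp only [dotProduct, Matrix.mulVec, pureMat, Matrix.of_apply, Finset.mul_sum, mul_assoc, id_eq]
  refine ⟨tensorWreathSubgroup n k e P ⊓ Cfsg.spGL m F, ?_, le_inf hle hH⟩
  exact Or.inr (Or.inr (Or.inr (Or.inr ⟨n, k, e, P, _, hodd, hkodd, h3, hnot,
    gramForm_isSymplecticForm h2 hlam hG₀, hts, rfl⟩)))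

end CfsgLib.SmallDim
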