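import Cfsg.Agent.Lib.SmallDim.SympParity
import Cfsg.Agent.Lib.SmallDim.LinearNotLE
import Cfsg.Agent.Lib.SmallDim.UnitaryGeneral

/-!
Maximal subgroups of the symplectic groups, by class, with the numerical conditions on the parameters.
-/

set_option autoImplicit false
set_option linter.style.haveILetI false

namespace CfsgLib.SmallDim

open scoped MatrixGroups Matrix
open Cfsg.Geo

variable {F : Type*} [Field F] [Fintype F] {m : ℕ}

local notation "V" => (Fin m ⊕ Fin m → F)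
local notation "M2" => Matrix (Fin m ⊕ Fin m) (Fin m ⊕ Fin m) F
local notation "ω" => Cfsg.sympForm m F

/-- Maximal subgroups of `Sp`. -/
theorem symp_maximal_cases (hm : 2 ≤ m) {H : Subgroup (GL (Fin m ⊕ Fin m) F)}
    (hH : IsMaximalIn (Cfsg.spGL m F) H) :
    (∃ W : Submodule F V, W ≠ ⊥ ∧ IsTotallySingularFor ω W ∧ H = subspaceStabilizer W ⊓ Cfsg.spGL m F) ∨
    (∃ W : Submodule F V, W ≠ ⊥ ∧ IsNondegenerateOn ω W ∧ Module.finrank F W < m ∧ Even (Module.finrank F W) ∧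
      H = subspaceStabilizer W ⊓ Cfsg.spGL m F) ∨
    (∃ (t k : ℕ) (D : Fin t → Submodule F V), t * k = 2 * m ∧ Even k ∧ 2 ≤ t ∧
      IsNondegenerateMDecomposition ω k D ∧ (k = 2 → 3 ≤ Fintype.card F) ∧
      H = decompositionStabilizer D ⊓ Cfsg.spGL m F) ∨
    (∃ D : Fin 2 → Submodule F V, Odd (Fintype.card F) ∧ IsMDecomposition m D ∧
      (∀ i, IsTotallySingularFor ω (D i)) ∧ H = decompositionStabilizer D ⊓ Cfsg.spGL m F) ∨
    (∃ (r : ℕ) (K : Subalgebra F M2), r.Prime ∧ r ∣ 2 * m ∧ (r = 2 → Even m) ∧ IsFieldSubalgebra r K ∧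
      IsSelfAdjointFor ω K ∧ (∀ k ∈ K, ∀ v, ω (k *ᵥ v) v = 0) ∧ H = subalgebraNormalizer K ⊓ Cfsg.spGL m F) ∨
    (∃ K : Subalgebra F M2, Odd (Fintype.card F) ∧ IsFieldSubalgebra 2 K ∧ IsAdjointClosedFor ω K ∧
      ¬ IsSelfAdjointFor ω K ∧ H = subalgebraNormalizer K ⊓ Cfsg.spGL m F) ∨
    (∃ (n₁ n₂ : ℕ) (e : (Fin m ⊕ Fin m) ≃ Fin n₁ × Fin n₂) (P : GL (Fin m ⊕ Fin m) F)
      (f₁ : (Fin n₁ → F) → (Fin n₁ → F) → F) (f₂ : (Fin n₂ → F) → (Fin n₂ → F) → F),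
      Odd (Fintype.card F) ∧ n₁ * n₂ = 2 * m ∧ 2 ≤ n₁ ∧ Even n₁ ∧ 3 ≤ n₂ ∧ IsSymplecticForm f₁ ∧
      IsSymmetricForm f₂ ∧ IsTensorFormStructure id ω f₁ f₂ e P ∧
      H = tensorProductSubgroup n₁ n₂ e P ⊓ Cfsg.spGL m F) ∨
    (∃ (F₀ : Subfield F) (r : ℕ) (P : GL (Fin m ⊕ Fin m) F) (ζ : F), r.Prime ∧
      Fintype.card F = Nat.card F₀ ^ r ∧ ζ ≠ 0 ∧ IsFormRationalStructure ω F₀ ζ P ∧
      H = subfieldSubgroup F₀ P ⊓ Cfsg.spGL m F) ∨
    (∃ (R : Subgroup (GL (Fin m ⊕ Fin m) F)) (p k : ℕ), p.Prime ∧ Odd p ∧ Fintype.card F = p ∧ 2 * m = 2 ^ k ∧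
      IsSymplecticTypeGroup 2 R ∧ ActsAbsolutelyIrreducibly (matrixSet R) ∧ R ≤ similarityGroup ω ∧
      Nat.card R = 2 ^ (1 + 2 * k) ∧ Nat.card (Subgroup.center R) = 2 ∧ IsOfMinusType k R ∧
      H = subgroupNormalizer R ⊓ Cfsg.spGL m F) ∨
    (∃ (k t : ℕ) (e : (Fin m ⊕ Fin m) ≃ (Fin t → Fin k)) (P : GL (Fin m ⊕ Fin m) F)
      (f₁ : (Fin k → F) → (Fin k → F) → F), Odd (Fintype.card F) ∧ k ^ t = 2 * m ∧ Even k ∧ 2 ≤ k ∧
      Odd t ∧ 3 ≤ t ∧ ¬ (Fintype.card F = 3 ∧ k = 2) ∧ IsSymplecticForm f₁ ∧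
      IsTensorPowerFormStructure id ω f₁ e P ∧ H = tensorWreathSubgroup k t e P ⊓ Cfsg.spGL m F) ∨
    (∃ Q : V → F, ¬ Odd (Fintype.card F) ∧ IsNondegenerateQuadraticForm Q ∧
      (∀ u v, QuadraticMap.polar Q u v = ω u v) ∧ H = quadSimilarityGroup Q ⊓ Cfsg.spGL m F) ∨
    InSymplecticResidualClass H := by
  classical
  rcases symp_cases (by omega) hH.1.le with ⟨M, hM, hle⟩ | ⟨R, p, k, hR, hRsp, hp, hpodd, hFp, hdim, hcard, hz, hminus, hsim, hle⟩ | h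
  rotate_left
  · refine Or.inr (Or.inr (Or.inr (Or.inr (Or.inr (Or.inr (Or.inr (Or.inr (Or.inl
      ⟨R, p, k, hp, hpodd, hFp, hdim, hR.sympType, hR.absIrred, hsim, hcard, hz, hminus,
        IsMaximalIn.eq_inf hH hle (sp_not_le_subgroupNormalizer (hFp ▸ hpodd) hm hR hRsp hz)⟩))))))))
  · iterate 11 right
    exact h
  rcases hM with (⟨W, h0, hW, rfl⟩ | ⟨W, h0, hW, hlt, rfl⟩ | ⟨t, k, D, hD, rfl⟩ | ⟨D, hodd, hD, hts, rfl⟩ |
      ⟨F₀, r, P, ζ, hr, hcard, hζ, hrat, rfl⟩ | hfalse | ⟨Q, hev, hQ, hpol, rfl⟩) |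
      ⟨r, K, hr, hK, hsa, halt, rfl⟩ | ⟨K, hodd, hK, hadj, hnsa, rfl⟩ |
      ⟨n₁, n₂, e, P, f₁, f₂, hodd, h₂, hf₁, hf₂, hts, rfl⟩ |
      ⟨k, t, e, P, f₁, hodd, ht, ht3, hne, hf₁, hts, rfl⟩
  · refine Or.inl ⟨W, h0, hW, IsMaximalIn.eq_inf hH (hle.trans inf_le_left) (sp_not_le_subspaceStabilizer h0 ?_)⟩
    rintro rfl
    obtain ⟨v, -, hv⟩ := (Submodule.ne_bot_iff _).1 h0
    obtain ⟨x, hx⟩ := (isSymplecticForm_sympForm.nondegenerate v hv).1
    exact hx (hW x trivial v trivial)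
  · refine Or.inr (Or.inl ⟨W, h0, hW, hlt, even_finrank_of_nondegenerateOn hW,
      IsMaximalIn.eq_inf hH (hle.trans inf_le_left) (sp_not_le_subspaceStabilizer h0 ?_)⟩)
    rintro rfl
    rw [finrank_top, Module.finrank_fintype_fun_eq_card, card_idx] at hlt
    omega
  · have htk : t * k = 2 * m := (mdecomposition_card hD.decomp).trans card_idx
    have hk : Even k := by
      let i₀ : Fin t := ⟨0, by have := hD.decomp.two_le; omega⟩
      exact hD.decomp.finrank_eq i₀ ▸ even_finrank_of_nondegenerateOn (hD.nondegenerate i₀)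
    have hk2 : 2 ≤ k := by
      obtain ⟨j, hj⟩ := hk
      have := hD.decomp.pos
      omega
    by_cases hsmall : k = 2 ∧ Fintype.card F = 2
    · obtain ⟨rfl, hq⟩ := hsmall
      obtain ⟨Q, hQ, hpol, hQle⟩ := inSympCase_planes_two hq hH.1.le hD (hle.trans inf_le_left)
      iterate 10 right
      exact Or.inl ⟨Q, by rw [hq]; decide, hQ, hpol,
        IsMaximalIn.eq_inf hH hQle (sp_not_le_quadSimilarityGroup hm hQ hpol)⟩
    · refine Or.inr (Or.inr (Or.inl ⟨t, k, D, htk, hk, hD.decomp.two_le, hD, fun h => ?_,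
        IsMaximalIn.eq_inf hH (hle.trans inf_le_left) (sp_not_le_decompositionStabilizer hD.decomp hk2)⟩))
      have := Fintype.one_lt_card (α := F)
      by_contra h3
      exact hsmall ⟨h, by omega⟩
  · exact Or.inr (Or.inr (Or.inr (Or.inl ⟨D, hodd, hD, hts,
      IsMaximalIn.eq_inf hH (hle.trans inf_le_left) (sp_not_le_decompositionStabilizer hD hm)⟩)))
  · iterate 7 right
    refine Or.inl ⟨F₀, r, P, ζ, hr, hcard, hζ, hrat,
      IsMaximalIn.eq_inf hH (hle.trans inf_le_left) (sp_not_le_subfieldSubgroup (by omega) ?_ P)⟩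
    intro htop
    rw [htop, Nat.card_congr Subfield.topEquiv.toEquiv, Nat.card_eq_fintype_card] at hcard
    exact (lt_self_pow₀ Fintype.one_lt_card hr.one_lt).ne hcard
  · exact hfalse.elim
  · iterate 10 right
    exact Or.inl ⟨Q, hev, hQ, hpol,
      IsMaximalIn.eq_inf hH (hle.trans inf_le_left) (sp_not_le_quadSimilarityGroup hm hQ hpol)⟩
  · exact Or.inr (Or.inr (Or.inr (Or.inr (Or.inl ⟨r, K, hr,
      card_idx (m := m) ▸ dvd_card_of_isFieldSubalgebra hK,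
      fun h => by subst h; exact even_of_selfAdjoint_field hK hsa halt (by omega), hK, hsa, halt,
      IsMaximalIn.eq_inf hH (hle.trans inf_le_left) (sp_not_le_subalgebraNormalizer hm hr.two_le hK)⟩))))
  · exact Or.inr (Or.inr (Or.inr (Or.inr (Or.inr (Or.inl ⟨K, hodd, hK, hadj, hnsa,
      IsMaximalIn.eq_inf hH (hle.trans inf_le_left) (sp_not_le_subalgebraNormalizer hm le_rfl hK)⟩)))))
  · have hnn : n₁ * n₂ = 2 * m := by
      have := Fintype.card_congr e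
      rw [card_idx, Fintype.card_prod, Fintype.card_fin, Fintype.card_fin] at this
      exact this.symm
    have h₁ : 2 ≤ n₁ := by
      obtain ⟨j, hj⟩ := even_of_isSymplecticForm hf₁
      rcases Nat.eq_zero_or_pos n₁ with h | h
      · rw [h, zero_mul] at hnn; omega
      · omega
    exact Or.inr (Or.inr (Or.inr (Or.inr (Or.inr (Or.inr (Or.inl ⟨n₁, n₂, e, P, f₁, f₂, hodd, hnn, h₁,
      even_of_isSymplecticForm hf₁, h₂, hf₁, hf₂, hts,
      IsMaximalIn.eq_inf hH (hle.trans inf_le_left) (sp_not_le_tensorProductSubgroup h₁ (by omega) e P)⟩))))))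
  · have hkt : k ^ t = 2 * m := by
      have := Fintype.card_congr e
      rw [card_idx, Fintype.card_fun, Fintype.card_fin, Fintype.card_fin] at this
      exact this.symm
    have hk2 : 2 ≤ k := by
      obtain ⟨j, hj⟩ := even_of_isSymplecticForm hf₁
      rcases Nat.eq_zero_or_pos k with h | h
      · rw [h, zero_pow (by omega : t ≠ 0)] at hkt; omega
      · omega
    iterate 9 right
    exact Or.inl ⟨k, t, e, P, f₁, hodd, hkt, even_of_isSymplecticForm hf₁, hk2, ht, ht3, hne, hf₁, hts,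
      IsMaximalIn.eq_inf hH (hle.trans inf_le_left) (sp_not_le_tensorWreathSubgroup hk2 (by omega) e P)⟩

end CfsgLib.SmallDim
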