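import Cfsg.Agent.Lib.SmallDim.SympProper

/-!
Parities forced by alternating forms, and plane decompositions over the field of two elements.
-/

set_option autoImplicit false
set_option linter.style.haveILetI false

namespace CfsgLib.SmallDim

open scoped MatrixGroups Matrix
open Cfsg.Geo

variable {F : Type*} [Field F] {m : ℕ}

local notation "V" => (Fin m ⊕ Fin m → F)
local notation "M2" => Matrix (Fin m ⊕ Fin m) (Fin m ⊕ Fin m) F
local notation "ω" => Cfsg.sympForm m F

lemma even_of_isSymplecticForm {n : ℕ} {f : (Fin n → F) → (Fin n → F) → F} (hf : IsSymplecticForm f) :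
    Even n := by
  by_contra h
  exact no_alternating_odd (by simpa using Nat.not_even_iff_odd.1 h) hf.bilinear hf.alternating hf.nondegenerate

lemma even_finrank_of_nondegenerateOn {W : Submodule F V} (hW : IsNondegenerateOn ω W) :
    Even (Module.finrank F W) := by
  have hf := isSymplecticForm_sympForm (m := m) (F := F)
  let b := Module.finBasis F W
  let L : (Fin (Module.finrank F W) → F) →ₗ[F] V := W.subtype.comp b.equivFun.symm.toLinearMap
  refine even_of_isSymplecticForm (f := fun x y => ω (L x) (L y))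
    ⟨⟨fun x y z => by simp [hf.bilinear.add_left], fun c x z => by simp [hf.bilinear.smul_left],
      fun z x y => by simp [hf.bilinear.add_right], fun c z x => by simp [hf.bilinear.smul_right]⟩,
    fun x y => hf.skew _ _, fun x => hf.alternating _, fun x hx => ?_⟩
  have hx' : b.equivFun.symm x ≠ 0 := fun h => hx (b.equivFun.symm.map_eq_zero_iff.1 h)
  obtain ⟨⟨y, hy, hy'⟩, ⟨z, hz, hz'⟩⟩ := hW _ (b.equivFun.symm x).2 (fun h => hx' (Subtype.ext h))
  refine ⟨⟨b.equivFun ⟨y, hy⟩, ?_⟩, ⟨b.equivFun ⟨z, hz⟩, ?_⟩⟩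
  · simpa [L] using hy'
  · simpa [L] using hz'

/-- An invariant non-degenerate subspace for a self-adjoint alternating quadratic field has dimension
divisible by four. -/
lemma four_dvd_finrank {M : M2} {a b : F} (ha : a ≠ 0) (hM : M * M = a • (1 : M2) + b • M)
    (hadj : ∀ u v, ω (M *ᵥ u) v = ω u (M *ᵥ v)) (halt : ∀ v, ω (M *ᵥ v) v = 0)
    (hline : ∀ (v : V), v ≠ 0 → ∀ c : F, M *ᵥ v ≠ c • v) :
    ∀ (d : ℕ) (W : Submodule F V), Module.finrank F W = d → (∀ x ∈ W, M *ᵥ x ∈ W) →
      IsNondegenerateOn ω W → 4 ∣ d := by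
  have hf := isSymplecticForm_sympForm (m := m) (F := F)
  have hMM : ∀ x : V, M *ᵥ (M *ᵥ x) = a • x + b • (M *ᵥ x) := fun x => by
    rw [Matrix.mulVec_mulVec, hM, Matrix.add_mulVec, Matrix.smul_mulVec, Matrix.smul_mulVec, Matrix.one_mulVec]
  intro d
  induction d using Nat.strong_induction_on with
  | _ d ih =>
    intro W hd hWM hW
    rcases Nat.eq_zero_or_pos d with rfl | hpos
    · exact dvd_zero 4
    obtain ⟨v, hv, hv0⟩ := (Submodule.ne_bot_iff W).1 fun h => by rw [h, finrank_bot] at hd; omega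
    have hMv : ω v (M *ᵥ v) = 0 := by rw [← hadj]; exact halt v
    -- a partner
    obtain ⟨w₁, hw₁, hvw₁⟩ := (hW v hv hv0).2
    set u := ω (M *ᵥ v) w₁ • v - ω v w₁ • (M *ᵥ v)
    have hu0 : u ≠ 0 := fun h => by
      refine hline v hv0 ((ω v w₁)⁻¹ * ω (M *ᵥ v) w₁) ?_
      have h' := sub_eq_zero.1 h
      rw [mul_smul, h', smul_smul, inv_mul_cancel₀ hvw₁, one_smul]
    obtain ⟨w₂, hw₂, huw₂⟩ := (hW u (W.sub_mem (W.smul_mem _ hv) (W.smul_mem _ (hWM v hv))) hu0).2
    simp only [u, sub_eq_add_neg, ← neg_smul, hf.bilinear.add_left, hf.bilinear.smul_left] at huw₂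
    set D := ω (M *ᵥ v) w₁ * ω v w₂ - ω v w₁ * ω (M *ᵥ v) w₂
    have hD : D ≠ 0 := fun h => huw₂ (by linear_combination h)
    obtain ⟨w, hw, hvw, hMvw⟩ : ∃ w ∈ W, ω v w = 1 ∧ ω (M *ᵥ v) w = 0 :=
      ⟨(ω (M *ᵥ v) w₁ / D) • w₂ + (-ω (M *ᵥ v) w₂ / D) • w₁,
        W.add_mem (W.smul_mem _ hw₂) (W.smul_mem _ hw₁),
        by rw [hf.bilinear.add_right, hf.bilinear.smul_right, hf.bilinear.smul_right]; field_simp; ring,
        by rw [hf.bilinear.add_right, hf.bilinear.smul_right, hf.bilinear.smul_right]; field_simp; ring⟩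
    have hMw : ω w (M *ᵥ w) = 0 := by rw [← hadj]; exact halt w
    have hvMw : ω v (M *ᵥ w) = 0 := by rw [← hadj]; exact hMvw
    have hMvMw : ω (M *ᵥ v) (M *ᵥ w) = a := by
      rw [hadj, hMM, hf.bilinear.add_right, hf.bilinear.smul_right, hf.bilinear.smul_right, hvw, hvMw]
      ring
    let Φ : W →ₗ[F] Fin 4 → F := LinearMap.pi fun i =>
      (sesqui_sympForm.lf (![v, M *ᵥ v, w, M *ᵥ w] i)).comp W.subtype
    have hΦ : ∀ x : W, ∀ i, Φ x i = ω (x : V) (![v, M *ᵥ v, w, M *ᵥ w] i) := fun x i => rfl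
    let e : Fin 4 → W := ![-⟨w, hw⟩, -(a⁻¹ : F) • ⟨M *ᵥ w, hWM w hw⟩, ⟨v, hv⟩, (a⁻¹ : F) • ⟨M *ᵥ v, hWM v hv⟩]
    have hneg : ∀ x y : V, ω (-x) y = -ω x y := fun x y => by simpa using hf.bilinear.smul_left (-1) x y
    have hsymm : ω w v = -1 := by rw [hf.skew, hvw]
    have hs1 : ω (M *ᵥ w) v = 0 := by rw [hf.skew, hvMw, neg_zero]
    have hs2 : ω w (M *ᵥ v) = 0 := by rw [hf.skew, hMvw, neg_zero]
    have hs3 : ω (M *ᵥ w) (M *ᵥ v) = -a := by rw [hf.skew, hMvMw]
    have hs4 : ω (M *ᵥ v) v = 0 := halt v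
    have hs5 : ω (M *ᵥ w) w = 0 := halt w
    have he : ∀ i, Φ (e i) = Pi.single i 1 := by
      intro i
      funext j
      rw [hΦ]
      fin_cases i <;> fin_cases j <;>
        simp [e, hneg, hf.bilinear.smul_left, hsymm, hs1, hs2, hs3, hs4, hs5, hvw, hvMw, hMvw, hMvMw,
          hMv, hMw, hf.alternating, ha]
    have hsurj : LinearMap.range Φ = ⊤ := by
      rw [eq_top_iff, ← (Pi.basisFun F (Fin 4)).span_eq, Submodule.span_le]
      rintro _ ⟨i, rfl⟩
      exact ⟨e i, by rw [he, Pi.basisFun_apply]⟩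
    have hrn := Φ.finrank_range_add_finrank_ker
    rw [hsurj, finrank_top, Module.finrank_fin_fun, hd] at hrn
    let W' : Submodule F V := (LinearMap.ker Φ).map W.subtype
    have hW'd : Module.finrank F W' = Module.finrank F (LinearMap.ker Φ) :=
      (Submodule.equivMapOfInjective _ W.subtype_injective _).symm.finrank_eq
    have hdvd : 4 ∣ Module.finrank F (LinearMap.ker Φ) := by
      refine ih _ (by omega) W' hW'd (fun x hx => ?_) (fun x hx hx0 => ?_)
      · obtain ⟨x', hx', rfl⟩ := hx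
        refine ⟨⟨M *ᵥ (x' : V), hWM _ x'.2⟩, ?_, rfl⟩
        have h : ∀ i, ω (x' : V) (![v, M *ᵥ v, w, M *ᵥ w] i) = 0 := fun i => by
          rw [← hΦ]; exact congrFun hx' i
        refine LinearMap.mem_ker.2 (funext fun i => ?_)
        rw [hΦ]
        show ω (M *ᵥ (x' : V)) _ = 0
        rw [hadj]
        fin_cases i
        · exact h 1
        · show ω (x' : V) (M *ᵥ (M *ᵥ v)) = 0
          rw [hMM, hf.bilinear.add_right, hf.bilinear.smul_right, hf.bilinear.smul_right]
          have h0 : ω (x' : V) v = 0 := h 0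
          have h1 : ω (x' : V) (M *ᵥ v) = 0 := h 1
          rw [h0, h1]; ring
        · exact h 3
        · show ω (x' : V) (M *ᵥ (M *ᵥ w)) = 0
          rw [hMM, hf.bilinear.add_right, hf.bilinear.smul_right, hf.bilinear.smul_right]
          have h2 : ω (x' : V) w = 0 := h 2
          have h3 : ω (x' : V) (M *ᵥ w) = 0 := h 3
          rw [h2, h3]; ring
      · obtain ⟨x', hx', rfl⟩ := hx
        have key : ∀ y ∈ W, ω (x' : V) y ≠ 0 → ∃ z ∈ W', ω (x' : V) z ≠ 0 := by
          intro y hy hne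
          let z : W := ⟨y, hy⟩ - ∑ i, Φ ⟨y, hy⟩ i • e i
          have hz : Φ z = 0 := by
            simp only [z, map_sub, map_sum, map_smul, he]
            rw [sub_eq_zero]
            exact (pi_eq_sum_univ' (Φ ⟨y, hy⟩))
          refine ⟨z, ⟨z, hz, rfl⟩, ?_⟩
          have hxe : ∀ i, ω (x' : V) (e i : V) = 0 := by
            intro i
            have h : ∀ j, ω (x' : V) (![v, M *ᵥ v, w, M *ᵥ w] j) = 0 := fun j => by
              rw [← hΦ]; exact congrFun hx' j
            have hnr : ∀ p q : V, ω p (-q) = -ω p q := fun p q => by simpa using hf.bilinear.smul_right (-1) p q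
            have h0 : ω (x' : V) v = 0 := h 0
            have h1 : ω (x' : V) (M *ᵥ v) = 0 := h 1
            have h2 : ω (x' : V) w = 0 := h 2
            have h3 : ω (x' : V) (M *ᵥ w) = 0 := h 3
            fin_cases i <;> simp [e, hnr, hf.bilinear.smul_right, h0, h1, h2, h3]
          have : ω (x' : V) (z : V) = ω (x' : V) y := by
            let L : V →ₗ[F] F :=
              { toFun := fun t => ω (x' : V) t
                map_add' := hf.bilinear.add_right (x' : V)
                map_smul' := fun c t => hf.bilinear.smul_right c (x' : V) t }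
            show L (z : V) = L y
            have hL : ∀ i, L (e i : V) = 0 := hxe
            simp [z, Submodule.coe_sum, map_sum, hL]
          rwa [this]
        obtain ⟨y, hy, hne⟩ := (hW (x' : V) x'.2 hx0).2
        obtain ⟨z, hz, hzne⟩ := key y hy hne
        exact ⟨⟨z, hz, fun h => hzne (by rw [show ω (x' : V) z = -ω z (x' : V) from hf.skew _ _]; simpa using h)⟩,
          ⟨z, hz, hzne⟩⟩
    omega

/-- A self-adjoint alternating field of degree two needs `4 ∣ 2 m`. -/
theorem even_of_selfAdjoint_field {K : Subalgebra F M2} (hK : IsFieldSubalgebra 2 K)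
    (hsa : IsSelfAdjointFor ω K) (halt : ∀ k ∈ K, ∀ v, ω (k *ᵥ v) v = 0) (hm : 0 < m) : Even m := by
  haveI : Nonempty (Fin m ⊕ Fin m) := ⟨Sum.inl ⟨0, hm⟩⟩
  obtain ⟨M, hMK, hMs⟩ : ∃ M ∈ K, ∀ c : F, M ≠ c • (1 : M2) := by
    by_contra hall
    push Not at hall
    have hle : Subalgebra.toSubmodule K ≤ F ∙ (1 : M2) := fun k hk => by
      obtain ⟨c, rfl⟩ := hall k hk
      exact Submodule.smul_mem _ _ (Submodule.mem_span_singleton_self _)
    have h := (Submodule.finrank_mono hle).trans_eq (finrank_span_singleton (one_ne_zero))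
    rw [show Module.finrank F ↥(Subalgebra.toSubmodule K) = Module.finrank F ↥K from rfl, hK.finrank_eq] at h
    omega
  have hli : LinearIndependent F ![(1 : M2), M] := by
    rw [LinearIndependent.pair_iff]
    intro s t h
    by_cases ht : t = 0
    · rw [ht, zero_smul, add_zero] at h
      exact ⟨(smul_eq_zero.1 h).resolve_right one_ne_zero, ht⟩
    · refine absurd ?_ (hMs (-(t⁻¹ * s)))
      have h' := congrArg (fun X : M2 => t⁻¹ • X) h
      simp only [smul_add, smul_smul, inv_mul_cancel₀ ht, one_smul, smul_zero] at h'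
      rw [neg_smul, eq_neg_iff_add_eq_zero, add_comm]
      exact h'
  have hspan : Subalgebra.toSubmodule K = Submodule.span F (Set.range ![(1 : M2), M]) := by
    refine (Submodule.eq_of_le_of_finrank_eq ?_ ?_).symm
    · rw [Submodule.span_le]
      rintro _ ⟨i, rfl⟩
      fin_cases i
      · exact K.one_mem
      · exact hMK
    · rw [finrank_span_eq_card hli, Fintype.card_fin]
      exact hK.finrank_eq.symm
  have h2 : M * M ∈ Submodule.span F (Set.range ![(1 : M2), M]) := hspan ▸ (K.mul_mem hMK hMK)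
  rw [Matrix.range_cons, Matrix.range_cons, Matrix.range_empty, Set.union_empty, Set.singleton_union,
    Submodule.mem_span_pair] at h2
  obtain ⟨a, b, hab⟩ := h2
  have hline : ∀ (v : V), v ≠ 0 → ∀ c : F, M *ᵥ v ≠ c • v := by
    intro v hv c h
    obtain ⟨y, -, hy⟩ := hK.inv _ (K.sub_mem hMK (K.smul_mem K.one_mem c)) (sub_ne_zero.2 (hMs c))
    apply hv
    have h0 : (y * (M - c • (1 : M2))) *ᵥ v = 0 := by
      rw [← Matrix.mulVec_mulVec, Matrix.sub_mulVec, Matrix.smul_mulVec, Matrix.one_mulVec, h, sub_self,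
        Matrix.mulVec_zero]
    rwa [mul_eq_one_comm.1 hy, Matrix.one_mulVec] at h0
  have ha : a ≠ 0 := by
    rintro rfl
    rw [zero_smul, zero_add] at hab
    have hM0 : M ≠ 0 := fun h => hMs 0 (by simp [h])
    obtain ⟨y, -, hy⟩ := hK.inv M hMK hM0
    have hb : M = b • (1 : M2) := by
      calc M = (y * M) * M := by rw [mul_eq_one_comm.1 hy, one_mul]
        _ = y * (b • M) := by rw [mul_assoc, ← hab]
        _ = _ := by rw [Matrix.mul_smul, mul_eq_one_comm.1 hy]
    exact hMs b hb
  have htop : IsNondegenerateOn ω (⊤ : Submodule F V) := fun x _ hx => by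
    obtain ⟨⟨y, hy⟩, ⟨z, hz⟩⟩ := isSymplecticForm_sympForm.nondegenerate x hx
    exact ⟨⟨y, trivial, hy⟩, ⟨z, trivial, hz⟩⟩
  have h := four_dvd_finrank ha hab.symm (hsa M hMK) (halt M hMK) hline (2 * m) ⊤
    (by rw [finrank_top, Module.finrank_fintype_fun_eq_card, card_idx]) (fun _ _ => trivial) htop
  obtain ⟨j, hj⟩ := h
  exact ⟨j, by omega⟩

/-- Over two elements a decomposition into planes lies in an orthogonal group. -/
theorem inSympCase_planes_two [Fintype F] (hq : Fintype.card F = 2) {H : Subgroup (GL (Fin m ⊕ Fin m) F)}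
    (hH : H ≤ Cfsg.spGL m F) {t : ℕ} {D : Fin t → Submodule F V}
    (hD : IsNondegenerateMDecomposition ω 2 D) (hle : H ≤ decompositionStabilizer D) :
    ∃ Q : V → F, IsNondegenerateQuadraticForm Q ∧ (∀ u v, QuadraticMap.polar Q u v = ω u v) ∧
      H ≤ quadSimilarityGroup Q := by
  classical
  have hf := isSymplecticForm_sympForm (m := m) (F := F)
  have hev : ¬ Odd (Fintype.card F) := by rw [hq]; decide
  have h2 := two_eq_zero_of_not_odd hev
  have hel : ∀ x : F, x = 0 ∨ x = 1 := by
    intro x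
    by_contra h
    simp only [not_or] at h
    have : ({0, 1, x} : Finset F).card ≤ 2 := hq ▸ Finset.card_le_univ _
    rw [Finset.card_insert_of_notMem (by simp [Ne.symm h.1]), Finset.card_pair (Ne.symm h.2)] at this
    omega
  obtain ⟨q, hqsmul, hqpol, -⟩ := exists_triangular_quad (coordGram ω (Equiv.refl _) (1 : GL (Fin m ⊕ Fin m) F))
    (by rw [coordGram_transpose hf.bilinear hf.skew]; ext i j; simp only [Matrix.neg_apply]
        linear_combination (-(coordGram ω (Equiv.refl _) (1 : GL (Fin m ⊕ Fin m) F) i j)) * h2)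
    (coordGram_diag hf.bilinear hf.alternating _ _)
  have hqω : ∀ u v, QuadraticMap.polar q u v = ω u v := by
    intro u v
    have h := apply_coord hf.bilinear (Equiv.refl _) (1 : GL (Fin m ⊕ Fin m) F) u v
    rw [hqpol, ← h]
    simp
  have hint : DirectSum.IsInternal D :=
    DirectSum.isInternal_submodule_of_iSupIndep_of_iSup_eq_top hD.decomp.indep hD.decomp.iSup_eq_top
  let b := hint.collectedBasis fun i => Module.finBasisOfFinrankEq F (D i) (hD.decomp.finrank_eq i)
  let l : V →ₗ[F] F := b.constr F fun x => 1 + q (b x)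
  let Q : V → F := fun v => q v + l v * l v
  have hQs : ∀ (c : F) v, Q (c • v) = c ^ 2 * Q v := fun c v => by
    simp only [Q, hqsmul, map_smul, smul_eq_mul]; ring
  have hQp : ∀ u v, QuadraticMap.polar Q u v = ω u v := fun u v => by
    rw [← hqω]
    simp only [QuadraticMap.polar, Q, map_add]
    linear_combination (l u * l v) * h2
  have hQb : ∀ x, Q (b x) = 1 := fun x => by
    have hlb : l (b x) = 1 + q (b x) := b.constr_basis F _ x
    simp only [Q, hlb]
    rcases hel (q (b x)) with h | h <;> rw [h]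
    · ring
    · linear_combination 2 * h2
  -- the non-zero vectors of each plane
  have hplane : ∀ i, ∀ v ∈ D i, v ≠ 0 → Q v = 1 := by
    intro i v hv hv0
    let bi := Module.finBasisOfFinrankEq F (D i) (hD.decomp.finrank_eq i)
    have hb : ∀ a, b ⟨i, a⟩ = (bi a : V) := fun a => by
      simp [b, bi, DirectSum.IsInternal.collectedBasis_coe]
    have hrep : v = bi.repr ⟨v, hv⟩ 0 • b ⟨i, 0⟩ + bi.repr ⟨v, hv⟩ 1 • b ⟨i, 1⟩ := by
      have h := congrArg Subtype.val (bi.sum_repr ⟨v, hv⟩)
      simp only [Fin.sum_univ_two, Submodule.coe_add, Submodule.coe_smul] at h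
      rw [hb, hb]
      exact h.symm
    have hab : ω (b ⟨i, 0⟩) (b ⟨i, 1⟩) = 1 := by
      refine (hel _).resolve_left fun h0 => ?_
      obtain ⟨x, hx, hne⟩ := (hD.nondegenerate i (bi 0 : V) (bi 0).2 (fun h => bi.ne_zero 0 (Subtype.ext h))).2
      have h := congrArg Subtype.val (bi.sum_repr ⟨x, hx⟩)
      simp only [Fin.sum_univ_two, Submodule.coe_add, Submodule.coe_smul] at h
      apply hne
      rw [← h, hf.bilinear.add_right, hf.bilinear.smul_right, hf.bilinear.smul_right, hf.alternating, ← hb, ← hb,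
        h0, mul_zero, mul_zero, add_zero]
    have hsum : Q (b ⟨i, 0⟩ + b ⟨i, 1⟩) = 1 := by
      have h := hQp (b ⟨i, 0⟩) (b ⟨i, 1⟩)
      rw [hab, QuadraticMap.polar, hQb, hQb] at h
      linear_combination h + h2
    rcases hel (bi.repr ⟨v, hv⟩ 0) with h0 | h0 <;> rcases hel (bi.repr ⟨v, hv⟩ 1) with h1 | h1 <;>
      rw [hrep, h0, h1]
    · exact absurd (by rw [hrep, h0, h1]; simp) hv0
    · simpa using hQb _
    · simpa using hQb _
    · simpa using hsum
  refine ⟨Q, ⟨hQs, by rw [show QuadraticMap.polar Q = ω from funext₂ hQp]; exact hf.bilinear,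
    by rw [show QuadraticMap.polar Q = ω from funext₂ hQp]; exact hf.nondegenerate⟩, hQp, fun g hg => ⟨1, fun v => ?_⟩⟩
  rw [Units.val_one, one_mul]
  refine sub_eq_zero.1 (eq_zero_of_additive_sq (d := fun v => Q (act g v) - Q v) (fun x y => ?_) (fun c x => ?_)
    (T := Set.range b) ?_ (b.span_eq.ge Submodule.mem_top))
  · have h1 := mem_spGL.1 (hH hg) x y
    rw [← hQp, ← hQp] at h1
    simp only [QuadraticMap.polar] at h1
    rw [show act g (x + y) = act g x + act g y from Matrix.mulVec_add _ _ _]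
    linear_combination h1
  · rw [show act g (c • x) = c • act g x from Matrix.mulVec_smul _ _ _, hQs, hQs]
    ring
  · rintro _ ⟨⟨i, a⟩, rfl⟩
    obtain ⟨σ, hσ⟩ := hle hg
    have hmem : act g (b ⟨i, a⟩) ∈ D (σ i) := by
      rw [← hσ i]
      exact ⟨b ⟨i, a⟩, hint.collectedBasis_mem _ (⟨i, a⟩ : Σ _ : Fin t, Fin 2), Matrix.toLin'_apply _ _⟩
    rw [hplane _ _ hmem (act_ne_zero g (b.ne_zero _)), hQb, sub_self]

end CfsgLib.SmallDim
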