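import Cfsg.Agent.Lib.SmallDim.SympStructure
import Cfsg.Agent.Lib.Geometric.Symp

/-!
The symplectic group lies in no member of its geometric classes.
-/

set_option autoImplicit false
set_option linter.style.haveILetI false

namespace CfsgLib.SmallDim

open scoped MatrixGroups Matrix Kronecker commutatorElement
open Cfsg.Geo

variable {F : Type*} [Field F] {m : ℕ}

local notation "V" => (Fin m ⊕ Fin m → F)
local notation "M2" => Matrix (Fin m ⊕ Fin m) (Fin m ⊕ Fin m) F
local notation "ω" => Cfsg.sympForm m F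

/-- The transvection `x ↦ x + c ω(x, v) v`. -/
def sympTv (v : V) (c : F) : GL (Fin m ⊕ Fin m) F :=
  Geometric.Symp.T isSymplecticForm_sympForm v c

lemma sympTv_mem (v : V) (c : F) : sympTv v c ∈ Cfsg.spGL m F :=
  Geometric.Symp.T_mem_isom isSymplecticForm_sympForm v c

lemma act_sympTv (v : V) (c : F) (x : V) : act (sympTv v c) x = x + (c * ω x v) • v :=
  Geometric.Symp.ap_T isSymplecticForm_sympForm v c x

/-- The symplectic group is transitive on non-zero vectors. -/
theorem exists_sp_map {u v : V} (hu : u ≠ 0) (hv : v ≠ 0) : ∃ g ∈ Cfsg.spGL m F, act g u = v := by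
  have hf := isSymplecticForm_sympForm (m := m) (F := F)
  have hne : ∀ x : V, x ≠ 0 → ∃ p ∈ Geometric.Symp.perp hf ⊥, ω x p ≠ 0 := fun x hx => by
    obtain ⟨p, hp⟩ := (hf.nondegenerate x hx).2
    exact ⟨p, Geometric.Symp.mem_perp_bot hf p, hp⟩
  obtain ⟨g, -, hg, -, hgu⟩ := Geometric.Symp.exists_move hf (M := ⊤) (U := ⊥) (fun _ _ _ => trivial)
    (Geometric.Symp.mem_perp_bot hf (v - u)) (hne u hu) (hne v hv)
  exact ⟨g, hg, hgu⟩

theorem sp_not_le_subspaceStabilizer {W : Submodule F V} (h0 : W ≠ ⊥) (h1 : W ≠ ⊤) :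
    ¬ Cfsg.spGL m F ≤ subspaceStabilizer W := by
  intro hle
  obtain ⟨w, hw, hw0⟩ := (Submodule.ne_bot_iff _).1 h0
  refine h1 (eq_top_iff.2 fun v _ => ?_)
  by_cases hv : v = 0
  · rw [hv]; exact W.zero_mem
  obtain ⟨g, hg, hgw⟩ := exists_sp_map hw0 hv
  exact hgw ▸ (mem_subspaceStabilizer.1 (hle hg) w).1 hw

theorem sp_not_le_decompositionStabilizer {t k : ℕ} {D : Fin t → Submodule F V} (hD : IsMDecomposition k D)
    (hk : 2 ≤ k) : ¬ Cfsg.spGL m F ≤ decompositionStabilizer D := by
  intro hle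
  have hf := isSymplecticForm_sympForm (m := m) (F := F)
  have key : ∀ (v : V) i, v ∈ D i ∨ ∀ x ∈ D i, ω x v = 0 := by
    intro v i
    by_contra hcon
    simp only [not_or, not_forall] at hcon
    obtain ⟨hvi, x, hx, hxv⟩ := hcon
    obtain ⟨σ, hσ⟩ := hle (sympTv_mem v 1)
    -- the hyperplane of the transvection meets `D i`
    obtain ⟨y, hy, hy0, hyv⟩ : ∃ y ∈ D i, y ≠ 0 ∧ ω y v = 0 := by
      let φ : D i →ₗ[F] F := ((sesqui_sympForm (m := m) (F := F)).lf v).comp (D i).subtype
      have hker : LinearMap.ker φ ≠ ⊥ := fun h => by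
        have h2 := LinearMap.finrank_le_finrank_of_injective (LinearMap.ker_eq_bot.1 h)
        rw [hD.finrank_eq, Module.finrank_self] at h2
        omega
      obtain ⟨y, hy, hy0⟩ := (Submodule.ne_bot_iff _).1 hker
      exact ⟨y, y.2, fun h => hy0 (Subtype.ext h), hy⟩
    have hfix : σ i = i := by
      by_contra hne
      have hyσ : y ∈ D (σ i) := by
        rw [← hσ i]
        refine ⟨y, hy, ?_⟩
        rw [Matrix.toLin'_apply]
        show act (sympTv v 1) y = y
        rw [act_sympTv, hyv, mul_zero, zero_smul, add_zero]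
      exact hy0 (Submodule.disjoint_def.1 (hD.indep.pairwiseDisjoint (Ne.symm hne)) y hy hyσ)
    have h1 : act (sympTv v 1) x ∈ D i := by
      have h2 : act (sympTv v 1) x ∈ D (σ i) := by
        rw [← hσ i]
        exact ⟨x, hx, Matrix.toLin'_apply _ _⟩
      rwa [hfix] at h2
    rw [act_sympTv, one_mul] at h1
    have h2 : ω x v • v ∈ D i := by simpa using Submodule.sub_mem _ h1 hx
    exact hvi ((Submodule.smul_mem_iff _ hxv).1 h2)
  have hne : ∀ i, D i ≠ ⊥ := fun i h => by
    have := hD.finrank_eq i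
    rw [h, finrank_bot] at this
    omega
  let i₀ : Fin t := ⟨0, by have := hD.two_le; omega⟩
  let i₁ : Fin t := ⟨1, by have := hD.two_le; omega⟩
  have h01 : i₀ ≠ i₁ := by simp [i₀, i₁]
  obtain ⟨a, ha, ha0⟩ := (Submodule.ne_bot_iff _).1 (hne i₀)
  obtain ⟨b, hb, hb0⟩ := (Submodule.ne_bot_iff _).1 (hne i₁)
  have hnot : ∀ i, a + b ∉ D i := by
    intro i hi
    have hdis : ∀ p q, p ≠ q → ∀ x ∈ D p, x ∈ D q → x = 0 := fun p q hpq =>
      Submodule.disjoint_def.1 (hD.indep.pairwiseDisjoint hpq)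
    by_cases h : i = i₀
    · subst h
      exact hb0 (hdis _ _ h01 b (by simpa using Submodule.sub_mem _ hi ha) hb)
    · have hd := Submodule.disjoint_def.1 (hD.indep i₀) a ha
      refine ha0 (hd ?_)
      have hab : a = (a + b) - b := by simp
      rw [hab]
      refine Submodule.sub_mem _ ?_ ?_
      · exact Submodule.mem_iSup_of_mem i (Submodule.mem_iSup_of_mem h hi)
      · exact Submodule.mem_iSup_of_mem i₁ (Submodule.mem_iSup_of_mem (Ne.symm h01) hb)
  have hzero : ∀ x : V, ω x (a + b) = 0 := by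
    intro x
    have hx : x ∈ ⨆ i, D i := hD.iSup_eq_top ▸ Submodule.mem_top
    induction hx using Submodule.iSup_induction' with
    | mem i x hx => exact ((key (a + b) i).resolve_left (hnot i)) x hx
    | zero => exact sesqui_sympForm.zero_left _
    | add x y _ _ hx hy => rw [hf.bilinear.add_left, hx, hy, add_zero]
  have hab0 : a + b ≠ 0 := fun h => hnot i₀ (h ▸ (D i₀).zero_mem)
  obtain ⟨x, hx⟩ := (hf.nondegenerate (a + b) hab0).1
  exact hx (hzero x)

theorem sp_not_le_subalgebraNormalizer (hm : 2 ≤ m) {r : ℕ} {K : Subalgebra F M2} (hr : 2 ≤ r)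
    (hK : IsFieldSubalgebra r K) : ¬ Cfsg.spGL m F ≤ subalgebraNormalizer K := by
  intro hle
  have hf := isSymplecticForm_sympForm (m := m) (F := F)
  -- a transvection centralises `K`
  have hcomm : ∀ (v : V), ∀ k ∈ K, (sympTv v 1 : M2) * k = k * (sympTv v 1 : M2) := by
    intro v k hk
    by_contra hne
    set T := sympTv v 1
    set k' : M2 := (T : M2) * k * ((T⁻¹ : GL _ F) : M2)
    have hk' : k' ∈ K := (hle (sympTv_mem v 1) k).1 hk
    have hd : k' - k ≠ 0 := fun h => hne (by
      have h' : k' = k := sub_eq_zero.1 h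
      calc (T : M2) * k = k' * (T : M2) := by simp [k', mul_assoc]
        _ = k * (T : M2) := by rw [h'])
    obtain ⟨y, -, hy⟩ := hK.inv _ (sub_mem hk' hk) hd
    -- a common vector of two hyperplanes
    let φ : V →ₗ[F] F × F := LinearMap.prod (sesqui_sympForm.lf v)
      ((sesqui_sympForm.lf v).comp (Matrix.toLin' k))
    have hker : LinearMap.ker φ ≠ ⊥ := fun h => by
      have h2 := LinearMap.finrank_le_finrank_of_injective (LinearMap.ker_eq_bot.1 h)
      rw [Module.finrank_fintype_fun_eq_card, card_idx, Module.finrank_prod, Module.finrank_self] at h2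
      omega
    obtain ⟨x, hx, hx0⟩ := (Submodule.ne_bot_iff _).1 hker
    have hx1 : ω x v = 0 := congrArg Prod.fst hx
    have hx2 : ω (k *ᵥ x) v = 0 := by
      have h := congrArg Prod.snd hx
      simpa [φ, IsSesqui.lf] using h
    have hTx : act T x = x := by rw [act_sympTv, hx1, mul_zero, zero_smul, add_zero]
    have hTinv : ((T⁻¹ : GL _ F) : M2) *ᵥ x = x := by
      conv_lhs => rw [← hTx]
      exact act_inv_act T x
    have hk'x : k' *ᵥ x = k *ᵥ x := by
      simp only [k', ← Matrix.mulVec_mulVec, hTinv]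
      show act T (k *ᵥ x) = k *ᵥ x
      rw [act_sympTv, hx2, mul_zero, zero_smul, add_zero]
    apply hx0
    have h0 : (y * (k' - k)) *ᵥ x = 0 := by
      rw [← Matrix.mulVec_mulVec, Matrix.sub_mulVec, hk'x, sub_self, Matrix.mulVec_zero]
    rw [mul_eq_one_comm.1 hy, Matrix.one_mulVec] at h0
    exact h0
  have hscal : ∀ k ∈ K, ∃ c : F, k = c • (1 : M2) := by
    intro k hk
    obtain ⟨a, ha⟩ := LinearMap.exists_eq_smul_id_of_forall_notLinearIndependent
      (f := Matrix.toLin' k) (fun v hli => by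
        by_cases hv : v = 0
        · exact hli.ne_zero 0 (by simpa using hv)
        obtain ⟨x, hx⟩ := (hf.nondegenerate v hv).1
        have h := congrArg (fun X : M2 => X *ᵥ x) (hcomm v k hk)
        simp only [← Matrix.mulVec_mulVec] at h
        change act (sympTv v 1) (k *ᵥ x) = k *ᵥ act (sympTv v 1) x at h
        rw [act_sympTv, act_sympTv, Matrix.mulVec_add, Matrix.mulVec_smul, one_mul, one_mul] at h
        have h' := add_left_cancel h
        rw [LinearIndependent.pair_iff] at hli
        have := hli (ω (k *ᵥ x) v) (-ω x v) (by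
          rw [Matrix.toLin'_apply, neg_smul, h', add_neg_cancel])
        exact hx (neg_eq_zero.1 this.2))
    exact ⟨a, Matrix.toLin'.injective (by rw [ha, map_smul, Matrix.toLin'_one]; rfl)⟩
  have hle1 : Subalgebra.toSubmodule K ≤ F ∙ (1 : M2) := fun k hk => by
    obtain ⟨c, rfl⟩ := hscal k hk
    exact Submodule.smul_mem _ _ (Submodule.mem_span_singleton_self _)
  have h := (Submodule.finrank_mono hle1).trans (finrank_span_le_card ({1} : Set M2))
  rw [show Module.finrank F ↥(Subalgebra.toSubmodule K) = Module.finrank F ↥K from rfl, hK.finrank_eq] at h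
  simp at h
  omega

theorem sp_not_le_tensorProductSubgroup {n₁ n₂ : ℕ} (h₁ : 2 ≤ n₁) (h₂ : 2 ≤ n₂)
    (e : (Fin m ⊕ Fin m) ≃ Fin n₁ × Fin n₂) (P : GL (Fin m ⊕ Fin m) F) :
    ¬ Cfsg.spGL m F ≤ tensorProductSubgroup n₁ n₂ e P := by
  intro hle
  let i0 : Fin n₁ := ⟨0, by omega⟩
  let i1 : Fin n₁ := ⟨1, by omega⟩
  let j0 : Fin n₂ := ⟨0, by omega⟩
  let j1 : Fin n₂ := ⟨1, by omega⟩
  let s : Fin n₁ × Fin n₂ → F := Pi.single (i0, j0) 1 + Pi.single (i1, j1) 1
  let p : Fin n₁ × Fin n₂ → F := Pi.single (i0, j0) 1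
  have hnz : ∀ z : Fin n₁ × Fin n₂ → F, z (i0, j0) = 1 → (P : M2) *ᵥ (z ∘ e) ≠ 0 := by
    intro z hz h
    have := congrArg (coordMap e P) h
    rw [coordMap_point, map_zero] at this
    exact one_ne_zero (hz.symm.trans (congrFun this _))
  obtain ⟨g, hg, hgp⟩ := exists_sp_map (hnz p (by simp [p])) (hnz s (by simp [s, i0, i1]))
  obtain ⟨_, ⟨z, ⟨a, b, hz⟩, rfl⟩, hgz⟩ := hle hg
  have h : act (P * glReindex e.symm z * P⁻¹) ((P : M2) *ᵥ (p ∘ e)) = (P : M2) *ᵥ (s ∘ e) := (show g = P * glReindex e.symm z * P⁻¹ from hgz.symm) ▸ hgp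
  rw [act_conj_reindex] at h
  have h' := congrArg (coordMap e P) h
  rw [coordMap_point, coordMap_point, hz] at h'
  have hval : ∀ q, (a : Matrix _ _ F) q.1 i0 * (b : Matrix _ _ F) q.2 j0 = s q := fun q => by
    rw [← h']; simp [p]
  have h00 := hval (i0, j0)
  have h11 := hval (i1, j1)
  have h01 := hval (i0, j1)
  simp [s, i0, i1, j0, j1] at h00 h11 h01
  rcases h01 with h | h
  · rw [h, zero_mul] at h00; exact zero_ne_one h00
  · rw [h, mul_zero] at h11; exact zero_ne_one h11

theorem sp_not_le_tensorWreathSubgroup [Finite F] {n k : ℕ} (hn : 2 ≤ n) (hk : 2 ≤ k)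
    (e : (Fin m ⊕ Fin m) ≃ (Fin k → Fin n)) (P : GL (Fin m ⊕ Fin m) F) :
    ¬ Cfsg.spGL m F ≤ tensorWreathSubgroup n k e P := by
  intro hle
  let c0 : Fin k → Fin n := fun _ => ⟨0, by omega⟩
  let c1 : Fin k → Fin n := fun _ => ⟨1, by omega⟩
  let d : Fin k → Fin n := Function.update c0 ⟨0, by omega⟩ ⟨1, by omega⟩
  have hne : c0 ≠ c1 := fun h => by simpa [c0, c1] using congrFun h ⟨0, by omega⟩
  have hd0 : d ≠ c0 := fun h => by simpa [d, c0] using congrFun h ⟨0, by omega⟩
  have hd1 : d ≠ c1 := fun h => by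
    have := congrFun h ⟨1, by omega⟩
    simp [d, c0, c1] at this
  let s : (Fin k → Fin n) → F := Pi.single c0 1 + Pi.single c1 1
  let u : Fin k → Fin n → F := fun i => Pi.single (c0 i) 1
  have hnz : ∀ z : (Fin k → Fin n) → F, z c0 = 1 → (P : M2) *ᵥ (z ∘ e) ≠ 0 := by
    intro z hz h
    have := congrArg (coordMap e P) h
    rw [coordMap_point, map_zero] at this
    exact one_ne_zero (hz.symm.trans (congrFun this _))
  obtain ⟨g, hg, hgp⟩ := exists_sp_map (hnz (pureTensorVec u) (by simp [pureTensorVec, u]))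
    (hnz s (by simp [s, Pi.single_eq_of_ne hne]))
  obtain ⟨_, ⟨z, hz, rfl⟩, hgz⟩ := hle hg
  have h : act (P * glReindex e.symm z * P⁻¹) ((P : M2) *ᵥ (pureTensorVec u ∘ e)) = (P : M2) *ᵥ (s ∘ e) := (show g = P * glReindex e.symm z * P⁻¹ from hgz.symm) ▸ hgp
  rw [act_conj_reindex] at h
  have h' := congrArg (coordMap e P) h
  rw [coordMap_point, coordMap_point] at h'
  obtain ⟨w, hw⟩ := tensorWreathStandard_pureVec hz u
  rw [hw] at h'
  have h0 : pureTensorVec w c0 = 1 := by rw [h']; simp [s, Pi.single_eq_of_ne hne]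
  have h1 : pureTensorVec w c1 = 1 := by rw [h']; simp [s, Pi.single_eq_of_ne (Ne.symm hne)]
  have h2 : pureTensorVec w d = 0 := by rw [h']; simp [s, Pi.single_eq_of_ne hd0, Pi.single_eq_of_ne hd1]
  obtain ⟨i, -, hi⟩ := Finset.prod_eq_zero_iff.1 h2
  by_cases hii : i = ⟨0, by omega⟩
  · subst hii
    have : pureTensorVec w c1 = 0 := Finset.prod_eq_zero (Finset.mem_univ _) (by simpa [d, c1] using hi)
    rw [h1] at this; exact one_ne_zero this
  · have : pureTensorVec w c0 = 0 := Finset.prod_eq_zero (Finset.mem_univ i) (by simpa [d, hii] using hi)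
    rw [h0] at this; exact one_ne_zero this

theorem sp_not_le_subfieldSubgroup (hm : 0 < m) {K : Subfield F} (hK : K ≠ ⊤) (P : GL (Fin m ⊕ Fin m) F) :
    ¬ Cfsg.spGL m F ≤ subfieldSubgroup K P := by
  intro hle
  obtain ⟨a, ha⟩ : ∃ a : F, a ∉ K := by
    by_contra h
    push Not at h
    exact hK (eq_top_iff.2 fun x _ => h x)
  let i : Fin m ⊕ Fin m := Sum.inl ⟨0, hm⟩
  let j : Fin m ⊕ Fin m := Sum.inr ⟨0, hm⟩
  have hij : i ≠ j := by simp [i, j]
  let e1 : V := Pi.single i 1
  let v : V := Pi.single i 1 + Pi.single j a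
  have he1 : act P e1 ≠ 0 := act_ne_zero P (by simp [e1])
  have hv : act P v ≠ 0 := act_ne_zero P fun h => by simpa [v, hij] using congrFun h i
  obtain ⟨g, hg, hgv⟩ := exists_sp_map he1 hv
  obtain ⟨y, hy, hgy⟩ := hle hg
  let S : Subgroup (GL (Fin m ⊕ Fin m) F) :=
    (Matrix.GeneralLinearGroup.map (K.subtype : K →+* F)).range
  obtain ⟨A, hA, s, hs, rfl⟩ := Subgroup.mem_sup_of_normal_right.1 (show y ∈ S ⊔ scalars _ F from hy)
  obtain ⟨B, rfl⟩ := hA
  obtain ⟨c, hc⟩ := (mem_scalars_iff s).1 hs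
  have h : act (P * (Matrix.GeneralLinearGroup.map (K.subtype : K →+* F) B * s) * P⁻¹) (act P e1) = act P v :=
    (show g = P * (Matrix.GeneralLinearGroup.map (K.subtype : K →+* F) B * s) * P⁻¹ from hgy.symm) ▸ hgv
  rw [act_mul, act_inv_act, act_mul] at h
  have h' := act_injective P h
  rw [act_mul, act_scalar hc] at h'
  have hcol : ∀ l, c * ((B : Matrix (Fin m ⊕ Fin m) (Fin m ⊕ Fin m) K) l i : F) = v l := fun l => by
    rw [← h']
    simp [act, e1, Matrix.mulVec_smul]
  have hi := hcol i
  have hj := hcol j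
  simp [v, hij, Ne.symm hij] at hi hj
  apply ha
  have hcK : (c : F) ∈ K := by
    rw [show (c : F) = (((B : Matrix (Fin m ⊕ Fin m) (Fin m ⊕ Fin m) K) i i : K) : F)⁻¹ from
      eq_inv_of_mul_eq_one_left hi]
    exact K.inv_mem (SetLike.coe_mem _)
  rw [← hj]
  exact K.mul_mem hcK (SetLike.coe_mem _)

theorem sp_not_le_quadSimilarityGroup [Fintype F] (hm : 2 ≤ m) {Q : V → F}
    (hQ : IsNondegenerateQuadraticForm Q) (hpol : ∀ u v, QuadraticMap.polar Q u v = ω u v) :
    ¬ Cfsg.spGL m F ≤ quadSimilarityGroup Q := by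
  intro hle
  have hf := isSymplecticForm_sympForm (m := m) (F := F)
  let e1 : V := Pi.single (Sum.inl ⟨0, by omega⟩) 1
  have he1 : e1 ≠ 0 := by simp [e1]
  have hzero : ∀ u v : V, u ≠ 0 → v ≠ 0 → (Q u = 0 ↔ Q v = 0) := by
    intro u v hu hv
    obtain ⟨g, hg, rfl⟩ := exists_sp_map hu hv
    obtain ⟨c, hc⟩ := hle hg
    show _ ↔ Q ((g : M2) *ᵥ u) = 0
    rw [hc, mul_eq_zero, or_iff_right c.ne_zero]
  -- a non-zero vector orthogonal to `e1` and independent of it
  obtain ⟨x, hx, hxe⟩ : ∃ x : V, ω x e1 = 0 ∧ x ∉ F ∙ e1 := by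
    by_contra hall
    push Not at hall
    have hker : LinearMap.ker (sesqui_sympForm.lf e1) ≤ F ∙ e1 := fun x hx => hall x hx
    have h1 := Submodule.finrank_mono hker
    rw [finrank_span_singleton he1] at h1
    have h2 := (sesqui_sympForm.lf e1).finrank_range_add_finrank_ker
    have h3 := Submodule.finrank_le (LinearMap.range (sesqui_sympForm.lf e1))
    rw [Module.finrank_self] at h3
    rw [Module.finrank_fintype_fun_eq_card, card_idx] at h2
    omega
  have hQne : ∀ u : V, u ≠ 0 → Q u ≠ 0 := by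
    intro u hu h0
    obtain ⟨w, hw⟩ := (hf.nondegenerate e1 he1).1
    have h1 : ∀ z : V, Q z = 0 := fun z => by
      by_cases hz : z = 0
      · subst hz; simpa using hQ.smul 0 0
      · exact (hzero u z hu hz).1 h0
    rw [← hpol] at hw
    exact hw (by simp [QuadraticMap.polar, h1])
  -- two orthogonal vectors span an anisotropic plane only if squares are few
  have hx0 : x ≠ 0 := fun h => hxe (h ▸ Submodule.zero_mem _)
  obtain ⟨s, hs⟩ : ∃ s : F, Q e1 + s ^ 2 * Q x = 0 := by
    by_cases hodd : Odd (Fintype.card F)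
    · have h0 := hf.alternating e1
      rw [← hpol, polar_self_eq hQ] at h0
      exact absurd ((mul_eq_zero.1 h0).resolve_left (two_ne_zero_of_odd_card hodd)) (hQne e1 he1)
    · obtain ⟨s, hs⟩ := isSquare_of_two_eq_zero (two_eq_zero_of_not_odd hodd) (Q e1 / Q x)
      refine ⟨s, ?_⟩
      rw [pow_two, ← hs, div_mul_cancel₀ _ (hQne x hx0), ← two_mul, two_eq_zero_of_not_odd hodd, zero_mul]
  have hval : Q (e1 + s • x) = 0 := by
    have h := hpol e1 (s • x)
    rw [hf.bilinear.smul_right, hf.skew e1 x, hx, neg_zero, mul_zero, QuadraticMap.polar, hQ.smul] at h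
    linear_combination h + hs
  refine hQne _ (fun h => ?_) hval
  by_cases hs0 : s = 0
  · simp [hs0, he1] at h
  · refine hxe (Submodule.mem_span_singleton.2 ⟨-s⁻¹, ?_⟩)
    rw [neg_smul, eq_comm, eq_neg_iff_add_eq_zero, ← smul_right_injective V hs0 |>.eq_iff, smul_add, smul_smul,
      mul_inv_cancel₀ hs0, one_smul, smul_zero, add_comm, h]

lemma exists_involution [Fintype F] (hm : 2 ≤ m) {H R : Subgroup (GL (Fin m ⊕ Fin m) F)} {k : ℕ}
    (hR : SymplGen H R 2 k) (hz : Nat.card (Subgroup.center R) = 2) :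
    ∃ x ∈ R, x ∉ scalars (Fin m ⊕ Fin m) F ∧ x * x = 1 := by
  classical
  haveI : Nonempty (Fin m ⊕ Fin m) := ⟨Sum.inl ⟨0, by omega⟩⟩
  haveI : Fintype R := Fintype.ofFinite R
  have hcs := hR.mem_scalars_iff_mem_center
  have hcentral : ∀ y z : R, Commute (y * y) z := by
    intro y z
    obtain ⟨c, hc, hcz⟩ : ∃ c ∈ Subgroup.center R, y * z = c * (z * y) :=
      ⟨⁅y, z⁆, (hcs _).1 (by simpa [commutatorElement_def] using hR.comm_scalar y y.2 z z.2),
        by rw [commutatorElement_def]; group⟩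
    have hc2 : c * c = 1 := by
      have h : (⟨c, hc⟩ : Subgroup.center R) ^ Nat.card (Subgroup.center R) = 1 := pow_card_eq_one'
      rw [hz, pow_two] at h
      exact congrArg Subtype.val h
    have hcy : y * c = c * y := Subgroup.mem_center_iff.1 hc y
    show y * y * z = z * (y * y)
    calc y * y * z = y * (c * (z * y)) := by rw [mul_assoc, hcz]
      _ = c * (y * z) * y := by rw [← mul_assoc y c, hcy]; group
      _ = c * c * z * (y * y) := by rw [hcz]; group
      _ = _ := by rw [hc2, one_mul]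
  -- the scalars in `R`
  obtain ⟨a, ha⟩ : ∃ a : R, ∀ z : R, z ∈ Subgroup.center R → z = 1 ∨ z = a := by
    obtain ⟨u, v, huv, hu⟩ := Nat.card_eq_two_iff.1 hz
    have hall : ∀ z : Subgroup.center R, z = u ∨ z = v := fun z => by
      simpa using (Set.eq_univ_iff_forall.1 hu z)
    rcases hall 1 with h | h
    · exact ⟨v, fun z hz' => (hall ⟨z, hz'⟩).imp (fun h' => congrArg Subtype.val (h'.trans h.symm))
        (fun h' => congrArg Subtype.val h')⟩
    · exact ⟨u, fun z hz' => (hall ⟨z, hz'⟩).symm.imp (fun h' => congrArg Subtype.val (h'.trans h.symm))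
        (fun h' => congrArg Subtype.val h')⟩
  have hcard : 32 ≤ Fintype.card R := by
    rw [← Nat.card_eq_fintype_card, hR.card_eq, hz]
    have h2 : 2 ≤ k := by
      have := hR.dim
      rw [card_idx] at this
      by_contra h
      interval_cases k <;> omega
    have := Nat.pow_le_pow_right (show 1 ≤ 2 by norm_num) (show 4 ≤ 2 * k by omega)
    omega
  obtain ⟨x, hxc⟩ : ∃ x : R, x ∉ Subgroup.center R := by
    by_contra hall
    push Not at hall
    have : Fintype.card R ≤ 2 := by
      rw [← hz, ← Nat.card_eq_fintype_card]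
      exact Nat.card_le_card_of_injective (fun z => ⟨z, hall z⟩) fun p q h => congrArg Subtype.val h
    omega
  by_contra hno
  push Not at hno
  have hsq : ∀ z : R, z ∉ Subgroup.center R → z * z = a := by
    intro z hzc
    refine (ha _ (Subgroup.mem_center_iff.2 fun w => (hcentral z w).symm)).resolve_left fun h => ?_
    exact hno z z.2 (fun hs => hzc ((hcs z).1 hs)) (congrArg Subtype.val h)
  -- the centraliser of `x` has four elements at most
  let C := Finset.univ.filter fun z : R => Commute x z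
  have hC : C ⊆ {1, a, x, x * a} := by
    intro z hz'
    have hxz : Commute x z := (Finset.mem_filter.1 hz').2
    by_cases hzc : z ∈ Subgroup.center R
    · rcases ha z hzc with rfl | rfl <;> simp
    · have hw : x⁻¹ * z ∈ Subgroup.center R := by
        by_contra hw
        have h := hsq _ hw
        rw [(hxz.inv_left).symm.mul_mul_mul_comm, hsq z hzc, ← mul_inv_rev, hsq x hxc, inv_mul_cancel] at h
        have hxa := hsq x hxc
        rw [← h] at hxa
        exact hno x x.2 (fun hs => hxc ((hcs x).1 hs)) (congrArg Subtype.val hxa)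
      rcases ha _ hw with h | h
      · simp [inv_mul_eq_one.1 h]
      · simp [inv_mul_eq_iff_eq_mul.1 h]
  have hsplit := Finset.card_filter_add_card_filter_not (s := (Finset.univ : Finset R)) (fun z => Commute x z)
  have h4 : C.card ≤ 4 := (Finset.card_le_card hC).trans Finset.card_le_four
  have hD : (Finset.univ.filter fun z : R => ¬ Commute x z).card ≤ C.card := by
    rcases Finset.eq_empty_or_nonempty (Finset.univ.filter fun z : R => ¬ Commute x z) with h | ⟨z₁, hz₁⟩
    · rw [h]; simp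
    have hanti : ∀ z : R, ¬ Commute x z → x * z = a * (z * x) := by
      intro z hxz
      have hc : ⁅x, z⁆ ∈ Subgroup.center R :=
        (hcs _).1 (by simpa [commutatorElement_def] using hR.comm_scalar x x.2 z z.2)
      rcases ha _ hc with h | h
      · exact absurd (commutatorElement_eq_one_iff_commute.1 h) hxz
      · rw [← h, commutatorElement_def]; group
    refine Finset.card_le_card_of_injOn (fun z => z₁ * z) (fun z hz' => ?_) (fun p _ q _ h => mul_left_cancel h)
    refine Finset.mem_filter.2 ⟨Finset.mem_univ _, ?_⟩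
    have h1 := hanti _ (Finset.mem_filter.1 hz₁).2
    have h2 := hanti _ (Finset.mem_filter.1 hz').2
    show x * (z₁ * z) = z₁ * z * x
    have hac : a ∈ Subgroup.center R := hsq x hxc ▸ Subgroup.mem_center_iff.2 fun w => (hcentral x w).symm
    have haa : a * a = 1 := by
      have h : (⟨a, hac⟩ : Subgroup.center R) ^ Nat.card (Subgroup.center R) = 1 := pow_card_eq_one'
      rw [hz, pow_two] at h
      exact congrArg Subtype.val h
    have haz : z₁ * a = a * z₁ := Subgroup.mem_center_iff.1 hac z₁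
    calc x * (z₁ * z) = a * z₁ * (x * z) := by rw [← mul_assoc x, h1]; group
      _ = a * (z₁ * a) * (z * x) := by rw [h2]; group
      _ = _ := by rw [haz, ← mul_assoc a a, haa, one_mul, mul_assoc]
  rw [Finset.card_univ] at hsplit
  change (Finset.univ.filter fun z : R => Commute x z).card ≤ 4 at h4
  change _ ≤ (Finset.univ.filter fun z : R => Commute x z).card at hD
  omega

set_option maxHeartbeats 400000 in
theorem sp_not_le_subgroupNormalizer [Fintype F] (hodd : Odd (Fintype.card F)) (hm : 2 ≤ m)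
    {H R : Subgroup (GL (Fin m ⊕ Fin m) F)} {k : ℕ} (hR : SymplGen H R 2 k) (hRsp : R ≤ Cfsg.spGL m F)
    (hz : Nat.card (Subgroup.center R) = 2) : ¬ Cfsg.spGL m F ≤ subgroupNormalizer R := by
  intro hle
  haveI : Nonempty (Fin m ⊕ Fin m) := ⟨Sum.inl ⟨0, by omega⟩⟩
  have hf := isSymplecticForm_sympForm (m := m) (F := F)
  obtain ⟨x, hx, hxs, hx2⟩ := exists_involution hm hR hz
  obtain ⟨v, hv⟩ : ∃ v : V, act x v ∉ F ∙ v := by
    by_contra hall
    push Not at hall
    apply hxs
    obtain ⟨a, ha⟩ := LinearMap.exists_eq_smul_id_of_forall_notLinearIndependent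
      (f := Matrix.toLin' (x : M2)) (fun w h => by
        obtain ⟨c, hc⟩ := Submodule.mem_span_singleton.1 (hall w)
        rw [LinearIndependent.pair_iff] at h
        have := h c (-1) (by
          rw [Matrix.toLin'_apply, show (x : M2) *ᵥ w = c • w from hc.symm, neg_one_smul, add_neg_cancel])
        simpa using this.2)
    exact mem_scalars_of_act a fun w => by
      have := LinearMap.congr_fun ha w
      simpa [act] using this
  have hxx : act x (act x v) = v := by rw [← act_mul, hx2, act_one]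
  have horth : ω v (act x v) = 0 := by
    have h := mem_spGL.1 (hRsp hx) v (act x v)
    rw [hxx, hf.skew (act x v) v] at h
    have h2 : (2 : F) * ω v (act x v) = 0 := by linear_combination -h
    exact (mul_eq_zero.1 h2).resolve_left (two_ne_zero_of_odd_card hodd)
  have hdisj : ∀ (c d : F), Commute (sympTv v c) (sympTv (act x v) d) := by
    intro c d
    apply Geometric.gl_ext
    intro u
    show act (sympTv v c * sympTv (act x v) d) u = act (sympTv (act x v) d * sympTv v c) u
    simp only [act_mul, act_sympTv, hf.bilinear.add_left, hf.bilinear.smul_left, horth, hf.skew (act x v) v,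
      neg_zero, mul_zero, add_zero]
    abel
  set y := sympTv v 1 * sympTv (act x v) (-1)
  have hy : y ∈ R := by
    have hconj : x * sympTv v (-1) * x⁻¹ = sympTv (act x v) (-1) :=
      Geometric.Symp.conj_T hf (g := x) (hRsp hx) v (-1)
    have hinv : (sympTv v 1)⁻¹ = sympTv v (-1) := by
      rw [inv_eq_iff_mul_eq_one]
      show Geometric.Symp.T hf v 1 * Geometric.Symp.T hf v (-1) = 1
      rw [Geometric.Symp.T_mul, add_neg_cancel, Geometric.Symp.T_zero_right]
    have : y = (sympTv v 1 * x * (sympTv v 1)⁻¹) * x⁻¹ := by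
      show _ * sympTv (act x v) (-1) = _
      rw [← hconj, ← hinv]
      group
    rw [this]
    exact R.mul_mem ((Subgroup.mem_normalizer_iff.1 (hle (sympTv_mem v 1)) x).1 hx) (R.inv_mem hx)
  obtain ⟨p, hchar⟩ := CharP.exists F
  obtain ⟨e, hp, hq⟩ := FiniteField.card F p
  have hpow : ∀ (w : V) (c : F) (j : ℕ), sympTv w c ^ j = sympTv w (j * c) := by
    intro w c j
    induction j with
    | zero =>
      show 1 = Geometric.Symp.T hf w _
      rw [Nat.cast_zero, zero_mul, Geometric.Symp.T_zero_right]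
    | succ j ih =>
      rw [pow_succ, ih]
      show Geometric.Symp.T hf w _ * Geometric.Symp.T hf w _ = Geometric.Symp.T hf w _
      rw [Geometric.Symp.T_mul]; congr 1; push_cast; ring
  have hyp : y ^ p = 1 := by
    rw [(hdisj 1 (-1)).mul_pow, hpow, hpow, CharP.cast_eq_zero, zero_mul, zero_mul]
    show Geometric.Symp.T hf v 0 * Geometric.Symp.T hf _ 0 = 1
    rw [Geometric.Symp.T_zero_right, Geometric.Symp.T_zero_right, one_mul]
  obtain ⟨j, hj⟩ := hR.sympType.pGroup ⟨y, hy⟩
  have hyj : y ^ 2 ^ j = 1 := congrArg Subtype.val hj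
  have hcop : Nat.Coprime p (2 ^ j) := by
    refine ((Nat.coprime_primes hp Nat.prime_two).2 fun h => ?_).pow_right j
    rw [hq, h] at hodd
    exact (Nat.not_even_iff_odd.2 hodd) (even_two.pow_of_ne_zero e.ne_zero)
  have hy1 : y = 1 := by
    have := pow_gcd_eq_one.2 ⟨hyp, hyj⟩
    rwa [hcop.gcd_eq_one, pow_one] at this
  -- evaluate at a vector pairing with `v`
  have hli : LinearIndependent F ![v, act x v] := by
    rw [LinearIndependent.pair_iff]
    intro s t h
    have hv0 : v ≠ 0 := fun h0 => hv (by rw [h0]; simp [act])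
    by_cases ht : t = 0
    · exact ⟨(smul_eq_zero.1 (by simpa [ht] using h)).resolve_right hv0, ht⟩
    · refine absurd (Submodule.mem_span_singleton.2 ⟨-(t⁻¹ * s), ?_⟩) hv
      have h' := congrArg (fun w : V => t⁻¹ • w) h
      simp only [smul_add, smul_smul, inv_mul_cancel₀ ht, one_smul, smul_zero] at h'
      rw [neg_smul, eq_comm, eq_neg_iff_add_eq_zero, add_comm]
      exact h'
  obtain ⟨u, hu⟩ := (hf.nondegenerate v (fun h0 => hv (by rw [h0]; simp [act]))).1
  have h := act_mul (sympTv v 1) (sympTv (act x v) (-1)) u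
  rw [show sympTv v 1 * sympTv (act x v) (-1) = y from rfl, hy1, act_one, act_sympTv, act_sympTv,
    hf.bilinear.add_left, hf.bilinear.smul_left, hf.skew (act x v) v, horth, neg_zero, mul_zero, add_zero,
    one_mul] at h
  rw [LinearIndependent.pair_iff] at hli
  have h0 : ω u v • v + (-1 * ω u (act x v)) • act x v = 0 := by
    rw [add_assoc, add_comm ((-1 * ω u (act x v)) • act x v)] at h
    exact left_eq_add.1 h
  exact hu (hli _ _ h0).1

end CfsgLib.SmallDim
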