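import Cfsg.Agent.Lib.SmallDim.SympFrames

/-!
Four-dimensional symplectic groups normalising a skew-adjoint square root of a scalar preserve a tensor
decomposition of the form.
-/

set_option autoImplicit false
set_option linter.style.haveILetI false

namespace CfsgLib.SmallDim

open scoped MatrixGroups Matrix Kronecker
open Cfsg.Geo

variable {F : Type*} [Field F] {m : ℕ}

local notation "V" => (Fin m ⊕ Fin m → F)
local notation "M2" => Matrix (Fin m ⊕ Fin m) (Fin m ⊕ Fin m) F
local notation "ω" => Cfsg.sympForm m F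

/-- The alternating `2 × 2` matrix. -/
def altTwo : Matrix (Fin 2) (Fin 2) F := !![0, 1; -1, 0]

lemma transpose_mul_altTwo (B : Matrix (Fin 2) (Fin 2) F) : Bᵀ * altTwo * B = B.det • (altTwo : Matrix _ _ F) := by
  ext i j
  fin_cases i <;> fin_cases j <;>
    simp [altTwo, Matrix.mul_apply, Fin.sum_univ_two, Matrix.det_fin_two] <;> ring

lemma det_altTwo : (altTwo : Matrix (Fin 2) (Fin 2) F).det = 1 := by
  simp [altTwo, Matrix.det_fin_two]

lemma altTwo_ne_zero : (altTwo : Matrix (Fin 2) (Fin 2) F) ≠ 0 := fun h => by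
  simpa [altTwo] using congrFun (congrFun h 0) 1

/-- Coordinates from vectors with a prescribed non-singular Gram matrix. -/
lemma exists_coordinates {κ : Type} [Fintype κ] [DecidableEq κ] (e : (Fin m ⊕ Fin m) ≃ κ) (u : κ → V)
    {X : Matrix κ κ F} (hX : X.det ≠ 0) (hu : ∀ p q, ω (u p) (u q) = X p q) :
    ∃ P : GL (Fin m ⊕ Fin m) F, (∀ p, (P : M2) *ᵥ (Pi.single p 1 ∘ e) = u p) ∧ coordGram ω e P = X := by
  let U : M2 := Matrix.of fun i j => u (e j) i
  have hUcol : ∀ p, U *ᵥ (Pi.single p (1 : F) ∘ e) = u p := by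
    intro p
    have h : (Pi.single p (1 : F) ∘ e) = Pi.single (e.symm p) 1 := by
      funext i
      by_cases hi : e i = p
      · subst hi; simp
      · have : i ≠ e.symm p := fun h => hi (by rw [h, Equiv.apply_symm_apply])
        simp [Pi.single_eq_of_ne hi, Pi.single_eq_of_ne this]
    rw [h, Matrix.mulVec_single_one]
    funext i
    simp [U]
  have hG : Matrix.reindex e e (Uᵀ * gramMatrix ω * U) = X := by
    ext p q
    rw [← hu p q, (sesqui_sympForm (m := m) (F := F)).apply_eq]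
    simp [U, Matrix.mul_apply, dotProduct, Matrix.mulVec, Finset.sum_mul, Finset.mul_sum, mul_assoc]
    first | done | rw [Finset.sum_comm]
  have hU : U.det ≠ 0 := by
    intro h0
    apply hX
    rw [← hG, Matrix.det_reindex_self, Matrix.det_mul, h0, mul_zero]
  exact ⟨Matrix.GeneralLinearGroup.mkOfDetNeZero U hU, hUcol, hG⟩

variable {G J : Matrix (Fin 2) (Fin 2) F} {d : F}

/-- A similitude of `altTwo ⊗ G` commuting with `1 ⊗ J` is a tensor product. -/
lemma kronecker_of_centraliser (h2 : (2 : F) ≠ 0) (hG : Gᵀ = G) (hdetG : G.det ≠ 0)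
    (hJG : Jᵀ * G = -(G * J)) (hJ : J * J = d • (1 : Matrix (Fin 2) (Fin 2) F))
    (hd : d ≠ 0) {z : Matrix (Fin 2 × Fin 2) (Fin 2 × Fin 2) F} {ν : F} (hν : ν ≠ 0)
    (hz : zᵀ * (altTwo ⊗ₖ G) * z = ν • (altTwo ⊗ₖ G))
    (hcomm : z * ((1 : Matrix (Fin 2) (Fin 2) F) ⊗ₖ J) = ((1 : Matrix (Fin 2) (Fin 2) F) ⊗ₖ J) * z) :
    ∃ a b : Matrix (Fin 2) (Fin 2) F, z = a ⊗ₖ b := by
  classical
  -- the blocks commute with `J`, hence are combinations of `1` and `J`
  have hblk : ∀ i j, ∃ x y : F, (Matrix.of fun k l => z (i, k) (j, l) : Matrix (Fin 2) (Fin 2) F) =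
      x • (1 : Matrix (Fin 2) (Fin 2) F) + y • J := by
    intro i j
    set B : Matrix (Fin 2) (Fin 2) F := Matrix.of fun k l => z (i, k) (j, l)
    have hB : B * J = J * B := by
      ext k l
      have h := congrFun (congrFun hcomm (i, k)) (j, l)
      simpa [B, Matrix.mul_apply, Fintype.sum_prod_type, Fin.sum_univ_two, Matrix.one_apply,
        apply_ite, Finset.sum_ite_eq, Finset.sum_ite_eq', ite_mul, mul_ite] using h
    have hsym : G 1 0 = G 0 1 := congrFun (congrFun hG 0) 1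
    have t00 := congrFun (congrFun hJG 0) 0
    have t01 := congrFun (congrFun hJG 0) 1
    have t11 := congrFun (congrFun hJG 1) 1
    simp [Matrix.mul_apply, Fin.sum_univ_two, hsym] at t00 t01 t11
    have htr : J 0 0 + J 1 1 = 0 := by
      rw [Matrix.det_fin_two, hsym] at hdetG
      by_cases hg : G 0 1 = 0
      · have h00 : G 0 0 ≠ 0 := fun h => hdetG (by rw [h, hg]; ring)
        have h11 : G 1 1 ≠ 0 := fun h => hdetG (by rw [h, hg]; ring)
        have a0 : J 0 0 = 0 := by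
          have : (2 : F) * J 0 0 * G 0 0 = 0 := by linear_combination t00 - (2 * J 1 0) * hg
          exact (mul_eq_zero.1 ((mul_eq_zero.1 this).resolve_right h00)).resolve_left h2
        have a1 : J 1 1 = 0 := by
          have : (2 : F) * J 1 1 * G 1 1 = 0 := by linear_combination t11 - (2 * J 0 1) * hg
          exact (mul_eq_zero.1 ((mul_eq_zero.1 this).resolve_right h11)).resolve_left h2
        rw [a0, a1, add_zero]
      · by_cases h00 : G 0 0 = 0
        · have h10 : J 1 0 = 0 := by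
            have : (2 : F) * J 1 0 * G 0 1 = 0 := by linear_combination t00 - (2 * J 0 0) * h00
            exact (mul_eq_zero.1 ((mul_eq_zero.1 this).resolve_right hg)).resolve_left h2
          have : (J 0 0 + J 1 1) * G 0 1 = 0 := by linear_combination t01 - (J 0 1) * h00 - (G 1 1) * h10
          exact (mul_eq_zero.1 this).resolve_right hg
        · have key : (J 0 0 + J 1 1) * (2 * (G 0 1 * G 0 1 - G 0 0 * G 1 1)) = 0 := by
            linear_combination (2 * G 0 1) * t01 - (G 1 1) * t00 - (G 0 0) * t11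
          exact (mul_eq_zero.1 key).resolve_right (mul_ne_zero h2 fun h => hdetG (by linear_combination -h))
    have e00 := congrFun (congrFun hB 0) 0
    have e01 := congrFun (congrFun hB 0) 1
    have e10 := congrFun (congrFun hB 1) 0
    simp [Matrix.mul_apply, Fin.sum_univ_two] at e00 e01 e10
    have hJ11 : J 1 1 = -J 0 0 := by linear_combination htr
    by_cases hb : J 0 1 = 0
    · by_cases hc : J 1 0 = 0
      · have ha : J 0 0 ≠ 0 := fun h => hd (by
          have h' := congrFun (congrFun hJ 0) 0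
          simp [Matrix.mul_apply, Fin.sum_univ_two, h, hb] at h'
          exact h'.symm)
        have b01 : B 0 1 = 0 := by
          have : (2 : F) * J 0 0 * B 0 1 = 0 := by
            rw [hb, hJ11] at e01; linear_combination -e01
          exact (mul_eq_zero.1 this).resolve_left (mul_ne_zero h2 ha)
        have b10 : B 1 0 = 0 := by
          have : (2 : F) * J 0 0 * B 1 0 = 0 := by
            rw [hc, hJ11] at e10; linear_combination e10
          exact (mul_eq_zero.1 this).resolve_left (mul_ne_zero h2 ha)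
        refine ⟨(B 0 0 + B 1 1) / 2, (B 0 0 - B 1 1) / (2 * J 0 0), ?_⟩
        ext k l
        fin_cases k <;> fin_cases l <;> simp [hb, hc, b01, b10, hJ11] <;> field_simp <;> ring
      · refine ⟨B 0 0 - B 1 0 / J 1 0 * J 0 0, B 1 0 / J 1 0, ?_⟩
        rw [hJ11] at e10
        rw [hb] at e00
        have b01 : B 0 1 = 0 := (mul_eq_zero.1 (show B 0 1 * J 1 0 = 0 by linear_combination e00)).resolve_right hc
        ext k l
        fin_cases k <;> fin_cases l <;> simp [hb, b01, hJ11] <;> field_simp <;>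
          linear_combination e10
    · refine ⟨B 0 0 - B 0 1 / J 0 1 * J 0 0, B 0 1 / J 0 1, ?_⟩
      rw [hJ11] at e01
      ext k l
      fin_cases k <;> fin_cases l <;> simp [hJ11] <;> field_simp <;>
        first | linear_combination e00 | linear_combination -e00 | linear_combination e01 | linear_combination -e01 | ring
  choose x y hxy using hblk
  let X : Matrix (Fin 2) (Fin 2) F := Matrix.of x
  let Y : Matrix (Fin 2) (Fin 2) F := Matrix.of y
  have hzXY : z = X ⊗ₖ (1 : Matrix (Fin 2) (Fin 2) F) + Y ⊗ₖ J := by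
    ext ⟨i, k⟩ ⟨j, l⟩
    have h := congrFun (congrFun (hxy i j) k) l
    simpa [X, Y] using h
  have hGJ : Jᵀ * G * J = -(d • G) := by
    rw [hJG, Matrix.neg_mul, mul_assoc, hJ, Matrix.mul_smul, mul_one]
  have hzT : zᵀ = Xᵀ ⊗ₖ (1 : Matrix (Fin 2) (Fin 2) F) + Yᵀ ⊗ₖ Jᵀ := by
    rw [hzXY]; ext p q; simp [Matrix.one_apply, eq_comm]
  set Kxy := Xᵀ * altTwo * Y - Yᵀ * altTwo * X
  have hexp : ∀ i j k l, (X.det - d * Y.det) * altTwo i j * G k l + Kxy i j * (G * J) k l =
      ν * (altTwo i j * G k l) := by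
    intro i j k l
    have h : (X.det • altTwo) ⊗ₖ G + (Y.det • altTwo) ⊗ₖ (-(d • G)) + (Xᵀ * altTwo * Y) ⊗ₖ (G * J) +
        (Yᵀ * altTwo * X) ⊗ₖ (-(G * J)) = ν • (altTwo ⊗ₖ G) := by
      rw [← hz, hzT, hzXY, ← transpose_mul_altTwo X, ← transpose_mul_altTwo Y, ← hGJ]
      simp only [Matrix.add_mul, Matrix.mul_add, ← Matrix.mul_kronecker_mul, Matrix.one_mul,
        Matrix.mul_one, hJG]
      abel
    have h' := congrFun (congrFun h (i, k)) (j, l)
    simp only [Matrix.add_apply, Matrix.kronecker_apply, Matrix.smul_apply, Matrix.neg_apply, smul_eq_mul] at h'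
    simp only [Kxy, Matrix.sub_apply]
    linear_combination h'
  have hGJne : G * J ≠ 0 := fun h => by
    have h' := congrArg (fun A : Matrix (Fin 2) (Fin 2) F => A * J) h
    simp only [mul_assoc, hJ, Matrix.mul_smul, mul_one, Matrix.zero_mul] at h'
    exact hdetG (by rw [(smul_eq_zero.1 h').resolve_left hd]; exact Matrix.det_zero)
  have hdiag : Kxy 0 0 = 0 ∧ Kxy 1 1 = 0 ∧ Kxy 0 1 = Kxy 1 0 := by
    obtain ⟨k', l', hkl'⟩ := exists_entry_ne_zero (A := G * J) hGJne
    refine ⟨?_, ?_, ?_⟩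
    · have h := hexp 0 0 k' l'
      simp [altTwo] at h
      exact h.resolve_right hkl'
    · have h := hexp 1 1 k' l'
      simp [altTwo] at h
      exact h.resolve_right hkl'
    · simp [Kxy, altTwo, Matrix.mul_apply, Fin.sum_univ_two]; ring
  have hN : X.det - d * Y.det = ν ∧ Kxy = 0 := by
    obtain ⟨c00, c11, c01⟩ := hdiag
    obtain ⟨k, l, hkl⟩ := exists_entry_ne_zero (A := G) fun h => hdetG (by rw [h]; exact Matrix.det_zero)
    have e01 := hexp 0 1 k l
    have e10 := hexp 1 0 k l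
    simp [altTwo] at e01 e10
    have hN' : X.det - d * Y.det = ν := by
      apply mul_right_cancel₀ (mul_ne_zero h2 hkl)
      rw [c01] at e01
      linear_combination e01 - e10
    obtain ⟨k', l', hkl'⟩ := exists_entry_ne_zero (A := G * J) hGJne
    have hK01 : Kxy 0 1 = 0 := by
      have h := hexp 0 1 k' l'
      simp [altTwo, hN'] at h
      exact h.resolve_right hkl'
    refine ⟨hN', Matrix.ext fun i j => ?_⟩
    fin_cases i <;> fin_cases j
    · exact c00
    · exact hK01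
    · exact c01 ▸ hK01
    · exact c11
  obtain ⟨hN, hK⟩ := hN
  have hadj : ∀ A B : Matrix (Fin 2) (Fin 2) F, Aᵀ * altTwo * B = Bᵀ * altTwo * A → A.det ≠ 0 →
      ∃ s : F, B = s • A := by
    intro A B h hA
    have h00 := congrFun (congrFun h 0) 0
    have h01 := congrFun (congrFun h 0) 1
    have h11 := congrFun (congrFun h 1) 1
    simp [altTwo, Matrix.mul_apply, Fin.sum_univ_two] at h00 h01 h11
    rw [Matrix.det_fin_two] at hA
    refine ⟨(B 0 0 * A 1 1 - B 1 0 * A 0 1) / (A 0 0 * A 1 1 - A 0 1 * A 1 0), ?_⟩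
    have h00' : A 0 0 * B 1 0 = A 1 0 * B 0 0 :=
      mul_left_cancel₀ h2 (by linear_combination h00)
    have h11' : A 0 1 * B 1 1 = A 1 1 * B 0 1 :=
      mul_left_cancel₀ h2 (by linear_combination h11)
    ext i j
    fin_cases i <;> fin_cases j <;> simp <;> rw [div_mul_eq_mul_div, eq_div_iff hA]
    · linear_combination (A 0 1) * h00'
    · linear_combination (A 0 1) * h01 - (A 0 0) * h11'
    · linear_combination (A 1 1) * h00'
    · linear_combination (A 1 1) * h01 - (A 1 0) * h11'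
  have hKeq : Xᵀ * altTwo * Y = Yᵀ * altTwo * X := sub_eq_zero.1 hK
  by_cases hX : X.det = 0
  · have hY : Y.det ≠ 0 := fun h => hν (by rw [← hN, hX, h]; ring)
    obtain ⟨s, hs⟩ := hadj Y X hKeq.symm hY
    refine ⟨Y, s • (1 : Matrix (Fin 2) (Fin 2) F) + J, ?_⟩
    rw [hzXY, hs, Matrix.kronecker_add, Matrix.smul_kronecker, Matrix.kronecker_smul]
  · obtain ⟨s, hs⟩ := hadj X Y hKeq hX
    refine ⟨X, (1 : Matrix (Fin 2) (Fin 2) F) + s • J, ?_⟩
    rw [hzXY, hs, Matrix.kronecker_add, Matrix.smul_kronecker, Matrix.kronecker_smul]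

set_option maxHeartbeats 400000 in
/-- Elements normalising `1 ⊗ J` up to sign lie in the tensor product group. -/
theorem le_tensor_of_sqrt (h2 : (2 : F) ≠ 0) {H : Subgroup (GL (Fin m ⊕ Fin m) F)} (hH : H ≤ Cfsg.spGL m F)
    {e : (Fin m ⊕ Fin m) ≃ Fin 2 × Fin 2} {P : GL (Fin m ⊕ Fin m) F}
    (hP : coordGram ω e P = altTwo ⊗ₖ G) (hG : Gᵀ = G) (hdetG : G.det ≠ 0) (hd : d ≠ 0)
    (hJ : J * J = d • (1 : Matrix (Fin 2) (Fin 2) F)) (hJG : Jᵀ * G = -(G * J))
    (R : GL (Fin 2) F) {ν₀ : F} (hν₀ : ν₀ ≠ 0)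
    (hR : (R : Matrix (Fin 2) (Fin 2) F) * J = -(J * (R : Matrix (Fin 2) (Fin 2) F)))
    (hRG : (R : Matrix (Fin 2) (Fin 2) F)ᵀ * G * (R : Matrix (Fin 2) (Fin 2) F) = ν₀ • G)
    (hconj : ∀ g ∈ H, ∃ ε : F, (ε = 1 ∨ ε = -1) ∧
      (g : M2) * ((P : M2) * Matrix.reindex e.symm e.symm ((1 : Matrix (Fin 2) (Fin 2) F) ⊗ₖ J) *
        ((P⁻¹ : GL (Fin m ⊕ Fin m) F) : M2)) =
      ε • ((P : M2) * Matrix.reindex e.symm e.symm ((1 : Matrix (Fin 2) (Fin 2) F) ⊗ₖ J) *
        ((P⁻¹ : GL (Fin m ⊕ Fin m) F) : M2) * (g : M2))) :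
    H ≤ tensorProductSubgroup 2 2 e P := by
  classical
  intro g hg
  obtain ⟨ε, hε, hgM⟩ := hconj g hg
  let E := Matrix.reindexAlgEquiv F F e.symm
  obtain ⟨z, hgz⟩ : ∃ z : GL (Fin 2 × Fin 2) F, g = P * glReindex e.symm z * P⁻¹ :=
    ⟨(glReindex e.symm).symm (P⁻¹ * g * P), by rw [MulEquiv.apply_symm_apply]; group⟩
  have hB : (g : M2) * (P : M2) = (P : M2) * Matrix.reindex e.symm e.symm (z : Matrix _ _ F) := by
    rw [hgz, ← Units.val_mul, inv_mul_cancel_right, Units.val_mul]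
    rfl
  have hzG := coordGram_fixed isSymplecticForm_sympForm.bilinear e P (fun u v => mem_spGL.1 (hH hg) u v) hB
  rw [hP] at hzG
  set T : Matrix (Fin 2 × Fin 2) (Fin 2 × Fin 2) F := (1 : Matrix (Fin 2) (Fin 2) F) ⊗ₖ J
  have hzT : (z : Matrix _ _ F) * T = ε • (T * (z : Matrix _ _ F)) := by
    suffices key : (P : M2) * E ((z : Matrix (Fin 2 × Fin 2) (Fin 2 × Fin 2) F) * T) * ((P⁻¹ : GL _ F) : M2) =
        (P : M2) * E (ε • (T * (z : Matrix (Fin 2 × Fin 2) (Fin 2 × Fin 2) F))) * ((P⁻¹ : GL _ F) : M2) from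
      E.injective (P.isUnit.mul_left_cancel ((P⁻¹).isUnit.mul_right_cancel key))
    have hg' : (g : M2) = (P : M2) * E (z : Matrix _ _ F) * ((P⁻¹ : GL _ F) : M2) := by
      show (g : M2) = (P : M2) * Matrix.reindex e.symm e.symm (z : Matrix _ _ F) * _
      rw [← hB]; simp [mul_assoc]
    change (g : M2) * ((P : M2) * E T * ((P⁻¹ : GL _ F) : M2)) =
      ε • ((P : M2) * E T * ((P⁻¹ : GL _ F) : M2) * (g : M2)) at hgM
    rw [hg'] at hgM
    simp only [mul_assoc, Units.inv_mul_cancel_left] at hgM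
    simp only [map_smul, map_mul, Matrix.mul_smul, Matrix.smul_mul, mul_assoc]
    exact hgM
  have hkron : ∃ a b : Matrix (Fin 2) (Fin 2) F, (z : Matrix _ _ F) = a ⊗ₖ b := by
    rcases hε with rfl | rfl
    · exact kronecker_of_centraliser h2 hG hdetG hJG hJ hd one_ne_zero (by rw [one_smul]; exact hzG)
        (by rw [hzT, one_smul])
    · set W : Matrix (Fin 2 × Fin 2) (Fin 2 × Fin 2) F :=
        (1 : Matrix (Fin 2) (Fin 2) F) ⊗ₖ (R : Matrix (Fin 2) (Fin 2) F)
      have hWT : W * T = -(T * W) := by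
        rw [← Matrix.mul_kronecker_mul, ← Matrix.mul_kronecker_mul, hR]
        ext p q; simp
      have hWG : Wᵀ * (altTwo ⊗ₖ G) * W = ν₀ • (altTwo ⊗ₖ G) := by
        rw [← Matrix.kroneckerMap_transpose, ← Matrix.mul_kronecker_mul, ← Matrix.mul_kronecker_mul,
          Matrix.transpose_one, Matrix.one_mul, Matrix.mul_one, hRG, Matrix.kronecker_smul]
      obtain ⟨a, b, hab⟩ := kronecker_of_centraliser h2 hG hdetG hJG hJ hd hν₀
        (z := (z : Matrix _ _ F) * W)
        (by
          rw [Matrix.transpose_mul]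
          calc Wᵀ * (z : Matrix _ _ F)ᵀ * (altTwo ⊗ₖ G) * ((z : Matrix _ _ F) * W)
              = Wᵀ * ((z : Matrix _ _ F)ᵀ * (altTwo ⊗ₖ G) * (z : Matrix _ _ F)) * W := by
                simp only [mul_assoc]
            _ = _ := by rw [hzG, hWG])
        (by
          show (z : Matrix _ _ F) * W * T = T * ((z : Matrix _ _ F) * W)
          rw [mul_assoc, hWT, Matrix.mul_neg, ← mul_assoc, hzT, neg_one_smul, Matrix.neg_mul, neg_neg, mul_assoc])
      refine ⟨a, b * ((R⁻¹ : GL (Fin 2) F) : Matrix (Fin 2) (Fin 2) F), ?_⟩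
      calc (z : Matrix _ _ F) = (z : Matrix _ _ F) * W *
            ((1 : Matrix (Fin 2) (Fin 2) F) ⊗ₖ ((R⁻¹ : GL (Fin 2) F) : Matrix (Fin 2) (Fin 2) F)) := by
            rw [mul_assoc, ← Matrix.mul_kronecker_mul, Units.mul_inv, one_mul, Matrix.one_kronecker_one, mul_one]
        _ = _ := by rw [hab, ← Matrix.mul_kronecker_mul, mul_one]
  obtain ⟨a, b, hab⟩ := hkron
  have hdet : a.det ≠ 0 ∧ b.det ≠ 0 := by
    have h : (z : Matrix (Fin 2 × Fin 2) (Fin 2 × Fin 2) F).det ≠ 0 :=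
      (Matrix.GeneralLinearGroup.det z).ne_zero
    rw [hab, Matrix.det_kronecker] at h
    exact ⟨fun h0 => h (by rw [h0]; simp), fun h0 => h (by rw [h0]; simp)⟩
  exact ⟨_, ⟨z, ⟨Matrix.GeneralLinearGroup.mkOfDetNeZero a hdet.1,
    Matrix.GeneralLinearGroup.mkOfDetNeZero b hdet.2, hab⟩, rfl⟩, hgz.symm⟩

end CfsgLib.SmallDim
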