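import Cfsg.Agent.Lib.SmallDim.SympTensor
import Cfsg.Agent.Lib.SmallDim.SympInduced
import Cfsg.Agent.Lib.SmallDim.SympForms

/-!
Aschbacher's theorem for subgroups of symplectic groups.
-/

set_option autoImplicit false
set_option linter.style.haveILetI false

namespace CfsgLib.SmallDim

open scoped MatrixGroups Matrix
open Cfsg.Geo

variable {F : Type*} [Field F] [Fintype F] {m : ℕ} {H : Subgroup (GL (Fin m ⊕ Fin m) F)}

local notation "V" => (Fin m ⊕ Fin m → F)
local notation "M2" => Matrix (Fin m ⊕ Fin m) (Fin m ⊕ Fin m) F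
local notation "ω" => Cfsg.sympForm m F

/-- `H` normalises a class-6 two-group, whose dimension is kept. -/
def InSympTypeCase (H : Subgroup (GL (Fin m ⊕ Fin m) F)) : Prop :=
  ∃ (R : Subgroup (GL (Fin m ⊕ Fin m) F)) (p k : ℕ), SymplGen H R 2 k ∧ R ≤ Cfsg.spGL m F ∧ p.Prime ∧ Odd p ∧
    Fintype.card F = p ∧ 2 * m = 2 ^ k ∧ Nat.card R = 2 ^ (1 + 2 * k) ∧ Nat.card (Subgroup.center R) = 2 ∧
    IsOfMinusType k R ∧ R ≤ similarityGroup ω ∧ H ≤ subgroupNormalizer R

/-- A normal subgroup realised over a proper subfield. -/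
theorem symp_subfield (hm : 0 < m) (hH : H ≤ Cfsg.spGL m F) {N : Subgroup (GL (Fin m ⊕ Fin m) F)}
    (hN : NormalIn N H) (habs : ActsAbsolutelyIrreducibly (matrixSet N)) {K : Subfield F} (hK : K ≠ ⊤)
    (hreal : RealisableOver K (matrixSet N)) : InSympCase H := by
  haveI : Nonempty (Fin m ⊕ Fin m) := ⟨Sum.inl ⟨0, hm⟩⟩
  obtain ⟨B, hB⟩ := hreal
  obtain ⟨K₁, r, hr, hle, hcard⟩ := exists_prime_index_overfield hK
  have hB₁ : ∀ s ∈ matrixSet N, ∀ i j, ((B : M2) * s * ((B⁻¹ : GL _ F) : M2)) i j ∈ K₁ :=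
    fun s hs i j => hle (hB s hs i j)
  obtain ⟨a, ha, hrat⟩ := form_rational sesqui_sympForm isSymplecticForm_sympForm.nondegenerate habs
    (fixesForm_of_le_spGL (hN.le.trans hH)) hB₁
  exact ⟨_, Or.inl (Or.inr (Or.inr (Or.inr (Or.inr (Or.inl
    ⟨K₁, r, B⁻¹, a⁻¹, hr, hcard, inv_ne_zero ha, hrat, rfl⟩))))), le_inf (le_subfieldSubgroup hN habs hB₁) hH⟩

/-- A symplectic-type normal subgroup realised over no proper subfield. -/
theorem symp_sympType (hm : 0 < m) (hH : H ≤ Cfsg.spGL m F) {R : Subgroup (GL (Fin m ⊕ Fin m) F)} {r k : ℕ}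
    (hR : SymplGen H R r k) (hsub : ∀ K : Subfield F, K ≠ ⊤ → ¬ RealisableOver K (matrixSet R)) :
    InSympTypeCase H := by
  classical
  haveI : Nonempty (Fin m ⊕ Fin m) := ⟨Sum.inl ⟨0, hm⟩⟩
  have hf := isSymplecticForm_sympForm (m := m) (F := F)
  have hRsp : R ≤ Cfsg.spGL m F := hR.normal.le.trans hH
  have hsgn : ∀ x ∈ R, x ∈ scalars (Fin m ⊕ Fin m) F → (x : M2) = 1 ∨ (x : M2) = -1 := by
    intro x hx hxs
    obtain ⟨s, hs, -⟩ := hR.scalar_pow x hx hxs
    have hne : (Pi.single (Sum.inl ⟨0, hm⟩) 1 : V) ≠ 0 := by simp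
    obtain ⟨⟨u, hu⟩, -⟩ := hf.nondegenerate _ hne
    have h := mem_spGL.1 (hRsp hx) u (Pi.single (Sum.inl ⟨0, hm⟩) 1)
    rw [act_scalar hs, act_scalar hs, hf.bilinear.smul_left, hf.bilinear.smul_right, ← mul_assoc] at h
    have h1 : s * s = 1 := mul_right_cancel₀ hu (h.trans (one_mul _).symm)
    rcases mul_self_eq_one_iff.1 h1 with rfl | rfl
    · exact Or.inl (by rw [hs, one_smul])
    · exact Or.inr (by rw [hs, neg_one_smul])
  have hz : Nat.card (Subgroup.center R) ≤ 2 := by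
    let φ : Subgroup.center R → Bool := fun x => decide (((x : R) : GL (Fin m ⊕ Fin m) F).val = 1)
    have hφ : Function.Injective φ := by
      intro x y hxy
      have hx := hsgn _ x.1.2 ((hR.mem_scalars_iff_mem_center x.1).2 x.2)
      have hy := hsgn _ y.1.2 ((hR.mem_scalars_iff_mem_center y.1).2 y.2)
      refine Subtype.ext (Subtype.ext (Units.ext ?_))
      simp only [φ, decide_eq_decide] at hxy
      rcases hx with hx | hx <;> rcases hy with hy | hy
      · rw [hx, hy]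
      · rw [hx, hxy.1 hx]
      · rw [hy, hxy.2 hy]
      · rw [hx, hy]
    simpa using Nat.card_le_card_of_injective φ hφ
  obtain ⟨rfl, hz2⟩ : r = 2 ∧ Nat.card (Subgroup.center R) = 2 := by
    rcases hR.center_cases with ⟨hodd, hzr⟩ | ⟨hr, hz' | hz'⟩
    · have := hR.sympType.prime.two_le
      obtain ⟨j, hj⟩ := hodd
      omega
    · exact ⟨hr, hz'⟩
    · omega
  have hodd : Odd (Fintype.card F) :=
    not_not.1 fun h => (hR.exists_orthogonal_or_symplectic hz2).1 (two_eq_zero_of_not_odd h)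
  obtain ⟨p, hchar⟩ := CharP.exists F
  obtain ⟨e, hp, hq⟩ := FiniteField.card F p
  haveI := Fact.mk hp
  have htop : fixedField (F := F) p 1 = ⊤ := by
    by_contra hK
    refine hsub _ hK (realisableOver_of_trace hR.absIrred fun g hg => ?_)
    by_cases hgs : g ∈ scalars (Fin m ⊕ Fin m) F
    · rcases hsgn g hg hgs with h | h <;> rw [h]
      · rw [Matrix.trace_one]; exact natCast_mem _ _
      · rw [Matrix.trace_neg, Matrix.trace_one]; exact neg_mem (natCast_mem _ _)
    · rw [hR.trace_eq_zero g hg hgs]; exact Subfield.zero_mem _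
  have hFp : Fintype.card F = p := by
    have h := card_fixedField (F := F) (k := 1) hq one_pos (one_dvd _)
    rw [htop, Nat.card_congr (Equiv.subtypeUnivEquiv fun x => Subfield.mem_top x), Nat.card_eq_fintype_card,
      pow_one] at h
    exact h
  have hcard : Nat.card R = 2 ^ (1 + 2 * k) := by rw [hR.card_eq, hz2, pow_add, pow_one]
  have hdim : 2 * m = 2 ^ k := card_idx.symm.trans hR.dim
  refine ⟨R, p, k, hR, hRsp, hp, hFp ▸ hodd, hFp, hdim, hcard, hz2,
    isOfMinusType_of_symp hodd hdim hRsp hR.absIrred hcard, fun g hg => ⟨1, fun u v => ?_⟩, fun g hg => ?_⟩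
  · rw [Units.val_one, one_mul]; exact mem_spGL.1 (hRsp hg) u v
  · exact Subgroup.mem_normalizer_iff.mpr fun x => ⟨fun hx => hR.normal.conj g hg x hx, fun hx => by
      simpa [mul_assoc] using hR.normal.conj' hg hx⟩

/-- **Aschbacher's theorem for symplectic groups.** -/
theorem symp_cases (hm : 0 < m) (hH : H ≤ Cfsg.spGL m F) :
    InSympCase H ∨ InSympTypeCase H ∨ InSymplecticResidualClass H := by
  classical
  have hf := isSymplecticForm_sympForm (m := m) (F := F)
  haveI : Nonempty (Fin m ⊕ Fin m) := ⟨Sum.inl ⟨0, hm⟩⟩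
  by_cases hirr : ActsIrreducibly (matrixSet H)
  swap
  · exact Or.inl (symp_reducible hH hirr)
  have hcard : 1 < Fintype.card (Fin m ⊕ Fin m) := by rw [card_idx]; omega
  have hHs : ¬ H ≤ scalars (Fin m ⊕ Fin m) F := by
    intro hle
    have hne : (Pi.single (Sum.inl ⟨0, hm⟩) 1 : V) ≠ 0 := by simp
    rcases actsIrreducibly_iff.mp hirr (F ∙ (Pi.single (Sum.inl ⟨0, hm⟩) 1 : V)) (fun g hg w hw => by
      obtain ⟨c, hc⟩ := (mem_scalars_iff g).mp (hle hg)
      rw [act_scalar hc]; exact Submodule.smul_mem _ _ hw) with h | h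
    · exact hne (Submodule.span_singleton_eq_bot.mp h)
    · have := finrank_span_singleton (K := F) hne
      rw [h, finrank_top, Module.finrank_fintype_fun_eq_card, card_idx] at this
      omega
  by_cases habs : ∀ N, NormalIn N H → ¬ N ≤ scalars (Fin m ⊕ Fin m) F → ActsAbsolutelyIrreducibly (matrixSet N)
  swap
  · push Not at habs
    obtain ⟨N, hN, hNs, hNa⟩ := habs
    rcases form_clifford sesqui_sympForm reflexive_sympForm hf.nondegenerate hirr hN (fixesForm_of_le_spGL hH) hNs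
      with h | ⟨t, k, D, hD, hle⟩ | ⟨t, k, D, τ, hD, hle, hτ, hττ, hts, horth⟩ | ⟨r, K, hr, hK, hadj, hle⟩ |
        ⟨n₁, n₂, e, P, hT⟩
    · exact absurd h hNa
    · exact Or.inl ⟨_, Or.inl (Or.inr (Or.inr (Or.inl ⟨t, k, D, hD, rfl⟩))), le_inf hle hH⟩
    · exact Or.inl (symp_paired hH hD hle hτ hττ hts horth)
    · exact Or.inl (symp_field hH hr hK hadj hle)
    · exact Or.inl (symp_tensor hH hirr hN.le hT)
  by_cases hsub : ∀ N, NormalIn N H → ¬ N ≤ scalars (Fin m ⊕ Fin m) F →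
      ∀ K : Subfield F, K ≠ ⊤ → ¬ RealisableOver K (matrixSet N)
  swap
  · push Not at hsub
    obtain ⟨N, hN, hNs, K, hK, hreal⟩ := hsub
    exact Or.inl (symp_subfield hm hH hN (habs N hN hNs) hK hreal)
  rcases generic_cases hcard hHs habs hsub with ⟨R, r, k, hR⟩ | ⟨N, k, L, hN, hNa, -, hL⟩ | ⟨P, hP, hcore⟩
  · refine Or.inr (Or.inl (symp_sympType hm hH hR (hsub R hR.normal fun hle => ?_)))
    exact not_commutative_of_absIrred hcard hR.absIrred fun a ha b _ => scalars_commute (hle ha) b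
  · exact Or.inl (symp_induced hH hm hN.le hNa hL)
  · by_cases hQ : ∃ Q : V → F, IsNondegenerateQuadraticForm Q ∧ FixesQuadForm (matrixSet P) Q
    · obtain ⟨Q, hQ, hfix⟩ := hQ
      exact Or.inl (inSympCase_of_quad hm hH hP hcore.absIrred hQ hfix)
    refine Or.inr (Or.inr ⟨P, hcore, hQ, ?_⟩)
    rintro ⟨σ, b, hb, hfix⟩
    obtain ⟨K, hK, hreal⟩ := realisable_of_unitary hm (hP.le.trans hH) hcore.absIrred hb hfix
    exact hcore.no_subfield K hK hreal

/-- Every subgroup lies in a member of a geometric class or is residual. -/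
theorem symp_structure (hm : 0 < m) (hH : H ≤ Cfsg.spGL m F) :
    (∃ M, InSymplecticClass m F M ∧ H ≤ M) ∨ InSymplecticResidualClass H := by
  rcases symp_cases hm hH with ⟨M, hM, hle⟩ | ⟨R, p, k, hR, -, hp, hpodd, hFp, -, hcard, hz, hminus, hsim, hle⟩ | h
  · exact Or.inl ⟨M, hM.inSymplecticClass, hle⟩
  · exact Or.inl ⟨_, Or.inl (Or.inr (Or.inr (Or.inr (Or.inr (Or.inr (Or.inl
      ⟨R, p, k, hR.sympType, hR.absIrred, hsim, hp, hpodd, hFp, hcard, hz, hminus, rfl⟩)))))), le_inf hle hH⟩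
  · exact Or.inr h

end CfsgLib.SmallDim
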