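import Cfsg.Agent.Lib.SmallDim.UnitaryTwist
import Cfsg.Agent.Lib.SmallDim.UnitarySubfield
import Cfsg.Agent.Lib.SmallDim.FormClifford

/-!
Over the field with four elements, the normaliser of a cubic field of matrices in `SU₆(2)` consists of
similitudes of an alternating form.
-/

set_option autoImplicit false
set_option linter.style.haveILetI false

namespace CfsgLib.SmallDim

open scoped MatrixGroups Matrix
open Cfsg.Geo

section Frobenius

variable {F K : Type*} [Field F] [Fintype F] [Field K] [Algebra F K]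

/-- The automorphisms of a finite field extension of odd degree have determinant one. -/
lemma det_algEquiv_of_odd [Finite K] (hodd : Odd (Module.finrank F K)) (α : K ≃ₐ[F] K) :
    LinearMap.det α.toLinearMap = 1 := by
  classical
  obtain ⟨i, rfl⟩ := (FiniteField.bijective_frobeniusAlgEquivOfAlgebraic_pow F K).2 α
  have hfrob : LinearMap.det (FiniteField.frobeniusAlgHom F K).toLinearMap = 1 := by
    set f := (FiniteField.frobeniusAlgHom F K).toLinearMap with hf
    have hmin := FiniteField.minpoly_frobeniusAlgHom F K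
    have hch : LinearMap.charpoly f = minpoly F f := by
      refine Polynomial.eq_of_monic_of_dvd_of_natDegree_le
        (minpoly.monic (LinearMap.isIntegral f)) (LinearMap.charpoly_monic f) (LinearMap.minpoly_dvd_charpoly f) ?_
      rw [LinearMap.charpoly_natDegree, hf, hmin, ← Polynomial.C_1, Polynomial.natDegree_X_pow_sub_C]
    have h := LinearMap.det_eq_sign_charpoly_coeff f
    rw [hch, hf, hmin, hodd.neg_one_pow] at h
    simpa [Polynomial.coeff_X_pow, (Module.finrank_pos (R := F) (M := K)).ne, Ne.symm] using h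
  have key : ∀ m : ℕ, LinearMap.det (FiniteField.frobeniusAlgEquivOfAlgebraic F K ^ m).toLinearMap = 1 := by
    intro m
    induction m with
    | zero =>
      rw [pow_zero, show (1 : K ≃ₐ[F] K).toLinearMap = LinearMap.id from rfl, LinearMap.det_id]
    | succ m ih =>
      rw [pow_succ]
      rw [show (FiniteField.frobeniusAlgEquivOfAlgebraic F K ^ m * FiniteField.frobeniusAlgEquivOfAlgebraic F K).toLinearMap =
        (FiniteField.frobeniusAlgEquivOfAlgebraic F K ^ m).toLinearMap ∘ₗ
          (FiniteField.frobeniusAlgHom F K).toLinearMap from rfl, LinearMap.det_comp, ih, hfrob, one_mul]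
  exact key i

lemma mem_range_of_pow_card {x : K} (hx : x ^ Fintype.card F = x) : ∃ c : F, algebraMap F K c = x := by
  classical
  by_contra hno
  push Not at hno
  let S : Finset K := insert x (Finset.univ.image (algebraMap F K))
  have hS : S.card = Fintype.card F + 1 := by
    rw [Finset.card_insert_of_notMem (by simpa using hno),
      Finset.card_image_of_injective _ (algebraMap F K).injective, Finset.card_univ]
  have hle := Polynomial.card_le_degree_of_subset_roots
    (p := (Polynomial.X ^ Fintype.card F - Polynomial.X : Polynomial K)) (Z := S) fun y hy => by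
      rw [Polynomial.mem_roots (FiniteField.X_pow_card_sub_X_ne_zero K Fintype.one_lt_card)]
      simp only [Polynomial.IsRoot, Polynomial.eval_sub, Polynomial.eval_pow, Polynomial.eval_X, sub_eq_zero]
      rcases Finset.mem_insert.1 hy with rfl | hy
      · exact hx
      · obtain ⟨c, -, rfl⟩ := Finset.mem_image.1 hy
        rw [← map_pow, FiniteField.pow_card]
  rw [FiniteField.X_pow_card_sub_X_natDegree_eq K Fintype.one_lt_card, hS] at hle
  omega

end Frobenius

namespace UnitarySetup

variable {F : Type*} [Field F] [Fintype F] {q : ℕ} {σ : F ≃+* F}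

set_option maxHeartbeats 2000000 in
/-- Semilinear isometries over a cubic extension of `𝔽₄`, compatible with the adjoint, are similitudes of an
alternating form. -/
theorem cubic_semilinear_form {K : Type*} [Field K] [Finite K] [Algebra F K] [Module K (Fin 6 → F)]
    [IsScalarTower F K (Fin 6 → F)] (hu : UnitarySetup 6 q σ) (hq : q = 2) (hdeg : Module.finrank F K = 3)
    (τ : K →+* K) (hττ : ∀ a, τ (τ a) = a)
    (hτ : ∀ (a : K) (v w : Fin 6 → F), Cfsg.hermForm 6 F q (a • v) w = Cfsg.hermForm 6 F q v (τ a • w))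
    {H : Subgroup (GL (Fin 6) F)} (hH : H ≤ Cfsg.GU 6 F q ⊓ specialLinear (Fin 6) F)
    (hsemi : ∀ g ∈ H, ∃ α : K ≃ₐ[F] K, ∀ (a : K) (v : Fin 6 → F), act g (a • v) = α a • act g v) :
    ∃ (F₀ : Subfield F) (P : GL (Fin 6) F) (ζ : F), Fintype.card F = Nat.card F₀ ^ 2 ∧ ζ ≠ 0 ∧
      ζ + ζ ^ q = 0 ∧ IsFormRationalStructure (Cfsg.hermForm 6 F q) F₀ ζ P ∧
      (∀ u : Fin 6 → F, (∀ i, u i ∈ F₀) → Cfsg.hermForm 6 F q ((P : Matrix (Fin 6) (Fin 6) F) *ᵥ u)
        ((P : Matrix (Fin 6) (Fin 6) F) *ᵥ u) = 0) ∧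
      H ≤ subfieldSubgroup F₀ P := by
  classical
  haveI : Fintype K := Fintype.ofFinite K
  have hF4 : Fintype.card F = 4 := by rw [hu.card, hq]; norm_num
  have hK : Fintype.card K = 64 := by rw [Module.card_eq_pow_finrank (K := F) (V := K), hdeg, hF4]; norm_num
  have hσ : ∀ x : F, σ x = x ^ 2 := fun x => by rw [hu.pow, hq]
  have hF0 : (2 : F) = 0 := hu.two_eq_zero_iff.2 (by subst hq; decide)
  have hK0 : (2 : K) = 0 := by rw [← map_ofNat (algebraMap F K) 2, hF0, map_zero]
  have hpow64 : ∀ x : K, x ^ 64 = x := fun x => hK ▸ FiniteField.pow_card x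
  -- the adjoint is `x ↦ x ^ 8`
  have hτF : ∀ c : F, τ (algebraMap F K c) = algebraMap F K (σ c) := by
    intro c
    obtain ⟨v₀, hv₀⟩ : ∃ v : Fin 6 → F, v ≠ 0 := ⟨Pi.single 0 1, by simp⟩
    have h1 : ∀ w, τ (algebraMap F K c) • w = σ c • w := fun w => by
      by_contra hne
      obtain ⟨x, hx⟩ := (hu.isUnitary.nondegenerate _ (sub_ne_zero.2 hne)).1
      apply hx
      have e := hτ (algebraMap F K c) x w
      rw [algebraMap_smul, hu.sesqui.smul_left] at e
      rw [hu.herm x, ← hu.sesqui.lf_apply, map_sub, IsSesqui.lf_apply, IsSesqui.lf_apply, map_sub, ← hu.herm, ← hu.herm,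
        ← e, hu.sesqui.smul_right, RingEquiv.coe_toRingHom, hu.invol, sub_self]
    by_contra hne
    have h2 : (τ (algebraMap F K c) - algebraMap F K (σ c)) • v₀ = 0 := by
      rw [sub_smul, h1, algebraMap_smul, sub_self]
    exact hv₀ ((smul_eq_zero.1 h2).resolve_left (sub_ne_zero.2 hne))
  have hτ8 : ∀ x : K, τ x = x ^ 8 := by
    let ψ : K →ₐ[F] K :=
      { toFun := fun x => τ x ^ 2
        map_one' := by rw [map_one, one_pow]
        map_mul' := fun x y => by rw [map_mul, mul_pow]
        map_zero' := by simp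
        map_add' := fun x y => by rw [map_add, add_sq, hK0, zero_mul, zero_mul, add_zero]
        commutes' := fun c => by
          rw [hτF, ← map_pow, ← hσ, hu.invol] }
    obtain ⟨i, hi⟩ := (FiniteField.bijective_frobeniusAlgEquivOfAlgebraic_pow F K).2
      ((Algebra.IsAlgebraic.algEquivEquivAlgHom F K).symm ψ)
    have hψ : ∀ x, τ x ^ 2 = x ^ (4 ^ (i : ℕ)) := fun x => by
      have e := congrArg (fun f : K ≃ₐ[F] K => f x) hi
      simp only [AlgEquiv.coe_pow, FiniteField.coe_frobeniusAlgEquivOfAlgebraic_iterate, hF4] at e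
      exact e.symm
    have hτi : ∀ x, τ x = x ^ (4 ^ (i : ℕ) * 32) := fun x => by
      rw [pow_mul, ← hψ, ← pow_mul, hpow64]
    have hi3 : (i : ℕ) < 3 := hdeg ▸ i.isLt
    obtain ⟨g, hg⟩ := IsCyclic.exists_generator (α := Kˣ)
    have hord : orderOf g = 63 := by
      rw [orderOf_eq_card_of_forall_mem_zpowers hg, Nat.card_units, Nat.card_eq_fintype_card, hK]
    have hid := hττ (g : K)
    rw [hτi, hτi, ← pow_mul, ← Units.val_pow_eq_pow_val, Units.val_inj] at hid
    have hmod : g ^ (4 ^ (i : ℕ) * 32 * (4 ^ (i : ℕ) * 32) % 63) = g ^ 1 := by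
      rw [← hord, pow_mod_orderOf, hid, pow_one]
    rw [pow_inj_mod, hord] at hmod
    intro x
    rw [hτi]
    interval_cases (i : ℕ)
    · norm_num at hmod
    · norm_num at hmod
    · norm_num
      calc x ^ 512 = (x ^ 64) ^ 8 := by rw [← pow_mul]
        _ = x ^ 8 := by rw [hpow64]
  -- the trace and the lifted form
  let t : K →ₗ[F] F := Algebra.trace F K
  have htpow : ∀ x : K, algebraMap F K (t x) = x + x ^ 4 + x ^ 16 := fun x => by
    show algebraMap F K (Algebra.trace F K x) = _
    rw [FiniteField.algebraMap_trace_eq_sum_pow, hdeg, Finset.sum_range_succ, Finset.sum_range_succ,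
      Finset.sum_range_succ, Finset.sum_range_zero, Nat.card_eq_fintype_card, hF4]
    norm_num
  have htτ : ∀ x : K, t (τ x) = σ (t x) := by
    intro x
    apply (algebraMap F K).injective
    rw [htpow, ← hτF, htpow, map_add, map_add, map_pow, map_pow]
  have htα : ∀ (α : K ≃ₐ[F] K) (x : K), t (α x) = t x := fun α x => Algebra.trace_eq_of_algEquiv α x
  have ht0 : ∃ x, t x ≠ 0 := by
    by_contra hall
    push Not at hall
    exact Algebra.trace_ne_zero F K (LinearMap.ext hall)
  let Φ : K →ₗ[F] Module.Dual F K := LinearMap.mk₂ F (fun k a => t (a * k))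
    (fun a b c => by rw [mul_add, map_add]) (fun c a b => by rw [Algebra.mul_smul_comm, map_smul])
    (fun a b c => by rw [add_mul, map_add]) (fun c a b => by rw [Algebra.smul_mul_assoc, map_smul])
  have hΦinj : Function.Injective Φ := by
    rw [injective_iff_map_eq_zero]
    intro k hk
    by_contra hk0
    obtain ⟨x, hx⟩ := ht0
    have e := LinearMap.congr_fun hk (x * k⁻¹)
    simp only [Φ, LinearMap.mk₂_apply, LinearMap.zero_apply, mul_assoc, inv_mul_cancel₀ hk0, mul_one] at e
    exact hx e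
  have hΦsurj : Function.Surjective Φ := (LinearMap.injective_iff_surjective_of_finrank_eq_finrank
    Subspace.dual_finrank_eq.symm).1 hΦinj
  have hlift : ∀ v w : Fin 6 → F, ∃ k : K, ∀ a : K, t (a * k) = (Cfsg.hermForm 6 F q) (a • v) w := fun v w => by
    obtain ⟨k, hk⟩ := hΦsurj
      { toFun := fun a => (Cfsg.hermForm 6 F q) (a • v) w
        map_add' := fun a b => by rw [add_smul, hu.sesqui.add_left]
        map_smul' := fun c a => by rw [smul_assoc, hu.sesqui.smul_left, RingHom.id_apply, smul_eq_mul] }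
    exact ⟨k, fun a => LinearMap.congr_fun hk a⟩
  choose hk hkspec using hlift
  have hkext : ∀ {x y : K}, (∀ a, t (a * x) = t (a * y)) → x = y := fun {x y} e => hΦinj (LinearMap.ext e)
  have kadd : ∀ u v w, hk (u + v) w = hk u w + hk v w := fun u v w => hkext fun a => by
    rw [mul_add, map_add, hkspec, hkspec, hkspec, smul_add, hu.sesqui.add_left]
  have ksmul : ∀ (b : K) v w, hk (b • v) w = b * hk v w := fun b v w => hkext fun a => by
    rw [← mul_assoc, hkspec, hkspec, mul_smul]
  have kherm : ∀ v w, hk w v = τ (hk v w) := fun v w => hkext fun a => by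
    rw [hkspec, ← hττ a, ← map_mul, htτ, hkspec, ← hu.herm, hττ, ← hτ]
  have kaddr : ∀ u v w, hk u (v + w) = hk u v + hk u w := fun u v w => by
    rw [kherm (v + w), kadd, map_add, ← kherm, ← kherm]
  have ksmulr : ∀ (b : K) v w, hk v (b • w) = τ b * hk v w := fun b v w => by
    rw [kherm (b • w), ksmul, map_mul, ← kherm]
  -- coordinates
  have hdim : Module.finrank K (Fin 6 → F) = 2 := by
    have e := Module.finrank_mul_finrank F K (Fin 6 → F)
    rw [hdeg, Module.finrank_fin_fun] at e
    omega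
  let b := Module.finBasisOfFinrankEq K (Fin 6 → F) hdim
  let C : (Fin 6 → F) ≃ₗ[K] (Fin 2 → K) := b.equivFun
  have hCv : ∀ v, v = C v 0 • b 0 + C v 1 • b 1 := fun v => by
    rw [← Fin.sum_univ_two (fun i => C v i • b i)]
    exact (b.sum_equivFun v).symm
  let M : Fin 2 → Fin 2 → K := fun i j => hk (b i) (b j)
  have hform : ∀ v w, hk v w = C v 0 * τ (C w 0) * M 0 0 + C v 0 * τ (C w 1) * M 0 1 +
      C v 1 * τ (C w 0) * M 1 0 + C v 1 * τ (C w 1) * M 1 1 := fun v w => by
    conv_lhs => rw [hCv v, hCv w]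
    simp only [kadd, kaddr, ksmul, ksmulr, M]
    ring
  have hMτ : ∀ i j, τ (M i j) = M j i := fun i j => (kherm (b i) (b j)).symm
  set D := M 0 0 * M 1 1 - M 0 1 * M 1 0 with hD
  have hDτ : τ D = D := by rw [hD, map_sub, map_mul, map_mul, hMτ, hMτ, hMτ, hMτ]; ring
  have hD0 : D ≠ 0 := by
    intro hD0
    -- a vector of the radical
    have hrad : ∀ x y : K, x * M 0 0 + y * M 1 0 = 0 → x * M 0 1 + y * M 1 1 = 0 → x = 0 ∧ y = 0 := by
      intro x y e0 e1
      have hv : x • b 0 + y • b 1 = 0 := by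
        by_contra hne
        obtain ⟨w, hw⟩ := (hu.isUnitary.nondegenerate _ hne).2
        apply hw
        have e := hkspec (x • b 0 + y • b 1) w 1
        rw [one_smul, one_mul] at e
        rw [← e, hCv w]
        simp only [kadd, kaddr, ksmul, ksmulr]
        rw [show x * (τ (C w 0) * hk (b 0) (b 0)) + x * (τ (C w 1) * hk (b 0) (b 1)) +
          (y * (τ (C w 0) * hk (b 1) (b 0)) + y * (τ (C w 1) * hk (b 1) (b 1))) =
          τ (C w 0) * (x * M 0 0 + y * M 1 0) + τ (C w 1) * (x * M 0 1 + y * M 1 1) by ring, e0, e1]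
        simp
      have e := congrArg C hv
      simp only [map_add, map_smul, map_zero] at e
      have e0' := congrFun e 0
      have e1' := congrFun e 1
      simp [C] at e0' e1'
      exact ⟨e0', e1'⟩
    have hd : M 0 0 * M 1 1 - M 0 1 * M 1 0 = 0 := hD0
    obtain ⟨a1, a2⟩ := hrad (M 1 0) (-M 0 0) (by ring) (by linear_combination -hd)
    obtain ⟨a3, a4⟩ := hrad (M 1 1) (-M 0 1) (by linear_combination hd) (by ring)
    obtain ⟨e1, -⟩ := hrad 1 0 (by simp [neg_eq_zero.1 a2]) (by simp [neg_eq_zero.1 a4])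
    exact one_ne_zero e1
  have hD7 : D ^ 7 = 1 := mul_left_cancel₀ hD0 (by rw [mul_one, ← pow_succ', ← hτ8, hDτ])
  obtain ⟨c, hc⟩ : ∃ c : K, c ^ 9 = D := by
    obtain ⟨g, hg⟩ := IsCyclic.exists_generator (α := Kˣ)
    have hord : orderOf g = 63 := by
      rw [orderOf_eq_card_of_forall_mem_zpowers hg, Nat.card_units, Nat.card_eq_fintype_card, hK]
    obtain ⟨k, hk'⟩ : ∃ k : ℕ, g ^ k = Units.mk0 D hD0 :=
      Submonoid.mem_powers_iff _ _ |>.1 ((mem_powers_iff_mem_zpowers).2 (hg _))
    have h7 : g ^ (k * 7) = 1 := by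
      rw [pow_mul, hk']; exact Units.ext (by simpa using hD7)
    obtain ⟨l, hl⟩ := orderOf_dvd_of_pow_eq_one h7
    rw [hord] at hl
    refine ⟨(g : K) ^ l, ?_⟩
    rw [← pow_mul, show l * 9 = k by omega, ← Units.val_pow_eq_pow_val, hk', Units.val_mk0]
  have hc0 : c ≠ 0 := fun e => hD0 (by rw [← hc, e]; simp)
  let d : (Fin 6 → F) → (Fin 6 → F) → K := fun v w => C v 0 * C w 1 - C v 1 * C w 0
  let B : Matrix (Fin 6) (Fin 6) F := Matrix.of fun i j => t (c * d (Pi.single i 1) (Pi.single j 1))
  have hCs : ∀ (a : F) (v : Fin 6 → F), C (a • v) = a • C v := fun a v =>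
    LinearMap.map_smul_of_tower C.toLinearMap a v
  let β : (Fin 6 → F) →ₗ[F] (Fin 6 → F) →ₗ[F] F := LinearMap.mk₂ F (fun v w => t (c * d v w))
    (fun u v w => by rw [← map_add]; congr 1; simp only [d, map_add, Pi.add_apply]; ring)
    (fun a v w => by
      rw [← map_smul t]; congr 1
      simp only [d, hCs, Pi.smul_apply]; simp only [Algebra.smul_def]; ring)
    (fun u v w => by rw [← map_add]; congr 1; simp only [d, map_add, Pi.add_apply]; ring)
    (fun a v w => by
      rw [← map_smul t]; congr 1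
      simp only [d, hCs, Pi.smul_apply]; simp only [Algebra.smul_def]; ring)
  have hBdot : ∀ v w, v ⬝ᵥ (B *ᵥ w) = t (c * d v w) := by
    intro v w
    show _ = β v w
    rw [show β v w = β (∑ i, v i • (Pi.single i 1 : Fin 6 → F)) (∑ j, w j • (Pi.single j 1 : Fin 6 → F)) from by
      rw [← pi_eq_sum_univ' v, ← pi_eq_sum_univ' w]]
    simp only [map_sum, LinearMap.sum_apply, map_smul, LinearMap.smul_apply, smul_eq_mul, dotProduct,
      Matrix.mulVec, Finset.mul_sum]
    rw [Finset.sum_comm]
    refine Finset.sum_congr rfl fun j _ => Finset.sum_congr rfl fun i _ => ?_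
    show _ = _ * (_ * t (c * d (Pi.single i 1) (Pi.single j 1)))
    simp [B]; ring
  -- the semilinear map representing the alternating form
  let Z : (Fin 6 → F) → Fin 2 → K := fun w =>
    ![c / D * (M 1 1 * C w 1 + M 0 1 * C w 0), c / D * (-(M 1 0 * C w 1) - M 0 0 * C w 0)]
  let J : (Fin 6 → F) → (Fin 6 → F) := fun w => C.symm ![τ (Z w 0), τ (Z w 1)]
  have hJ : ∀ w, σ ∘ (B *ᵥ w) = J w := by
    intro w
    by_contra hne
    obtain ⟨v, hv⟩ := (hu.isUnitary.nondegenerate _ (sub_ne_zero.2 hne)).1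
    apply hv
    have e : (Cfsg.hermForm 6 F q) v (σ ∘ (B *ᵥ w)) = (Cfsg.hermForm 6 F q) v (J w) := by
      have e1 := hkspec v (J w) 1
      rw [one_smul, one_mul] at e1
      rw [← e1, hu.herm_eq, show σ ∘ (σ ∘ (B *ᵥ w)) = B *ᵥ w from funext fun i => hu.invol _, hBdot]
      congr 1
      rw [hform]
      simp only [J, LinearEquiv.apply_symm_apply, Matrix.cons_val_zero, Matrix.cons_val_one, hττ, Z, d]
      field_simp
      rw [hD]; ring
    have hsub : ∀ x y, (Cfsg.hermForm 6 F q) v (x - y) = (Cfsg.hermForm 6 F q) v x - (Cfsg.hermForm 6 F q) v y := fun x y => by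
      rw [hu.herm v, ← hu.sesqui.lf_apply, map_sub, map_sub, IsSesqui.lf_apply, IsSesqui.lf_apply, ← hu.herm,
        ← hu.herm]
    rw [hsub, e, sub_self]
  have hBB : B.map σ * B = (1 : F) • 1 := by
    refine Matrix.ext_of_mulVec_single fun i => ?_
    set w : Fin 6 → F := Pi.single i 1
    have e1 : J (J w) = w := by
      apply C.injective
      funext k
      have hz : ∀ x : K, τ (τ x) = x := hττ
      fin_cases k <;>
      · simp only [J, Z, LinearEquiv.apply_symm_apply, Matrix.cons_val_zero, Matrix.cons_val_one, map_mul,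
          map_div₀, map_add, map_sub, map_neg, hz, hMτ, hDτ, Fin.zero_eta, Fin.mk_one, Fin.isValue]
        field_simp
        have hcc : c * τ c = D := by rw [hτ8, ← pow_succ', hc]
        first
          | linear_combination (-(C w 0) * D) * hcc + (-(C w 0) * D ^ 2) * hK0 +
              (c * τ c * C w 0) * hD
          | linear_combination (-(C w 1) * D) * hcc + (-(C w 1) * D ^ 2) * hK0 +
              (c * τ c * C w 1) * hD
    rw [← hJ, ← hJ] at e1
    rw [one_smul, Matrix.one_mulVec, ← Matrix.mulVec_mulVec]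
    funext a
    have e2 := congrFun e1 a
    simp only [Function.comp_apply, Matrix.mulVec, dotProduct, map_sum, map_mul, hu.invol] at e2
    simp only [Matrix.mulVec, dotProduct, Matrix.map_apply]
    convert e2 using 2
  have hskew : ∀ i j, B j i = -B i j := fun i j => by
    simp only [B, Matrix.of_apply, ← map_neg]
    congr 1; simp only [d]; ring
  have hdiag : ∀ i, B i i = 0 := fun i => by
    simp only [B, Matrix.of_apply, d]
    rw [show C (Pi.single i 1) 0 * C (Pi.single i 1) 1 - C (Pi.single i 1) 1 * C (Pi.single i 1) 0 = 0 by ring,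
      mul_zero, map_zero]
  refine hu.symplectic_subfield (by norm_num) (hH.trans inf_le_left) hBB (map_one σ) one_ne_zero hskew hdiag
    fun g hg => ?_
  obtain ⟨α, hα⟩ := hsemi g hg
  let A : Fin 2 → Fin 2 → K := fun i j => C (act g (b j)) i
  have hCg : ∀ v i, C (act g v) i = A i 0 * α (C v 0) + A i 1 * α (C v 1) := by
    intro v i
    conv_lhs => rw [hCv v]
    rw [show act g (C v 0 • b 0 + C v 1 • b 1) = act g (C v 0 • b 0) + act g (C v 1 • b 1) from
      Matrix.mulVec_add _ _ _, hα, hα, map_add, map_smul, map_smul, Pi.add_apply, Pi.smul_apply, Pi.smul_apply,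
      smul_eq_mul, smul_eq_mul]
    ring
  set δ := A 0 0 * A 1 1 - A 0 1 * A 1 0 with hδ
  -- the Gram determinant
  have hgram : ∀ v w, hk (act g v) (act g w) = α (hk v w) := fun v w => hkext fun a => by
    rw [hkspec, ← α.apply_symm_apply a, ← hα, ← map_mul, htα, hkspec]
    exact mem_GU.1 (hH hg).1 _ _
  have h9 : δ ^ 9 * D = α D := by
    have e : ∀ i j, α (M i j) = A 0 i * τ (A 0 j) * M 0 0 + A 0 i * τ (A 1 j) * M 0 1 +
        A 1 i * τ (A 0 j) * M 1 0 + A 1 i * τ (A 1 j) * M 1 1 := fun i j => by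
      rw [← hgram, hform]
    rw [show δ ^ 9 = δ * τ δ by rw [hτ8, ← pow_succ'], hD, hδ]
    simp only [map_sub, map_mul, e]
    ring
  have h21 : δ ^ 21 = 1 := by
    have hdetg : LinearMap.det (Matrix.toLin' (g : Matrix (Fin 6) (Fin 6) F)) = 1 := by
      rw [LinearMap.det_toLin']; exact (Geometric.mem_specialLinear_iff g).1 (hH hg).2
    let Am : Matrix (Fin 2) (Fin 2) K := Matrix.of A
    let αl : K →ₗ[F] K := α.toLinearMap
    let α2 : (Fin 2 → K) →ₗ[F] (Fin 2 → K) :=
      (LinearEquiv.finTwoArrow F K).symm.toLinearMap ∘ₗ (αl.prodMap αl) ∘ₗ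
        ((LinearEquiv.finTwoArrow F K).symm).symm.toLinearMap
    have hdα2 : LinearMap.det α2 = 1 := by
      rw [LinearMap.det_conj, LinearMap.det_prodMap, det_algEquiv_of_odd (by rw [hdeg]; decide), one_mul]
    let C' : (Fin 6 → F) ≃ₗ[F] (Fin 2 → K) := C.restrictScalars F
    have hsplit : Matrix.toLin' (g : Matrix (Fin 6) (Fin 6) F) =
        C'.symm.toLinearMap ∘ₗ ((Matrix.toLin' Am).restrictScalars F ∘ₗ α2) ∘ₗ C'.symm.symm.toLinearMap := by
      refine LinearMap.ext fun v => C.injective (funext fun i => ?_)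
      show C (act g v) i = C (C.symm (Matrix.toLin' Am (α2 (C v)))) i
      rw [C.apply_symm_apply, hCg, Matrix.toLin'_apply]
      simp [Am, Matrix.mulVec, dotProduct, Fin.sum_univ_two, α2, αl]
    rw [hsplit, LinearMap.det_conj, LinearMap.det_comp, hdα2, mul_one, LinearMap.det_restrictScalars,
      LinearMap.det_toLin', Matrix.det_fin_two] at hdetg
    have e := FiniteField.algebraMap_norm_eq_pow_sum F K (Am 0 0 * Am 1 1 - Am 0 1 * Am 1 0)
    rw [hdetg, map_one, hdeg, Finset.sum_range_succ, Finset.sum_range_succ, Finset.sum_range_succ,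
      Finset.sum_range_zero, Nat.card_eq_fintype_card, hF4] at e
    norm_num at e
    exact e.symm
  have hαc : α c ≠ 0 := by simpa using hc0
  set x := c * δ / α c with hx
  have hx9 : x ^ 9 = 1 := by
    rw [hx, div_pow, mul_pow, hc, ← map_pow, hc, div_eq_one_iff_eq (by simpa using hD0)]
    linear_combination h9
  have hx21 : x ^ 21 = 1 := by
    have e : α (c ^ 21) = c ^ 21 := by
      obtain ⟨u, hu'⟩ : ∃ u : F, algebraMap F K u = c ^ 21 := mem_range_of_pow_card (by
        rw [hF4, ← pow_mul, show c ^ (21 * 4) = c ^ (64 + 20) by norm_num, pow_add, hpow64, ← pow_succ'])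
      rw [← hu', α.commutes]
    rw [hx, div_pow, mul_pow, h21, mul_one, ← map_pow, e, div_self (pow_ne_zero _ hc0)]
  obtain ⟨lam, hlam⟩ : ∃ u : F, algebraMap F K u = x := mem_range_of_pow_card (by
    have e3 : x ^ 3 = 1 := by
      have : x ^ 21 = x ^ 9 * x ^ 9 * x ^ 3 := by ring
      rw [hx9, one_mul, one_mul, hx21] at this
      exact this.symm
    rw [hF4, pow_succ', e3, mul_one])
  refine ⟨lam, Matrix.ext fun i j => ?_⟩
  rw [Matrix.smul_apply, smul_eq_mul]
  have hdg : d (act g (Pi.single i 1)) (act g (Pi.single j 1)) = δ * α (d (Pi.single i 1) (Pi.single j 1)) := by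
    simp only [d, hCg, map_sub, map_mul, hδ]; ring
  have e := hBdot (act g (Pi.single i 1)) (act g (Pi.single j 1))
  rw [hdg, show c * (δ * α (d (Pi.single i 1) (Pi.single j 1))) =
      algebraMap F K lam * α (c * d (Pi.single i 1) (Pi.single j 1)) by
    rw [hlam, hx, map_mul]; field_simp, ← Algebra.smul_def, map_smul, htα, smul_eq_mul] at e
  refine Eq.trans ?_ e
  rw [act, act, Matrix.mulVec_mulVec, Matrix.mulVec_single_one, Matrix.mulVec_single_one, Matrix.mul_assoc]
  rfl

set_option synthInstance.maxHeartbeats 200000 in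
set_option maxHeartbeats 800000 in
/-- For `q = 2` the normaliser in `SU₆(q)` of an adjoint-closed cubic field of matrices lies in a symplectic
subfield group. -/
theorem cubic_field_symplectic (hu : UnitarySetup 6 q σ) (hq : q = 2)
    {K : Subalgebra F (Matrix (Fin 6) (Fin 6) F)} (hK : IsFieldSubalgebra 3 K)
    (hadj : IsAdjointClosedFor (Cfsg.hermForm 6 F q) K) {H : Subgroup (GL (Fin 6) F)}
    (hH : H ≤ Cfsg.GU 6 F q ⊓ specialLinear (Fin 6) F) (hle : H ≤ subalgebraNormalizer K) :
    ∃ (F₀ : Subfield F) (P : GL (Fin 6) F) (ζ : F), Fintype.card F = Nat.card F₀ ^ 2 ∧ ζ ≠ 0 ∧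
      ζ + ζ ^ q = 0 ∧ IsFormRationalStructure (Cfsg.hermForm 6 F q) F₀ ζ P ∧
      (∀ u : Fin 6 → F, (∀ i, u i ∈ F₀) → Cfsg.hermForm 6 F q ((P : Matrix (Fin 6) (Fin 6) F) *ᵥ u)
        ((P : Matrix (Fin 6) (Fin 6) F) *ᵥ u) = 0) ∧
      H ≤ subfieldSubgroup F₀ P := by
  classical
  have hfield : IsField K :=
    { exists_pair_ne := ⟨0, 1, zero_ne_one⟩
      mul_comm := fun x y => Subtype.ext (hK.comm x x.2 y y.2)
      mul_inv_cancel := fun {x} hx => by
        obtain ⟨y, hy, hxy⟩ := hK.inv x x.2 (fun h => hx (Subtype.ext h))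
        exact ⟨⟨y, hy⟩, Subtype.ext hxy⟩ }
  choose! A hA hA' using hadj
  have hdet := hu.isUnitary.nondegenerate
  have hAone : A 1 = 1 := eq_of_adjoint hu.sesqui hdet fun u v => by
    rw [← hA' _ K.one_mem, Matrix.one_mulVec, Matrix.one_mulVec]
  have hAzero : A 0 = 0 := eq_of_adjoint hu.sesqui hdet fun u v => by
    rw [← hA' _ K.zero_mem]
    simp [hu.herm_eq]
  have hAadd : ∀ a ∈ K, ∀ b ∈ K, A (a + b) = A a + A b := fun a ha b hb =>
    eq_of_adjoint hu.sesqui hdet fun u v => by
      rw [← hA' _ (K.add_mem ha hb), Matrix.add_mulVec, hu.sesqui.add_left, Matrix.add_mulVec,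
        hu.sesqui.add_right, ← hA' _ ha, ← hA' _ hb]
  have hAmul : ∀ a ∈ K, ∀ b ∈ K, A (a * b) = A a * A b := fun a ha b hb =>
    eq_of_adjoint hu.sesqui hdet fun u v => by
      rw [← hA' _ (K.mul_mem ha hb), hK.comm _ (hA _ ha) _ (hA _ hb), ← Matrix.mulVec_mulVec,
        ← Matrix.mulVec_mulVec, ← hA' _ hb, ← hA' _ ha]
  have hAA : ∀ a ∈ K, A (A a) = a := fun a ha =>
    eq_of_adjoint hu.sesqui hdet fun u v => by
      rw [← hA' _ (hA _ ha), hu.herm, ← hA' _ ha, ← hu.herm]
  letI : Field K := hfield.toField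
  letI : Module K (Fin 6 → F) :=
    Module.compHom (Fin 6 → F) ((Matrix.toLinAlgEquiv' (R := F) (n := Fin 6)).toAlgHom.comp K.val).toRingHom
  have hsmul : ∀ (k : K) (v : Fin 6 → F), k • v = (k : Matrix (Fin 6) (Fin 6) F) *ᵥ v := fun k v => rfl
  haveI hT : IsScalarTower F K (Fin 6 → F) := ⟨fun c x v => by
    rw [hsmul, hsmul, Subalgebra.coe_smul, Matrix.smul_mulVec]⟩
  let τ : K →+* K :=
    { toFun := fun k => ⟨A k, hA k k.2⟩
      map_one' := Subtype.ext hAone
      map_mul' := fun x y => Subtype.ext (hAmul x.1 x.2 y.1 y.2)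
      map_zero' := Subtype.ext hAzero
      map_add' := fun x y => Subtype.ext (hAadd x.1 x.2 y.1 y.2) }
  have : Finite K := Subtype.finite
  refine @cubic_semilinear_form F _ _ q σ K _ _ (Subalgebra.algebra K) _ ⟨fun c x v => smul_assoc c x v⟩ hu hq
    hK.finrank_eq τ (fun k => Subtype.ext (hAA k.1 k.2))
    (fun k v w => ?_) H hH fun g hg => ?_
  · exact hA' _ k.2 v w
  · have hn := hle hg
    refine ⟨{ toFun := fun k => ⟨_, (hn k).1 k.2⟩
              invFun := fun k => ⟨_, (((subalgebraNormalizer K).inv_mem hn) k).1 k.2⟩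
              left_inv := fun k => Subtype.ext (by simp [mul_assoc])
              right_inv := fun k => Subtype.ext (by simp [mul_assoc])
              map_mul' := fun x y => Subtype.ext (by simp [mul_assoc])
              map_add' := fun x y => Subtype.ext (by simp [mul_add, add_mul])
              commutes' := fun c => Subtype.ext (by
                show _ * algebraMap F (Matrix (Fin 6) (Fin 6) F) c * _ = algebraMap F _ c
                rw [← Algebra.commutes, mul_assoc, ← Units.val_mul, mul_inv_cancel, Units.val_one, mul_one]) },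
      fun k v => ?_⟩
    show (g : Matrix (Fin 6) (Fin 6) F) *ᵥ ((k : Matrix (Fin 6) (Fin 6) F) *ᵥ v) =
      ((g : Matrix (Fin 6) (Fin 6) F) * (k : Matrix (Fin 6) (Fin 6) F) * ((g⁻¹ : GL (Fin 6) F) : Matrix (Fin 6) (Fin 6) F)) *ᵥ
        ((g : Matrix (Fin 6) (Fin 6) F) *ᵥ v)
    rw [Matrix.mulVec_mulVec, Matrix.mulVec_mulVec, mul_assoc _ _ (g : Matrix (Fin 6) (Fin 6) F), ← Units.val_mul,
      inv_mul_cancel, Units.val_one, mul_one]

end UnitarySetup

end CfsgLib.SmallDim
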