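import Cfsg.Agent.Lib.SmallDim.UnitaryPrime
import Cfsg.Agent.Lib.SmallDim.FiveTwoTables
import Cfsg.Agent.Lib.ClassicalForms.Unitary.Card
import Cfsg.Agent.Lib.SmallDim.UnitaryTensor
import Cfsg.Agent.Lib.SmallDim.FormClifford
import Cfsg.Agent.Lib.SmallDim.UnitarySubfield

/-!
In `SU(5,2)` the normaliser of a field of degree five (a group `11:5`) is not maximal: it lies in a copy of
`PSL(2,11)`, given here as a subgroup permuting fifty-five lines.
-/

set_option autoImplicit false
set_option linter.style.haveILetI false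
set_option linter.unusedSectionVars false

namespace CfsgLib.SmallDim

open scoped MatrixGroups Matrix
open Cfsg.Geo
open FiveTwo

variable {F : Type*} [Field F] [Fintype F]

section Code

variable {ω : F} (hω : ω ^ 2 + ω + 1 = 0) (h2 : (2 : F) = 0)

/-- The decoding of a code. -/
def decF (ω : F) (a : Fin 4) : F := ![0, 1, ω, ω ^ 2] a

/-- The decoding of a matrix. -/
def decM (ω : F) (X : FiveTwo.Mat) : Matrix (Fin 5) (Fin 5) F := Matrix.of fun i j => decF ω (X i j)

/-- The decoding of a vector. -/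
def decV (ω : F) (v : FiveTwo.Vec) : Fin 5 → F := fun i => decF ω (v i)

include hω h2

lemma decF_add (a b : Fin 4) : decF ω (fa a b) = decF ω a + decF ω b := by
  fin_cases a <;> fin_cases b <;> simp [decF, fa] <;> first
    | linear_combination hω - (1 + ω + ω ^ 2) * h2
    | linear_combination hω - (1 + ω) * h2
    | linear_combination hω - (ω ^ 2 + ω) * h2
    | linear_combination hω - (ω ^ 2 + 1) * h2
    | linear_combination -h2
    | linear_combination -ω * h2
    | linear_combination -ω ^ 2 * h2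

lemma decF_mul (a b : Fin 4) : decF ω (fm a b) = decF ω a * decF ω b := by
  fin_cases a <;> fin_cases b <;> simp [decF, fm] <;> first
    | linear_combination (0 : F)
    | linear_combination (1 - ω) * hω
    | linear_combination -(ω ^ 2 - ω) * hω

lemma decF_injective : Function.Injective (decF ω) := by
  have h0 : ω ≠ 0 := by rintro rfl; simp at hω
  have h1 : ω ≠ 1 := by
    rintro rfl
    exact one_ne_zero (α := F) (by linear_combination hω - h2)
  have h3 : ω ^ 2 ≠ 1 := fun h => one_ne_zero (α := F) (by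
    have : ω = 0 := by linear_combination hω - h - h2
    exact absurd this h0)
  have h4 : ω ^ 2 ≠ ω := fun h => h1 (mul_right_cancel₀ h0 (by linear_combination h))
  have h5 : ω ^ 2 ≠ 0 := pow_ne_zero _ h0
  intro a b h
  fin_cases a <;> fin_cases b <;> simp [decF, h0, h1, h3, h4, Ne.symm h0, Ne.symm h1, Ne.symm h3, Ne.symm h4, h5,
    Ne.symm h5] at h ⊢

lemma decV_injective : Function.Injective (decV ω) := fun u v h =>
  funext fun i => decF_injective hω h2 (congrFun h i)

lemma decF_s5 (f : Fin 5 → Fin 4) : decF ω (s5 f) = ∑ i, decF ω (f i) := by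
  simp only [s5, decF_add hω h2, Fin.sum_univ_five]

lemma decV_mv (X : FiveTwo.Mat) (v : FiveTwo.Vec) : decM ω X *ᵥ decV ω v = decV ω (mv X v) := by
  funext i
  simp only [decV, mv, decF_s5 hω h2, decF_mul hω h2]
  rfl

lemma decV_unit (i : Fin 5) : decV ω (unit5 i) = Pi.single i 1 := by
  funext j
  simp only [decV, unit5]
  split_ifs with h
  · subst h; simp [decF]
  · simp [decF, h]

end Code

/-- A matrix group element permuting the fifty-five lines. -/
def linesStab (ω : F) : Subgroup (GL (Fin 5) F) where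
  carrier := {g | (∀ k, ∃ l, ∃ s : F, act g (decV ω (tblS k)) = s • decV ω (tblS l)) ∧
    ∀ k, ∃ l, ∃ s : F, act g⁻¹ (decV ω (tblS k)) = s • decV ω (tblS l)}
  mul_mem' {a b} ha hb := by
    refine ⟨fun k => ?_, fun k => ?_⟩
    · obtain ⟨l, s, hl⟩ := hb.1 k
      obtain ⟨l', s', hl'⟩ := ha.1 l
      exact ⟨l', s * s', by rw [act_mul, hl, act_smul, hl', smul_smul]⟩
    · obtain ⟨l, s, hl⟩ := ha.2 k
      obtain ⟨l', s', hl'⟩ := hb.2 l
      exact ⟨l', s * s', by rw [mul_inv_rev, act_mul, hl, act_smul, hl', smul_smul]⟩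
  one_mem' := ⟨fun k => ⟨k, 1, by simp [act_one]⟩, fun k => ⟨k, 1, by simp [act_one]⟩⟩
  inv_mem' {a} ha := ⟨ha.2, by rw [inv_inv]; exact ha.1⟩

lemma mem_linesStab_of_forward {ω : F} {g : GL (Fin 5) F} {n : ℕ} (hn : g ^ (n + 1) = 1)
    (h : ∀ k, ∃ l, ∃ s : F, act g (decV ω (tblS k)) = s • decV ω (tblS l)) : g ∈ linesStab ω := by
  have hpow : ∀ m k, ∃ l, ∃ s : F, act (g ^ m) (decV ω (tblS k)) = s • decV ω (tblS l) := by
    intro m
    induction m with
    | zero => exact fun k => ⟨k, 1, by simp [act_one]⟩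
    | succ m ih =>
      intro k
      obtain ⟨l, s, hl⟩ := ih k
      obtain ⟨l', s', hl'⟩ := h l
      exact ⟨l', s * s', by rw [pow_succ', act_mul, hl, act_smul, hl', smul_smul]⟩
  refine ⟨h, fun k => ?_⟩
  rw [show g⁻¹ = g ^ n from inv_eq_of_mul_eq_one_right (by rw [← pow_succ']; exact hn)]
  exact hpow n k

set_option maxHeartbeats 2000000 in
/-- The explicit overgroup: an element `a` of order eleven, `b` acting on it, `g` outside its normaliser. -/
theorem exists_five_two_model {σ : F ≃+* F} (hu : UnitarySetup 5 2 σ) :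
    ∃ (a b g d : GL (Fin 5) F) (M : Subgroup (GL (Fin 5) F)),
      (∀ x ∈ [a, b, g, d], x ∈ Cfsg.GU 5 F 2 ⊓ specialLinear (Fin 5) F) ∧
      (a ∈ M ∧ b ∈ M ∧ g ∈ M ∧ d ∉ M) ∧ orderOf a = 11 ∧ b * a = a ^ 4 * b ∧
      g * a * g * a ≠ a * g * a * g ∧ g * g = 1 ∧
      ∀ m : Fin 11, Matrix.trace ((a ^ (m : ℕ) : GL (Fin 5) F) : Matrix (Fin 5) (Fin 5) F) =
        Matrix.trace (a : Matrix (Fin 5) (Fin 5) F) → ∃ j, (m : ℕ) = 4 ^ j % 11 := by
  classical
  have h2 : (2 : F) = 0 := hu.two_eq_zero_iff.2 (by decide)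
  obtain ⟨ω, hω⟩ : ∃ ω : F, ω ^ 2 + ω + 1 = 0 := by
    have hc : Fintype.card F = 4 := by rw [hu.card]; norm_num
    obtain ⟨x, hx⟩ : ∃ x : F, x ∉ ({0, 1} : Finset F) :=
      by
      obtain ⟨x, -, hx⟩ := Finset.exists_mem_notMem_of_card_lt_card (s := ({0, 1} : Finset F)) (t := Finset.univ)
        (by rw [Finset.card_univ, hc, Finset.card_pair zero_ne_one]; norm_num)
      exact ⟨x, hx⟩
    simp only [Finset.mem_insert, Finset.mem_singleton, not_or] at hx
    have h4 := FiniteField.pow_card x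
    rw [hc] at h4
    refine ⟨x, ?_⟩
    have : (x * (x - 1)) * (x ^ 2 + x + 1) = 0 := by linear_combination h4
    exact (mul_eq_zero.mp this).resolve_left (mul_ne_zero hx.1 (sub_ne_zero.2 hx.2))
  have hω0 : ω ≠ 0 := by rintro rfl; simp at hω
  have hσ : ∀ a, σ (decF ω a) = decF ω (fc a) := fun a => by
    rw [hu.pow]
    fin_cases a <;> simp [decF, fc]
    linear_combination (ω ^ 2 - ω) * hω
  have hgram : ∀ X : FiveTwo.Mat, (∀ i j, gram X i j = idm i j) →
      (decM ω X)ᵀ * (decM ω X).map σ = 1 := fun X hX => by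
    ext i j
    rw [Matrix.mul_apply]
    simp only [Matrix.transpose_apply, Matrix.map_apply, decM, Matrix.of_apply, hσ, ← decF_mul hω h2]
    rw [← decF_s5 hω h2, show (s5 fun k => fm (X k i) (fc (X k j))) = idm i j from hX i j, Matrix.one_apply]
    simp only [idm]
    split_ifs <;> simp [decF]
  let mk : ∀ X : FiveTwo.Mat, (∀ i j, gram X i j = idm i j) → GL (Fin 5) F := fun X hX =>
    Matrix.GeneralLinearGroup.mkOfDetNeZero (decM ω X) fun h => by
      have := congrArg Matrix.det (hgram X hX)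
      rw [Matrix.det_mul, Matrix.det_transpose, h, zero_mul, Matrix.det_one] at this
      exact zero_ne_one this
  have hval : ∀ X hX, ((mk X hX : GL (Fin 5) F) : Matrix (Fin 5) (Fin 5) F) = decM ω X := fun _ _ => rfl
  have hGU : ∀ X hX, mk X hX ∈ Cfsg.GU 5 F 2 := fun X hX => hu.mem_GU_iff.2 (hgram X hX)
  have hact : ∀ X hX v, act (mk X hX) (decV ω v) = decV ω (mv X v) := fun X hX v => decV_mv hω h2 X v
  have hext : ∀ x y : GL (Fin 5) F, (∀ i, act x (decV ω (unit5 i)) = act y (decV ω (unit5 i))) → x = y := by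
    intro x y h
    refine Units.ext (Matrix.ext_of_mulVec_single fun i => ?_)
    have := h i
    rwa [decV_unit hω h2] at this
  set a := mk matA gram_A with ha
  set b := mk matB gram_B with hb
  set g := mk matG gram_G with hg
  set d := mk matD gram_D with hd
  have hA : ∀ v, act a (decV ω v) = decV ω (mv matA v) := fun v => hact matA gram_A v
  have hB : ∀ v, act b (decV ω v) = decV ω (mv matB v) := fun v => hact matB gram_B v
  have hGg : ∀ v, act g (decV ω v) = decV ω (mv matG v) := fun v => hact matG gram_G v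
  have hD : ∀ v, act d (decV ω v) = decV ω (mv matD v) := fun v => hact matD gram_D v
  have haS : ∀ k, act a (decV ω (tblS k)) = decV ω (tblS (k + 5)) := fun k => by
    rw [hA]; exact congrArg _ (funext (A_S k))
  have hapow : ∀ (m : ℕ) k, act (a ^ m) (decV ω (tblS k)) = decV ω (tblS (k + 5 * (Fin.ofNat 55 m))) := by
    intro m
    induction m with
    | zero => intro k; simp [act_one]
    | succ m ih =>
      intro k
      rw [pow_succ', act_mul, ih, haS]
      congr 2
      apply Fin.ext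
      simp [Fin.val_add, Fin.val_mul]
      omega
  have hunit : ∀ i : Fin 5, decV ω (unit5 i) = decV ω (tblS ⟨i, by omega⟩) := fun i =>
    congrArg _ (funext fun j => (S_unit i j).symm)
  have ha11 : a ^ 11 = 1 := hext _ _ fun i => by
    rw [hunit, hapow, act_one]
    congr 2
    fin_cases i <;> decide
  have hbA : b * a = a ^ 4 * b := hext _ _ fun i => by
    rw [act_mul, act_mul, hB (unit5 i), show mv matB (unit5 i) = unit5 (i + 1) from funext (B_unit i),
      hunit i, hunit (i + 1), haS, hB, hapow]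
    refine congrArg _ ?_
    rw [show (⟨(i : ℕ), by omega⟩ : Fin 55) + 5 = ⟨5 + i, by omega⟩ by fin_cases i <;> rfl,
      show mv matB (tblS ⟨5 + i, by omega⟩) = _ from funext (BA i)]
    congr 1
    fin_cases i <;> decide
  have hg2 : g * g = 1 := hext _ _ fun i => by
    rw [act_mul, hGg (unit5 i), hGg, act_one]; exact congrArg _ (funext (G_unit i))
  have hb5 : b ^ 5 = 1 := hext _ _ fun i => by
    rw [show b ^ 5 = b * (b * (b * (b * b))) by simp [pow_succ, mul_assoc], act_mul, act_mul, act_mul, act_mul, hB,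
      hB, hB, hB, hB, act_one]
    exact congrArg _ (funext (B_det i))
  have hd3 : d ^ 3 = 1 := hext _ _ fun i => by
    rw [show d ^ 3 = d * (d * d) by simp [pow_succ, mul_assoc], act_mul, act_mul, hD, hD, hD, act_one]
    exact congrArg _ (funext (D_unit i))
  have hSL : ∀ x : GL (Fin 5) F, ∀ n, x ^ n = 1 → Nat.Coprime n 3 → x ∈ specialLinear (Fin 5) F := by
    intro x n hx hn
    show Matrix.GeneralLinearGroup.det x = 1
    have h1 : Matrix.GeneralLinearGroup.det x ^ n = 1 := by rw [← map_pow, hx, map_one]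
    have h3 : Matrix.GeneralLinearGroup.det x ^ 3 = 1 := by
      have h := pow_card_eq_one' (x := Matrix.GeneralLinearGroup.det x)
      rwa [Nat.card_units, Nat.card_eq_fintype_card, hu.card] at h
    rw [← orderOf_eq_one_iff]
    exact Nat.eq_one_of_dvd_coprimes hn (orderOf_dvd_of_pow_eq_one h1) (orderOf_dvd_of_pow_eq_one h3)
  have hdSL : d ∈ specialLinear (Fin 5) F := by
    show Matrix.GeneralLinearGroup.det d = 1
    refine Units.ext ?_
    rw [Matrix.GeneralLinearGroup.val_det_apply, Units.val_one, hd, hval matD gram_D]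
    rw [show decM ω matD = Matrix.diagonal ![ω, ω ^ 2, 1, 1, 1] from Matrix.ext fun i j => by
      fin_cases i <;> fin_cases j <;> simp [decM, decF, matD], Matrix.det_diagonal, Fin.prod_univ_five]
    simp
    linear_combination (ω - 1) * hω
  let M : Subgroup (GL (Fin 5) F) := linesStab ω
  have haM : a ∈ M := mem_linesStab_of_forward (n := 10) ha11 fun k => ⟨k + 5, 1, by rw [haS, one_smul]⟩
  have hbM : b ∈ M := mem_linesStab_of_forward (n := 4) hb5 fun k =>
    ⟨tblB k, 1, by rw [hB, one_smul]; exact congrArg _ (funext (B_S k))⟩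
  have hgM : g ∈ M := mem_linesStab_of_forward (n := 1) (by rw [pow_two]; exact hg2) fun k =>
    ⟨tblG k, decF ω (tblGs k), by
      rw [hGg, show mv matG (tblS k) = _ from funext (G_S k)]
      funext j
      simp [decV, decF_mul hω h2]⟩
  refine ⟨a, b, g, d, M, ?_, ⟨haM, hbM, hgM, fun hdM => ?_⟩, ?_, hbA, fun h => ?_, hg2, fun m hm => ?_⟩
  · intro x hx
    simp only [List.mem_cons, List.not_mem_nil, or_false] at hx
    rcases hx with rfl | rfl | rfl | rfl
    · exact ⟨hGU matA gram_A, hSL a 11 ha11 (by decide)⟩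
    · exact ⟨hGU matB gram_B, hSL b 5 hb5 (by decide)⟩
    · exact ⟨hGU matG gram_G, hSL g 2 (by rw [pow_two]; exact hg2) (by decide)⟩
    · exact ⟨hGU matD gram_D, hdSL⟩
  · obtain ⟨l, s, hl⟩ := hdM.1 7
    rw [hD] at hl
    obtain ⟨c, rfl⟩ : ∃ c : Fin 4, decF ω c = s :=
      ((Fintype.bijective_iff_injective_and_card _).mpr ⟨decF_injective hω h2, by rw [Fintype.card_fin, hu.card]; norm_num⟩).2 s
    exact D_bad l c (decV_injective hω h2 (hl.trans (funext fun j => by simp [decV, decF_mul hω h2])))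
  · refine orderOf_eq_prime (hp := ⟨by norm_num⟩) ha11 fun h => ?_
    have h' := haS 0
    rw [h, act_one] at h'
    have := decV_injective hω h2 h'
    revert this
    decide +kernel
  · have h' := congrArg (fun x => act x (decV ω (unit5 0))) h
    simp only [act_mul, hA, hGg] at h'
    exact GAGA (decV_injective hω h2 h')
  · have htr : ∀ m : Fin 11, Matrix.trace ((a ^ (m : ℕ) : GL (Fin 5) F) : Matrix (Fin 5) (Fin 5) F) =
        decF ω (trTbl m) := fun m => by
      rw [trTbl, decF_s5 hω h2]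
      refine Finset.sum_congr rfl fun i _ => ?_
      have h := congrFun (hapow m ⟨i, by omega⟩) i
      rw [← hunit, decV_unit hω h2] at h
      simp [act] at h
      rw [Matrix.diag_apply, Units.val_pow_eq_pow_val, h, decV]
      congr 3
      apply Fin.ext
      simp [Fin.val_add, Fin.val_mul]
      omega
    have h1 := htr 1
    rw [show ((1 : Fin 11) : ℕ) = 1 from rfl, pow_one] at h1
    rcases trTbl_eq m (decF_injective hω h2 (by rw [← htr, hm, h1])) with rfl | rfl | rfl | rfl | rfl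
    exacts [⟨0, rfl⟩, ⟨1, rfl⟩, ⟨2, rfl⟩, ⟨3, rfl⟩, ⟨4, rfl⟩]

/-- A subfield of a field with `2 ^ 10` elements containing an element of order eleven is everything. -/
lemma subfield_eq_top_of_eleven {K : Type*} [Field K] [Finite K] (hK : Nat.card K = 2 ^ 10) (L : Subfield K)
    {x : K} (hx : x ∈ L) (h11 : orderOf x = 11) : L = ⊤ := by
  haveI : Fintype L := Fintype.ofFinite L
  have hdvd : Nat.card L ∣ 2 ^ 10 := hK ▸ AddSubgroup.card_addSubgroup_dvd_card L.toAddSubgroup
  obtain ⟨k, hk, hcard⟩ := (Nat.dvd_prime_pow Nat.prime_two).mp hdvd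
  have hx0 : (⟨x, hx⟩ : L) ≠ 0 := fun h => by
    rw [show x = 0 from congrArg Subtype.val h] at h11
    simp at h11
  have h1 := FiniteField.pow_card_sub_one_eq_one (⟨x, hx⟩ : L) hx0
  rw [← Nat.card_eq_fintype_card, hcard] at h1
  have hd : 11 ∣ 2 ^ k - 1 := h11 ▸ orderOf_dvd_of_pow_eq_one (congrArg Subtype.val h1)
  have hk10 : k = 10 := by
    have h0 : k ≠ 0 := fun h => by
      have : Nat.card L = 1 := by rw [hcard, h]; rfl
      exact absurd (Finite.one_lt_card (α := L)) (by omega)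
    interval_cases k <;> first | rfl | exact absurd rfl h0 | norm_num at hd
  subst hk10
  exact SetLike.coe_injective ((Set.eq_of_subset_of_ncard_le (Set.subset_univ _) (by
    rw [Set.ncard_univ, hK, ← hcard, ← Nat.card_coe_set_eq]
    rfl)).trans Subfield.coe_top.symm)

/-- Eleven divides `|GU(5,2)|` exactly once, so elements of order eleven generate conjugate subgroups. -/
theorem exists_conj_eleven (hF : Fintype.card F = 4) {x a : GL (Fin 5) F} (hx : x ∈ Cfsg.GU 5 F 2)
    (ha : a ∈ Cfsg.GU 5 F 2) (hxo : orderOf x = 11) (hao : orderOf a = 11) :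
    ∃ c ∈ Cfsg.GU 5 F 2, ∃ m : ℕ, c * x ^ m * c⁻¹ = a := by
  haveI : Fact (Nat.Prime 11) := ⟨by norm_num⟩
  have hcard : Nat.card (Cfsg.GU 5 F 2) = 2 ^ 10 * 3 ^ 6 * 5 * 11 := by
    rw [CfsgLib.ClassicalForms.card_gu (q := 2) (by rw [Nat.card_eq_fintype_card, hF]; norm_num) 5]
    simp [Finset.prod_range_succ, Nat.even_iff]
  have hsyl : ∀ y : Cfsg.GU 5 F 2, orderOf y = 11 → ∃ P : Sylow 11 (Cfsg.GU 5 F 2), (P : Subgroup _) = Subgroup.zpowers y := by
    intro y hy
    have hp : IsPGroup 11 (Subgroup.zpowers y) := IsPGroup.of_card (n := 1) (by rw [Nat.card_zpowers, hy, pow_one])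
    obtain ⟨P, hP⟩ := hp.exists_le_sylow
    refine ⟨P, (Subgroup.eq_of_le_of_card_ge hP ?_).symm⟩
    rw [Nat.card_zpowers, hy, P.card_eq_multiplicity, hcard]
    have : (2 ^ 10 * 3 ^ 6 * 5 * 11 : ℕ).factorization 11 = 1 := by
      rw [Nat.factorization_mul (by norm_num) (by norm_num), Finsupp.add_apply,
        Nat.factorization_eq_zero_of_not_dvd (show ¬ 11 ∣ 2 ^ 10 * 3 ^ 6 * 5 by norm_num), zero_add,
        (show Nat.Prime 11 by norm_num).factorization_self]
    rw [this, pow_one]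
  obtain ⟨P, hP⟩ := hsyl ⟨x, hx⟩ (by rwa [Subgroup.orderOf_mk])
  obtain ⟨R, hR⟩ := hsyl ⟨a, ha⟩ (by rwa [Subgroup.orderOf_mk])
  obtain ⟨c, hc⟩ := MulAction.exists_smul_eq (Cfsg.GU 5 F 2) P R
  have hmem : (⟨a, ha⟩ : Cfsg.GU 5 F 2) ∈ ((c • P : Sylow 11 _) : Subgroup (Cfsg.GU 5 F 2)) := by
    rw [hc, hR]; exact Subgroup.mem_zpowers _
  rw [Sylow.coe_subgroup_smul, hP, Subgroup.mem_pointwise_smul_iff_inv_smul_mem] at hmem
  obtain ⟨m, hm⟩ := mem_powers_iff_mem_zpowers.mpr hmem
  refine ⟨c, c.2, m, ?_⟩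
  have h := congrArg (fun y : Cfsg.GU 5 F 2 => (y : GL (Fin 5) F)) hm
  simp [MulAut.smul_def, mul_assoc] at h
  rw [h]
  group

set_option maxHeartbeats 2000000 in
set_option synthInstance.maxHeartbeats 200000 in
/-- The normaliser of a field of degree five is no maximal subgroup of `SU(5,2)`. -/
theorem no_field_five_two {σ : F ≃+* F} (hu : UnitarySetup 5 2 σ) {H : Subgroup (GL (Fin 5) F)}
    (hH : IsMaximalIn (Cfsg.GU 5 F 2 ⊓ specialLinear (Fin 5) F) H)
    {K : Subalgebra F (Matrix (Fin 5) (Fin 5) F)} (hK : IsFieldSubalgebra 5 K)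
    (hadj : IsAdjointClosedFor (Cfsg.hermForm 5 F 2) K)
    (hHK : H = subalgebraNormalizer K ⊓ (Cfsg.GU 5 F 2 ⊓ specialLinear (Fin 5) F)) : False := by
  classical
  set G := Cfsg.GU 5 F 2 ⊓ specialLinear (Fin 5) F
  have hF4 : Fintype.card F = 4 := by rw [hu.card]; norm_num
  obtain ⟨a, b, g, d, M, hG, ⟨haM, hbM, hgM, hdM⟩, hao, hba, hne, hg2, htr⟩ := exists_five_two_model hu
  have hfield : IsField K :=
    { exists_pair_ne := ⟨0, 1, fun h => zero_ne_one (α := Matrix (Fin 5) (Fin 5) F) (congrArg Subtype.val h)⟩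
      mul_comm := fun x y => Subtype.ext (hK.comm x x.2 y y.2)
      mul_inv_cancel := fun {a} ha => by
        obtain ⟨y, hy, hay⟩ := hK.inv a a.2 (fun h => ha (Subtype.ext h))
        exact ⟨⟨y, hy⟩, Subtype.ext hay⟩ }
  letI : Field K := hfield.toField
  haveI : Fintype K := Fintype.ofFinite K
  have hcardK : Nat.card K = 2 ^ 10 := by
    rw [Module.natCard_eq_pow_finrank (K := F) (V := K), hK.finrank_eq, Nat.card_eq_fintype_card, hF4]
    norm_num
  have hs := hu.sesqui
  have hnd := hu.isUnitary.nondegenerate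
  have hσne : ∃ c : F, σ c ≠ c := by
    by_contra hall
    push Not at hall
    exact hu.isUnitary.ne_refl (RingEquiv.ext hall)
  -- the adjoint
  choose τ hτK hτ using fun k : K => hadj k k.2
  have hτeq : ∀ (k : K) (X : Matrix (Fin 5) (Fin 5) F), (∀ u v, Cfsg.hermForm 5 F 2 ((k : Matrix (Fin 5) (Fin 5) F) *ᵥ u) v =
      Cfsg.hermForm 5 F 2 u (X *ᵥ v)) → τ k = X := fun k X hX =>
    eq_of_adjoint hs hnd fun u v => (hτ k u v).symm.trans (hX u v)
  let T : K →+* K :=
    { toFun := fun k => ⟨τ k, hτK k⟩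
      map_one' := Subtype.ext (hτeq 1 1 fun u v => by simp)
      map_zero' := Subtype.ext (hτeq 0 0 fun u v => by simp [hs.zero_left, hs.zero_right])
      map_add' := fun x y => Subtype.ext (hτeq (x + y) (τ x + τ y) fun u v => by
        show Cfsg.hermForm 5 F 2 ((((x : Matrix (Fin 5) (Fin 5) F) + (y : Matrix (Fin 5) (Fin 5) F))) *ᵥ u) v = _
        rw [Matrix.add_mulVec, hs.add_left, hτ x, hτ y, Matrix.add_mulVec, hs.add_right])
      map_mul' := fun x y => Subtype.ext (hτeq (x * y) (τ x * τ y) fun u v => by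
        show Cfsg.hermForm 5 F 2 (((x : Matrix (Fin 5) (Fin 5) F) * (y : Matrix (Fin 5) (Fin 5) F)) *ᵥ u) v = _
        rw [← Matrix.mulVec_mulVec, hτ x, hτ y, Matrix.mulVec_mulVec]
        congr 2
        exact hK.comm _ (hτK y) _ (hτK x)) }
  have hTT : ∀ k : K, T (T k) = k := fun k => Subtype.ext (hτeq (T k) (k : Matrix (Fin 5) (Fin 5) F) fun u v => by
    show Cfsg.hermForm 5 F 2 (τ k *ᵥ u) v = _
    rw [hu.herm, ← hτ k, ← hu.herm])
  have hTalg : ∀ c : F, T (algebraMap F K c) = algebraMap F K (σ c) := fun c => Subtype.ext (hτeq _ _ fun u v => by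
    show Cfsg.hermForm 5 F 2 ((algebraMap F (Matrix (Fin 5) (Fin 5) F) c) *ᵥ u) v =
      Cfsg.hermForm 5 F 2 u ((algebraMap F (Matrix (Fin 5) (Fin 5) F) (σ c)) *ᵥ v)
    rw [Algebra.algebraMap_eq_smul_one, Algebra.algebraMap_eq_smul_one, Matrix.smul_mulVec, Matrix.one_mulVec,
      Matrix.smul_mulVec, Matrix.one_mulVec, hs.smul_left, hs.smul_right]
    exact congrArg (· * _) (hu.invol c).symm)
  -- an element of order eleven
  haveI : Fact (Nat.Prime 11) := ⟨by norm_num⟩
  have h11dvd : 11 ∣ Nat.card Kˣ := by rw [Nat.card_units, hcardK]; norm_num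
  obtain ⟨u₀, hu₀⟩ := exists_prime_orderOf_dvd_card' (G := Kˣ) 11 h11dvd
  have hx₀ : orderOf (u₀ : K) = 11 := by rw [orderOf_units, hu₀]
  have hT11 : ∀ x : K, orderOf x = 11 → T x = x ^ 10 := by
    intro x hx
    have hprim : IsPrimitiveRoot x 11 := hx ▸ IsPrimitiveRoot.orderOf x
    obtain ⟨e, he, hTe⟩ := hprim.eq_pow_of_pow_eq_one (ξ := T x) (by rw [← map_pow, hprim.pow_eq_one, map_one])
    have h1 := hTT x
    rw [← hTe, map_pow, ← hTe, ← pow_mul] at h1
    have h2' : x ^ (e * e) = x ^ 1 := by rw [pow_one]; exact h1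
    have hmod : e * e % 11 = 1 := by
      have hu' : (IsUnit.unit (hprim.isUnit (by norm_num))) ^ (e * e) = (IsUnit.unit (hprim.isUnit (by norm_num))) ^ 1 :=
        Units.ext (by rw [Units.val_pow_eq_pow_val, Units.val_pow_eq_pow_val, IsUnit.unit_spec]; exact h2')
      have h3 := pow_inj_mod.1 hu'
      rw [← orderOf_units, IsUnit.unit_spec, hx] at h3
      exact h3
    have he' : e = 1 ∨ e = 10 := by interval_cases e <;> omega
    rcases he' with rfl | rfl
    · exfalso
      have htop := subfield_eq_top_of_eleven hcardK (T.eqLocusField (RingHom.id K)) (x := x)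
        (by rw [pow_one] at hTe; exact hTe.symm) hx
      obtain ⟨c, hc⟩ := hσne
      refine hc ((algebraMap F K).injective ?_)
      rw [← hTalg]
      exact (htop ▸ Subfield.mem_top (algebraMap F K c) : algebraMap F K c ∈ T.eqLocusField (RingHom.id K))
    · exact hTe.symm
  haveI : CharP F 2 := CharTwo.of_one_ne_zero_of_two_eq_zero one_ne_zero (hu.two_eq_zero_iff.2 (by decide))
  haveI : CharP K 2 := charP_of_injective_algebraMap (algebraMap F K).injective 2
  have hT32 : ∀ k : K, T k = k ^ 32 := by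
    intro k
    have hfr : ∀ y : K, iterateFrobenius K 2 5 y = y ^ 32 := fun y => by rw [iterateFrobenius_def]; norm_num
    have htop := subfield_eq_top_of_eleven hcardK (T.eqLocusField (iterateFrobenius K 2 5)) (x := (u₀ : K)) (by
      show T _ = _
      rw [hT11 _ hx₀, hfr, show (32 : ℕ) = 10 + 11 * 2 by norm_num, pow_add, pow_mul,
        show (u₀ : K) ^ 11 = 1 from hx₀ ▸ pow_orderOf_eq_one _, one_pow, mul_one]) hx₀
    have : k ∈ T.eqLocusField (iterateFrobenius K 2 5) := htop ▸ Subfield.mem_top k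
    exact (this : T k = _).trans (hfr k)
  -- the matching element of the group
  let ρ : Kˣ →* GL (Fin 5) F := Units.map K.val.toRingHom.toMonoidHom
  have hρval : ∀ w : Kˣ, ((ρ w : GL (Fin 5) F) : Matrix (Fin 5) (Fin 5) F) = ((w : K) : Matrix (Fin 5) (Fin 5) F) :=
    fun _ => rfl
  have hρinj : Function.Injective ρ := fun v w h => Units.ext (Subtype.ext (congrArg Units.val h))
  have hρnorm : ∀ w : Kˣ, ρ w ∈ subalgebraNormalizer K := by
    intro w k
    have hw : ((w : K) : Matrix (Fin 5) (Fin 5) F) ∈ K := (w : K).2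
    have hw' : (((ρ w)⁻¹ : GL (Fin 5) F) : Matrix (Fin 5) (Fin 5) F) ∈ K := by
      rw [← map_inv, hρval]; exact ((w⁻¹ : Kˣ) : K).2
    refine ⟨fun hk => K.mul_mem (K.mul_mem hw hk) hw', fun hk => ?_⟩
    have h := K.mul_mem (K.mul_mem hw' hk) hw
    rw [← mul_assoc, ← mul_assoc, show (((ρ w)⁻¹ : GL (Fin 5) F) : Matrix (Fin 5) (Fin 5) F) *
      (ρ w : Matrix (Fin 5) (Fin 5) F) = 1 by rw [← Units.val_mul, inv_mul_cancel, Units.val_one], one_mul,
      mul_assoc, ← hρval, ← Units.val_mul, inv_mul_cancel, Units.val_one, mul_one] at h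
    exact h
  have hρGU : ρ u₀ ∈ Cfsg.GU 5 F 2 := by
    refine mem_GU.2 fun u v => ?_
    show Cfsg.hermForm 5 F 2 (((u₀ : K) : Matrix (Fin 5) (Fin 5) F) *ᵥ u) (act (ρ u₀) v) = _
    rw [hτ, show τ (u₀ : K) = (((u₀ : K) ^ 10 : K) : Matrix (Fin 5) (Fin 5) F) from congrArg Subtype.val (hT11 _ hx₀)]
    show Cfsg.hermForm 5 F 2 u (_ *ᵥ (((u₀ : K) : Matrix (Fin 5) (Fin 5) F) *ᵥ v)) = _
    rw [Matrix.mulVec_mulVec, ← Subalgebra.coe_mul, ← pow_succ,
      show (u₀ : K) ^ (10 + 1) = 1 by rw [show 10 + 1 = orderOf (u₀ : K) by rw [hx₀], pow_orderOf_eq_one], Subalgebra.coe_one,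
      Matrix.one_mulVec]
  obtain ⟨c, hc, m, hcm⟩ := exists_conj_eleven hF4 hρGU (hG a (by simp)).1
    (by rw [orderOf_injective ρ hρinj, hu₀]) hao
  set ux : Kˣ := u₀ ^ m
  set x := ρ ux
  have hcx : c * x * c⁻¹ = a := by rw [← hcm, show x = ρ u₀ ^ m from map_pow ρ u₀ m]
  have hxo : orderOf x = 11 := by
    rw [← hao, ← hcx]
    exact (orderOf_injective (MulAut.conj c).toMonoidHom (MulAut.conj c).injective x).symm
  have hxK : orderOf (ux : K) = 11 := by rw [orderOf_units, ← orderOf_injective ρ hρinj]; exact hxo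
  have hGc : ∀ h ∈ G, c * h * c⁻¹ ∈ G ∧ c⁻¹ * h * c ∈ G := fun h hh => by
    refine ⟨⟨Subgroup.mul_mem _ (Subgroup.mul_mem _ hc hh.1) (Subgroup.inv_mem _ hc), ?_⟩,
      ⟨Subgroup.mul_mem _ (Subgroup.mul_mem _ (Subgroup.inv_mem _ hc) hh.1) hc, ?_⟩⟩ <;>
      show Matrix.GeneralLinearGroup.det _ = 1 <;>
      · rw [map_mul, map_mul, map_inv, show Matrix.GeneralLinearGroup.det h = 1 from hh.2]
        simp
  -- conjugates of `x` in the field
  have hconj : ∀ h ∈ H, ∃ i < 11, h * x * h⁻¹ = x ^ i := by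
    intro h hh
    rw [hHK] at hh
    have hy : (h : Matrix (Fin 5) (Fin 5) F) * (x : Matrix (Fin 5) (Fin 5) F) * ((h⁻¹ : GL (Fin 5) F) : Matrix (Fin 5) (Fin 5) F) ∈ K :=
      (hh.1 _).1 (ux : K).2
    have hy11 : (⟨_, hy⟩ : K) ^ 11 = 1 := Subtype.ext (by
      show ((h * x * h⁻¹ : GL (Fin 5) F) : Matrix (Fin 5) (Fin 5) F) ^ 11 = 1
      rw [← Units.val_pow_eq_pow_val, conj_pow, ← hxo, pow_orderOf_eq_one]
      simp)
    have hprim : IsPrimitiveRoot (ux : K) 11 := hxK ▸ IsPrimitiveRoot.orderOf _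
    obtain ⟨i, hi, he⟩ := hprim.eq_pow_of_pow_eq_one hy11
    exact ⟨i, hi, Units.ext (by
      rw [Units.val_pow_eq_pow_val, hρval]
      exact (congrArg Subtype.val he).symm)⟩
  -- the centraliser of `x`
  have hcent : ∀ z ∈ G, z * x = x * z → ∃ j, z = x ^ j := by
    intro z hz hzx
    let L : Subfield K :=
      { carrier := {k : K | (z : Matrix (Fin 5) (Fin 5) F) * (k : Matrix (Fin 5) (Fin 5) F) = (k : Matrix (Fin 5) (Fin 5) F) * (z : Matrix (Fin 5) (Fin 5) F)}
        mul_mem' := fun {p r} hp hr => by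
          show (z : Matrix (Fin 5) (Fin 5) F) * _ = _
          rw [Subalgebra.coe_mul, ← mul_assoc, hp, mul_assoc, hr, mul_assoc]
        one_mem' := by simp
        add_mem' := fun {p r} hp hr => by
          show (z : Matrix (Fin 5) (Fin 5) F) * _ = _
          rw [Subalgebra.coe_add, mul_add, add_mul, hp, hr]
        zero_mem' := by simp
        neg_mem' := fun {p} hp => by
          show (z : Matrix (Fin 5) (Fin 5) F) * _ = _
          rw [Subalgebra.coe_neg, mul_neg, neg_mul, hp]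
        inv_mem' := fun p hp => by
          by_cases hp0 : p = 0
          · subst hp0; simp
          show Commute (z : Matrix (Fin 5) (Fin 5) F) ((p⁻¹ : K) : Matrix (Fin 5) (Fin 5) F)
          let up : Kˣ := Units.mk0 p hp0
          have : Commute (z : Matrix (Fin 5) (Fin 5) F) (ρ up : Matrix (Fin 5) (Fin 5) F) := hp
          have h' := this.units_inv_right
          rwa [← map_inv] at h' }
    have hL : L = ⊤ := subfield_eq_top_of_eleven hcardK L (x := (ux : K)) (congrArg Units.val hzx) hxK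
    have hcomm : ∀ k : K, (z : Matrix (Fin 5) (Fin 5) F) * (k : Matrix (Fin 5) (Fin 5) F) =
        (k : Matrix (Fin 5) (Fin 5) F) * (z : Matrix (Fin 5) (Fin 5) F) := fun k =>
      (hL ▸ Subfield.mem_top k : k ∈ L)
    set v : Fin 5 → F := Pi.single 0 1
    let ev : K →ₗ[F] (Fin 5 → F) :=
      { toFun := fun k => (k : Matrix (Fin 5) (Fin 5) F) *ᵥ v
        map_add' := fun p r => Matrix.add_mulVec _ _ _
        map_smul' := fun s p => Matrix.smul_mulVec _ _ _ }
    have hev : Function.Injective ev := by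
      intro p r hpr
      by_contra hne
      obtain ⟨y, hy, hyk⟩ := hK.inv _ (p - r).2 (fun h => hne (sub_eq_zero.mp (Subtype.ext h)))
      have h0 : ((p - r : K) : Matrix (Fin 5) (Fin 5) F) *ᵥ v = 0 := by
        rw [Subalgebra.coe_sub, Matrix.sub_mulVec, sub_eq_zero]; exact hpr
      rw [hK.comm _ (p - r).2 _ hy] at hyk
      have h1 := congrArg (y *ᵥ ·) h0
      simp only [Matrix.mulVec_mulVec, hyk, Matrix.one_mulVec, Matrix.mulVec_zero] at h1
      exact one_ne_zero (Pi.single_eq_zero_iff.mp h1)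
    have hsurj : Function.Surjective ev :=
      (LinearMap.injective_iff_surjective_of_finrank_eq_finrank (by
        rw [hK.finrank_eq, Module.finrank_fin_fun])).mp hev
    obtain ⟨k, hk⟩ := hsurj ((z : Matrix (Fin 5) (Fin 5) F) *ᵥ v)
    have hzk : (z : Matrix (Fin 5) (Fin 5) F) = (k : Matrix (Fin 5) (Fin 5) F) := by
      apply Matrix.ext_of_mulVec_single
      intro i
      obtain ⟨k', hk'⟩ := hsurj (Pi.single i 1)
      rw [← hk']
      show (z : Matrix (Fin 5) (Fin 5) F) *ᵥ ((k' : Matrix (Fin 5) (Fin 5) F) *ᵥ v) = _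
      rw [Matrix.mulVec_mulVec, hcomm, ← Matrix.mulVec_mulVec, ← hk]
      show _ = (k : Matrix (Fin 5) (Fin 5) F) *ᵥ ((k' : Matrix (Fin 5) (Fin 5) F) *ᵥ v)
      show (k' : Matrix (Fin 5) (Fin 5) F) *ᵥ ((k : Matrix (Fin 5) (Fin 5) F) *ᵥ v) = _
      rw [Matrix.mulVec_mulVec, Matrix.mulVec_mulVec, hK.comm _ k.2 _ k'.2]
    have h33 : k ^ 33 = 1 := by
      rw [show 33 = 32 + 1 from rfl, pow_succ, ← hT32]
      refine Subtype.ext (eq_of_adjoint hs hnd fun u v => ?_)
      have h := mem_GU.1 hz.1 u v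
      change Cfsg.hermForm 5 F 2 ((z : Matrix (Fin 5) (Fin 5) F) *ᵥ u) ((z : Matrix (Fin 5) (Fin 5) F) *ᵥ v) = _ at h
      rw [hzk, hτ] at h
      show Cfsg.hermForm 5 F 2 u ((τ k * (k : Matrix (Fin 5) (Fin 5) F)) *ᵥ v) = _
      rw [← Matrix.mulVec_mulVec, h, Subalgebra.coe_one, Matrix.one_mulVec]
    have hk0 : k ≠ 0 := by rintro rfl; simp at h33
    obtain ⟨r, hr⟩ : ∃ r : F, algebraMap F K r = k ^ 11 := by
      have h3 : (k ^ 11) ^ 3 = 1 := by rw [← pow_mul]; exact h33
      obtain ⟨w, hw⟩ := hσne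
      have hw0 : w ≠ 0 := fun h => hw (by rw [h, map_zero])
      have hw1 : w ≠ 1 := fun h => hw (by rw [h, map_one])
      have hw3 : w ^ 3 = 1 := by
        have := FiniteField.pow_card_sub_one_eq_one w hw0
        rwa [hF4] at this
      have hprim : IsPrimitiveRoot (algebraMap F K w) 3 :=
        (orderOf_eq_prime (hp := ⟨Nat.prime_three⟩) hw3 hw1 ▸ IsPrimitiveRoot.orderOf w).map_of_injective
          (algebraMap F K).injective
      obtain ⟨i, -, hi⟩ := hprim.eq_pow_of_pow_eq_one h3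
      exact ⟨w ^ i, by rw [map_pow, hi]⟩
    obtain ⟨j, -, hj⟩ := (hxK ▸ IsPrimitiveRoot.orderOf (ux : K) : IsPrimitiveRoot (ux : K) 11).eq_pow_of_pow_eq_one
      (ξ := (k ^ 3) ^ 4) (by rw [← pow_mul, ← pow_mul, show 3 * 4 * 11 = 33 * 4 by norm_num, pow_mul, h33, one_pow])
    have hkk : k = algebraMap F K (r ^ 2) * (ux : K) ^ j := by
      rw [hj, map_pow, hr, ← pow_mul, ← pow_mul, ← pow_add, show 11 * 2 + 3 * 4 = 33 + 1 from rfl, pow_succ, h33,
        one_mul]
    have hzm : (z : Matrix (Fin 5) (Fin 5) F) = r ^ 2 • ((x ^ j : GL (Fin 5) F) : Matrix (Fin 5) (Fin 5) F) := by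
      rw [hzk, hkk, Subalgebra.coe_mul, show x ^ j = ρ (ux ^ j) from (map_pow ρ ux j).symm, hρval,
        Units.val_pow_eq_pow_val]
      exact (Algebra.smul_def _ _).symm
    have hdx : ((x ^ j : GL (Fin 5) F) : Matrix (Fin 5) (Fin 5) F).det = 1 := by
      have h1 : Matrix.GeneralLinearGroup.det x ^ 11 = 1 := by rw [← map_pow, ← hxo, pow_orderOf_eq_one, map_one]
      have h3 : Matrix.GeneralLinearGroup.det x ^ 3 = 1 := by
        have h := pow_card_eq_one' (x := Matrix.GeneralLinearGroup.det x)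
        rwa [Nat.card_units, Nat.card_eq_fintype_card, hF4] at h
      have hd1 : Matrix.GeneralLinearGroup.det x = 1 := by
        rw [← orderOf_eq_one_iff]
        exact Nat.eq_one_of_dvd_coprimes (by decide : Nat.Coprime 11 3) (orderOf_dvd_of_pow_eq_one h1)
          (orderOf_dvd_of_pow_eq_one h3)
      rw [← Matrix.GeneralLinearGroup.val_det_apply, map_pow, hd1, one_pow, Units.val_one]
    have hr1 : r ^ 2 = 1 := by
      have hdet := congrArg Matrix.det hzm
      rw [Matrix.det_smul, hdx, mul_one, Fintype.card_fin, ← Matrix.GeneralLinearGroup.val_det_apply,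
        show Matrix.GeneralLinearGroup.det z = 1 from hz.2, Units.val_one] at hdet
      have hr0 : r ≠ 0 := fun h => by rw [h] at hdet; norm_num at hdet
      have h3 := FiniteField.pow_card_sub_one_eq_one r hr0
      rw [hF4] at h3
      rw [show 4 - 1 = 3 from rfl] at h3
      have h9 : r ^ 9 = 1 := by rw [show 9 = 3 * 3 from rfl, pow_mul, h3, one_pow]
      have h10 : r * r ^ 9 = 1 := by rw [← pow_succ', show 9 + 1 = 2 * 5 from rfl, pow_mul]; exact hdet.symm
      rw [h9, mul_one] at h10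
      rw [h10, one_pow]
    rw [hr1, one_smul] at hzm
    exact ⟨j, Units.ext hzm⟩
  -- `c H c⁻¹` lies in `M`
  have hle : ∀ h ∈ H, c * h * c⁻¹ ∈ M := by
    intro h hh
    obtain ⟨i, hi, hhx⟩ := hconj h hh
    set h' := c * h * c⁻¹
    have ha' : h' * a * h'⁻¹ = a ^ i := by
      rw [← hcx, conj_pow, ← hhx]; simp only [h']; group
    obtain ⟨j, hj⟩ := htr ⟨i, hi⟩ (by
      show Matrix.trace ((a ^ i : GL (Fin 5) F) : Matrix (Fin 5) (Fin 5) F) = _
      rw [← ha', Units.val_mul, Units.val_mul, Matrix.trace_mul_cycle, ← Units.val_mul, inv_mul_cancel,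
        Units.val_one, one_mul])
    have hbj : ∀ j, b ^ j * a = a ^ (4 ^ j) * b ^ j := by
      intro j
      induction j with
      | zero => simp
      | succ j ih =>
        rw [pow_succ b j, mul_assoc, hba, ← mul_assoc, ← mul_assoc]
        have : b ^ j * a ^ 4 = a ^ (4 ^ (j + 1)) * b ^ j := by
          have := (show SemiconjBy (b ^ j) a (a ^ (4 ^ j)) from ih).pow_right 4
          rw [← pow_mul, ← pow_succ] at this
          exact this
        rw [this]
    have hai : a ^ i = a ^ (4 ^ j) := by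
      rw [show i = 4 ^ j % 11 from hj, ← hao, pow_mod_orderOf]
    have hz : (b ^ j)⁻¹ * h' * a = a * ((b ^ j)⁻¹ * h') := by
      have h1 : h' * a = a ^ (4 ^ j) * h' := by rw [← hai, ← ha']; group
      calc (b ^ j)⁻¹ * h' * a = ((b ^ j)⁻¹ * a ^ (4 ^ j) * b ^ j) * ((b ^ j)⁻¹ * h') := by
            rw [mul_assoc, h1]; group
        _ = a * ((b ^ j)⁻¹ * h') := by rw [mul_assoc (b ^ j)⁻¹, ← hbj, inv_mul_cancel_left]
    have hbG : (b ^ j)⁻¹ * h' ∈ G := mul_mem (inv_mem (pow_mem (hG b (by simp)) j)) (hGc h (hH.1.le hh)).1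
    obtain ⟨k, hk⟩ := hcent (c⁻¹ * ((b ^ j)⁻¹ * h') * c) (hGc _ hbG).2 (by
      have e1 := congrArg (fun y => c⁻¹ * y * c) hz
      simp only [← hcx] at e1
      simpa only [mul_assoc, inv_mul_cancel, mul_one, inv_mul_cancel_left, mul_inv_cancel_left] using e1)
    have : h' = b ^ j * a ^ k := by
      rw [← hcx, conj_pow, ← hk]; group
    rw [this]
    exact mul_mem (pow_mem hbM j) (pow_mem haM k)
  set M' : Subgroup (GL (Fin 5) F) := M.comap (MulAut.conj c).toMonoidHom ⊓ G
  have hmem : ∀ y, y ∈ M → y ∈ G → c⁻¹ * y * c ∈ M' := fun y hy hyG =>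
    ⟨show c * (c⁻¹ * y * c) * c⁻¹ ∈ M by simpa [mul_assoc] using hy, (hGc y hyG).2⟩
  rcases hH.2 M' (fun h hh => ⟨hle h hh, hH.1.le hh⟩) inf_le_right with hM | hM
  · have hgH : c⁻¹ * g * c ∈ H := hM ▸ hmem g hgM (hG g (by simp))
    obtain ⟨i, -, hgx⟩ := hconj _ hgH
    have hga : g * a * g = a ^ i := by
      have h := congrArg (fun y => c * y * c⁻¹) hgx
      simp only [← conj_pow, hcx] at h
      rw [← h]
      have hgi : g⁻¹ = g := inv_eq_of_mul_eq_one_right hg2
      conv_lhs => arg 2; rw [← hgi]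
      rw [← hcx]; group
    apply hne
    rw [show g * a * g * a = a ^ i * a by rw [hga], show a * g * a * g = a * (g * a * g) by group, hga,
      ← pow_succ, pow_succ']
  · have hd' : c⁻¹ * d * c ∈ M' := hM ▸ (hGc d (hG d (by simp))).2
    apply hdM
    have : c * (c⁻¹ * d * c) * c⁻¹ ∈ M := hd'.1
    simpa [mul_assoc] using this

end CfsgLib.SmallDim
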