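import Cfsg.Agent.Lib.SmallDim.UnitaryTwist
import Cfsg.Agent.Lib.SmallDim.UnitaryProperGeneral

/-!
Four-dimensional unitary groups over very small fields: the monomial group and the stabiliser of a pair of
totally singular planes are not maximal.
-/

set_option autoImplicit false
set_option linter.style.haveILetI false

namespace CfsgLib.SmallDim

open scoped MatrixGroups Matrix
open Cfsg.Geo

section GoodAlt

variable {K : Type*} [Field K]

/-- Alternating `4 × 4` matrices supported on a perfect matching, with all entries of the same square. -/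
def GoodAlt (B : Matrix (Fin 4) (Fin 4) K) : Prop :=
  (∀ i j, B j i = -B i j) ∧ (∀ i, ∃ j, j ≠ i ∧ B i j ≠ 0 ∧ ∀ k, k ≠ j → B i k = 0) ∧
    ∀ i j k l, B i j ≠ 0 → B k l ≠ 0 → B i j ^ 2 = B k l ^ 2

/-- The three shapes of matrices in `GoodAlt`. -/
def altShape : Fin 3 → K → K → Matrix (Fin 4) (Fin 4) K
  | 0, x, w => !![0, x, 0, 0; -x, 0, 0, 0; 0, 0, 0, w; 0, 0, -w, 0]
  | 1, x, w => !![0, 0, x, 0; 0, 0, 0, w; -x, 0, 0, 0; 0, -w, 0, 0]
  | 2, x, w => !![0, 0, 0, x; 0, 0, w, 0; 0, -w, 0, 0; -x, 0, 0, 0]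

lemma goodAlt_altShape (s : Fin 3) {x w : K} (hx : x ≠ 0) (hw : w ^ 2 = x ^ 2) : GoodAlt (altShape s x w) := by
  have hw0 : w ≠ 0 := fun h => hx (by simpa [h] using hw.symm)
  refine ⟨fun i j => ?_, fun i => ?_, fun i j k l h h' => ?_⟩
  · fin_cases s <;> fin_cases i <;> fin_cases j <;> simp [altShape]
  · refine ⟨(![![1, 0, 3, 2], ![2, 3, 0, 1], ![3, 2, 1, 0]] : Fin 3 → Fin 4 → Fin 4) s i, ?_, ?_, fun k hk => ?_⟩
    · fin_cases s <;> fin_cases i <;> simp
    · fin_cases s <;> fin_cases i <;> simp [altShape, hx, hw0]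
    · fin_cases s <;> fin_cases i <;> fin_cases k <;> simp_all [altShape]
  · have key : ∀ a b, altShape s x w a b ≠ 0 → altShape s x w a b ^ 2 = x ^ 2 := fun a b => by
      fin_cases s <;> fin_cases a <;> fin_cases b <;> simp [altShape, hw]
    rw [key i j h, key k l h']

lemma GoodAlt.exists_shape {B : Matrix (Fin 4) (Fin 4) K} (h : GoodAlt B) :
    ∃ (s : Fin 3) (x w : K), x ≠ 0 ∧ w ^ 2 = x ^ 2 ∧ B = altShape s x w := by
  obtain ⟨hs, hu, hsq⟩ := h
  choose j hne hnz hz using hu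
  have hjj : ∀ i, j (j i) = i := by
    intro i
    by_contra h
    have h1 := hz (j i) i (Ne.symm h)
    rw [hs, neg_eq_zero] at h1
    exact hnz i h1
  have hB : ∀ i k, B i k = if k = j i then B i (j i) else 0 := fun i k => by
    split_ifs with h
    · rw [h]
    · exact hz i k h
  have hcases : j 0 = 1 ∧ j 2 = 3 ∨ j 0 = 2 ∧ j 1 = 3 ∨ j 0 = 3 ∧ j 1 = 2 := by
    have key : ∀ f : Fin 4 → Fin 4, (∀ i, f i ≠ i) → (∀ i, f (f i) = i) →
        f 0 = 1 ∧ f 2 = 3 ∨ f 0 = 2 ∧ f 1 = 3 ∨ f 0 = 3 ∧ f 1 = 2 := by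
      set_option maxRecDepth 20000 in decide
    exact key j hne hjj
  have hne' : ∀ a b, j a = b → B a b ≠ 0 := fun a b h => h ▸ hnz a
  rcases hcases with ⟨h0, h2⟩ | ⟨h0, h1⟩ | ⟨h0, h1⟩
  · have h1 : j 1 = 0 := by rw [← h0, hjj]
    have h3 : j 3 = 2 := by rw [← h2, hjj]
    refine ⟨0, B 0 1, B 2 3, hne' _ _ h0, hsq _ _ _ _ (hne' _ _ h2) (hne' _ _ h0), ?_⟩
    ext a b
    rw [hB a b]
    fin_cases a <;> fin_cases b <;> simp [altShape, h0, h1, h2, h3, hs 0 1, hs 2 3]
  · have h2 : j 2 = 0 := by rw [← h0, hjj]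
    have h3 : j 3 = 1 := by rw [← h1, hjj]
    refine ⟨1, B 0 2, B 1 3, hne' _ _ h0, hsq _ _ _ _ (hne' _ _ h1) (hne' _ _ h0), ?_⟩
    ext a b
    rw [hB a b]
    fin_cases a <;> fin_cases b <;> simp [altShape, h0, h1, h2, h3, hs 0 2, hs 1 3]
  · have h3 : j 3 = 0 := by rw [← h0, hjj]
    have h2 : j 2 = 1 := by rw [← h1, hjj]
    refine ⟨2, B 0 3, B 1 2, hne' _ _ h0, hsq _ _ _ _ (hne' _ _ h1) (hne' _ _ h0), ?_⟩
    ext a b
    rw [hB a b]
    fin_cases a <;> fin_cases b <;> simp [altShape, h0, h1, h2, h3, hs 0 3, hs 1 2]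

/-- Monomial congruences with fourth roots of unity of product `±1` preserve `GoodAlt`. -/
lemma GoodAlt.monomial {B Y : Matrix (Fin 4) (Fin 4) K} (h : GoodAlt B) (π : Equiv.Perm (Fin 4)) (a : Fin 4 → K)
    (hY : ∀ i j, Y j i = if j = π i then a i else 0) (h4 : ∀ i, a i ^ 4 = 1) (hprod : (∏ i, a i) ^ 2 = 1) :
    GoodAlt (Yᵀ * B * Y) := by
  classical
  have ha : ∀ i, a i ≠ 0 := fun i h0 => by simpa [h0] using h4 i
  have hM : ∀ i j, (Yᵀ * B * Y) i j = a i * a j * B (π i) (π j) := fun i j => by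
    simp [Matrix.mul_apply, hY]
    ring
  obtain ⟨hs, hu, hsq⟩ := h
  refine ⟨fun i j => by rw [hM, hM, hs (π i) (π j)]; ring, fun i => ?_, fun i j k l h1 h2 => ?_⟩
  · obtain ⟨j, hne, hnz, hz⟩ := hu (π i)
    refine ⟨π.symm j, fun hh => hne (by rw [← hh, Equiv.apply_symm_apply]), ?_, fun k hk => ?_⟩
    · rw [hM, Equiv.apply_symm_apply]
      exact mul_ne_zero (mul_ne_zero (ha _) (ha _)) hnz
    · rw [hM, hz (π k) (fun hh => hk (by rw [← hh, Equiv.symm_apply_apply])), mul_zero]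
  · rw [hM] at h1 h2 ⊢
    rw [hM]
    have h1' := right_ne_zero_of_mul h1
    have h2' := right_ne_zero_of_mul h2
    have hb := hsq _ _ _ _ h1' h2'
    suffices hq : (a i * a j) ^ 2 = (a k * a l) ^ 2 by
      linear_combination B (π k) (π l) ^ 2 * hq + (a i * a j) ^ 2 * hb
    have huniq : ∀ p q r, B p q ≠ 0 → B p r ≠ 0 → q = r := fun p q r hq hr => by
      obtain ⟨s, -, -, hz⟩ := hu p
      rw [not_imp_comm.1 (hz q) hq, not_imp_comm.1 (hz r) hr]
    have hirr : ∀ p q, B p q ≠ 0 → p ≠ q := fun p q hq hpq => by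
      obtain ⟨s, hs', -, hz⟩ := hu p
      exact hq (hz q fun hh => hs' (by rw [← hh, hpq]))
    have hswap : ∀ p q, B p q ≠ 0 → B q p ≠ 0 := fun p q hq => by rw [hs, neg_ne_zero]; exact hq
    by_cases hki : k = i
    · subst hki
      rw [π.injective (huniq _ _ _ h1' h2')]
    by_cases hkj : k = j
    · subst hkj
      rw [← π.injective (huniq _ _ _ (hswap _ _ h1') h2')]
      ring
    have hij : i ≠ j := fun hh => hirr _ _ h1' (by rw [hh])
    have hkl : k ≠ l := fun hh => hirr _ _ h2' (by rw [hh])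
    have hli : l ≠ i := fun hh => hkj (π.injective (huniq _ _ _ h1' (hh ▸ hswap _ _ h2')).symm)
    have hlj : l ≠ j := fun hh => hki (π.injective (huniq _ _ _ (hswap _ _ h1') (hh ▸ hswap _ _ h2')).symm)
    have hu4 : ({i, j, k, l} : Finset (Fin 4)) = Finset.univ := by
      apply Finset.eq_univ_of_card
      rw [Finset.card_insert_of_notMem, Finset.card_insert_of_notMem, Finset.card_pair hkl] <;>
        simp [hij, Ne.symm hki, Ne.symm hkj, Ne.symm hli, Ne.symm hlj]
    rw [← hu4, Finset.prod_insert, Finset.prod_insert, Finset.prod_pair hkl] at hprod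
    · have hkl4 : (a k * a l) ^ 4 = 1 := by rw [mul_pow, h4, h4, one_mul]
      linear_combination (a k * a l) ^ 2 * hprod - (a i * a j) ^ 2 * hkl4
    all_goals simp [hij, Ne.symm hki, Ne.symm hkj, Ne.symm hli, Ne.symm hlj]

end GoodAlt

namespace UnitarySetup

variable {F : Type*} [Field F] [Fintype F] {n q : ℕ} {σ : F ≃+* F}

/-- A decomposition into non-degenerate lines has an orthonormal frame. -/
theorem exists_line_frame (hu : UnitarySetup n q σ) {D : Fin n → Submodule F (Fin n → F)}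
    (hD : IsNondegenerateMDecomposition (Cfsg.hermForm n F q) 1 D) :
    ∃ P ∈ Cfsg.GU n F q, ∀ i, D i = Submodule.span F {(P : Matrix (Fin n) (Fin n) F) *ᵥ Pi.single i 1} := by
  classical
  have hv : ∀ i, ∃ v ∈ D i, Cfsg.hermForm n F q v v = 1 ∧ D i = Submodule.span F {v} := by
    intro i
    obtain ⟨v, hv, hv0⟩ := (Submodule.ne_bot_iff (D i)).1 fun h => by
      have := hD.decomp.finrank_eq i
      rw [h, finrank_bot] at this
      exact one_ne_zero this.symm
    have hspan : D i = Submodule.span F {v} :=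
      (Submodule.eq_of_le_of_finrank_eq ((Submodule.span_singleton_le_iff_mem _ _).2 hv)
        (by rw [hD.decomp.finrank_eq, finrank_span_singleton hv0])).symm
    have hvv : Cfsg.hermForm n F q v v ≠ 0 := by
      obtain ⟨w, hw, hvw⟩ := (hD.nondegenerate i v hv hv0).2
      intro h
      obtain ⟨c, rfl⟩ := Submodule.mem_span_singleton.1 (hspan ▸ hw)
      exact hvw (by rw [hu.sesqui.smul_right, h, mul_zero])
    obtain ⟨a, ha, -⟩ := hu.exists_norm_avoid (b := (Cfsg.hermForm n F q v v)⁻¹) (by rw [map_inv₀, ← hu.herm])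
      (inv_ne_zero hvv) ∅ (by simp)
    have ha0 : a ≠ 0 := fun h => inv_ne_zero hvv (by rw [← ha, h, zero_mul])
    refine ⟨a • v, (D i).smul_mem _ hv, ?_, by rw [hspan, Submodule.span_singleton_smul_eq (IsUnit.mk0 _ ha0)]⟩
    rw [hu.sesqui.smul_left, hu.sesqui.smul_right, RingEquiv.coe_toRingHom, ← mul_assoc, ha, inv_mul_cancel₀ hvv]
  choose v hvD hv1 hvs using hv
  have horth : ∀ i j, Cfsg.hermForm n F q (v i) (v j) = if i = j then 1 else 0 := fun i j => by
    split_ifs with h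
    · subst h; exact hv1 i
    · exact hD.orthogonal i j h _ (hvD i) _ (hvD j)
  let Pm : Matrix (Fin n) (Fin n) F := Matrix.of fun a i => v i a
  have hP : Pmᵀ * Pm.map σ = 1 := by
    ext i j
    rw [Matrix.one_apply, ← horth i j, hu.herm_eq]
    rfl
  have hdet : Pm.det ≠ 0 := fun h => by
    have := congrArg Matrix.det hP
    rw [Matrix.det_mul, Matrix.det_transpose, h, zero_mul, Matrix.det_one] at this
    exact zero_ne_one this
  refine ⟨Matrix.GeneralLinearGroup.mkOfDetNeZero Pm hdet, ?_, fun i => ?_⟩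
  · exact hu.mem_GU_iff.2 hP
  · rw [hvs i, Matrix.mulVec_single_one]; rfl

set_option maxHeartbeats 3200000 in
/-- In `SU₄(3)` the stabiliser of an orthonormal frame is not maximal. -/
theorem lines_three_not_maximal (hu : UnitarySetup 4 q σ) (hq : q = 3) {H : Subgroup (GL (Fin 4) F)}
    (hH : IsMaximalIn (Cfsg.GU 4 F q ⊓ specialLinear (Fin 4) F) H) {D : Fin 4 → Submodule F (Fin 4 → F)}
    (hD : IsNondegenerateMDecomposition (Cfsg.hermForm 4 F q) 1 D)
    (hHD : H = decompositionStabilizer D ⊓ (Cfsg.GU 4 F q ⊓ specialLinear (Fin 4) F)) : False := by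
  classical
  obtain ⟨P, hP, hDP⟩ := hu.exists_line_frame hD
  set G := Cfsg.GU 4 F q ⊓ specialLinear (Fin 4) F with hGdef
  have h3 : (3 : F) = 0 := by
    have h := Nat.cast_card_eq_zero F
    rw [hu.card, hq] at h
    exact pow_eq_zero_iff two_ne_zero |>.1 (by exact_mod_cast h)
  have h2 : (2 : F) ≠ 0 := fun h => one_ne_zero (α := F) (by linear_combination h3 - h)
  let S : Submonoid (GL (Fin 4) F) :=
    { carrier := {g | ∀ B, GoodAlt B → GoodAlt (((P⁻¹ * g * P : GL (Fin 4) F) : Matrix (Fin 4) (Fin 4) F)ᵀ * B *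
        ((P⁻¹ * g * P : GL (Fin 4) F) : Matrix (Fin 4) (Fin 4) F))}
      one_mem' := fun B hB => by simpa using hB
      mul_mem' := fun {a b} ha hb B hB => by
        have h := hb _ (ha B hB)
        rw [show P⁻¹ * (a * b) * P = (P⁻¹ * a * P) * (P⁻¹ * b * P) by group, Units.val_mul, Matrix.transpose_mul]
        simpa [Matrix.mul_assoc] using h }
  let K : Subgroup (GL (Fin 4) F) :=
    { S with
      inv_mem' := fun {g} hg => by
        show g⁻¹ ∈ S
        rw [show g⁻¹ = g ^ (orderOf g - 1) by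
          rw [eq_comm, eq_inv_iff_mul_eq_one, ← pow_succ, Nat.sub_add_cancel (orderOf_pos g), pow_orderOf_eq_one]]
        exact S.pow_mem hg _ }
  have hconj : ∀ g, g ∈ G ↔ P⁻¹ * g * P ∈ G := by
    intro g
    have hdet : Matrix.GeneralLinearGroup.det (P⁻¹ * g * P) = Matrix.GeneralLinearGroup.det g := by
      simp [mul_comm]
    simp only [hGdef, Subgroup.mem_inf, specialLinear, MonoidHom.mem_ker, hdet]
    exact and_congr_left fun _ => ⟨fun h => Subgroup.mul_mem _ (Subgroup.mul_mem _ (inv_mem hP) h) hP, fun h => by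
      have h' := Subgroup.mul_mem _ (Subgroup.mul_mem _ hP h) (inv_mem hP)
      rwa [show P * (P⁻¹ * g * P) * P⁻¹ = g by group] at h'⟩
  have hstd : ∀ g, g ∈ K ↔ ∀ B, GoodAlt B → GoodAlt (((P⁻¹ * g * P : GL (Fin 4) F) : Matrix (Fin 4) (Fin 4) F)ᵀ * B *
      ((P⁻¹ * g * P : GL (Fin 4) F) : Matrix (Fin 4) (Fin 4) F)) := fun g => Iff.rfl
  have hmono : ∀ g ∈ H, ∃ (π : Equiv.Perm (Fin 4)) (a : Fin 4 → F),
      ∀ i j, ((P⁻¹ * g * P : GL (Fin 4) F) : Matrix (Fin 4) (Fin 4) F) j i = if j = π i then a i else 0 := by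
    intro g hg
    rw [hHD] at hg
    obtain ⟨⟨π, hπ⟩, -⟩ := hg
    have : ∀ i, ∃ a : F, (g : Matrix (Fin 4) (Fin 4) F) *ᵥ ((P : Matrix (Fin 4) (Fin 4) F) *ᵥ Pi.single i 1) =
        a • ((P : Matrix (Fin 4) (Fin 4) F) *ᵥ Pi.single (π i) 1) := fun i => by
      have h := Submodule.mem_map_of_mem (f := Matrix.toLin' (g : Matrix (Fin 4) (Fin 4) F))
        (show (P : Matrix (Fin 4) (Fin 4) F) *ᵥ Pi.single i 1 ∈ D i from hDP i ▸ Submodule.mem_span_singleton_self _)
      rw [hπ, hDP (π i), Submodule.mem_span_singleton, Matrix.toLin'_apply] at h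
      obtain ⟨a, ha⟩ := h
      exact ⟨a, ha.symm⟩
    choose a ha using this
    refine ⟨π, a, fun i j => ?_⟩
    have h := congrArg (fun v => ((P⁻¹ : GL (Fin 4) F) : Matrix (Fin 4) (Fin 4) F) *ᵥ v) (ha i)
    simp only [Matrix.mulVec_smul, Matrix.mulVec_mulVec, ← Units.val_mul, inv_mul_cancel, Units.val_one,
      Matrix.one_mulVec] at h
    have h' := congrFun h j
    rw [Matrix.mulVec_single_one] at h'
    rw [mul_assoc]
    exact h'.trans (by simp [Pi.single_apply])
  have hHK : H ≤ K ⊓ G := by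
    refine fun g hg => ⟨?_, hH.1.le hg⟩
    obtain ⟨π, a, hY⟩ := hmono g hg
    show g ∈ K
    rw [hstd]
    intro B hB
    obtain ⟨hYU, hYS⟩ := Subgroup.mem_inf.1 ((hconj g).1 (hH.1.le hg))
    set Y := ((P⁻¹ * g * P : GL (Fin 4) F) : Matrix (Fin 4) (Fin 4) F)
    have hYY : Yᵀ * Y.map σ = 1 := hu.transpose_mul hYU
    have hYdet : Y.det = 1 := (Geometric.mem_specialLinear_iff _).1 hYS
    clear_value Y
    have h1 : ∀ i, a i * σ (a i) = 1 := fun i => by
      have h := congrFun (congrFun hYY i) i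
      simpa [Matrix.mul_apply, hY] using h
    have h4 : ∀ i, a i ^ 4 = 1 := fun i => by
      rw [← h1 i, hu.pow, hq]; ring
    refine hB.monomial π a hY h4 ?_
    have hM : Y.submatrix π id = Matrix.diagonal a := by
      ext i j
      rw [Matrix.submatrix_apply, id, hY, Matrix.diagonal_apply]
      by_cases h : i = j
      · subst h; simp
      · rw [if_neg h, if_neg (fun hh => h (π.injective hh))]
    have h5 := congrArg Matrix.det hM
    rw [Matrix.det_permute, Matrix.det_diagonal, hYdet] at h5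
    rw [← h5]
    rcases Int.units_eq_one_or (Equiv.Perm.sign π) with hs | hs <;> simp [hs]
  -- the extra element
  obtain ⟨k, hk, -⟩ := hu.exists_norm_avoid (b := (-1 : F)) (by rw [map_neg, map_one]) (neg_ne_zero.2 one_ne_zero) ∅
    (by simp)
  have hk' : k ^ 4 = -1 := by rw [← hk, hu.pow, hq]; ring
  let M₀ : Matrix (Fin 4) (Fin 4) F := !![k, k, 0, 0; k, -k, 0, 0; 0, 0, k, k; 0, 0, -k, k]
  have hM0det : M₀.det = 1 := by
    simp [M₀, Matrix.det_succ_row_zero, Fin.sum_univ_succ, Fin.succAbove]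
    linear_combination (-4 : F) * hk' + h3
  have hM0U : M₀ᵀ * M₀.map σ = 1 := by
    ext i j
    fin_cases i <;> fin_cases j <;> simp [M₀, Matrix.mul_apply, Fin.sum_univ_four] <;>
      linear_combination (2 : F) * hk - h3
  obtain ⟨g₀, hg₀⟩ : ∃ g₀ : GL (Fin 4) F, (g₀ : Matrix (Fin 4) (Fin 4) F) = M₀ :=
    ⟨Matrix.GeneralLinearGroup.mkOfDetNeZero M₀ (by rw [hM0det]; exact one_ne_zero), rfl⟩
  have hg₀G : g₀ ∈ G := ⟨hu.mem_GU_iff.2 (by rw [hg₀]; exact hM0U),
    (Geometric.mem_specialLinear_iff g₀).2 (by rw [hg₀]; exact hM0det)⟩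
  set g := P * g₀ * P⁻¹ with hgdef
  have hgconj : P⁻¹ * g * P = g₀ := by rw [hgdef]; group
  have hgK : g ∈ K ⊓ G := by
    refine ⟨?_, (hconj g).2 (by rwa [hgconj])⟩
    show g ∈ K
    rw [hstd, hgconj, hg₀]
    intro B hB
    obtain ⟨s, x, w, hx, hw, rfl⟩ := hB.exists_shape
    have hk0 : k ≠ 0 := fun h => neg_ne_zero.2 (one_ne_zero (α := F)) (by rw [← hk, h, zero_mul])
    have hxk : 2 * k ^ 2 * x ≠ 0 := mul_ne_zero (mul_ne_zero h2 (pow_ne_zero _ hk0)) hx
    rcases sq_eq_sq_iff_eq_or_eq_neg.1 hw with rfl | rfl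
    · fin_cases s
      · convert goodAlt_altShape 0 (x := -(2 * k ^ 2 * w)) (w := 2 * k ^ 2 * w) (neg_ne_zero.2 hxk) (by ring) using 1
        ext i j
        fin_cases i <;> fin_cases j <;> simp [M₀, altShape, Matrix.mul_apply, Fin.sum_univ_four] <;> ring
      · convert goodAlt_altShape 2 (x := 2 * k ^ 2 * w) (w := 2 * k ^ 2 * w) hxk (by ring) using 1
        ext i j
        fin_cases i <;> fin_cases j <;> simp [M₀, altShape, Matrix.mul_apply, Fin.sum_univ_four] <;> ring
      · convert goodAlt_altShape 2 (x := 2 * k ^ 2 * w) (w := -(2 * k ^ 2 * w)) hxk (by ring) using 1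
        ext i j
        fin_cases i <;> fin_cases j <;> simp [M₀, altShape, Matrix.mul_apply, Fin.sum_univ_four] <;> ring
    · fin_cases s
      · convert goodAlt_altShape 0 (x := -(2 * k ^ 2 * x)) (w := -(2 * k ^ 2 * x)) (neg_ne_zero.2 hxk) (by ring) using 1
        ext i j
        fin_cases i <;> fin_cases j <;> simp [M₀, altShape, Matrix.mul_apply, Fin.sum_univ_four] <;> ring
      · convert goodAlt_altShape 1 (x := 2 * k ^ 2 * x) (w := 2 * k ^ 2 * x) hxk (by ring) using 1
        ext i j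
        fin_cases i <;> fin_cases j <;> simp [M₀, altShape, Matrix.mul_apply, Fin.sum_univ_four] <;> ring
      · convert goodAlt_altShape 1 (x := -(2 * k ^ 2 * x)) (w := 2 * k ^ 2 * x) (neg_ne_zero.2 hxk) (by ring) using 1
        ext i j
        fin_cases i <;> fin_cases j <;> simp [M₀, altShape, Matrix.mul_apply, Fin.sum_univ_four] <;> ring
  rcases hH.2 (K ⊓ G) hHK inf_le_right with hK | hK
  · have hgH : g ∈ H := hK ▸ hgK
    obtain ⟨π, a, hY⟩ := hmono g hgH
    have hk0 : k ≠ 0 := fun h => neg_ne_zero.2 (one_ne_zero (α := F)) (by rw [← hk, h, zero_mul])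
    have hc0 := hY 0 0
    have hc1 := hY 0 1
    rw [hgconj, hg₀] at hc0 hc1
    simp [M₀] at hc0 hc1
    by_cases h : π 0 = 0
    · rw [if_neg (by rw [h]; decide)] at hc1; exact hk0 hc1
    · rw [if_neg (Ne.symm h)] at hc0; exact hk0 hc0
  · -- a transvection moves the set
    let u : Fin 4 → F := ![1, 1, 1, 0]
    have huu : Cfsg.hermForm 4 F q u u = 0 := by
      rw [hu.herm_eq]
      simp [u, dotProduct, Fin.sum_univ_four]
      linear_combination h3
    obtain ⟨c, hc0, hc, -⟩ := hu.exists_skew_avoid ∅ (by simp; omega)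
    set t := hu.utrans huu c
    have ht : P * t * P⁻¹ ∈ G := (hconj _).2 (by
      rw [show P⁻¹ * (P * t * P⁻¹) * P = t by group]; exact hu.utrans_mem huu hc)
    rw [← hK] at ht
    have h := (hstd _).1 ht.1 _ (goodAlt_altShape 0 (x := (1 : F)) (w := 1) one_ne_zero rfl)
    rw [show P⁻¹ * (P * t * P⁻¹) * P = t by group] at h
    have hT : ∀ i j, (t : Matrix (Fin 4) (Fin 4) F) i j = (if i = j then 1 else 0) + c * σ (u j) * u i := fun i j => by
      have h1 := congrFun (hu.act_utrans huu c (Pi.single j 1)) i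
      rw [hu.single_herm, one_mul, act, Matrix.mulVec_single_one] at h1
      simpa [Pi.single_apply] using h1
    obtain ⟨j, -, -, hz⟩ := h.2.1 0
    set M := (t : Matrix (Fin 4) (Fin 4) F)ᵀ * altShape 0 (1 : F) 1 * (t : Matrix (Fin 4) (Fin 4) F)
    have h01 : M 0 1 ≠ 0 := by
      simp [M, Matrix.mul_apply, Fin.sum_univ_four, hT, altShape, u]
      intro h
      have h' := congrArg σ h
      simp [hc] at h'
      exact h2 (by linear_combination h + h')
    have h02 : M 0 2 ≠ 0 := by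
      simp [M, Matrix.mul_apply, Fin.sum_univ_four, hT, altShape, u]
      intro h
      exact hc0 (by linear_combination h)
    have hj1 := not_imp_comm.1 (hz 1) h01
    have hj2 := not_imp_comm.1 (hz 2) h02
    exact absurd (hj1.trans hj2.symm) (by decide)

set_option maxHeartbeats 1600000 in
/-- For `q ≤ 3` the stabiliser in `SU₄(q)` of a pair of totally singular planes lies in a symplectic subfield
group. -/
theorem pair_planes_subfield (hu : UnitarySetup 4 q σ) (hq : q ≤ 3) {H : Subgroup (GL (Fin 4) F)}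
    (hH : H ≤ Cfsg.GU 4 F q ⊓ specialLinear (Fin 4) F) {D : Fin 2 → Submodule F (Fin 4 → F)}
    (hD : IsMDecomposition 2 D) (hts : ∀ i, IsTotallySingularFor (Cfsg.hermForm 4 F q) (D i))
    (hle : H ≤ decompositionStabilizer D) :
    ∃ (F₀ : Subfield F) (P : GL (Fin 4) F) (ζ : F), Fintype.card F = Nat.card F₀ ^ 2 ∧ ζ ≠ 0 ∧
      ζ + ζ ^ q = 0 ∧ IsFormRationalStructure (Cfsg.hermForm 4 F q) F₀ ζ P ∧
      (∀ u : Fin 4 → F, (∀ i, u i ∈ F₀) → Cfsg.hermForm 4 F q ((P : Matrix (Fin 4) (Fin 4) F) *ᵥ u)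
        ((P : Matrix (Fin 4) (Fin 4) F) *ᵥ u) = 0) ∧
      H ≤ subfieldSubgroup F₀ P := by
  classical
  let b := Module.finBasisOfFinrankEq F (D 0) (hD.finrank_eq 0)
  let L : D 1 →ₗ[F] (Fin 2 → F) := LinearMap.pi fun i => (hu.sesqui.lf ((b i : Fin 4 → F))).comp (D 1).subtype
  have hLinj : Function.Injective L := by
    rw [injective_iff_map_eq_zero]
    intro w hw
    by_contra hw0
    obtain ⟨x, hx⟩ := (hu.isUnitary.nondegenerate (w : Fin 4 → F) (by simpa using hw0)).2
    apply hx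
    have hker : iSup D ≤ LinearMap.ker (hu.sesqui.lf (w : Fin 4 → F)) := by
      refine iSup_le fun i => ?_
      intro y hy
      rw [LinearMap.mem_ker, IsSesqui.lf_apply, hu.eq_zero_comm]
      fin_cases i
      · have h1 : Cfsg.hermForm 4 F q ((⟨y, hy⟩ : D 0) : Fin 4 → F) (w : Fin 4 → F) = 0 := by
          rw [← b.sum_repr ⟨y, hy⟩, Submodule.coe_sum]
          rw [← IsSesqui.lf_apply hu.sesqui, map_sum]
          refine Finset.sum_eq_zero fun j _ => ?_
          rw [Submodule.coe_smul, map_smul, IsSesqui.lf_apply]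
          have hj := congrFun hw j
          simp [L] at hj
          rw [hu.eq_zero_comm.1 hj, smul_zero]
        exact hu.eq_zero_comm.1 h1
      · exact hts 1 w w.2 y hy
    exact hu.eq_zero_comm.1 (LinearMap.mem_ker.1 (hker (hD.iSup_eq_top ▸ Submodule.mem_top)))
  have hLbij : Function.Surjective L := (LinearMap.injective_iff_surjective_of_finrank_eq_finrank
    (by rw [hD.finrank_eq, Module.finrank_fin_fun])).1 hLinj
  choose w hw using fun j => hLbij (Pi.single j 1)
  have hbw : ∀ i j, Cfsg.hermForm 4 F q (b i : Fin 4 → F) (w j : Fin 4 → F) = if i = j then 1 else 0 := fun i j => by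
    have h := congrFun (hw j) i
    simp [L, Pi.single_apply] at h
    rw [hu.herm, h]
    split_ifs <;> simp_all
  let v : Fin 4 → Fin 4 → F := ![b 0, b 1, w 0, w 1]
  let Pm : Matrix (Fin 4) (Fin 4) F := Matrix.of fun a i => v i a
  let G : Matrix (Fin 4) (Fin 4) F := !![0, 0, 1, 0; 0, 0, 0, 1; 1, 0, 0, 0; 0, 1, 0, 0]
  let J : Matrix (Fin 4) (Fin 4) F := !![0, 1, 0, 0; -1, 0, 0, 0; 0, 0, 0, 1; 0, 0, -1, 0]
  have hGG : G * G = 1 := by
    ext i j; fin_cases i <;> fin_cases j <;> simp [G, Matrix.mul_apply, Fin.sum_univ_four]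
  have hP : Pmᵀ * Pm.map σ = G := by
    ext i j
    rw [show (Pmᵀ * Pm.map σ) i j = Cfsg.hermForm 4 F q (v i) (v j) by rw [hu.herm_eq]; rfl]
    have h00 : ∀ i j, Cfsg.hermForm 4 F q (b i : Fin 4 → F) (b j : Fin 4 → F) = 0 := fun i j =>
      hts 0 _ (b i).2 _ (b j).2
    have h11 : ∀ i j, Cfsg.hermForm 4 F q (w i : Fin 4 → F) (w j : Fin 4 → F) = 0 := fun i j =>
      hts 1 _ (w i).2 _ (w j).2
    have hwb : ∀ i j, Cfsg.hermForm 4 F q (w j : Fin 4 → F) (b i : Fin 4 → F) = if i = j then 1 else 0 :=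
      fun i j => by rw [hu.herm, hbw]; split_ifs <;> simp
    fin_cases i <;> fin_cases j <;> simp [v, G, h00, h11, hbw, hwb]
  have hdet : Pm.det ≠ 0 := fun h => by
    have h1 := congrArg Matrix.det hP
    rw [Matrix.det_mul, Matrix.det_transpose, h, zero_mul] at h1
    have h2 := congrArg Matrix.det hGG
    rw [Matrix.det_mul, ← h1, zero_mul, Matrix.det_one] at h2
    exact zero_ne_one h2
  obtain ⟨P, hPm⟩ : ∃ P : GL (Fin 4) F, (P : Matrix (Fin 4) (Fin 4) F) = Pm :=
    ⟨Matrix.GeneralLinearGroup.mkOfDetNeZero Pm hdet, rfl⟩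
  set Q : Matrix (Fin 4) (Fin 4) F := ((P⁻¹ : GL (Fin 4) F) : Matrix (Fin 4) (Fin 4) F) with hQ
  have hQP : Q * Pm = 1 := by rw [← hPm, hQ, ← Units.val_mul, inv_mul_cancel, Units.val_one]
  have hQσ : Q.map σ = G * Pmᵀ := by
    have h1 : Q.map σ * Pm.map σ = 1 := by
      rw [← Matrix.map_mul, hQP, Matrix.map_one _ (map_zero σ) (map_one σ)]
    have h2 : (G * Pmᵀ) * Pm.map σ = 1 := by rw [Matrix.mul_assoc, hP, hGG]
    exact (Matrix.inv_eq_left_inv h1).symm.trans (Matrix.inv_eq_left_inv h2)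
  have hcoord : ∀ (i : Fin 2) (y : Fin 4 → F), y ∈ D i → ∀ k : Fin 4,
      (if i = 0 then 2 ≤ (k : ℕ) else (k : ℕ) < 2) → (Q *ᵥ y) k = 0 := by
    intro i y hy k hk
    fin_cases i
    · have hy' : y = Pm *ᵥ ![b.repr ⟨y, hy⟩ 0, b.repr ⟨y, hy⟩ 1, 0, 0] := by
        have h := congrArg (Subtype.val) (b.sum_repr ⟨y, hy⟩)
        rw [Fin.sum_univ_two, Submodule.coe_add, Submodule.coe_smul, Submodule.coe_smul] at h
        funext a
        have h' := congrFun h a
        simp [Pm, v, Matrix.mulVec, dotProduct, Fin.sum_univ_four] at h' ⊢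
        rw [← h']; ring
      rw [hy', Matrix.mulVec_mulVec, hQP, Matrix.one_mulVec]
      fin_cases k <;> simp at hk ⊢
    · have hy' : y = Pm *ᵥ ![0, 0, L ⟨y, hy⟩ 0, L ⟨y, hy⟩ 1] := by
        have h : (⟨y, hy⟩ : D 1) = L ⟨y, hy⟩ 0 • w 0 + L ⟨y, hy⟩ 1 • w 1 := hLinj (by
          rw [map_add, map_smul, map_smul, hw, hw]
          funext a; fin_cases a <;> simp)
        funext a
        have h' := congrFun (congrArg Subtype.val h) a
        simp [Pm, v, Matrix.mulVec, dotProduct, Fin.sum_univ_four] at h' ⊢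
        rw [h']; ring
      rw [hy', Matrix.mulVec_mulVec, hQP, Matrix.one_mulVec]
      fin_cases k <;> simp at hk ⊢
  have hcol : ∀ k : Fin 4, Pm *ᵥ Pi.single k 1 ∈ D (if (k : ℕ) < 2 then 0 else 1) := by
    intro k
    rw [show Pm *ᵥ Pi.single k 1 = v k by rw [Matrix.mulVec_single_one]; rfl]
    fin_cases k <;> simp [v]
  have hsimJ : ∀ g ∈ H, ∃ c : F,
      ((P⁻¹ * g * P : GL (Fin 4) F) : Matrix (Fin 4) (Fin 4) F)ᵀ * J *
        ((P⁻¹ * g * P : GL (Fin 4) F) : Matrix (Fin 4) (Fin 4) F) = c • J := by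
    intro g hg
    set X := ((P⁻¹ * g * P : GL (Fin 4) F) : Matrix (Fin 4) (Fin 4) F) with hX
    have hXe : X = Q * (g : Matrix (Fin 4) (Fin 4) F) * Pm := by rw [hX, Units.val_mul, Units.val_mul, hPm]
    have hXG : Xᵀ * G * X.map σ = G := by
      have hPX : Pm * X = (g : Matrix (Fin 4) (Fin 4) F) * Pm := by
        rw [hX, ← hPm, ← Units.val_mul, ← Units.val_mul]
        congr 1
        group
      calc Xᵀ * G * X.map σ = (Pm * X)ᵀ * (Pm * X).map σ := by
            rw [Matrix.transpose_mul, Matrix.map_mul, ← hP]; simp only [Matrix.mul_assoc]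
        _ = Pmᵀ * ((g : Matrix (Fin 4) (Fin 4) F)ᵀ * (g : Matrix (Fin 4) (Fin 4) F).map σ) * Pm.map σ := by
            rw [hPX, Matrix.transpose_mul, Matrix.map_mul]; simp only [Matrix.mul_assoc]
        _ = G := by rw [hu.transpose_mul (hH hg).1, Matrix.mul_one, hP]
    have hXdet : X.det = 1 := by
      rw [hXe, Matrix.det_mul, Matrix.det_mul, (Geometric.mem_specialLinear_iff g).1 (hH hg).2, mul_one,
        ← Matrix.det_mul, hQP, Matrix.det_one]
    obtain ⟨π, hπ⟩ := hle hg
    have hzero : ∀ k l : Fin 4, (if π (if (l : ℕ) < 2 then 0 else 1) = 0 then 2 ≤ (k : ℕ) else (k : ℕ) < 2) →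
        X k l = 0 := by
      intro k l hk
      have hmem : (g : Matrix (Fin 4) (Fin 4) F) *ᵥ (Pm *ᵥ Pi.single l 1) ∈ D (π (if (l : ℕ) < 2 then 0 else 1)) := by
        rw [← hπ]; exact Submodule.mem_map_of_mem (hcol l)
      have h := hcoord _ _ hmem k hk
      rwa [Matrix.mulVec_mulVec, Matrix.mulVec_mulVec, ← hXe, Matrix.mulVec_single_one] at h
    have hroot : ∀ d : F, σ d = d → d ≠ 0 → d * d = 1 := by
      intro d hd hd0
      rw [hu.pow] at hd
      rcases (show q = 2 ∨ q = 3 by have := hu.two_le; omega) with h | h <;> subst h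
      · have : d = 1 := mul_left_cancel₀ hd0 (by linear_combination hd)
        rw [this, mul_one]
      · exact mul_left_cancel₀ hd0 (by linear_combination hd)
    have e00 := congrFun (congrFun hXG 0) 2
    have e01 := congrFun (congrFun hXG 0) 3
    have e10 := congrFun (congrFun hXG 1) 2
    have e11 := congrFun (congrFun hXG 1) 3
    clear_value X
    clear hX hXe hXG
    have hπcases : π 0 = 0 ∧ π 1 = 1 ∨ π 0 = 1 ∧ π 1 = 0 := by
      have key : ∀ a b : Fin 2, a ≠ b → a = 0 ∧ b = 1 ∨ a = 1 ∧ b = 0 := by decide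
      exact key _ _ fun h => absurd (π.injective h) (by decide)
    rcases hπcases with ⟨h0, h1⟩ | ⟨h0, h1⟩
    · have z02 := hzero 0 2 (by simp [h1])
      have z03 := hzero 0 3 (by simp [h1])
      have z12 := hzero 1 2 (by simp [h1])
      have z13 := hzero 1 3 (by simp [h1])
      have z20 := hzero 2 0 (by simp [h0])
      have z21 := hzero 2 1 (by simp [h0])
      have z30 := hzero 3 0 (by simp [h0])
      have z31 := hzero 3 1 (by simp [h0])
      simp [G, Matrix.mul_apply, Fin.sum_univ_four, z02, z03, z12, z13, z20, z21, z30, z31] at e00 e01 e10 e11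
      simp [Matrix.det_succ_row_zero, Fin.sum_univ_succ, Fin.succAbove, z02, z03, z12, z13, z20, z21, z30, z31]
        at hXdet
      set dA := X 0 0 * X 1 1 - X 0 1 * X 1 0 with hdA
      set dD := X 2 2 * X 3 3 - X 2 3 * X 3 2 with hdD
      have hprod : dA * dD = 1 := by rw [hdA, hdD]; linear_combination hXdet
      have hnorm : dA * σ dD = 1 := by
        rw [hdA, hdD, map_sub, map_mul, map_mul]
        linear_combination (X 0 1 * σ (X 2 3) + X 1 1 * σ (X 3 3)) * e00 + e11 -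
          (X 0 1 * σ (X 2 2) + X 1 1 * σ (X 3 2)) * e01
      have hD0 : dD ≠ 0 := right_ne_zero_of_mul_eq_one hprod
      have hfix : σ dD = dD := mul_left_cancel₀ (left_ne_zero_of_mul_eq_one hprod) (hnorm.trans hprod.symm)
      have hAD : dA = dD := mul_right_cancel₀ hD0 (hprod.trans (hroot dD hfix hD0).symm)
      rw [hdA, hdD] at hAD
      refine ⟨dA, Matrix.ext fun i j => ?_⟩
      rw [hdA]
      fin_cases i <;> fin_cases j <;>
        simp [J, Matrix.mul_apply, Fin.sum_univ_four, z02, z03, z12, z13, z20, z21, z30, z31] <;>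
        first | ring1 | linear_combination hAD | linear_combination -hAD
    · have z00 := hzero 0 0 (by simp [h0])
      have z01 := hzero 0 1 (by simp [h0])
      have z10 := hzero 1 0 (by simp [h0])
      have z11 := hzero 1 1 (by simp [h0])
      have z22 := hzero 2 2 (by simp [h1])
      have z23 := hzero 2 3 (by simp [h1])
      have z32 := hzero 3 2 (by simp [h1])
      have z33 := hzero 3 3 (by simp [h1])
      simp [G, Matrix.mul_apply, Fin.sum_univ_four, z00, z01, z10, z11, z22, z23, z32, z33] at e00 e01 e10 e11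
      simp [Matrix.det_succ_row_zero, Fin.sum_univ_succ, Fin.succAbove, z00, z01, z10, z11, z22, z23, z32, z33]
        at hXdet
      set dA := X 0 2 * X 1 3 - X 0 3 * X 1 2 with hdA
      set dD := X 2 0 * X 3 1 - X 2 1 * X 3 0 with hdD
      have hprod : dA * dD = 1 := by rw [hdA, hdD]; linear_combination hXdet
      have hnorm : dD * σ dA = 1 := by
        rw [hdA, hdD, map_sub, map_mul, map_mul]
        linear_combination (X 2 1 * σ (X 0 3) + X 3 1 * σ (X 1 3)) * e00 + e11 -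
          (X 2 1 * σ (X 0 2) + X 3 1 * σ (X 1 2)) * e01
      have hA0 : dA ≠ 0 := left_ne_zero_of_mul_eq_one hprod
      have hfix : σ dA = dA := mul_left_cancel₀ (right_ne_zero_of_mul_eq_one hprod)
        (hnorm.trans (hprod.symm.trans (mul_comm _ _)))
      have hAD : dA = dD := mul_left_cancel₀ hA0 ((hroot dA hfix hA0).trans hprod.symm)
      rw [hdA, hdD] at hAD
      refine ⟨dA, Matrix.ext fun i j => ?_⟩
      rw [hdA]
      fin_cases i <;> fin_cases j <;>
        simp [J, Matrix.mul_apply, Fin.sum_univ_four, z00, z01, z10, z11, z22, z23, z32, z33] <;>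
        first | ring1 | linear_combination hAD | linear_combination -hAD
  set B := Qᵀ * J * Q with hB
  have hGJG : G * J * G = J := by
    ext i j; fin_cases i <;> fin_cases j <;> simp [G, J, Matrix.mul_apply, Fin.sum_univ_four]
  have hJJ : J * J = (-1 : F) • 1 := by
    ext i j; fin_cases i <;> fin_cases j <;> simp [J, Matrix.mul_apply, Fin.sum_univ_four]
  have hGT : Gᵀ = G := by
    ext i j; fin_cases i <;> fin_cases j <;> simp [G]
  have hJσ : J.map σ = J := by
    ext i j; fin_cases i <;> fin_cases j <;> simp [J]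
  have hJT : ∀ i j, J j i = -J i j := by
    intro i j; fin_cases i <;> fin_cases j <;> simp [J]
  have hBB : B.map σ * B = (-1 : F) • 1 := by
    have hPQ : Pmᵀ * Qᵀ = 1 := by rw [← Matrix.transpose_mul, hQP, Matrix.transpose_one]
    rw [hB, Matrix.map_mul, Matrix.map_mul, hJσ, show Qᵀ.map σ = (Q.map σ)ᵀ from rfl, hQσ, Matrix.transpose_mul,
      Matrix.transpose_transpose, hGT]
    calc Pm * G * J * (G * Pmᵀ) * (Qᵀ * J * Q) = Pm * (G * J * G) * (Pmᵀ * Qᵀ) * J * Q := by
          simp only [Matrix.mul_assoc]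
      _ = _ := by
          rw [hGJG, hPQ, Matrix.mul_one, Matrix.mul_assoc Pm, hJJ, Matrix.mul_smul, Matrix.mul_one,
            Matrix.smul_mul, mul_eq_one_comm.1 hQP]
  refine hu.symplectic_subfield (by norm_num) (hH.trans inf_le_left) hBB (by rw [map_neg, map_one])
    (neg_ne_zero.2 one_ne_zero) (fun i j => ?_) (fun i => ?_) fun g hg => ?_
  · have hT : Bᵀ = -B := by
      rw [hB, Matrix.transpose_mul, Matrix.transpose_mul, Matrix.transpose_transpose,
        show Jᵀ = -J from Matrix.ext fun a c => hJT a c, Matrix.neg_mul, Matrix.mul_neg, Matrix.mul_assoc]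
    exact congrFun (congrFun hT i) j
  · have h1 := dotProduct_mulVec_self_of_alt (M := J) hJT (fun a => by fin_cases a <;> simp [J]) (Q *ᵥ Pi.single i 1)
    rw [Matrix.mulVec_mulVec, Matrix.mulVec_single_one, Matrix.mulVec_single_one] at h1
    rw [hB, Matrix.mul_assoc]
    exact h1
  · obtain ⟨c, hc⟩ := hsimJ g hg
    refine ⟨c, ?_⟩
    set X := ((P⁻¹ * g * P : GL (Fin 4) F) : Matrix (Fin 4) (Fin 4) F) with hX
    have hXQ : X * Q = Q * (g : Matrix (Fin 4) (Fin 4) F) := by
      rw [hX, hQ, ← Units.val_mul, ← Units.val_mul]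
      congr 1
      group
    calc (g : Matrix (Fin 4) (Fin 4) F)ᵀ * B * (g : Matrix (Fin 4) (Fin 4) F)
        = (Q * (g : Matrix (Fin 4) (Fin 4) F))ᵀ * J * (Q * (g : Matrix (Fin 4) (Fin 4) F)) := by
          rw [hB, Matrix.transpose_mul]; simp only [Matrix.mul_assoc]
      _ = Qᵀ * (Xᵀ * J * X) * Q := by rw [← hXQ, Matrix.transpose_mul]; simp only [Matrix.mul_assoc]
      _ = c • B := by rw [hc, Matrix.mul_smul, Matrix.smul_mul]

end UnitarySetup

end CfsgLib.SmallDim
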