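import Cfsg.Agent.Lib.SmallDim.UnitaryFour
import Cfsg.Agent.Lib.SmallDim.UnitarySubfield

/-!
In `SU₆(2)` the stabiliser of an orthonormal frame is not maximal: it preserves, together with a transvection,
a set of 126 lines.
-/

set_option autoImplicit false
set_option linter.style.haveILetI false

namespace CfsgLib.SmallDim

open scoped MatrixGroups Matrix
open Cfsg.Geo

section GoodSix

/-- Addition of the field with four elements on the codes `0, 1, 2, 3`. -/
def addCode : Fin 4 → Fin 4 → Fin 4 := ![![0, 1, 2, 3], ![1, 0, 3, 2], ![2, 3, 0, 1], ![3, 2, 1, 0]]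

/-- Multiplication of the field with four elements on the codes `0, 1, 2, 3`. -/
def mulCode : Fin 4 → Fin 4 → Fin 4 := ![![0, 0, 0, 0], ![0, 1, 2, 3], ![0, 2, 3, 1], ![0, 3, 1, 2]]

/-- The coded version of `GoodSix`. -/
def goodCode (a b c d e f : Fin 4) : Bool :=
  (((if a = 0 then 0 else 1) + (if b = 0 then 0 else 1) + (if c = 0 then 0 else 1) + (if d = 0 then 0 else 1) +
    (if e = 0 then 0 else 1) + (if f = 0 then 0 else 1) : ℕ) == 2) ||
  (mulCode a (mulCode b (mulCode c (mulCode d (mulCode e f)))) == 1)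

/-- The transvection centred at the all-ones vector preserves the coded set. -/
lemma goodCode_transvection : ∀ a b c d e f : Fin 4, goodCode a b c d e f = true →
    (let s := addCode a (addCode b (addCode c (addCode d (addCode e f))))
     goodCode (addCode a s) (addCode b s) (addCode c s) (addCode d s) (addCode e s) (addCode f s)) = true := by
  decide +kernel

variable {K : Type*} [Field K]

/-- Vectors of weight two, and vectors without zero entries whose product is one. -/
def GoodSix (x : Fin 6 → K) : Prop := Set.ncard {i | x i ≠ 0} = 2 ∨ ∏ i, x i = 1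

lemma goodSix_iff_code {ε : Fin 4 → K} (hinj : Function.Injective ε) (h0 : ε 0 = 0) (h1 : ε 1 = 1)
    (hmul : ∀ a b, ε (mulCode a b) = ε a * ε b) (k : Fin 6 → Fin 4) :
    GoodSix (fun i => ε (k i)) ↔ goodCode (k 0) (k 1) (k 2) (k 3) (k 4) (k 5) = true := by
  classical
  have hz : ∀ a, ε a = 0 ↔ a = 0 := fun a => by rw [← h0]; exact hinj.eq_iff
  rw [GoodSix, goodCode, Bool.or_eq_true, beq_iff_eq, beq_iff_eq]
  refine or_congr ?_ ?_
  · rw [Set.ncard_eq_toFinset_card', Set.toFinset_ofPred, Finset.card_filter, Fin.sum_univ_six]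
    simp only [ne_eq, hz, ite_not]
  · rw [← hinj.eq_iff, h1, hmul, hmul, hmul, hmul, hmul, Fin.prod_univ_six]
    simp only [mul_assoc]

end GoodSix

namespace UnitarySetup

variable {F : Type*} [Field F] [Fintype F] {q : ℕ} {σ : F ≃+* F}

set_option maxHeartbeats 1000000 in
/-- In `SU₆(2)` the stabiliser of an orthonormal frame is not maximal. -/
theorem lines_two_not_maximal (hu : UnitarySetup 6 q σ) (hq : q = 2) {H : Subgroup (GL (Fin 6) F)}
    (hH : IsMaximalIn (Cfsg.GU 6 F q ⊓ specialLinear (Fin 6) F) H) {D : Fin 6 → Submodule F (Fin 6 → F)}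
    (hD : IsNondegenerateMDecomposition (Cfsg.hermForm 6 F q) 1 D)
    (hle : H ≤ decompositionStabilizer D) : False := by
  classical
  obtain ⟨P, hP, hDP⟩ := hu.exists_line_frame hD
  set G := Cfsg.GU 6 F q ⊓ specialLinear (Fin 6) F with hGdef
  have hF0 : (2 : F) = 0 := hu.two_eq_zero_iff.2 (by subst hq; decide)
  have hF4 : Fintype.card F = 4 := by rw [hu.card, hq]; norm_num
  -- a coding of the field
  obtain ⟨ω, hω0, hω1⟩ : ∃ ω : F, ω ≠ 0 ∧ ω ≠ 1 := by
    obtain ⟨w, -, hw⟩ := Finset.exists_mem_notMem_of_card_lt_card (s := ({0, 1} : Finset F)) (t := Finset.univ) (by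
      rw [Finset.card_univ, hF4]; exact lt_of_le_of_lt Finset.card_le_two (by norm_num))
    simp at hw
    exact ⟨w, hw.1, hw.2⟩
  have hω : ω * ω = ω + 1 := by
    have h3 := FiniteField.pow_card_sub_one_eq_one ω hω0
    rw [hF4] at h3
    have : (ω - 1) * (ω * ω + ω + 1) = 0 := by linear_combination h3
    linear_combination (mul_eq_zero.1 this).resolve_left (sub_ne_zero.2 hω1) - (ω + 1) * hF0
  let ε : Fin 4 → F := ![0, 1, ω, ω + 1]
  have hω2 : ω + 1 ≠ 0 := fun h => hω1 (by linear_combination h - hF0)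
  have hinj : Function.Injective ε := by
    intro a b
    fin_cases a <;> fin_cases b <;> simp [ε, hω0, hω1, hω2, Ne.symm hω0, Ne.symm hω1, Ne.symm hω2]
  have hsurj : Function.Surjective ε :=
    ((Fintype.bijective_iff_injective_and_card ε).2 ⟨hinj, by simp [hF4]⟩).2
  have hmul : ∀ a b, ε (mulCode a b) = ε a * ε b := by
    intro a b
    fin_cases a <;> fin_cases b <;> simp [ε, mulCode] <;>
      first
        | linear_combination -hω
        | linear_combination -hω - hF0 * ω
        | linear_combination -hω - hF0 * (ω + 1)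
  have hadd : ∀ a b, ε (addCode a b) = ε a + ε b := by
    intro a b
    fin_cases a <;> fin_cases b <;> simp [ε, addCode] <;>
      first
        | ring1
        | linear_combination -hF0
        | linear_combination -ω * hF0
        | linear_combination -(ω + 1) * hF0
  let S : Submonoid (GL (Fin 6) F) :=
    { carrier := {g | ∀ x, GoodSix x → GoodSix (act (P⁻¹ * g * P) x)}
      one_mem' := fun x hx => by simpa [act_one] using hx
      mul_mem' := fun {a b} ha hb x hx => by
        rw [show P⁻¹ * (a * b) * P = (P⁻¹ * a * P) * (P⁻¹ * b * P) by group, act_mul]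
        exact ha _ (hb x hx) }
  let K : Subgroup (GL (Fin 6) F) :=
    { S with
      inv_mem' := fun {g} hg => by
        show g⁻¹ ∈ S
        rw [show g⁻¹ = g ^ (orderOf g - 1) by
          rw [eq_comm, eq_inv_iff_mul_eq_one, ← pow_succ, Nat.sub_add_cancel (orderOf_pos g), pow_orderOf_eq_one]]
        exact S.pow_mem hg _ }
  have hstd : ∀ g, g ∈ K ↔ ∀ x, GoodSix x → GoodSix (act (P⁻¹ * g * P) x) := fun g => Iff.rfl
  have hconj : ∀ g, g ∈ G → P * g * P⁻¹ ∈ G := by
    intro g hg
    refine ⟨Subgroup.mul_mem _ (Subgroup.mul_mem _ hP hg.1) (inv_mem hP), ?_⟩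
    have : Matrix.GeneralLinearGroup.det (P * g * P⁻¹) = Matrix.GeneralLinearGroup.det g := by simp
    show Matrix.GeneralLinearGroup.det _ = 1
    rw [this]; exact hg.2
  have hmono : ∀ g ∈ H, ∃ (π : Equiv.Perm (Fin 6)) (a : Fin 6 → F),
      ∀ i, act (P⁻¹ * g * P) (Pi.single i 1) = a i • (Pi.single (π i) 1 : Fin 6 → F) := by
    intro g hg
    obtain ⟨π, hπ⟩ := hle hg
    have : ∀ i, ∃ a : F, act g (act P (Pi.single i 1)) = a • act P (Pi.single (π i) 1) := fun i => by
      have h := Submodule.mem_map_of_mem (f := Matrix.toLin' (g : Matrix (Fin 6) (Fin 6) F))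
        (show act P (Pi.single i 1) ∈ D i from hDP i ▸ Submodule.mem_span_singleton_self _)
      rw [hπ, hDP (π i), Submodule.mem_span_singleton, Matrix.toLin'_apply] at h
      obtain ⟨a, ha⟩ := h
      exact ⟨a, ha.symm⟩
    choose a ha using this
    refine ⟨π, a, fun i => act_injective P ?_⟩
    rw [← act_mul, show P * (P⁻¹ * g * P) = g * P by group, act_mul, ha]
    exact (Matrix.mulVec_smul _ _ _).symm
  have hHK : H ≤ K ⊓ G := by
    refine fun g hg => ⟨?_, hH.1.le hg⟩
    show g ∈ K
    rw [hstd]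
    obtain ⟨π, a, hY⟩ := hmono g hg
    obtain ⟨hgU, hgS⟩ := hH.1.le hg
    have hcoord : ∀ (x : Fin 6 → F) (i : Fin 6), act (P⁻¹ * g * P) x (π i) = a i * x i := by
      intro x i
      rw [pi_eq_sum_univ' x]
      simp only [act, Matrix.mulVec_sum, Matrix.mulVec_smul]
      change (∑ j, x j • act (P⁻¹ * g * P) (Pi.single j 1)) (π i) = _
      simp [hY, Pi.single_apply, mul_comm]
    have hnorm : ∀ i, a i ≠ 0 := fun i h => by
      have h1 := hY i
      rw [h, zero_smul] at h1
      have h2 := act_injective (P⁻¹ * g * P) (h1.trans (Matrix.mulVec_zero _).symm)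
      simpa using congrFun h2 i
    have hprod : ∏ i, a i = 1 := by
      set Y := ((P⁻¹ * g * P : GL (Fin 6) F) : Matrix (Fin 6) (Fin 6) F) with hYdef
      have hM : Y.submatrix π id = Matrix.diagonal a := by
        ext i j
        have := hcoord (Pi.single j 1) i
        rw [act, Matrix.mulVec_single_one] at this
        rw [Matrix.submatrix_apply, id, Matrix.diagonal_apply]
        refine this.trans ?_
        by_cases hij : i = j
        · subst hij; simp
        · simp [hij]
      have hYdet : Y.det = 1 := by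
        rw [hYdef, Units.val_mul, Units.val_mul, Matrix.det_mul, Matrix.det_mul, (Geometric.mem_specialLinear_iff g).1 hgS,
          mul_one, ← Matrix.det_mul, ← Units.val_mul, inv_mul_cancel, Units.val_one, Matrix.det_one]
      have h5 := congrArg Matrix.det hM
      rw [Matrix.det_permute, Matrix.det_diagonal, hYdet] at h5
      rw [← h5]
      rcases Int.units_eq_one_or (Equiv.Perm.sign π) with hs | hs <;> simp [hs]
      linear_combination -hF0
    intro x hx
    rcases hx with hx | hx
    · left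
      rw [← hx]
      refine (Set.ncard_congr (fun i _ => π i) (fun i hi => ?_) (fun i j _ _ h => π.injective h) fun j hj => ?_).symm
      · show act (P⁻¹ * g * P) x (π i) ≠ 0
        rw [hcoord]; exact mul_ne_zero (hnorm i) hi
      · refine ⟨π.symm j, ?_, π.apply_symm_apply j⟩
        intro h0
        apply hj
        rw [← π.apply_symm_apply j, hcoord, h0, mul_zero]
    · right
      rw [← Equiv.prod_comp π]
      simp only [hcoord, Finset.prod_mul_distrib, hprod, hx, one_mul]
  -- transvections
  have hσ1 : ∀ u : Fin 6 → F, (∀ i, u i = 0 ∨ u i = 1) → ∀ x, Cfsg.hermForm 6 F q x u = ∑ i, x i * u i := by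
    intro u hu' x
    rw [hu.herm_eq, dotProduct]
    refine Finset.sum_congr rfl fun i _ => ?_
    rcases hu' i with h | h <;> simp [h]
  have hskew : σ (1 : F) = -1 := by rw [map_one]; linear_combination hF0
  let v₁ : Fin 6 → F := fun _ => 1
  have hv₁ : Cfsg.hermForm 6 F q v₁ v₁ = 0 := by
    rw [hσ1 v₁ fun _ => Or.inr rfl]
    simp [v₁]
    linear_combination (3 : F) * hF0
  set t := hu.utrans hv₁ 1 with ht
  have htK : P * t * P⁻¹ ∈ K ⊓ G := by
    refine ⟨?_, hconj _ (hu.utrans_mem hv₁ hskew)⟩
    show P * t * P⁻¹ ∈ K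
    rw [hstd, show P⁻¹ * (P * t * P⁻¹) * P = t by group]
    intro x hx
    obtain ⟨k, hk⟩ : ∃ k : Fin 6 → Fin 4, x = fun i => ε (k i) :=
      ⟨fun i => (hsurj (x i)).choose, funext fun i => (hsurj (x i)).choose_spec.symm⟩
    subst hk
    rw [goodSix_iff_code hinj rfl rfl hmul] at hx
    set s := addCode (k 0) (addCode (k 1) (addCode (k 2) (addCode (k 3) (addCode (k 4) (k 5))))) with hs
    have he : act t (fun i => ε (k i)) = fun i => ε (addCode (k i) s) := by
      funext i
      rw [ht, hu.act_utrans, hσ1 v₁ fun _ => Or.inr rfl, hadd, hs, hadd, hadd, hadd, hadd, hadd]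
      simp [v₁, Fin.sum_univ_six, add_assoc]
    rw [he, goodSix_iff_code hinj rfl rfl hmul]
    exact goodCode_transvection _ _ _ _ _ _ hx
  rcases hH.2 (K ⊓ G) hHK inf_le_right with hK | hK
  · obtain ⟨π, a, hY⟩ := hmono _ (hK ▸ htK : P * t * P⁻¹ ∈ H)
    have h := hY 0
    rw [show P⁻¹ * (P * t * P⁻¹) * P = t by group, ht, hu.act_utrans, hσ1 v₁ fun _ => Or.inr rfl] at h
    obtain ⟨j, hj0, hjπ⟩ : ∃ j : Fin 6, j ≠ 0 ∧ j ≠ π 0 := by
      by_cases h' : π 0 = 1
      · exact ⟨2, by decide, by rw [h']; decide⟩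
      · exact ⟨1, by decide, Ne.symm h'⟩
    have hj := congrFun h j
    simp [v₁, Pi.single_apply, hj0, hjπ] at hj
  · let u : Fin 6 → F := ![0, 1, 1, 1, 1, 0]
    have hu01 : ∀ i, u i = 0 ∨ u i = 1 := fun i => by fin_cases i <;> simp [u]
    have huu : Cfsg.hermForm 6 F q u u = 0 := by
      rw [hσ1 u hu01]
      simp [u, Fin.sum_univ_six]
      linear_combination (2 : F) * hF0
    have ht' : P * hu.utrans huu 1 * P⁻¹ ∈ K ⊓ G := hK.symm ▸ hconj _ (hu.utrans_mem huu hskew)
    have h := (hstd _).1 ht'.1 ![1, 1, 0, 0, 0, 0] (Or.inl (by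
      rw [Set.ncard_eq_toFinset_card', Set.toFinset_ofPred, Finset.card_filter, Fin.sum_univ_six]
      simp))
    rw [show P⁻¹ * (P * hu.utrans huu 1 * P⁻¹) * P = hu.utrans huu 1 by group, hu.act_utrans, hσ1 u hu01] at h
    simp [GoodSix, u, Fin.sum_univ_six, Fin.prod_univ_six, Set.ncard_eq_toFinset_card',
      Finset.card_filter, show (1 : F) + 1 = 0 by linear_combination hF0] at h

end UnitarySetup

end CfsgLib.SmallDim
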