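import Cfsg.Agent.Lib.SmallDim.UnitaryGeneral

/-!
Over the field with four elements a decomposition into non-degenerate planes refines to one into lines.
-/

set_option autoImplicit false
set_option linter.style.haveILetI false

namespace CfsgLib.SmallDim

open scoped MatrixGroups Matrix
open Cfsg.Geo

variable {F : Type*} [Field F] [Fintype F] {n q : ℕ} {σ : F ≃+* F}

namespace UnitarySetup

/-- An orthonormal family spans a non-degenerate decomposition into lines. -/
theorem lines_decomposition (hu : UnitarySetup n q σ) (hn : 2 ≤ n) (v : Fin n → Fin n → F)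
    (hv : ∀ i j, Cfsg.hermForm n F q (v i) (v j) = if i = j then 1 else 0) :
    IsNondegenerateMDecomposition (Cfsg.hermForm n F q) 1 (fun i => Submodule.span F {v i}) := by
  classical
  have hv0 : ∀ i, v i ≠ 0 := fun i h => by
    have := hv i i
    rw [h, if_pos rfl, hu.herm_eq, zero_dotProduct] at this
    exact zero_ne_one this
  have hli : LinearIndependent F v := by
    rw [Fintype.linearIndependent_iff]
    intro g hg j
    have h1 : Cfsg.hermForm n F q (∑ i, g i • v i) (v j) = 0 := by rw [hg, hu.herm_eq, zero_dotProduct]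
    rw [← IsSesqui.lf_apply hu.sesqui, map_sum] at h1
    simpa [hu.sesqui.smul_left, hv] using h1
  refine ⟨⟨hn, Nat.one_pos, fun i => finrank_span_singleton (hv0 i), hli.iSupIndep_span_singleton, ?_⟩,
    fun i => ?_, fun i j hij => ?_⟩
  · rw [← Submodule.span_range_eq_iSup]
    exact hli.span_eq_top_of_card_eq_finrank' (by simp)
  · intro w hw hw0
    obtain ⟨a, rfl⟩ := Submodule.mem_span_singleton.1 hw
    have ha : a ≠ 0 := fun h => hw0 (by rw [h, zero_smul])
    refine ⟨⟨v i, Submodule.mem_span_singleton_self _, ?_⟩, ⟨v i, Submodule.mem_span_singleton_self _, ?_⟩⟩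
    · rw [hu.sesqui.smul_right, hv, if_pos rfl, mul_one]
      exact (map_ne_zero _).2 ha
    · rw [hu.sesqui.smul_left, hv, if_pos rfl, mul_one]
      exact ha
  · intro u hu' w hw
    obtain ⟨a, rfl⟩ := Submodule.mem_span_singleton.1 hu'
    obtain ⟨b, rfl⟩ := Submodule.mem_span_singleton.1 hw
    rw [hu.sesqui.smul_left, hu.sesqui.smul_right, hv, if_neg hij, mul_zero, mul_zero]

/-- Isometries permuting an orthonormal family up to scalars stabilise its decomposition into lines. -/
theorem le_lines_stabilizer (hu : UnitarySetup n q σ) {H : Subgroup (GL (Fin n) F)}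
    (hG : H ≤ Cfsg.GU n F q) (v : Fin n → Fin n → F)
    (hv : ∀ i j, Cfsg.hermForm n F q (v i) (v j) = if i = j then 1 else 0)
    (hperm : ∀ g ∈ H, ∀ i, ∃ j, act g (v i) ∈ Submodule.span F {v j}) :
    H ≤ decompositionStabilizer (fun i => Submodule.span F {v i}) := by
  classical
  intro g hg
  choose π hπ using hperm g hg
  choose c hc using fun i => Submodule.mem_span_singleton.1 (hπ i)
  have hc0 : ∀ i, c i ≠ 0 := by
    intro i h
    have h1 := mem_GU.1 (hG hg) (v i) (v i)
    rw [← hc i, h, zero_smul, hv, if_pos rfl, hu.herm_eq, zero_dotProduct] at h1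
    exact zero_ne_one h1
  have hinj : Function.Injective π := by
    intro a b hab
    by_contra hne
    have h1 := mem_GU.1 (hG hg) (v a) (v b)
    rw [← hc a, ← hc b, hab, hu.sesqui.smul_left, hu.sesqui.smul_right, hv, hv, if_pos rfl, if_neg hne,
      mul_one] at h1
    exact mul_ne_zero (hc0 a) ((map_ne_zero _).2 (hc0 b)) h1
  refine ⟨Equiv.ofBijective π (Finite.injective_iff_bijective.1 hinj), fun i => ?_⟩
  show (Submodule.span F {v i}).map _ = Submodule.span F {v (π i)}
  rw [Submodule.map_span, Set.image_singleton, Matrix.toLin'_apply]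
  show Submodule.span F {act g (v i)} = _
  rw [← hc i, Submodule.span_singleton_smul_eq (IsUnit.mk0 _ (hc0 i))]

/-- For `q = 2` a decomposition into non-degenerate planes refines to one into lines. -/
theorem refine_planes (hu : UnitarySetup n q σ) (hq : q = 2) {H : Subgroup (GL (Fin n) F)}
    (hG : H ≤ Cfsg.GU n F q) {t : ℕ} {D : Fin t → Submodule F (Fin n → F)}
    (hD : IsNondegenerateMDecomposition (Cfsg.hermForm n F q) 2 D) (hle : H ≤ decompositionStabilizer D) :
    ∃ E : Fin n → Submodule F (Fin n → F), IsNondegenerateMDecomposition (Cfsg.hermForm n F q) 1 E ∧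
      H ≤ decompositionStabilizer E := by
  classical
  have htn : t * 2 = n := (mdecomposition_card hD.decomp).trans (Fintype.card_fin n)
  have hnorm : ∀ c : F, c ≠ 0 → c * σ c = 1 := by
    intro c hc
    have h3 := FiniteField.pow_card_sub_one_eq_one c hc
    rw [hu.card, hq] at h3
    rw [hu.pow, hq]
    linear_combination h3
  have h2 : (2 : F) = 0 := hu.two_eq_zero_iff.2 (by subst hq; decide)
  have hone : ∀ x, Cfsg.hermForm n F q x x ≠ 0 → Cfsg.hermForm n F q x x = 1 := by
    intro x hx
    have h1 := hnorm _ hx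
    rw [← hu.herm] at h1
    rcases mul_self_eq_one_iff.1 h1 with h | h
    · exact h
    · rw [h]; linear_combination (-1 : F) * h2
  -- an orthonormal pair in each plane
  have hpair : ∀ i, ∃ w : Fin 2 → Fin n → F, (∀ s, w s ∈ D i) ∧
      ∀ s s', Cfsg.hermForm n F q (w s) (w s') = if s = s' then 1 else 0 := by
    intro i
    obtain ⟨a, ha, haa⟩ : ∃ a ∈ D i, Cfsg.hermForm n F q a a ≠ 0 := by
      obtain ⟨x, hx, hx0, hxx⟩ := hu.exists_isotropic (D i) (by rw [hD.decomp.finrank_eq])
      obtain ⟨y, hy, hxy⟩ := (hD.nondegenerate i x hx hx0).2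
      by_contra hall
      push Not at hall
      obtain ⟨d, hd⟩ : ∃ d : F, σ d + d ≠ 0 := by
        by_contra hd
        push Not at hd
        exact hu.isUnitary.ne_refl (RingEquiv.ext fun d => by
          show σ d = d
          linear_combination hd d - d * h2)
      have h1 := hall (x + (σ (d / Cfsg.hermForm n F q x y)) • y) ((D i).add_mem hx ((D i).smul_mem _ hy))
      rw [hu.sesqui.add_left, hu.sesqui.add_right, hu.sesqui.add_right, hu.sesqui.smul_left,
        hu.sesqui.smul_left, hu.sesqui.smul_right, hu.sesqui.smul_right, hxx, hall y hy, RingEquiv.coe_toRingHom,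
        hu.invol, hu.herm y x] at h1
      apply hd
      rw [map_div₀] at h1
      have hxy' : σ (Cfsg.hermForm n F q x y) ≠ 0 := (map_ne_zero σ).2 hxy
      field_simp at h1
      linear_combination h1 - (σ d + d) * hnorm _ hxy
    obtain ⟨b, hb, hb0, hba⟩ := hu.exists_mem_kerW (D i) (by rw [hD.decomp.finrank_eq]) a
    have hab : Cfsg.hermForm n F q a b = 0 := hu.eq_zero_comm.1 hba
    have hbb : Cfsg.hermForm n F q b b ≠ 0 := by
      intro h
      obtain ⟨x, hx, hbx⟩ := (hD.nondegenerate i b hb hb0).2
      apply hbx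
      have hspan : Submodule.span F {a, b} = D i := by
        have hli : LinearIndependent F ![a, b] := by
          rw [LinearIndependent.pair_iff]
          intro c d hcd
          have h1 : Cfsg.hermForm n F q (c • a + d • b) a = 0 := by rw [hcd, hu.herm_eq, zero_dotProduct]
          rw [hu.sesqui.add_left, hu.sesqui.smul_left, hu.sesqui.smul_left, hba, mul_zero, add_zero] at h1
          have hc := (mul_eq_zero.1 h1).resolve_right haa
          subst hc
          rw [zero_smul, zero_add] at hcd
          exact ⟨rfl, (smul_eq_zero.1 hcd).resolve_right hb0⟩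
        refine Submodule.eq_of_le_of_finrank_le (Submodule.span_le.2 (by simp [Set.insert_subset_iff, ha, hb])) ?_
        have h3 := finrank_span_eq_card hli
        rw [Matrix.range_cons, Matrix.range_cons, Matrix.range_empty, Set.union_empty, Set.singleton_union,
          Fintype.card_fin] at h3
        rw [hD.decomp.finrank_eq, h3]
      rw [← hspan, Submodule.mem_span_pair] at hx
      obtain ⟨c, d, rfl⟩ := hx
      rw [hu.sesqui.add_right, hu.sesqui.smul_right, hu.sesqui.smul_right, h, hba, mul_zero, mul_zero, add_zero]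
    refine ⟨![a, b], fun s => ?_, fun s s' => ?_⟩
    · fin_cases s <;> [exact ha; exact hb]
    · fin_cases s <;> fin_cases s' <;> simp [hone a haa, hone b hbb, hab, hba]
  choose w hwD hw using hpair
  let e : Fin n ≃ Fin t × Fin 2 := (finCongr htn.symm).trans finProdFinEquiv.symm
  let v : Fin n → Fin n → F := fun k => w (e k).1 (e k).2
  have hv : ∀ k l, Cfsg.hermForm n F q (v k) (v l) = if k = l then 1 else 0 := by
    intro k l
    by_cases h : (e k).1 = (e l).1
    · simp only [v]
      rw [h, hw]
      refine if_congr ⟨fun h' => e.injective (Prod.ext h h'), fun h' => by rw [h']⟩ rfl rfl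
    · rw [if_neg (fun h' => h (by rw [h']))]
      exact hD.orthogonal _ _ h _ (hwD _ _) _ (hwD _ _)
  refine ⟨fun k => Submodule.span F {v k},
    hu.lines_decomposition (by have := hD.decomp.two_le; omega) v hv, hu.le_lines_stabilizer hG v hv ?_⟩
  intro g hg k
  obtain ⟨π, hπ⟩ := hle hg
  set i := π (e k).1
  have hmem : act g (v k) ∈ D i := by
    rw [show D i = D (π (e k).1) from rfl, ← hπ (e k).1]
    exact ⟨v k, hwD _ _, Matrix.toLin'_apply _ _⟩
  have hself : Cfsg.hermForm n F q (act g (v k)) (act g (v k)) = 1 := by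
    rw [mem_GU.1 (hG hg), hv, if_pos rfl]
  have hspan : Submodule.span F (Set.range (w i)) = D i := by
    refine Submodule.eq_of_le_of_finrank_le (Submodule.span_le.2 (Set.range_subset_iff.2 fun s => hwD i s)) ?_
    have hli : LinearIndependent F (w i) := by
      rw [Fintype.linearIndependent_iff]
      intro c hc j
      have h1 : Cfsg.hermForm n F q (∑ s, c s • w i s) (w i j) = 0 := by rw [hc, hu.herm_eq, zero_dotProduct]
      rw [← IsSesqui.lf_apply hu.sesqui, map_sum] at h1
      simpa [hu.sesqui.smul_left, hw] using h1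
    rw [hD.decomp.finrank_eq, finrank_span_eq_card hli, Fintype.card_fin]
  have hmem' : act g (v k) ∈ Submodule.span F (Set.range (w i)) := hspan.symm ▸ hmem
  obtain ⟨c, hc⟩ := (Submodule.mem_span_range_iff_exists_fun F).1 hmem'
  rw [Fin.sum_univ_two] at hc
  rw [← hc] at hself
  simp only [hu.sesqui.add_left, hu.sesqui.add_right, hu.sesqui.smul_left, hu.sesqui.smul_right, hw,
    RingEquiv.coe_toRingHom] at hself
  simp only [Fin.isValue, if_true, mul_one, zero_ne_one, one_ne_zero, if_false, mul_zero, add_zero, zero_add] at hself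
  rcases eq_or_ne (c 0) 0 with h0 | h0
  · refine ⟨e.symm (i, 1), Submodule.mem_span_singleton.2 ⟨c 1, ?_⟩⟩
    simp [v, ← hc, h0]
  rcases eq_or_ne (c 1) 0 with h1 | h1
  · refine ⟨e.symm (i, 0), Submodule.mem_span_singleton.2 ⟨c 0, ?_⟩⟩
    simp [v, ← hc, h1]
  · exfalso
    rw [hnorm _ h0, hnorm _ h1, one_add_one_eq_two, h2] at hself
    exact zero_ne_one hself

end UnitarySetup

end CfsgLib.SmallDim
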