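import Cfsg.Agent.Lib.SmallDim.UnitaryWreath
import Cfsg.Agent.Lib.SmallDim.Pauli

/-!
Tensor squares of small unitary groups: two planes give a subfield group, and two three-dimensional factors over
the field with four elements give the normaliser of a three-group of symplectic type.
-/

set_option autoImplicit false
set_option linter.style.haveILetI false

namespace CfsgLib.SmallDim

open scoped MatrixGroups Matrix Kronecker
open Cfsg.Geo

variable {F : Type*} [Field F]

section Generic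

variable {ι : Type} [Fintype ι] [DecidableEq ι]

/-- A group spanning the matrix algebra is absolutely irreducible. -/
lemma absIrred_of_span {R : Subgroup (GL ι F)} (hR : Submodule.span F (matrixSet R) = ⊤) :
    ActsAbsolutelyIrreducibly (matrixSet R) := by
  refine ⟨fun W hW => ?_, fun M hM => ?_⟩
  · have hall : ∀ X : Matrix ι ι F, ∀ w ∈ W, X *ᵥ w ∈ W := by
      intro X
      have hX : X ∈ Submodule.span F (matrixSet R) := hR ▸ Submodule.mem_top
      induction hX using Submodule.span_induction with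
      | mem s hs => exact fun w hw => hW s hs ⟨w, hw, Matrix.toLin'_apply s w⟩
      | zero => intro w _; rw [Matrix.zero_mulVec]; exact W.zero_mem
      | add a b _ _ ha hb => intro w hw; rw [Matrix.add_mulVec]; exact W.add_mem (ha w hw) (hb w hw)
      | smul c a _ ha => intro w hw; rw [Matrix.smul_mulVec]; exact W.smul_mem c (ha w hw)
    by_cases hbot : W = ⊥
    · exact Or.inl hbot
    refine Or.inr (eq_top_iff.2 fun v _ => ?_)
    obtain ⟨w, hw, hw0⟩ := (Submodule.ne_bot_iff _).1 hbot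
    obtain ⟨i, hi⟩ : ∃ i, w i ≠ 0 := Function.ne_iff.1 hw0
    have h := hall (Matrix.of fun p q => if q = i then v p / w i else 0) w hw
    convert h using 1
    funext p
    simp [Matrix.mulVec, dotProduct, div_mul_cancel₀ _ hi]
  · have hall : ∀ X : Matrix ι ι F, M * X = X * M := by
      intro X
      have hX : X ∈ Submodule.span F (matrixSet R) := hR ▸ Submodule.mem_top
      induction hX using Submodule.span_induction with
      | mem s hs => exact hM s hs
      | zero => simp
      | add a b _ _ ha hb => rw [mul_add, add_mul, ha, hb]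
      | smul c a _ ha => rw [Matrix.mul_smul, Matrix.smul_mul, ha]
    have h : M ∈ Set.range (Matrix.scalar ι) :=
      Matrix.mem_range_scalar_of_commute_single fun i j _ => (hall (Matrix.single i j 1)).symm
    obtain ⟨c, rfl⟩ := h
    exact ⟨c, by rw [Matrix.smul_one_eq_diagonal]; rfl⟩

/-- Multiplication by a non-zero scalar as an element of the general linear group. -/
def homothetyGL (ι : Type) [Fintype ι] [DecidableEq ι] (c : Fˣ) : GL ι F :=
  Units.map (Matrix.scalar ι : F →+* Matrix ι ι F).toMonoidHom c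

@[simp] lemma homothetyGL_one : homothetyGL ι (1 : Fˣ) = 1 := map_one _

lemma homothetyGL_mul_inv (c : Fˣ) : homothetyGL ι c * homothetyGL ι c⁻¹ = 1 := by
  rw [homothetyGL, homothetyGL, ← map_mul, mul_inv_cancel, map_one]

lemma coe_homothetyGL (c : Fˣ) : (homothetyGL ι c : Matrix ι ι F) = (c : F) • 1 := by
  rw [Matrix.smul_one_eq_diagonal]; rfl

/-- A Kronecker product equal to the identity has scalar factors. -/
lemma kronecker_eq_one {κ : Type} [Fintype κ] [DecidableEq κ] [Nonempty ι] [Nonempty κ] {A : Matrix ι ι F}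
    {B : Matrix κ κ F} (h : A ⊗ₖ B = 1) : ∃ c : F, c ≠ 0 ∧ A = c • 1 ∧ B = c⁻¹ • 1 := by
  obtain ⟨i₀⟩ := (inferInstance : Nonempty ι)
  obtain ⟨k₀⟩ := (inferInstance : Nonempty κ)
  have key : ∀ i j k l, A i j * B k l = if i = j ∧ k = l then 1 else 0 := fun i j k l => by
    have := congrFun (congrFun h (i, k)) (j, l)
    simpa [Matrix.one_apply] using this
  have h00 : A i₀ i₀ * B k₀ k₀ = 1 := by simpa using key i₀ i₀ k₀ k₀
  refine ⟨A i₀ i₀, left_ne_zero_of_mul_eq_one h00, ?_, ?_⟩
  · ext i j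
    have h1 := key i j k₀ k₀
    rcases eq_or_ne i j with rfl | hij
    · simp at h1
      rw [Matrix.smul_apply, Matrix.one_apply_eq, smul_eq_mul, mul_one]
      exact mul_right_cancel₀ (right_ne_zero_of_mul_eq_one h00) (h1.trans h00.symm)
    · simp [hij] at h1
      rw [Matrix.smul_apply, Matrix.one_apply_ne hij, smul_zero]
      exact h1.resolve_right (right_ne_zero_of_mul_eq_one h00)
  · ext k l
    have h1 := key i₀ i₀ k l
    rcases eq_or_ne k l with rfl | hkl
    · simp at h1
      rw [Matrix.smul_apply, Matrix.one_apply_eq, smul_eq_mul, mul_one]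
      exact (eq_inv_of_mul_eq_one_right h1)
    · simp [hkl] at h1
      rw [Matrix.smul_apply, Matrix.one_apply_ne hkl, smul_zero]
      exact h1.resolve_left (left_ne_zero_of_mul_eq_one h00)

end Generic

variable [Fintype F] {n q : ℕ} {σ : F ≃+* F}

namespace UnitarySetup

/-- The factors of a unitary element of a tensor decomposition are unitary up to scalars. -/
lemma kronecker_factors (hu : UnitarySetup n q σ) {n₁ n₂ : ℕ} [NeZero n₁] [NeZero n₂]
    {e : Fin n ≃ Fin n₁ × Fin n₂} {P g : GL (Fin n) F} (hP : P ∈ Cfsg.GU n F q) (hg : g ∈ Cfsg.GU n F q)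
    (hgT : g ∈ tensorProductSubgroup n₁ n₂ e P) :
    ∃ (a : GL (Fin n₁) F) (b : GL (Fin n₂) F) (c : F), g = coordHom e P (kronHom (a, b)) ∧ c ≠ 0 ∧ σ c = c ∧
      (a : Matrix (Fin n₁) (Fin n₁) F)ᵀ * (a : Matrix (Fin n₁) (Fin n₁) F).map σ = c • 1 ∧
      (b : Matrix (Fin n₂) (Fin n₂) F)ᵀ * (b : Matrix (Fin n₂) (Fin n₂) F).map σ = c⁻¹ • 1 := by
  obtain ⟨_, ⟨z, ⟨a, b, hz⟩, rfl⟩, rfl⟩ := hgT
  have hzk : z = kronHom (a, b) := Units.ext hz
  subst hzk
  have hg' : glReindex e.symm (kronHom (a, b)) ∈ Cfsg.GU n F q := by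
    have h := mul_mem (mul_mem (inv_mem hP) hg) hP
    simpa [mul_assoc] using h
  have h1 := hu.transpose_mul hg'
  set A : Matrix (Fin n₁) (Fin n₁) F := (a : Matrix (Fin n₁) (Fin n₁) F)
  set B : Matrix (Fin n₂) (Fin n₂) F := (b : Matrix (Fin n₂) (Fin n₂) F)
  have h2 : ((A ⊗ₖ B).submatrix e e)ᵀ * ((A ⊗ₖ B).submatrix e e).map σ = 1 := h1
  rw [← Matrix.submatrix_map, Matrix.transpose_submatrix, Matrix.submatrix_mul_equiv] at h2
  have h3 : (A ⊗ₖ B)ᵀ * (A ⊗ₖ B).map σ = 1 := by
    have h4 := congrArg (fun X => X.submatrix e.symm e.symm) h2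
    simpa [Matrix.submatrix_submatrix, Matrix.submatrix_one_equiv] using h4
  have h5 : (Aᵀ * A.map σ) ⊗ₖ (Bᵀ * B.map σ) = 1 := by
    rw [Matrix.mul_kronecker_mul, ← h3]
    congr 1
    ext ⟨i, k⟩ ⟨j, l⟩
    simp
  obtain ⟨c, hc, hA, hB⟩ := kronecker_eq_one h5
  refine ⟨a, b, c, rfl, hc, ?_, hA, hB⟩
  have h6 := congrFun (congrFun hA 0) 0
  simp [Matrix.mul_apply] at h6
  rw [← h6, map_sum]
  exact Finset.sum_congr rfl fun l _ => by rw [map_mul, hu.invol, mul_comm]

set_option maxHeartbeats 1000000 in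
/-- Two unitary planes: the tensor product stabiliser lies in a subfield group. -/
theorem tensor_planes_subfield (hu : UnitarySetup n q σ) {e : Fin n ≃ Fin 2 × Fin 2} {P : GL (Fin n) F}
    (hP : P ∈ Cfsg.GU n F q) :
    ∃ (F₀ : Subfield F) (P' : GL (Fin n) F), Fintype.card F = Nat.card F₀ ^ 2 ∧
      IsFormRationalStructure (Cfsg.hermForm n F q) F₀ 1 P' ∧
      (¬ Odd q → ∀ u : Fin n → F, (∀ i, u i ∈ F₀) → Cfsg.hermForm n F q
        ((P' : Matrix (Fin n) (Fin n) F) *ᵥ u) ((P' : Matrix (Fin n) (Fin n) F) *ᵥ u) = 0) ∧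
      tensorProductSubgroup 2 2 e P ⊓ Cfsg.GU n F q ≤ subfieldSubgroup F₀ P' := by
  classical
  obtain ⟨F₀, hF₀, hcard⟩ := hu.exists_fixed
  obtain ⟨θ, hθ⟩ : ∃ θ, σ θ ≠ θ := by
    by_contra h
    push Not at h
    exact hu.isUnitary.ne_refl (RingEquiv.ext h)
  let B : Matrix (Fin 2 × Fin 2) (Fin 2 × Fin 2) F := Matrix.of fun p r =>
    match p, r with
    | (0, 0), (0, 0) => 1
    | (0, 0), (0, 1) => θ
    | (1, 1), (0, 0) => 1
    | (1, 1), (0, 1) => σ θ
    | (0, 1), (1, 0) => 1
    | (0, 1), (1, 1) => θ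
    | (1, 0), (1, 0) => -1
    | (1, 0), (1, 1) => -(σ θ)
    | _, _ => 0
  have hBv : ∀ v : Fin 2 × Fin 2 → F, (B *ᵥ v) (0, 0) = v (0, 0) + θ * v (0, 1) ∧
      (B *ᵥ v) (1, 1) = v (0, 0) + σ θ * v (0, 1) ∧ (B *ᵥ v) (0, 1) = v (1, 0) + θ * v (1, 1) ∧
      (B *ᵥ v) (1, 0) = -(v (1, 0) + σ θ * v (1, 1)) := by
    intro v
    refine ⟨?_, ?_, ?_, ?_⟩ <;>
      simp [B, Matrix.mulVec, dotProduct, Fintype.sum_prod_type, Fin.sum_univ_two]
    ring
  have hBdet : B.det ≠ 0 := by
    intro h0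
    obtain ⟨v, hv0, hv⟩ := Matrix.exists_mulVec_eq_zero_iff.2 h0
    obtain ⟨e1, e2, e3, e4⟩ := hBv v
    rw [hv, Pi.zero_apply] at e1 e2 e3 e4
    have hne : θ - σ θ ≠ 0 := sub_ne_zero.2 (Ne.symm hθ)
    have a1 : v (0, 1) = 0 := (mul_eq_zero.1 (show (θ - σ θ) * v (0, 1) = 0 by linear_combination e2 - e1)).resolve_left hne
    have a3 : v (1, 1) = 0 := (mul_eq_zero.1 (show (θ - σ θ) * v (1, 1) = 0 by linear_combination -e3 - e4)).resolve_left hne
    rw [a1, mul_zero, add_zero] at e1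
    rw [a3, mul_zero, add_zero] at e3
    apply hv0
    funext p
    obtain ⟨i, j⟩ := p
    fin_cases i <;> fin_cases j <;> simp [a1, a3, ← e1, ← e3]
  let J : Matrix (Fin 2) (Fin 2) F := !![0, 1; -1, 0]
  let K : Matrix (Fin 2 × Fin 2) (Fin 2 × Fin 2) F := J ⊗ₖ J
  have hKB : B.map σ = K * B := by
    ext ⟨i, j⟩ ⟨k, l⟩
    fin_cases i <;> fin_cases j <;> fin_cases k <;> fin_cases l <;>
      simp [B, K, J, Matrix.mul_apply, Fintype.sum_prod_type, Fin.sum_univ_two, hu.invol]
  have hKK : K * K = 1 := by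
    rw [← Matrix.mul_kronecker_mul]
    ext ⟨i, j⟩ ⟨k, l⟩
    fin_cases i <;> fin_cases j <;> fin_cases k <;> fin_cases l <;>
      simp [J, Matrix.mul_apply, Fin.sum_univ_two]
  let Bg : GL (Fin 2 × Fin 2) F := Matrix.GeneralLinearGroup.mkOfDetNeZero B hBdet
  refine ⟨F₀, P * glReindex e.symm Bg, by rw [hu.card, hcard], ?_⟩
  have hh : ∀ u v : Fin n → F, (∀ i, u i ∈ F₀) → (∀ i, v i ∈ F₀) →
      Cfsg.hermForm n F q (((P * glReindex e.symm Bg : GL (Fin n) F) : Matrix (Fin n) (Fin n) F) *ᵥ u)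
        (((P * glReindex e.symm Bg : GL (Fin n) F) : Matrix (Fin n) (Fin n) F) *ᵥ v) =
      (B *ᵥ (u ∘ e.symm)) (0, 0) * (B *ᵥ (v ∘ e.symm)) (1, 1) +
      (B *ᵥ (u ∘ e.symm)) (1, 1) * (B *ᵥ (v ∘ e.symm)) (0, 0) -
      (B *ᵥ (u ∘ e.symm)) (0, 1) * (B *ᵥ (v ∘ e.symm)) (1, 0) -
      (B *ᵥ (u ∘ e.symm)) (1, 0) * (B *ᵥ (v ∘ e.symm)) (0, 1) := by
    intro u v _ hv
    rw [Units.val_mul, ← Matrix.mulVec_mulVec, ← Matrix.mulVec_mulVec]
    show Cfsg.hermForm n F q (act P _) (act P _) = _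
    rw [mem_GU.1 hP, hu.herm_eq]
    have hre : ∀ w : Fin n → F, (glReindex e.symm Bg : Matrix (Fin n) (Fin n) F) *ᵥ w = (B *ᵥ (w ∘ e.symm)) ∘ e :=
      fun w => Matrix.submatrix_mulVec_equiv B w e e
    rw [hre, hre, dotProduct, ← Equiv.sum_comp e.symm, Fintype.sum_prod_type]
    simp only [Fin.sum_univ_two, Function.comp_apply, Equiv.apply_symm_apply]
    obtain ⟨b1, b2, b3, b4⟩ := hBv (v ∘ e.symm)
    have hr : ∀ p, σ ((v ∘ e.symm) p) = (v ∘ e.symm) p := fun p => (hF₀ _).1 (hv _)
    rw [show σ ((B *ᵥ (v ∘ e.symm)) (0, 0)) = (B *ᵥ (v ∘ e.symm)) (1, 1) by rw [b1, b2, map_add, map_mul, hr, hr],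
      show σ ((B *ᵥ (v ∘ e.symm)) (1, 1)) = (B *ᵥ (v ∘ e.symm)) (0, 0) by
        rw [b1, b2, map_add, map_mul, hr, hr, hu.invol],
      show σ ((B *ᵥ (v ∘ e.symm)) (0, 1)) = -(B *ᵥ (v ∘ e.symm)) (1, 0) by
        rw [b3, b4, map_add, map_mul, hr, hr, neg_neg],
      show σ ((B *ᵥ (v ∘ e.symm)) (1, 0)) = -(B *ᵥ (v ∘ e.symm)) (0, 1) by
        rw [b3, b4, map_neg, map_add, map_mul, hr, hr, hu.invol]]
    ring
  refine ⟨fun u v hu' hv => ?_, fun hodd u hu' => ?_, ?_⟩
  · rw [one_mul, hh u v hu' hv, hF₀]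
    obtain ⟨a1, a2, a3, a4⟩ := hBv (u ∘ e.symm)
    obtain ⟨b1, b2, b3, b4⟩ := hBv (v ∘ e.symm)
    have hr : ∀ (w : Fin n → F), (∀ i, w i ∈ F₀) → ∀ p, σ (w (e.symm p)) = w (e.symm p) :=
      fun w hw p => (hF₀ _).1 (hw _)
    rw [a1, a2, a3, a4, b1, b2, b3, b4]
    simp only [Function.comp_apply, map_sub, map_add, map_mul, map_neg, hr u hu', hr v hv, hu.invol]
    ring
  · rw [hh u u hu' hu']
    have h2 : (2 : F) = 0 := hu.two_eq_zero_iff.2 hodd
    linear_combination ((B *ᵥ (u ∘ e.symm)) (0, 0) * (B *ᵥ (u ∘ e.symm)) (1, 1) -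
      (B *ᵥ (u ∘ e.symm)) (0, 1) * (B *ᵥ (u ∘ e.symm)) (1, 0)) * h2
  rintro g ⟨hgT, hgU⟩
  obtain ⟨a, b, c, rfl, hc, hσc, ha, hb⟩ := hu.kronecker_factors hP hgU hgT
  set A : Matrix (Fin 2) (Fin 2) F := (a : Matrix (Fin 2) (Fin 2) F)
  set C : Matrix (Fin 2) (Fin 2) F := (b : Matrix (Fin 2) (Fin 2) F)
  have hdA : A.det ≠ 0 := (Matrix.GeneralLinearGroup.det a).ne_zero
  have hdC : C.det ≠ 0 := (Matrix.GeneralLinearGroup.det b).ne_zero
  have key : ∀ (X : Matrix (Fin 2) (Fin 2) F) (d : F), X.det ≠ 0 → Xᵀ * X.map σ = d • 1 →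
      X.det • (X.map σ * J) = d • (J * X) ∧ X.det * σ X.det = d ^ 2 := by
    intro X d hX hd
    have hJ : Xᵀ * (J * X) = X.det • J := by
      ext i j
      fin_cases i <;> fin_cases j <;>
        simp [J, Matrix.mul_apply, Fin.sum_univ_two, Matrix.det_fin_two, Matrix.vecMul, dotProduct] <;> ring
    refine ⟨?_, ?_⟩
    · have hXT : IsUnit Xᵀ.det := by rw [Matrix.det_transpose]; exact isUnit_iff_ne_zero.2 hX
      have h1 : Xᵀ * (X.det • (X.map σ * J)) = Xᵀ * (d • (J * X)) := by
        rw [Matrix.mul_smul, Matrix.mul_smul, ← Matrix.mul_assoc, hd, hJ, Matrix.smul_mul, Matrix.one_mul,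
          smul_comm]
      have h2 := congrArg (fun Y => Xᵀ⁻¹ * Y) h1
      simp only [Matrix.nonsing_inv_mul_cancel_left _ _ hXT] at h2
      exact h2
    · have h1 := congrArg Matrix.det hd
      rw [Matrix.det_mul, Matrix.det_transpose, Matrix.det_smul, Matrix.det_one, mul_one, Fintype.card_fin] at h1
      rw [← h1]
      congr 1
      exact RingEquiv.map_det σ X
  obtain ⟨kA, nA⟩ := key A c hdA ha
  obtain ⟨kC, nC⟩ := key C c⁻¹ hdC hb
  set z : Matrix (Fin 2 × Fin 2) (Fin 2 × Fin 2) F := A ⊗ₖ C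
  have hzK : (A.det * C.det) • (z.map σ * K) = K * z := by
    have hmap : z.map σ = A.map σ ⊗ₖ C.map σ := by
      ext ⟨i, k⟩ ⟨j, l⟩
      simp [z]
    rw [hmap, ← Matrix.mul_kronecker_mul, ← smul_smul, ← Matrix.kronecker_smul, kC, ← Matrix.smul_kronecker, kA,
      Matrix.smul_kronecker, Matrix.kronecker_smul, smul_smul, mul_inv_cancel₀ hc, one_smul,
      Matrix.mul_kronecker_mul]
  set D := A.det * C.det with hDdef
  have hD : D ≠ 0 := mul_ne_zero hdA hdC
  have hDn : D⁻¹ * σ D⁻¹ = 1 := by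
    rw [map_inv₀, ← mul_inv, hDdef, map_mul, show A.det * C.det * (σ A.det * σ C.det) =
      (A.det * σ A.det) * (C.det * σ C.det) by ring, nA, nC, inv_pow, mul_inv_cancel₀ (pow_ne_zero 2 hc), inv_one]
  obtain ⟨μ, hμ0, hμ⟩ := exists_ratio σ hu.isUnitary.ne_refl hu.invol hDn
  have hfix : (μ • z).map σ * K = K * (μ • z) := by
    rw [show (μ • z).map σ = σ μ • z.map σ from Matrix.ext fun i j => by simp, Matrix.smul_mul, Matrix.mul_smul,
      ← hzK, smul_smul]
    congr 1
    have : σ μ = μ * D := (mul_inv_eq_iff_eq_mul₀ hD).1 hμ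
    exact this
  let μu : Fˣ := Units.mk0 μ hμ0
  let w : GL (Fin 2 × Fin 2) F := homothetyGL (Fin 2 × Fin 2) μu * kronHom (a, b)
  have hw : (w : Matrix (Fin 2 × Fin 2) (Fin 2 × Fin 2) F) = μ • z := by
    simp [w, μu, z, A, C, coe_homothetyGL]
  let A' : GL (Fin 2 × Fin 2) F := Bg⁻¹ * w * Bg
  have hA' : ∀ p r, (A' : Matrix (Fin 2 × Fin 2) (Fin 2 × Fin 2) F) p r ∈ F₀ := by
    have h1 : B * (A' : Matrix _ _ F) = (μ • z) * B := by
      have h0 : Bg * A' = w * Bg := by simp [A', mul_assoc]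
      rw [← hw]
      exact congrArg Units.val h0
    have h2 : B.map σ * (A' : Matrix _ _ F).map σ = (μ • z).map σ * B.map σ := by
      rw [← Matrix.map_mul, h1, Matrix.map_mul]
    rw [hKB, ← Matrix.mul_assoc ((μ • z).map σ), hfix, Matrix.mul_assoc K (μ • z) B, ← h1, Matrix.mul_assoc] at h2
    have h3 := congrArg (fun Y => B⁻¹ * (K * Y)) h2
    simp only [← Matrix.mul_assoc] at h3
    rw [Matrix.mul_assoc B⁻¹ K K, hKK, Matrix.mul_one,
      Matrix.nonsing_inv_mul _ (isUnit_iff_ne_zero.2 hBdet), Matrix.one_mul, Matrix.one_mul] at h3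
    intro p r
    rw [hF₀]
    exact congrFun (congrFun h3 p) r
  have hglr : glReindex e.symm A' ∈ (Matrix.GeneralLinearGroup.map (F₀.subtype : F₀ →+* F)).range :=
    mem_map_range fun i j => hA' _ _
  rw [mem_subfieldSubgroup]
  refine ⟨glReindex e.symm A', glReindex e.symm (homothetyGL (Fin 2 × Fin 2) μu⁻¹), fun i j => hA' _ _,
    (mem_scalars_iff _).2 ⟨μu⁻¹, by
      ext i j
      show (homothetyGL (Fin 2 × Fin 2) μu⁻¹ : Matrix (Fin 2 × Fin 2) (Fin 2 × Fin 2) F) (e i) (e j) = _
      simp [coe_homothetyGL, Matrix.one_apply]⟩, ?_⟩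
  have hcomm : kronHom (a, b) = w * homothetyGL (Fin 2 × Fin 2) μu⁻¹ := by
    apply Units.ext
    rw [Units.val_mul, hw]
    simp [μu, z, A, C, coe_homothetyGL, smul_smul, inv_mul_cancel₀ hμ0, mul_inv_cancel₀ hμ0]
  have hw' : w = Bg * A' * Bg⁻¹ := by simp [A', mul_assoc]
  have hsc : Bg⁻¹ * homothetyGL (Fin 2 × Fin 2) μu⁻¹ = homothetyGL (Fin 2 × Fin 2) μu⁻¹ * Bg⁻¹ :=
    (scalars_commute ⟨μu⁻¹, rfl⟩ Bg⁻¹).symm
  rw [coordHom_apply, hcomm, hw', mul_assoc (Bg * A'), hsc]
  simp [map_mul, map_inv, mul_assoc]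

end UnitarySetup

section CubeFrame

/-- Matrices of determinant one supported on a cyclic diagonal. -/
def cubeFrame (F : Type*) [Field F] : Subgroup (GL (Fin 3) F) where
  carrier := {g | (g : Matrix (Fin 3) (Fin 3) F).det = 1 ∧
    ∃ k : Fin 3, ∀ i j, i ≠ j + k → (g : Matrix (Fin 3) (Fin 3) F) i j = 0}
  mul_mem' {x y} := by
    rintro ⟨hx, k, hxk⟩ ⟨hy, l, hyl⟩
    refine ⟨by rw [Units.val_mul, Matrix.det_mul, hx, hy, one_mul], k + l, fun i j hij => ?_⟩
    rw [Units.val_mul, Matrix.mul_apply]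
    refine Finset.sum_eq_zero fun r _ => ?_
    by_cases hr : r = j + l
    · subst hr
      rw [hxk i (j + l) (by rwa [add_assoc, add_comm l k]), zero_mul]
    · rw [hyl r j hr, mul_zero]
  one_mem' := ⟨by simp, 0, fun i j hij => by rw [Units.val_one, Matrix.one_apply_ne (by simpa using hij)]⟩
  inv_mem' {x} := by
    rintro ⟨hx, k, hxk⟩
    refine ⟨by rw [Matrix.coe_units_inv, Matrix.det_nonsing_inv, hx, Ring.inverse_one], -k, fun i j hij => ?_⟩
    have hrow : ∀ r s, (x : Matrix (Fin 3) (Fin 3) F) r (r - k) *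
        ((x⁻¹ : GL (Fin 3) F) : Matrix (Fin 3) (Fin 3) F) (r - k) s = if r = s then 1 else 0 := by
      intro r s
      rw [← Matrix.one_apply, ← Units.val_one, ← mul_inv_cancel x, Units.val_mul, Matrix.mul_apply,
        Finset.sum_eq_single (r - k)]
      · intro l _ hl
        rw [hxk r l (fun h => hl (by rw [h, add_sub_cancel_right])), zero_mul]
      · exact fun h => absurd (Finset.mem_univ _) h
    have h0 := hrow (i + k) j
    rw [add_sub_cancel_right, if_neg (fun h => hij (by rw [← h, add_neg_cancel_right]))] at h0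
    have h1 := hrow (i + k) (i + k)
    rw [add_sub_cancel_right, if_pos rfl] at h1
    exact (mul_eq_zero.1 h0).resolve_left (left_ne_zero_of_mul_eq_one h1)

omit [Fintype F] in
/-- The entries of an element of the frame group. -/
lemma cubeFrame_entries {g : GL (Fin 3) F} (hg : g ∈ cubeFrame F) :
    ∃ (k : Fin 3) (a : Fin 3 → F), a 0 * a 1 * a 2 = 1 ∧
      (g : Matrix (Fin 3) (Fin 3) F) = Matrix.of fun i j => if i = j + k then a j else 0 := by
  obtain ⟨hd, k, hk⟩ := hg
  have hM : (g : Matrix (Fin 3) (Fin 3) F) =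
      Matrix.of fun i j => if i = j + k then (g : Matrix (Fin 3) (Fin 3) F) (j + k) j else 0 := by
    ext i j
    rw [Matrix.of_apply]
    split_ifs with h
    · rw [h]
    · exact hk i j h
  refine ⟨k, fun j => (g : Matrix (Fin 3) (Fin 3) F) (j + k) j, ?_, hM⟩
  rw [hM, Matrix.det_fin_three] at hd
  fin_cases k <;> simp at hd ⊢ <;> linear_combination hd

lemma cube_eq_one {σ : F ≃+* F} {n : ℕ} (hu : UnitarySetup n 2 σ) {x : F} (hx : x ≠ 0) : x ^ 3 = 1 := by
  have h := FiniteField.pow_card_sub_one_eq_one x hx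
  rwa [hu.card, show 2 ^ 2 - 1 = 3 from rfl] at h

lemma card_units_four {σ : F ≃+* F} {n : ℕ} (hu : UnitarySetup n 2 σ) : Nat.card Fˣ = 3 := by
  rw [Nat.card_units, Nat.card_eq_fintype_card, hu.card]
  norm_num

/-- The frame group is the set of unitary matrices of determinant one which are scalar or traceless. -/
lemma mem_cubeFrame_iff (hu : UnitarySetup 3 2 σ) {g : GL (Fin 3) F} :
    g ∈ cubeFrame F ↔ g ∈ Cfsg.GU 3 F 2 ∧ (g : Matrix (Fin 3) (Fin 3) F).det = 1 ∧
      (g ∈ scalars (Fin 3) F ∨ (g : Matrix (Fin 3) (Fin 3) F).trace = 0) := by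
  classical
  have h2 : (2 : F) = 0 := hu.two_eq_zero_iff.2 (by decide)
  constructor
  · intro hg
    obtain ⟨k, a, ha, hM⟩ := cubeFrame_entries hg
    have ha0 : ∀ j, a j ≠ 0 := by
      intro j h0
      fin_cases j <;> simp at h0 <;> simp [h0] at ha
    refine ⟨hu.mem_GU_iff.2 ?_, hg.1, ?_⟩
    · rw [hM]
      ext i j
      rw [Matrix.mul_apply, Finset.sum_eq_single (i + k)]
      · by_cases hij : i = j
        · subst hij
          simp [hu.pow, ← pow_succ', cube_eq_one hu (ha0 i)]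
        · simp [Matrix.one_apply_ne hij, show ¬ i + k = j + k from fun h => hij (add_right_cancel h)]
      · intro l _ hl
        simp [hl]
      · exact fun h => absurd (Finset.mem_univ _) h
    · fin_cases k
      · by_cases hab : a 0 = a 1
        · refine Or.inl ((mem_scalars_iff g).2 ⟨Units.mk0 (a 0) (ha0 0), ?_⟩)
          have hc : a 2 = a 0 := by
            have h3 := cube_eq_one hu (ha0 0)
            rw [← hab] at ha
            linear_combination a 0 * ha - a 2 * h3
          rw [hM]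
          ext i j
          fin_cases i <;> fin_cases j <;> simp [hc, ← hab]
        · refine Or.inr ?_
          have h30 := cube_eq_one hu (ha0 0)
          have h31 := cube_eq_one hu (ha0 1)
          have hq : a 0 ^ 2 + a 0 * a 1 + a 1 ^ 2 = 0 := (mul_eq_zero.1
            (show (a 0 - a 1) * (a 0 ^ 2 + a 0 * a 1 + a 1 ^ 2) = 0 by linear_combination h30 - h31)).resolve_left
              (sub_ne_zero.2 hab)
          rw [hM, Matrix.trace_fin_three]
          simp
          refine (mul_eq_zero.1 (show (a 0 * a 1) * (a 0 + a 1 + a 2) = 0 from ?_)).resolve_left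
            (mul_ne_zero (ha0 0) (ha0 1))
          linear_combination a 0 * hq + ha - h30 + 0 * h2
      all_goals
        refine Or.inr ?_
        rw [hM, Matrix.trace_fin_three]
        simp
  · rintro ⟨hgU, hdet, hcases⟩
    refine ⟨hdet, ?_⟩
    rcases hcases with hs | htr
    · obtain ⟨c, hc⟩ := (mem_scalars_iff g).1 hs
      exact ⟨0, fun i j hij => by rw [hc]; simp [show i ≠ j by simpa using hij]⟩
    set M : Matrix (Fin 3) (Fin 3) F := (g : Matrix (Fin 3) (Fin 3) F)
    have hcol : ∀ j l, ∑ i, M i j * M i l ^ 2 = if j = l then 1 else 0 := by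
      intro j l
      have h := congrFun (congrFun (hu.transpose_mul hgU) j) l
      simpa [Matrix.mul_apply, hu.pow, Matrix.one_apply] using h
    by_cases hall : ∀ i j, M i j ≠ 0
    · exfalso
      have hinv : (M.map σ)ᵀ = M.adjugate := by
        rw [← Matrix.inv_eq_left_inv (hu.map_transpose_mul hgU), ← Matrix.inv_eq_left_inv (show M.adjugate * M = 1 by
          rw [Matrix.adjugate_mul, hdet, one_smul])]
      have h00 := congrFun (congrFun hinv 0) 0
      simp [Matrix.adjugate_fin_three, hu.pow] at h00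
      rw [Matrix.trace_fin_three] at htr
      have hne : M 1 1 - M 2 2 ≠ 0 := by
        intro h
        exact hall 0 0 (by linear_combination htr + h - M 1 1 * h2)
      have hq : M 1 1 ^ 2 + M 1 1 * M 2 2 + M 2 2 ^ 2 = 0 := (mul_eq_zero.1
        (show (M 1 1 - M 2 2) * (M 1 1 ^ 2 + M 1 1 * M 2 2 + M 2 2 ^ 2) = 0 by
          linear_combination cube_eq_one hu (hall 1 1) - cube_eq_one hu (hall 2 2))).resolve_left hne
      refine mul_ne_zero (hall 1 2) (hall 2 1) ?_
      linear_combination h00 - (M 0 0 - M 1 1 - M 2 2) * htr - hq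
    · push Not at hall
      obtain ⟨i₀, j₀, h0⟩ := hall
      have hw : ∀ j, (∃ i, M i j = 0) → ∃ r, M r j ≠ 0 ∧ ∀ i, i ≠ r → M i j = 0 := by
        rintro j ⟨i, hi⟩
        have h := hcol j j
        rw [if_pos rfl, Fin.sum_univ_three] at h
        simp only [← pow_succ'] at h
        have hc : ∀ x : F, x ^ 3 = if x = 0 then 0 else 1 := fun x => by
          split_ifs with hx
          · simp [hx]
          · exact cube_eq_one hu hx
        by_cases e0 : M 0 j = 0 <;> by_cases e1 : M 1 j = 0 <;> by_cases e2 : M 2 j = 0 <;>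
          simp [hc, e0, e1, e2] at h
        all_goals first
          | (fin_cases i <;> simp_all; done)
          | exact ⟨2, e2, fun r hr => by fin_cases r <;> simp_all⟩
          | exact ⟨1, e1, fun r hr => by fin_cases r <;> simp_all⟩
          | exact ⟨0, e0, fun r hr => by fin_cases r <;> simp_all⟩
      obtain ⟨r₀, hr₀, hr₀'⟩ := hw j₀ ⟨i₀, h0⟩
      have hw' : ∀ j, ∃ r, M r j ≠ 0 ∧ ∀ i, i ≠ r → M i j = 0 := by
        intro j
        rcases eq_or_ne j j₀ with rfl | hj
        · exact ⟨r₀, hr₀, hr₀'⟩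
        refine hw j ⟨r₀, ?_⟩
        have h := hcol j j₀
        rw [if_neg hj, Finset.sum_eq_single r₀ (fun i _ hi => by rw [hr₀' i hi]; simp)
          (fun h => absurd (Finset.mem_univ _) h)] at h
        exact (mul_eq_zero.1 h).resolve_right (pow_ne_zero 2 hr₀)
      choose f hf hf' using hw'
      have hinj : Function.Injective f := by
        intro j l hjl
        by_contra hne
        have h := hcol j l
        rw [if_neg hne, Finset.sum_eq_single (f j) (fun i _ hi => by rw [hf' j i hi]; simp)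
          (fun h => absurd (Finset.mem_univ _) h)] at h
        exact (mul_ne_zero (hf j) (pow_ne_zero 2 (hjl ▸ hf l))) h
      have hcase : ∀ f : Fin 3 → Fin 3, Function.Injective f →
          (∃ k, ∀ j, f j = j + k) ∨ ∃ i, f i = i ∧ ∀ j, j ≠ i → f j ≠ j := by decide
      rcases hcase f hinj with ⟨k, hk⟩ | ⟨i, hi, hi'⟩
      · exact ⟨k, fun a b hab => hf' b a (by rwa [hk b])⟩
      · exfalso
        change ∑ l, M l l = 0 at htr
        rw [Finset.sum_eq_single i (fun j _ hj => hf' j j (Ne.symm (hi' j hj)))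
          (fun h => absurd (Finset.mem_univ _) h)] at htr
        exact hf i (by rwa [hi])

lemma cubeFrame_le_GU (hu : UnitarySetup 3 2 σ) : cubeFrame F ≤ Cfsg.GU 3 F 2 :=
  fun _ hg => ((mem_cubeFrame_iff hu).1 hg).1

/-- The frame group is normalised by the unitary group. -/
lemma cubeFrame_conj (hu : UnitarySetup 3 2 σ) {z g : GL (Fin 3) F} (hz : z ∈ Cfsg.GU 3 F 2)
    (hg : g ∈ cubeFrame F) : z * g * z⁻¹ ∈ cubeFrame F := by
  obtain ⟨hU, hd, hc⟩ := (mem_cubeFrame_iff hu).1 hg
  refine (mem_cubeFrame_iff hu).2 ⟨mul_mem (mul_mem hz hU) (inv_mem hz), ?_, ?_⟩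
  · rw [Units.val_mul, Units.val_mul, Matrix.det_units_conj, hd]
  · rcases hc with h | h
    · exact Or.inl (scalars_normal.conj_mem g h z)
    · right
      rw [Units.val_mul, Units.val_mul, Matrix.trace_units_conj, h]

lemma cubeFrame_pow_three (hu : UnitarySetup 3 2 σ) {g : GL (Fin 3) F} (hg : g ∈ cubeFrame F) : g ^ 3 = 1 := by
  obtain ⟨k, a, ha, hM⟩ := cubeFrame_entries hg
  have ha0 : ∀ j, a j ≠ 0 := by
    intro j h0
    fin_cases j <;> simp at h0 <;> simp [h0] at ha
  apply Units.ext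
  rw [Units.val_pow_eq_pow_val, hM, pow_succ, sq, Units.val_one]
  ext i j
  have h30 := cube_eq_one hu (ha0 0)
  have h31 := cube_eq_one hu (ha0 1)
  have h32 := cube_eq_one hu (ha0 2)
  fin_cases k <;> fin_cases i <;> fin_cases j <;> simp [Matrix.mul_apply, Fin.sum_univ_three] <;>
    first
      | linear_combination ha
      | linear_combination h30
      | linear_combination h31
      | linear_combination h32

/-- A primitive cube root of unity in the field with four elements. -/
lemma exists_omega (hu : UnitarySetup 3 2 σ) : ∃ w : F, w ≠ 0 ∧ w ≠ 1 ∧ w ^ 2 + w + 1 = 0 := by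
  classical
  obtain ⟨w, -, hw⟩ := Finset.exists_mem_notMem_of_card_lt_card (s := ({0, 1} : Finset F)) (t := Finset.univ)
    (by rw [Finset.card_univ, hu.card]; exact lt_of_le_of_lt (Finset.card_le_two) (by norm_num))
  simp at hw
  refine ⟨w, hw.1, hw.2, ?_⟩
  exact (mul_eq_zero.1 (show (w - 1) * (w ^ 2 + w + 1) = 0 by
    linear_combination cube_eq_one hu hw.1)).resolve_left (sub_ne_zero.2 hw.2)

/-- A non-scalar element of the frame group does not commute with some unitary conjugate. -/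
lemma cubeFrame_moved (hu : UnitarySetup 3 2 σ) {x : GL (Fin 3) F} (hx : x ∈ cubeFrame F)
    (hxs : x ∉ scalars (Fin 3) F) : ∃ z ∈ Cfsg.GU 3 F 2, z * x * z⁻¹ * x ≠ x * (z * x * z⁻¹) := by
  classical
  obtain ⟨w, hw0, hw1, hw⟩ := exists_omega hu
  have hw3 : w ^ 3 = 1 := cube_eq_one hu hw0
  have h2 : (2 : F) = 0 := hu.two_eq_zero_iff.2 (by decide)
  obtain ⟨k, a, ha, hM⟩ := cubeFrame_entries hx
  have ha0 : ∀ j, a j ≠ 0 := by
    intro j h0
    fin_cases j <;> simp at h0 <;> simp [h0] at ha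
  by_cases hk : k = 0
  · subst hk
    have hneq : a 0 ≠ a 1 ∧ a 0 ≠ a 2 ∧ a 1 ≠ a 2 := by
      have htr : a 0 + a 1 + a 2 = 0 := by
        have h := ((mem_cubeFrame_iff hu).1 hx).2.2.resolve_left hxs
        rw [hM, Matrix.trace_fin_three] at h
        simpa using h
      refine ⟨fun h => ha0 2 ?_, fun h => ha0 1 ?_, fun h => ha0 0 ?_⟩ <;>
        rw [h] at htr <;>
        first
          | linear_combination htr - a 1 * h2
          | linear_combination htr - a 2 * h2
    let W : Matrix (Fin 3) (Fin 3) F := !![1, 1, 1; 1, w, w ^ 2; 1, w ^ 2, w]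
    have hW : Wᵀ * W.map σ = 1 := by
      ext i j
      fin_cases i <;> fin_cases j <;> simp [W, Matrix.mul_apply, Fin.sum_univ_three, hu.pow] <;>
        first
          | linear_combination h2
          | linear_combination hw
          | linear_combination hw + w * hw3
          | linear_combination (w ^ 3 + 2) * hw3 + h2
          | linear_combination hw + (w ^ 2 + w) * hw3
    have hWd : W.det ≠ 0 := fun h0 => by
      have := congrArg Matrix.det hW
      rw [Matrix.det_mul, Matrix.det_transpose, h0, zero_mul, Matrix.det_one] at this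
      exact zero_ne_one this
    let z := Matrix.GeneralLinearGroup.mkOfDetNeZero W hWd
    refine ⟨z, hu.mem_GU_iff.2 hW, fun hcomm => hneq.1 ?_⟩
    obtain ⟨l, b, -, hY⟩ := cubeFrame_entries (cubeFrame_conj hu (z := z) (hu.mem_GU_iff.2 hW) hx)
    set y := z * x * z⁻¹ with hy
    have hb0 : b 0 ≠ 0 := by
      intro h0
      have hd : (y : Matrix (Fin 3) (Fin 3) F).det ≠ 0 := (Matrix.GeneralLinearGroup.det y).ne_zero
      apply hd
      apply Matrix.det_eq_zero_of_column_eq_zero 0
      intro i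
      rw [hY]
      simp [h0]
    have hl : l = 0 := by
      have h := congrArg (fun g : GL (Fin 3) F => (g : Matrix (Fin 3) (Fin 3) F) l 0) hcomm
      simp only [Units.val_mul] at h
      rw [hM, hY] at h
      fin_cases l <;> simp [Matrix.mul_apply, Fin.sum_univ_three, hb0] at h ⊢
      · exact hneq.1 (mul_left_cancel₀ hb0 (by linear_combination h))
      · exact hneq.2.1 (mul_left_cancel₀ hb0 (by linear_combination h))
    subst hl
    have h := congrArg (fun g : GL (Fin 3) F => (g : Matrix (Fin 3) (Fin 3) F))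
      (show y * z = z * x by rw [hy, inv_mul_cancel_right])
    simp only [Units.val_mul] at h
    rw [hM, hY, show (z : Matrix (Fin 3) (Fin 3) F) = W from rfl] at h
    have h00 := congrFun (congrFun h 0) 0
    have h01 := congrFun (congrFun h 0) 1
    simp [W, Matrix.mul_apply, Fin.sum_univ_three] at h00 h01
    rw [← h00, h01]
  · let d : Fin 3 → F := fun i => if i = 2 then w else 1
    have hd0 : ∀ i, d i ≠ 0 := fun i => by simp only [d]; split_ifs <;> simp [hw0]
    let z : GL (Fin 3) F := Matrix.GeneralLinearGroup.mkOfDetNeZero (Matrix.diagonal d)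
      (by rw [Matrix.det_diagonal]; exact Finset.prod_ne_zero_iff.2 fun i _ => hd0 i)
    refine ⟨z, hu.mem_GU_iff.2 ?_, fun hcomm => ?_⟩
    · show (Matrix.diagonal d)ᵀ * (Matrix.diagonal d).map σ = 1
      rw [Matrix.diagonal_transpose, Matrix.diagonal_map (map_zero σ), Matrix.diagonal_mul_diagonal]
      refine Matrix.diagonal_eq_one.2 ?_
      funext i
      simp only [Pi.one_apply, Function.comp_apply, hu.pow, ← pow_succ']
      exact cube_eq_one hu (hd0 i)
    set y := z * x * z⁻¹ with hy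
    have hyz : ∀ i j, (y : Matrix (Fin 3) (Fin 3) F) i j * d j = d i * (x : Matrix (Fin 3) (Fin 3) F) i j := by
      intro i j
      have h := congrArg (fun g : GL (Fin 3) F => (g : Matrix (Fin 3) (Fin 3) F) i j)
        (show y * z = z * x by rw [hy, inv_mul_cancel_right])
      simpa [z, Matrix.mul_diagonal, Matrix.diagonal_mul] using h
    have hy' : (y : Matrix (Fin 3) (Fin 3) F) = Matrix.of fun i j => if i = j + k then d i * a j / d j else 0 := by
      ext i j
      have h := hyz i j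
      rw [hM, Matrix.of_apply] at h
      rw [Matrix.of_apply]
      split_ifs with hij
      · rw [if_pos hij] at h
        rw [eq_div_iff (hd0 j), h]
      · rw [if_neg hij, mul_zero] at h
        exact (mul_eq_zero.1 h).resolve_right (hd0 j)
    have h := congrArg (fun g : GL (Fin 3) F => (g : Matrix (Fin 3) (Fin 3) F) (2 + k) (2 - k)) hcomm
    simp only [Units.val_mul] at h
    rw [hy', hM] at h
    have hw2 : w ^ 2 ≠ 1 := fun h => hw1 (by linear_combination hw3 - w * h)
    have hprod : ∀ i j, a i * a j ≠ 0 := fun i j => mul_ne_zero (ha0 i) (ha0 j)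
    fin_cases k
    · exact hk rfl
    all_goals
      simp [d, Matrix.mul_apply, Fin.sum_univ_three] at h
      field_simp at h
      apply hw2
      first
        | exact mul_left_cancel₀ (hprod 1 2) (by linear_combination h)
        | exact mul_left_cancel₀ (hprod 1 2) (by linear_combination -h)
        | exact mul_left_cancel₀ (hprod 0 2) (by linear_combination h)
        | exact mul_left_cancel₀ (hprod 0 2) (by linear_combination -h)

lemma scalar_mem_cubeFrame (hu : UnitarySetup 3 2 σ) (c : Fˣ) : homothetyGL (Fin 3) c ∈ cubeFrame F :=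
  ⟨by rw [coe_homothetyGL, Matrix.det_smul, Matrix.det_one, mul_one, Fintype.card_fin, cube_eq_one hu c.ne_zero],
    0, fun i j hij => by rw [coe_homothetyGL]; simp [show i ≠ j by simpa using hij]⟩

lemma card_cubeFrame (hu : UnitarySetup 3 2 σ) : Nat.card (cubeFrame F) = 27 := by
  classical
  let mk : Fin 3 × Fˣ × Fˣ → cubeFrame F := fun t =>
    let M : Matrix (Fin 3) (Fin 3) F := Matrix.of fun i j =>
      if i = j + t.1 then (![(t.2.1 : F), (t.2.2 : F), ((t.2.1 * t.2.2)⁻¹ : Fˣ)] j) else 0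
    have hd : M.det = 1 := by
      obtain ⟨k, u, v⟩ := t
      fin_cases k <;> simp [M, Matrix.det_fin_three] <;> field_simp
    ⟨Matrix.GeneralLinearGroup.mkOfDetNeZero M (by rw [hd]; exact one_ne_zero),
      hd, t.1, fun i j hij => by simp [M, hij]⟩
  have hbij : Function.Bijective mk := by
    constructor
    · rintro ⟨k, u, v⟩ ⟨l, u', v'⟩ h
      have h' := congrArg (fun g : cubeFrame F => ((g : GL (Fin 3) F) : Matrix (Fin 3) (Fin 3) F)) h
      have h0 := congrFun (congrFun h' k) 0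
      simp [mk] at h0
      have hkl : k = l := by
        by_contra hne
        rw [if_neg hne] at h0
        exact u.ne_zero h0
      subst hkl
      have h1 := congrFun (congrFun h' (1 + k)) 1
      simp [mk] at h0 h1
      rw [Units.ext h0, Units.ext h1]
    · rintro ⟨g, hg⟩
      obtain ⟨k, a, ha, hM⟩ := cubeFrame_entries hg
      have ha0 : a 0 ≠ 0 := fun h => by simp [h] at ha
      have ha1 : a 1 ≠ 0 := fun h => by simp [h] at ha
      refine ⟨(k, Units.mk0 _ ha0, Units.mk0 _ ha1), Subtype.ext (Units.ext ?_)⟩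
      rw [hM]
      ext i j
      fin_cases j <;> simp [mk]
      split_ifs
      · field_simp
        linear_combination -ha
      · rfl
  rw [← Nat.card_eq_of_bijective mk hbij, Nat.card_prod, Nat.card_prod, card_units_four hu, Nat.card_eq_fintype_card,
    Fintype.card_fin]

lemma span_cubeFrame (hu : UnitarySetup 3 2 σ) : Submodule.span F (matrixSet (cubeFrame F)) = ⊤ := by
  classical
  obtain ⟨w, hw0, hw1, hw⟩ := exists_omega hu
  have h2 : (2 : F) = 0 := hu.two_eq_zero_iff.2 (by decide)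
  have hw3 : w ^ 3 = 1 := cube_eq_one hu hw0
  set S := Submodule.span F (matrixSet (cubeFrame F))
  have hmem : ∀ (k : Fin 3) (a : Fin 3 → F), a 0 * a 1 * a 2 = 1 →
      (Matrix.of fun i j : Fin 3 => if i = j + k then a j else 0) ∈ S := by
    intro k a ha
    have hd : (Matrix.of fun i j : Fin 3 => if i = j + k then a j else 0).det = 1 := by
      fin_cases k <;> simp [Matrix.det_fin_three] <;> linear_combination ha
    exact Submodule.subset_span ⟨Matrix.GeneralLinearGroup.mkOfDetNeZero _ (by rw [hd]; exact one_ne_zero),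
      ⟨hd, k, fun i j hij => by simp [hij]⟩, rfl⟩
  let u : Fin 3 → F := ![1, w ^ 2, w]
  let d : Fin 3 → F := ![1, w, w ^ 2]
  let d' : Fin 3 → F := ![1, w ^ 2, w]
  have hdelta : ∀ j b : Fin 3, 1 + u j * d b + u j ^ 2 * d' b = if b = j then 1 else 0 := by
    intro j b
    fin_cases j <;> fin_cases b <;> simp [u, d, d'] <;>
      first
        | linear_combination h2
        | linear_combination hw
        | linear_combination hw + w * hw3
        | linear_combination (w ^ 3 + 2) * hw3 + h2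
        | linear_combination hw + (w ^ 2 + w) * hw3
        | linear_combination w ^ 3 * h2
  have hsingle : ∀ i j : Fin 3, Matrix.single i j (1 : F) ∈ S := by
    intro i j
    have h := S.add_mem (S.add_mem (hmem (i - j) (fun _ => 1) (by simp))
      (S.smul_mem (u j) (hmem (i - j) d (by simp [d]; linear_combination hw3))))
      (S.smul_mem (u j ^ 2) (hmem (i - j) d' (by simp [d']; linear_combination hw3)))
    convert h using 1
    ext a b
    simp only [Matrix.add_apply, Matrix.smul_apply, Matrix.of_apply, smul_eq_mul, Matrix.single_apply]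
    by_cases hab : a = b + (i - j)
    · rw [if_pos hab, if_pos hab, if_pos hab, hdelta]
      refine if_congr ⟨fun h => h.2.symm, fun h => ⟨?_, h.symm⟩⟩ rfl rfl
      rw [hab, h, add_sub_cancel]
    · rw [if_neg hab, if_neg hab, if_neg hab, if_neg]
      · simp
      · rintro ⟨rfl, rfl⟩
        exact hab (add_sub_cancel _ _).symm
  rw [eq_top_iff]
  intro M _
  rw [Matrix.matrix_eq_sum_single M]
  refine Submodule.sum_mem _ fun p _ => Submodule.sum_mem _ fun r _ => ?_
  rw [show Matrix.single p r (M p r) = M p r • Matrix.single p r (1 : F) by simp]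
  exact S.smul_mem _ (hsingle p r)

end CubeFrame

namespace UnitarySetup

set_option maxHeartbeats 1000000 in
/-- Over the field with four elements two factors of dimension three give the normaliser of a symplectic-type
three-group. -/
theorem tensor_cube_normalizer (hu : UnitarySetup n 2 σ) {e : Fin n ≃ Fin 3 × Fin 3} {P : GL (Fin n) F}
    (hP : P ∈ Cfsg.GU n F 2) :
    ∃ R : Subgroup (GL (Fin n) F), IsSymplecticTypeGroup 3 R ∧ ActsAbsolutelyIrreducibly (matrixSet R) ∧
      R ≤ Cfsg.GU n F 2 ∧ IsMinimalFieldFor (Nat.card (Subgroup.center R)) 2 2 F ∧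
      Nat.card (Subgroup.center R) = 3 ∧ Nat.card R = 3 ^ (1 + 2 * 2) ∧
      tensorProductSubgroup 3 3 e P ⊓ Cfsg.GU n F 2 ≤ subgroupNormalizer R := by
  classical
  obtain ⟨σ₃, h3⟩ := exists_unitarySetup 3 hu.card
  set E := cubeFrame F
  set φ : GL (Fin 3) F × GL (Fin 3) F →* GL (Fin n) F := (coordHom e P).comp kronHom with hφ
  set R : Subgroup (GL (Fin n) F) := (E.prod E).map φ with hRdef
  have : Nonempty (Fin n) := ⟨e.symm (0, 0)⟩
  have hsum : Submodule.span F (matrixSet R) = ⊤ := by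
    let L : Matrix (Fin 3 × Fin 3) (Fin 3 × Fin 3) F → Matrix (Fin n) (Fin n) F := fun X =>
      (P : Matrix (Fin n) (Fin n) F) * Matrix.reindexAlgEquiv F F e.symm X *
        ((P⁻¹ : GL (Fin n) F) : Matrix (Fin n) (Fin n) F)
    set S := Submodule.span F (matrixSet R)
    have h1 : ∀ a ∈ E, ∀ Y, L ((a : Matrix (Fin 3) (Fin 3) F) ⊗ₖ Y) ∈ S := by
      intro a ha Y
      have hY : Y ∈ Submodule.span F (matrixSet E) := span_cubeFrame h3 ▸ Submodule.mem_top
      induction hY using Submodule.span_induction with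
      | mem s hs =>
        obtain ⟨b, hb, rfl⟩ := hs
        exact Submodule.subset_span ⟨φ (a, b), ⟨(a, b), ⟨ha, hb⟩, rfl⟩, rfl⟩
      | zero => simp [L]
      | add x y _ _ hx hy =>
        simp only [L, Matrix.kronecker_add, map_add, mul_add, add_mul]; exact S.add_mem hx hy
      | smul c x _ hx =>
        simp only [L, Matrix.kronecker_smul, map_smul, Matrix.mul_smul, Matrix.smul_mul]; exact S.smul_mem c hx
    have h2 : ∀ X Y, L (X ⊗ₖ Y) ∈ S := by
      intro X Y
      have hX : X ∈ Submodule.span F (matrixSet E) := span_cubeFrame h3 ▸ Submodule.mem_top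
      induction hX using Submodule.span_induction with
      | mem s hs => obtain ⟨a, ha, rfl⟩ := hs; exact h1 a ha Y
      | zero => simp [L]
      | add x y _ _ hx hy =>
        simp only [L, Matrix.add_kronecker, map_add, mul_add, add_mul]; exact S.add_mem hx hy
      | smul c x _ hx =>
        simp only [L, Matrix.smul_kronecker, map_smul, Matrix.mul_smul, Matrix.smul_mul]; exact S.smul_mem c hx
    rw [eq_top_iff]
    intro M _
    set X := (Matrix.reindexAlgEquiv F F e.symm).symm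
      (((P⁻¹ : GL (Fin n) F) : Matrix (Fin n) (Fin n) F) * M * (P : Matrix (Fin n) (Fin n) F)) with hX
    have hM : L X = M := by simp only [L, hX, AlgEquiv.apply_symm_apply]; simp [mul_assoc]
    rw [← hM, Matrix.matrix_eq_sum_single X]
    simp only [L, map_sum, Finset.mul_sum, Finset.sum_mul]
    refine Submodule.sum_mem _ fun p _ => Submodule.sum_mem _ fun r _ => ?_
    have h := h2 (Matrix.single p.1 r.1 (X p r)) (Matrix.single p.2 r.2 1)
    rw [Matrix.single_kronecker_single, mul_one] at h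
    exact h
  have habs := absIrred_of_span hsum
  -- the kernel
  have hinj : ∀ t : GL (Fin 3) F × GL (Fin 3) F, φ t = 1 ↔ kronHom t = 1 := fun t =>
    map_eq_one_iff (coordHom e P) ((MulAut.conj P).injective.comp (glReindex e.symm).injective)
  have hφs : ∀ c d : Fˣ, φ (homothetyGL (Fin 3) c, homothetyGL (Fin 3) d) = homothetyGL (Fin n) (c * d) := by
    intro c d
    have hk : kronHom (homothetyGL (Fin 3) c, homothetyGL (Fin 3) d) = homothetyGL (Fin 3 × Fin 3) (c * d) := Units.ext (by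
      simp [coe_homothetyGL, Matrix.smul_kronecker, Matrix.kronecker_smul, smul_smul, mul_comm])
    apply Units.ext
    rw [hφ, MonoidHom.comp_apply, hk, coordHom_val, coe_homothetyGL, coe_homothetyGL, map_smul, map_one, mul_smul_comm,
      mul_one, smul_mul_assoc, Units.mul_inv]
  have hscal : ∀ t : GL (Fin 3) F × GL (Fin 3) F, φ t ∈ scalars (Fin n) F →
      t.1 ∈ scalars (Fin 3) F ∧ t.2 ∈ scalars (Fin 3) F := by
    intro t ht
    obtain ⟨c, hc⟩ := ht
    have h1 : φ (t.1 * homothetyGL (Fin 3) c⁻¹, t.2) = 1 := by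
      rw [show (t.1 * homothetyGL (Fin 3) c⁻¹, t.2) = t * (homothetyGL (Fin 3) c⁻¹, homothetyGL (Fin 3) 1) by
        simp [Prod.ext_iff], map_mul, hφs, mul_one, ← hc]
      exact homothetyGL_mul_inv c
    obtain ⟨d, hd, hA, hB⟩ := kronecker_eq_one
      (show _ = (1 : Matrix (Fin 3 × Fin 3) (Fin 3 × Fin 3) F) from congrArg Units.val ((hinj _).1 h1))
    have hu1 : t.1 * homothetyGL (Fin 3) c⁻¹ ∈ scalars (Fin 3) F := (mem_scalars_iff _).2 ⟨Units.mk0 d hd, hA⟩
    exact ⟨(Subgroup.mul_mem_cancel_right _ (show homothetyGL (Fin 3) c⁻¹ ∈ scalars (Fin 3) F from ⟨c⁻¹, rfl⟩)).1 hu1,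
      (mem_scalars_iff _).2 ⟨Units.mk0 d⁻¹ (inv_ne_zero hd), hB⟩⟩
  have hcenS : ∀ x : R, x ∈ Subgroup.center R ↔ (x : GL (Fin n) F) ∈ scalars (Fin n) F := by
    intro x
    rw [Subgroup.mem_center_iff]
    refine ⟨fun hx => ?_, fun hx a => Subtype.ext (scalars_commute hx a).symm⟩
    obtain ⟨c, hc⟩ := habs.2 ((x : GL (Fin n) F) : Matrix (Fin n) (Fin n) F) (by
      rintro _ ⟨a, ha, rfl⟩
      exact congrArg (fun w : R => ((w : GL (Fin n) F) : Matrix (Fin n) (Fin n) F)) (hx ⟨a, ha⟩).symm)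
    exact mem_scalars_of_act c fun v => act_scalar hc v
  have hcenter : Nat.card (Subgroup.center R) = 3 := by
    have hsR : ∀ c : Fˣ, homothetyGL (Fin n) c ∈ R := fun c =>
      ⟨(homothetyGL (Fin 3) c, homothetyGL (Fin 3) 1),
        ⟨scalar_mem_cubeFrame h3 c, scalar_mem_cubeFrame h3 1⟩, by rw [hφs, mul_one]⟩
    let f : Fˣ → Subgroup.center R := fun c => ⟨⟨_, hsR c⟩, (hcenS _).2 ⟨c, rfl⟩⟩
    have hf : Function.Bijective f := by
      constructor
      · intro c d h
        have h' := congrArg (fun g : Subgroup.center R => ((g : R) : GL (Fin n) F)) h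
        have h'' := congrArg (fun g : GL (Fin n) F => (g : Matrix (Fin n) (Fin n) F) (e.symm (0, 0)) (e.symm (0, 0))) h'
        simp [f, coe_homothetyGL] at h''
        exact Units.ext h''
      · rintro ⟨x, hx⟩
        obtain ⟨c, hc⟩ := (hcenS x).1 hx
        exact ⟨c, Subtype.ext (Subtype.ext hc)⟩
    rw [← Nat.card_eq_of_bijective f hf, card_units_four hu]
  have hpow : ∀ x : R, x ^ 3 = 1 := by
    rintro ⟨_, ⟨⟨a, b⟩, ⟨ha, hb⟩, rfl⟩⟩
    refine Subtype.ext ?_
    show φ (a, b) ^ 3 = 1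
    rw [← map_pow, Prod.pow_mk, cubeFrame_pow_three h3 ha, cubeFrame_pow_three h3 hb]
    exact map_one φ
  have hcard : Nat.card R = 3 ^ (1 + 2 * 2) := by
    let ψ : E.prod E →* GL (Fin n) F := φ.comp (E.prod E).subtype
    have hrange : ψ.range = R := by rw [MonoidHom.range_comp, Subgroup.range_subtype]
    have hker : Nat.card ψ.ker = 3 := by
      let f : Fˣ → ψ.ker := fun c => ⟨⟨(homothetyGL (Fin 3) c, homothetyGL (Fin 3) c⁻¹),
        scalar_mem_cubeFrame h3 c, scalar_mem_cubeFrame h3 c⁻¹⟩, by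
        show φ (homothetyGL (Fin 3) c, homothetyGL (Fin 3) c⁻¹) = 1
        rw [hφs, mul_inv_cancel]
        exact Units.ext (by simp [coe_homothetyGL])⟩
      have hf : Function.Bijective f := by
        constructor
        · intro c d h
          have h' := congrArg (fun g : ψ.ker => (((g : E.prod E) : GL (Fin 3) F × GL (Fin 3) F).1 :
            Matrix (Fin 3) (Fin 3) F) 0 0) h
          simp [f, coe_homothetyGL] at h'
          exact Units.ext h'
        · rintro ⟨⟨⟨a, b⟩, hab⟩, hk⟩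
          obtain ⟨d, hd, hA, hB⟩ := kronecker_eq_one
            (show _ = (1 : Matrix (Fin 3 × Fin 3) (Fin 3 × Fin 3) F) from
              congrArg Units.val ((hinj (a, b)).1 hk))
          exact ⟨Units.mk0 d hd, Subtype.ext (Subtype.ext (Prod.ext (Units.ext (by simp [f, coe_homothetyGL]; exact hA.symm))
            (Units.ext (by simp [f, coe_homothetyGL]; exact hB.symm))))⟩
      rw [← Nat.card_eq_of_bijective f hf, card_units_four hu]
    have h := ψ.ker.card_mul_index
    rw [Subgroup.index_ker, hker, show Nat.card ψ.range = Nat.card R by rw [hrange],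
      Nat.card_congr (Subgroup.prodEquiv E E).toEquiv, Nat.card_prod, card_cubeFrame h3] at h
    omega
  have hnorm : ∀ a ∈ Cfsg.GU 3 F 2, ∀ b ∈ Cfsg.GU 3 F 2,
      φ (a, b) ∈ Subgroup.normalizer (R : Set (GL (Fin n) F)) := by
    intro a ha b hb
    refine mem_normalizer_map φ (S := E.prod E) (fun x hx => ⟨?_, ?_⟩) (fun x hx => ⟨?_, ?_⟩)
    · exact cubeFrame_conj h3 ha hx.1
    · exact cubeFrame_conj h3 hb hx.2
    · simpa using cubeFrame_conj h3 (inv_mem ha) hx.1
    · simpa using cubeFrame_conj h3 (inv_mem hb) hx.2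
  have hone3 : (1 : GL (Fin 3) F) ∈ Cfsg.GU 3 F 2 := one_mem _
  have hkc : ∀ x y u v : GL (Fin 3) F, φ (x, y) = φ (u, v) → y = v → x = u := by
    intro x y u v h hyv
    subst hyv
    have h1 : φ (u⁻¹ * x, 1) = 1 := by
      rw [show (u⁻¹ * x, (1 : GL (Fin 3) F)) = (u, y)⁻¹ * (x, y) by simp, map_mul, map_inv, h, inv_mul_cancel]
    obtain ⟨d, hd, hA, hB⟩ := kronecker_eq_one
      (show _ = (1 : Matrix (Fin 3 × Fin 3) (Fin 3 × Fin 3) F) from congrArg Units.val ((hinj _).1 h1))
    have hd1 : d = 1 := by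
      have := congrFun (congrFun hB 0) 0
      simp at this
      exact this
    rw [hd1, one_smul] at hA
    exact (inv_mul_eq_one.1 (Units.ext hA)).symm
  have hkc' : ∀ x y u v : GL (Fin 3) F, φ (x, y) = φ (u, v) → x = u → y = v := by
    intro x y u v h hxu
    subst hxu
    have h1 : φ (1, v⁻¹ * y) = 1 := by
      rw [show ((1 : GL (Fin 3) F), v⁻¹ * y) = (x, v)⁻¹ * (x, y) by simp, map_mul, map_inv, h, inv_mul_cancel]
    obtain ⟨d, hd, hA, hB⟩ := kronecker_eq_one
      (show _ = (1 : Matrix (Fin 3 × Fin 3) (Fin 3 × Fin 3) F) from congrArg Units.val ((hinj _).1 h1))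
    have hd1 : d = 1 := by
      have := congrFun (congrFun hA 0) 0
      simp at this
      exact this.symm
    rw [hd1, inv_one, one_smul] at hB
    exact (inv_mul_eq_one.1 (Units.ext hB)).symm
  refine ⟨R, ⟨Nat.prime_three, fun g => ⟨1, by simpa using hpow g⟩, ?_, ?_⟩, habs, ?_, ?_, hcenter, hcard, ?_⟩
  · intro A hA hAc
    have hconj : ∀ t : GL (Fin n) F, t ∈ Subgroup.normalizer (R : Set (GL (Fin n) F)) → ∀ a ∈ A, ∀ b : R,
        (b : GL (Fin n) F) = t * a * t⁻¹ → b ∈ A := by
      intro t ht a ha b hb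
      have h1 := (Subgroup.characteristic_iff_map_le.1 hA) (R.normalizerMonoidHom ⟨t, ht⟩) ⟨a, ha, rfl⟩
      rwa [show b = R.normalizerMonoidHom ⟨t, ht⟩ a from Subtype.ext hb]
    have hle : A ≤ Subgroup.center R := by
      intro g hg
      rw [hcenS]
      obtain ⟨⟨x, y⟩, ⟨hx, hy⟩, hgxy⟩ := g.2
      have hxs : x ∈ scalars (Fin 3) F := by
        by_contra hxs
        obtain ⟨z, hz, hmv⟩ := cubeFrame_moved h3 hx hxs
        have hmem : φ (z * x * z⁻¹, y) ∈ R := ⟨(z * x * z⁻¹, y), ⟨cubeFrame_conj h3 hz hx, hy⟩, rfl⟩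
        have hb : (⟨_, hmem⟩ : R) ∈ A := hconj (φ (z, 1)) (hnorm z hz 1 hone3) g hg _ (by
          show φ (z * x * z⁻¹, y) = _
          rw [← hgxy, ← map_inv, ← map_mul, ← map_mul]
          simp)
        have hcom : (⟨_, hmem⟩ : R) * g = g * ⟨_, hmem⟩ :=
          congrArg Subtype.val (hAc.is_comm.comm (⟨_, hb⟩ : A) ⟨g, hg⟩)
        have hcom' : φ (z * x * z⁻¹, y) * φ (x, y) = φ (x, y) * φ (z * x * z⁻¹, y) := by
          rw [hgxy]; exact congrArg Subtype.val hcom
        rw [← map_mul, ← map_mul, Prod.mk_mul_mk, Prod.mk_mul_mk] at hcom'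
        exact hmv (hkc _ _ _ _ hcom' rfl)
      have hys : y ∈ scalars (Fin 3) F := by
        by_contra hys
        obtain ⟨z, hz, hmv⟩ := cubeFrame_moved h3 hy hys
        have hmem : φ (x, z * y * z⁻¹) ∈ R := ⟨(x, z * y * z⁻¹), ⟨hx, cubeFrame_conj h3 hz hy⟩, rfl⟩
        have hb : (⟨_, hmem⟩ : R) ∈ A := hconj (φ (1, z)) (hnorm 1 hone3 z hz) g hg _ (by
          show φ (x, z * y * z⁻¹) = _
          rw [← hgxy, ← map_inv, ← map_mul, ← map_mul]
          simp)
        have hcom : (⟨_, hmem⟩ : R) * g = g * ⟨_, hmem⟩ :=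
          congrArg Subtype.val (hAc.is_comm.comm (⟨_, hb⟩ : A) ⟨g, hg⟩)
        have hcom' : φ (x, z * y * z⁻¹) * φ (x, y) = φ (x, y) * φ (x, z * y * z⁻¹) := by
          rw [hgxy]; exact congrArg Subtype.val hcom
        rw [← map_mul, ← map_mul, Prod.mk_mul_mk, Prod.mk_mul_mk] at hcom'
        exact hmv (hkc' _ _ _ _ hcom' rfl)
      obtain ⟨c, hc⟩ := hxs
      obtain ⟨d, hd⟩ := hys
      rw [← hgxy, show φ (x, y) = φ (homothetyGL (Fin 3) c, homothetyGL (Fin 3) d) by rw [← hc, ← hd]; rfl, hφs]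
      exact ⟨_, rfl⟩
    haveI : Fact (Nat.Prime 3) := ⟨Nat.prime_three⟩
    haveI : IsCyclic (Subgroup.center R) := isCyclic_of_prime_card hcenter
    exact isCyclic_of_injective (Subgroup.inclusion hle) (Subgroup.inclusion_injective hle)
  · haveI : Nontrivial R := Finite.one_lt_card_iff_nontrivial.1 (by rw [hcard]; norm_num)
    rw [show 3 * Nat.gcd 2 3 = 3 by norm_num, Monoid.exponent_eq_prime_iff Nat.prime_three]
    intro g hg
    haveI : Fact (Nat.Prime 3) := ⟨Nat.prime_three⟩
    exact orderOf_eq_prime (hpow g) hg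
  · rintro _ ⟨⟨a, b⟩, ⟨ha, hb⟩, rfl⟩
    have hz : glReindex e.symm (kronHom (a, b)) ∈ Cfsg.GU n F 2 := by
      rw [hu.mem_GU_iff]
      show (((a : Matrix (Fin 3) (Fin 3) F) ⊗ₖ (b : Matrix (Fin 3) (Fin 3) F)).submatrix e e)ᵀ *
        (((a : Matrix (Fin 3) (Fin 3) F) ⊗ₖ (b : Matrix (Fin 3) (Fin 3) F)).submatrix e e).map σ = 1
      rw [← Matrix.submatrix_map, Matrix.transpose_submatrix, Matrix.submatrix_mul_equiv]
      have ha' := h3.transpose_mul (cubeFrame_le_GU h3 ha)
      have hb' := h3.transpose_mul (cubeFrame_le_GU h3 hb)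
      have hσ : σ₃ = σ := RingEquiv.ext fun x => by rw [h3.pow, hu.pow]
      rw [hσ] at ha' hb'
      rw [show ((a : Matrix (Fin 3) (Fin 3) F) ⊗ₖ (b : Matrix (Fin 3) (Fin 3) F))ᵀ *
          ((a : Matrix (Fin 3) (Fin 3) F) ⊗ₖ (b : Matrix (Fin 3) (Fin 3) F)).map σ =
          ((a : Matrix (Fin 3) (Fin 3) F)ᵀ * (a : Matrix (Fin 3) (Fin 3) F).map σ) ⊗ₖ
          ((b : Matrix (Fin 3) (Fin 3) F)ᵀ * (b : Matrix (Fin 3) (Fin 3) F).map σ) from ?_, ha', hb',
        Matrix.one_kronecker_one, Matrix.submatrix_one_equiv]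
      rw [Matrix.mul_kronecker_mul]
      congr 1
      ext ⟨i, k⟩ ⟨j, l⟩
      simp
    show coordHom e P (kronHom (a, b)) ∈ _
    rw [coordHom_apply]
    exact mul_mem (mul_mem hP hz) (inv_mem hP)
  · rw [hcenter]
    obtain ⟨p, hchar⟩ := CharP.exists F
    have h2 : (2 : F) = 0 := hu.two_eq_zero_iff.2 (by decide)
    haveI : Fact (Nat.Prime 2) := ⟨Nat.prime_two⟩
    refine ⟨Nat.prime_two, CharTwo.of_one_ne_zero_of_two_eq_zero one_ne_zero h2, by rw [hu.card], by norm_num, ?_⟩
    intro d hd0 hd2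
    obtain rfl : d = 1 := by omega
    norm_num
  · rintro g ⟨hgT, hgU⟩
    obtain ⟨a, b, c, rfl, hc, hσc, ha, hb⟩ := hu.kronecker_factors hP hgU hgT
    have hc1 : c = 1 := by
      have h := cube_eq_one hu hc
      rw [hu.pow] at hσc
      linear_combination h - (c + 1) * hσc
    have hσ : σ = σ₃ := RingEquiv.ext fun x => by rw [h3.pow, hu.pow]
    rw [hc1, one_smul, hσ] at ha
    rw [hc1, inv_one, one_smul, hσ] at hb
    exact hnorm a (h3.mem_GU_iff.2 ha) b (h3.mem_GU_iff.2 hb)

end UnitarySetup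

end CfsgLib.SmallDim
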