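import Cfsg.Agent.Lib.SmallDim.UnitaryGeneral

/-!
Normalisers of symplectic-type groups inside the special unitary group: the field they need and properness.
-/

set_option autoImplicit false
set_option linter.style.haveILetI false

namespace CfsgLib.SmallDim

open scoped MatrixGroups Matrix commutatorElement
open Cfsg.Geo

variable {F : Type*} [Field F] [Fintype F] {n q : ℕ} {σ : F ≃+* F}

lemma SymplGen.le_subgroupNormalizer {ι : Type} [Fintype ι] [DecidableEq ι] {K : Type*} [Field K]
    {H R : Subgroup (GL ι K)} {r m : ℕ} (hR : SymplGen H R r m) : H ≤ subgroupNormalizer R := by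
  intro g hg
  refine Subgroup.mem_normalizer_iff.mpr fun y => ⟨fun hy => hR.normal.conj g hg y hy, fun hy => ?_⟩
  simpa [mul_assoc] using hR.normal.conj' hg hy

/-- An element of a symplectic-type group fixing more than half of the space pointwise is trivial. -/
lemma SymplGen.eq_one_of_fixed {H R : Subgroup (GL (Fin n) F)} {r m : ℕ} (hR : SymplGen H R r m)
    {g : GL (Fin n) F} (hg : g ∈ R) (W : Submodule F (Fin n → F)) (hW : n < 2 * Module.finrank F W)
    (hfix : ∀ w ∈ W, act g w = w) : g = 1 := by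
  classical
  obtain ⟨w, hw, hw0⟩ := (Submodule.ne_bot_iff W).1 fun h => by rw [h, finrank_bot] at hW; omega
  have : Nonempty (Fin n) := by
    rcases isEmpty_or_nonempty (Fin n) with _ | h
    · exact absurd (Subsingleton.elim w 0) hw0
    · exact h
  have hone : g ∈ scalars (Fin n) F → g = 1 := by
    intro hs
    obtain ⟨c, hc⟩ := (mem_scalars_iff g).1 hs
    have h1 := hfix w hw
    rw [act_scalar hc] at h1
    refine Units.ext ?_
    rw [hc, show ((c : Fˣ) : F) = 1 from smul_left_injective F hw0 (h1.trans (one_smul F w).symm), one_smul,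
      Units.val_one]
  by_contra hne
  have hns : g ∉ scalars (Fin n) F := fun hs => hne (hone hs)
  obtain ⟨y, hy, hgy⟩ : ∃ y ∈ R, g * y ≠ y * g := by
    by_contra hall
    push Not at hall
    obtain ⟨c, hc⟩ := hR.absIrred.2 (g : Matrix (Fin n) (Fin n) F) (by
      rintro _ ⟨a, ha, rfl⟩
      exact congrArg Units.val (hall a ha))
    exact hns (mem_scalars_of_act c fun v => act_scalar hc v)
  obtain ⟨c, hc⟩ := (mem_scalars_iff _).1 (hR.comm_scalar g hg y hy)
  let W' := W.map (Matrix.toLin' (y : Matrix (Fin n) (Fin n) F))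
  have hW' : Module.finrank F W' = Module.finrank F W := LinearEquiv.finrank_map_eq (actEquiv y) W
  obtain ⟨v, ⟨hv, hv'⟩, hv0⟩ := (Submodule.ne_bot_iff (W ⊓ W')).1 fun h => by
    have h1 := Submodule.finrank_sup_add_finrank_inf_eq W W'
    have h2 := Submodule.finrank_le (W ⊔ W')
    rw [h, finrank_bot, hW'] at h1
    rw [Module.finrank_fin_fun] at h2
    omega
  obtain ⟨u, hu, rfl⟩ := hv'
  rw [Matrix.toLin'_apply] at hv hv0
  have h3 : act ⁅g, y⁆ (act y (act g u)) = act g (act y u) := by
    rw [commutatorElement_def, ← act_mul, ← act_mul, ← act_mul]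
    congr 1
    group
  rw [hfix u hu, act_scalar hc] at h3
  have h5 := hfix _ hv
  change act g (act y u) = act y u at h5
  rw [h5] at h3
  have hc1 : (c : F) = 1 := smul_left_injective F hv0 (h3.trans (one_smul F _).symm)
  apply hgy
  have h4 : ⁅g, y⁆ = 1 := Units.ext (by rw [hc, hc1, one_smul, Units.val_one])
  exact commutatorElement_eq_one_iff_mul_comm.1 h4

namespace UnitarySetup

/-- A transvection commuting with a matrix fixes the line of its centre. -/
lemma line_of_commute_utrans (hu : UnitarySetup n q σ) {v : Fin n → F} (hv : Cfsg.hermForm n F q v v = 0)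
    (hv0 : v ≠ 0) {c : F} (hc0 : c ≠ 0) {x : GL (Fin n) F} (h : hu.utrans hv c * x = x * hu.utrans hv c) :
    ∃ a : F, act x v = a • v := by
  obtain ⟨w, hw⟩ : ∃ w, Cfsg.hermForm n F q w v ≠ 0 := (hu.isUnitary.nondegenerate v hv0).1
  have h1 : act (hu.utrans hv c) (act x w) = act x (act (hu.utrans hv c) w) := by rw [← act_mul, ← act_mul, h]
  rw [hu.act_utrans, hu.act_utrans] at h1
  have h2 : act x (w + (c * Cfsg.hermForm n F q w v) • v) = act x w + (c * Cfsg.hermForm n F q w v) • act x v := by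
    simp [act, Matrix.mulVec_add, Matrix.mulVec_smul]
  rw [h2, add_right_inj] at h1
  refine ⟨(c * Cfsg.hermForm n F q (act x w) v) / (c * Cfsg.hermForm n F q w v), ?_⟩
  rw [div_eq_inv_mul, ← smul_smul, h1, smul_smul, inv_mul_cancel₀ (mul_ne_zero hc0 hw), one_smul]

/-- In dimension at least five the special unitary group normalises no symplectic-type group. -/
theorem not_le_normalizer_of_five (hu : UnitarySetup n q σ) (hn : 5 ≤ n) {H R : Subgroup (GL (Fin n) F)}
    {r m : ℕ} (hR : SymplGen H R r m) (hRG : R ≤ Cfsg.GU n F q) :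
    ¬ Cfsg.GU n F q ⊓ specialLinear (Fin n) F ≤ subgroupNormalizer R := by
  classical
  intro hle
  haveI : Nonempty (Fin n) := ⟨⟨0, by omega⟩⟩
  obtain ⟨v, hv, c, hc, hne⟩ := hu.exists_utrans (by omega)
  have hv0 : v ≠ 0 := fun h => hne (Units.ext (Matrix.ext_of_mulVec_single fun i => by
    show act (hu.utrans hv c) _ = act 1 _
    rw [hu.act_utrans, act_one, h, smul_zero, add_zero]))
  have hc0 : c ≠ 0 := fun h => hne (Units.ext (Matrix.ext_of_mulVec_single fun i => by
    show act (hu.utrans hv c) _ = act 1 _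
    rw [hu.act_utrans, act_one, h, zero_mul, zero_smul, add_zero]))
  set t := hu.utrans hv c
  have ht := Subgroup.mem_normalizer_iff.1 (hle (hu.utrans_mem hv hc))
  have hcomm : ∀ x ∈ R, t * x = x * t := by
    intro x hx
    let W : Submodule F (Fin n → F) := LinearMap.ker (hu.sesqui.lf v) ⊓ LinearMap.ker (hu.sesqui.lf (act x v))
    have hW : n < 2 * Module.finrank F W := by
      let L : (Fin n → F) →ₗ[F] F × F := (hu.sesqui.lf v).prod (hu.sesqui.lf (act x v))
      have hker : LinearMap.ker L = W := LinearMap.ker_prod _ _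
      have h1 := LinearMap.finrank_range_add_finrank_ker L
      have h2 := Submodule.finrank_le (LinearMap.range L)
      rw [Module.finrank_fin_fun, hker] at h1
      rw [Module.finrank_prod, Module.finrank_self] at h2
      omega
    have hg : x * (t * x⁻¹ * t⁻¹) ∈ R := R.mul_mem hx ((ht _).1 (R.inv_mem hx))
    have h1 := hR.eq_one_of_fixed hg W hW fun w hw => by
      obtain ⟨hw1, hw2⟩ := hw
      simp only [SetLike.mem_coe, LinearMap.mem_ker, IsSesqui.lf_apply] at hw1 hw2
      have hfixinv : act t⁻¹ w = w := by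
        apply act_injective t
        rw [act_act_inv, hu.act_utrans, hw1, mul_zero, zero_smul, add_zero]
      rw [act_mul, act_mul, act_mul, hfixinv, hu.act_utrans]
      have hx1 : Cfsg.hermForm n F q (act x⁻¹ w) v = 0 := by
        have h3 := mem_GU.1 (hRG hx) (act x⁻¹ w) v
        rw [act_act_inv, hw2] at h3
        exact h3.symm
      rw [hx1, mul_zero, zero_smul, add_zero, act_act_inv]
    calc t * x = (x * (t * x⁻¹ * t⁻¹))⁻¹ * x * t := by group
      _ = x * t := by rw [h1, inv_one, one_mul]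
  obtain ⟨a, ha⟩ := hR.absIrred.2 (t : Matrix (Fin n) (Fin n) F) (by
    rintro _ ⟨x, hx, rfl⟩
    exact congrArg Units.val (hcomm x hx))
  obtain ⟨w, hw⟩ : ∃ w, Cfsg.hermForm n F q w v ≠ 0 := (hu.isUnitary.nondegenerate v hv0).1
  have e1 : act t v = v := by rw [hu.act_utrans, hv, mul_zero, zero_smul, add_zero]
  rw [act_scalar ha] at e1
  have ha1 : a = 1 := smul_left_injective F hv0 (e1.trans (one_smul F v).symm)
  have e2 := hu.act_utrans hv c w
  rw [act_scalar ha, ha1, one_smul, left_eq_add] at e2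
  exact smul_ne_zero (mul_ne_zero hc0 hw) hv0 e2

/-- In dimension four, for `q` congruent to three modulo four, the special unitary group normalises no
symplectic-type two-group. -/
theorem not_le_normalizer_four (hu : UnitarySetup 4 q σ) (hq : q % 4 = 3) {H R : Subgroup (GL (Fin 4) F)}
    {m : ℕ} (hR : SymplGen H R 2 m) (hRG : R ≤ Cfsg.GU 4 F q) :
    ¬ Cfsg.GU 4 F q ⊓ specialLinear (Fin 4) F ≤ subgroupNormalizer R := by
  classical
  intro hle
  have hodd : Odd q := Nat.odd_iff.2 (by omega)
  have h2 : (2 : F) ≠ 0 := fun h => hu.two_eq_zero_iff.1 h hodd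
  have hexp : ∀ g ∈ R, g ^ 4 = 1 := by
    intro g hg
    have h := Monoid.pow_exponent_eq_one (⟨g, hg⟩ : R)
    rw [hR.sympType.exponent_eq] at h
    exact congrArg Subtype.val h
  -- an element with scalar square
  obtain ⟨g₀, hg₀, hg₀s⟩ : ∃ g ∈ R, g ∉ scalars (Fin 4) F := by
    by_contra hall
    push Not at hall
    exact not_le_scalars_of_irreducible (by simp) hR.absIrred.1 hall
  obtain ⟨x, hx, hxs, μ, hμ, hμ1⟩ : ∃ x ∈ R, x ∉ scalars (Fin 4) F ∧ ∃ μ : F,
      ((x ^ 2 : GL (Fin 4) F) : Matrix (Fin 4) (Fin 4) F) = μ • 1 ∧ μ * μ = 1 := by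
    by_cases hs : g₀ ^ 2 ∈ scalars (Fin 4) F
    · obtain ⟨u, hu'⟩ := (mem_scalars_iff _).1 hs
      refine ⟨g₀, hg₀, hg₀s, u, hu', ?_⟩
      have h := congrArg (fun g : GL (Fin 4) F => (g : Matrix (Fin 4) (Fin 4) F) 0 0)
        (show g₀ ^ 2 * g₀ ^ 2 = 1 by rw [← pow_add]; exact hexp g₀ hg₀)
      simpa [Units.val_mul, hu'] using h
    · exact ⟨g₀ ^ 2, R.pow_mem hg₀ 2, hs, 1, by rw [← pow_mul, hexp g₀ hg₀, one_smul, Units.val_one], one_mul 1⟩
  obtain ⟨a, ha, haN⟩ : ∃ a : F, a * a = μ ∧ a * σ a = 1 := by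
    rcases mul_self_eq_one_iff.1 hμ1 with h | h
    · exact ⟨1, by rw [one_mul, h], by rw [map_one, one_mul]⟩
    · have hsq : IsSquare (-1 : F) := by
        rw [FiniteField.isSquare_neg_one_iff, hu.card, sq, Nat.mul_mod, hq]
        decide
      obtain ⟨a, ha⟩ := hsq
      refine ⟨a, by rw [← ha, h], ?_⟩
      obtain ⟨j, hj⟩ : ∃ j, q + 1 = 4 * j := ⟨(q + 1) / 4, by omega⟩
      rw [hu.pow, ← pow_succ', hj, pow_mul, show a ^ 4 = (a * a) * (a * a) by ring, ← ha]
      norm_num
  have ha0 : a ≠ 0 := left_ne_zero_of_mul_eq_one haN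
  set X : Matrix (Fin 4) (Fin 4) F := (x : Matrix (Fin 4) (Fin 4) F)
  have hXX : X * X = μ • 1 := by rw [← hμ, pow_two, Units.val_mul]
  let E : F → Submodule F (Fin 4 → F) := fun b => LinearMap.ker (Matrix.toLin' (X - b • 1))
  have hE : ∀ b v, v ∈ E b ↔ X *ᵥ v = b • v := fun b v => by
    simp [E, sub_eq_zero]
  have hproj : ∀ v, ∀ b : F, b * b = μ → X *ᵥ v + b • v ∈ E b := by
    intro v b hb
    rw [hE, Matrix.mulVec_add, Matrix.mulVec_smul, Matrix.mulVec_mulVec, hXX, Matrix.smul_mulVec,
      Matrix.one_mulVec, smul_add, smul_smul, hb, add_comm]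
  have hna : (-a) * (-a) = μ := by rw [neg_mul_neg, ha]
  have hsplit : E a ⊔ E (-a) = ⊤ := by
    rw [eq_top_iff]
    intro v _
    have h2a : (2 : F) * a ≠ 0 := mul_ne_zero h2 ha0
    rw [show v = (2 * a)⁻¹ • (X *ᵥ v + a • v) + (-(2 * a)⁻¹) • (X *ᵥ v + (-a) • v) from ?_]
    · exact Submodule.add_mem_sup (Submodule.smul_mem _ _ (hproj v a ha)) (Submodule.smul_mem _ _ (hproj v (-a) hna))
    · rw [smul_add, smul_add, add_add_add_comm, ← add_smul, add_neg_cancel, zero_smul, zero_add, smul_smul,
        smul_smul, ← add_smul]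
      conv_lhs => rw [← one_smul F v]
      congr 1
      field_simp
      ring
  have hdisj : Disjoint (E a) (E (-a)) := by
    rw [Submodule.disjoint_def]
    intro v hv hv'
    rw [hE] at hv hv'
    have h4 : a • v = (-a) • v := hv.symm.trans hv'
    have h3 : ((2 : F) * a) • v = 0 := by
      rw [two_mul, add_smul]
      nth_rewrite 1 [h4]
      rw [neg_smul, neg_add_cancel]
    exact (smul_eq_zero.1 h3).resolve_left (mul_ne_zero h2 ha0)
  have hcompl : IsCompl (E a) (E (-a)) := ⟨hdisj, codisjoint_iff.2 hsplit⟩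
  have hsum := Submodule.finrank_add_eq_of_isCompl hcompl
  rw [Module.finrank_fin_fun] at hsum
  -- the trace makes both eigenspaces planes
  have htr : a * (Module.finrank F (E a) : F) + (-a) * (Module.finrank F (E (-a)) : F) = 0 := by
    let P := (E a).projection (E (-a)) hcompl
    have hX : Matrix.toLin' X = (2 * a) • P - a • LinearMap.id := by
      refine LinearMap.ext fun v => ?_
      obtain ⟨e, he, e', he', rfl⟩ := Submodule.mem_sup.1 (hsplit ▸ Submodule.mem_top : v ∈ E a ⊔ E (-a))
      simp only [map_add, LinearMap.sub_apply, LinearMap.smul_apply, LinearMap.id_apply, Matrix.toLin'_apply]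
      rw [show P e = e from Submodule.projection_apply_of_mem_left hcompl he,
        show P e' = 0 from Submodule.projection_apply_of_mem_right hcompl he', (hE a e).1 he, (hE (-a) e').1 he',
        smul_zero, neg_smul, two_mul, add_smul]
      abel
    have hP : LinearMap.trace F (Fin 4 → F) P = (Module.finrank F (E a) : F) :=
      (LinearMap.IsProj.mk (fun v => Submodule.projection_apply_mem hcompl v)
        (fun v hv => Submodule.projection_apply_of_mem_left hcompl hv)).trace
    have h := congrArg (LinearMap.trace F (Fin 4 → F)) hX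
    rw [Matrix.trace_toLin'_eq, hR.trace_eq_zero x hx hxs, map_sub, map_smul, map_smul, hP, LinearMap.trace_id,
      Module.finrank_fin_fun, smul_eq_mul, smul_eq_mul,
      show ((4 : ℕ) : F) = (Module.finrank F (E a) : F) + (Module.finrank F (E (-a)) : F) by
        rw [← Nat.cast_add, hsum]] at h
    linear_combination -h
  have hdim : Module.finrank F (E a) = 2 ∧ Module.finrank F (E (-a)) = 2 := by
    have h4 : (2 : F) * 2 ≠ 0 := mul_ne_zero h2 h2
    set d := Module.finrank F (E a)
    set d' := Module.finrank F (E (-a))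
    have h5 : a * ((d : F) - (d' : F)) = 0 := by linear_combination htr
    have h6 := (mul_eq_zero.1 h5).resolve_left ha0
    have : d ≤ 4 := by omega
    interval_cases d
    · rw [show d' = 4 by omega] at h6; exact absurd (by push_cast at h6; linear_combination -h6) h4
    · rw [show d' = 3 by omega] at h6; exact absurd (by push_cast at h6; linear_combination -h6) h2
    · exact ⟨rfl, by omega⟩
    · rw [show d' = 1 by omega] at h6; exact absurd (by push_cast at h6; linear_combination h6) h2
    · rw [show d' = 0 by omega] at h6; exact absurd (by push_cast at h6; linear_combination h6) h4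
  obtain ⟨e, he, he0, hee⟩ := hu.exists_isotropic (E a) (by rw [hdim.1])
  obtain ⟨e', he', he0', hee'⟩ := hu.exists_isotropic (E (-a)) (by rw [hdim.2])
  have hxe : act x e = a • e := (hE a e).1 he
  have hxe' : act x e' = (-a) • e' := (hE (-a) e').1 he'
  have horth : Cfsg.hermForm 4 F q e e' = 0 := by
    have h := mem_GU.1 (hRG hx) e e'
    rw [hxe, hxe', hu.sesqui.smul_left, hu.sesqui.smul_right, RingEquiv.coe_toRingHom, map_neg] at h
    have h' : (2 : F) * Cfsg.hermForm 4 F q e e' = 0 := by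
      linear_combination -h - Cfsg.hermForm 4 F q e e' * haN
    exact (mul_eq_zero.1 h').resolve_left h2
  have horth' : Cfsg.hermForm 4 F q e' e = 0 := hu.eq_zero_comm.1 horth
  set v := e + e'
  have hxv : act x v = a • e + (-a) • e' := by
    rw [← hxe, ← hxe']
    exact Matrix.mulVec_add _ _ _
  have hv : Cfsg.hermForm 4 F q v v = 0 := by
    rw [hu.sesqui.add_left, hu.sesqui.add_right, hu.sesqui.add_right, hee, hee', horth, horth']
    simp
  have hw : Cfsg.hermForm 4 F q (act x v) v = 0 := by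
    rw [hxv, hu.sesqui.add_left, hu.sesqui.smul_left, hu.sesqui.smul_left, hu.sesqui.add_right,
      hu.sesqui.add_right, hee, hee', horth, horth']
    simp
  have hnot : ∀ b : F, act x v ≠ b • v := by
    intro b hb
    rw [hxv, smul_add] at hb
    have h8 : (a - b) • e = (b + a) • e' := by
      rw [sub_smul, add_smul]
      rw [neg_smul, ← sub_eq_add_neg] at hb
      linear_combination (norm := abel) hb
    have h9 : (a - b) • e = 0 := Submodule.disjoint_def.1 hdisj _ ((E a).smul_mem _ he) (h8 ▸ (E (-a)).smul_mem _ he')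
    have h10 := (smul_eq_zero.1 h9).resolve_right he0
    have h11 := (smul_eq_zero.1 (h8 ▸ h9)).resolve_right he0'
    exact mul_ne_zero h2 ha0 (by linear_combination h10 + h11)
  obtain ⟨c, hc0, hc, -⟩ := hu.exists_skew_avoid ∅ (by simp; omega)
  have hv0 : v ≠ 0 := fun h => hnot 0 (by rw [h, smul_zero, act, Matrix.mulVec_zero])
  set t := hu.utrans hv c
  have ht := Subgroup.mem_normalizer_iff.1 (hle (hu.utrans_mem hv hc))
  set g := t * x * t⁻¹ * x⁻¹
  have hg : g ∈ R := R.mul_mem ((ht _).1 hx) (R.inv_mem hx)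
  have hww : Cfsg.hermForm 4 F q (act x v) (act x v) = 0 := by rw [mem_GU.1 (hRG hx), hv]
  have hact : ∀ w, act g w = w + (c * Cfsg.hermForm 4 F q w v) • v + (-(c * Cfsg.hermForm 4 F q w (act x v))) • act x v := by
    intro w
    have hinv : ∀ u, act t⁻¹ u = u + (-(c * Cfsg.hermForm 4 F q u v)) • v := by
      intro u
      apply act_injective t
      rw [act_act_inv, hu.act_utrans, hu.sesqui.add_left, hu.sesqui.smul_left, hv, mul_zero, add_zero,
        add_assoc, ← add_smul, neg_add_cancel, zero_smul, add_zero]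
    have hxinv : Cfsg.hermForm 4 F q (act x⁻¹ w) v = Cfsg.hermForm 4 F q w (act x v) := by
      rw [← mem_GU.1 (hRG hx) (act x⁻¹ w) v, act_act_inv]
    rw [act_mul, act_mul, act_mul, hinv, hxinv,
      show act x (act x⁻¹ w + (-(c * Cfsg.hermForm 4 F q w (act x v))) • v) =
        w + (-(c * Cfsg.hermForm 4 F q w (act x v))) • act x v by
        rw [act, Matrix.mulVec_add, Matrix.mulVec_smul]
        show act x (act x⁻¹ w) + _ = _
        rw [act_act_inv],
      hu.act_utrans, hu.sesqui.add_left, hu.sesqui.smul_left, hw, mul_zero, add_zero]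
    abel
  have hgs : g ∈ scalars (Fin 4) F := by
    by_contra hs
    have h := hR.trace_eq_zero g hg hs
    have hdiag : ∀ i, (g : Matrix (Fin 4) (Fin 4) F) i i =
        1 + (c * σ (v i) * v i + -(c * σ (act x v i)) * act x v i) := fun i => by
      have h1 := congrFun (hact (Pi.single i 1)) i
      rw [hu.single_herm, hu.single_herm, one_mul, one_mul] at h1
      rw [act, Matrix.mulVec_single_one] at h1
      simpa [add_assoc] using h1
    have hzero : ∀ u : Fin 4 → F, Cfsg.hermForm 4 F q u u = 0 → ∑ i, σ (u i) * u i = 0 := fun u hu' => by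
      rw [hu.herm_eq] at hu'
      rw [← hu']
      exact Finset.sum_congr rfl fun i _ => mul_comm _ _
    rw [Matrix.trace, Finset.sum_congr rfl fun i _ => show Matrix.diag (g : Matrix (Fin 4) (Fin 4) F) i = _ from hdiag i,
      Finset.sum_add_distrib, Finset.sum_add_distrib] at h
    simp only [mul_assoc, ← Finset.mul_sum, Finset.sum_neg_distrib, neg_mul] at h
    rw [hzero v hv, hzero _ hww] at h
    simp only [mul_zero, neg_zero, add_zero, Finset.sum_const, Finset.card_univ, Fintype.card_fin, nsmul_eq_mul,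
      mul_one] at h
    exact mul_ne_zero h2 h2 (by push_cast at h; linear_combination h)
  obtain ⟨s, hs⟩ := (mem_scalars_iff g).1 hgs
  obtain ⟨w, hwv⟩ : ∃ w, Cfsg.hermForm 4 F q w v ≠ 0 := (hu.isUnitary.nondegenerate v hv0).1
  have hfixv := hact v
  rw [act_scalar hs, hv, mul_zero, zero_smul, add_zero, hu.eq_zero_comm.1 hw, mul_zero, neg_zero, zero_smul,
    add_zero] at hfixv
  have hs1 : (s : F) = 1 := smul_left_injective F hv0 (hfixv.trans (one_smul F v).symm)
  have hgone : g = 1 := Units.ext (by rw [hs, hs1, one_smul, Units.val_one])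
  have hcom : t * x = x * t := by
    calc t * x = g * x * t := by simp only [g]; group
      _ = x * t := by rw [hgone, one_mul]
  obtain ⟨b, hb⟩ := hu.line_of_commute_utrans hv hv0 hc0 hcom
  exact hnot b hb

/-- A symplectic-type two- or three-group of isometries that is realised over no proper subfield needs a prime
field and a centre of order four, or three. -/
theorem sympl_prime (hu : UnitarySetup n q σ) {H R : Subgroup (GL (Fin n) F)} {r m : ℕ} (hR : SymplGen H R r m)
    (hr : r = 2 ∨ r = 3) (hno : ∀ K : Subfield F, K ≠ ⊤ → ¬ RealisableOver K (matrixSet R)) :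
    ∃ p : ℕ, p.Prime ∧ q = p ∧ ((r = 2 ∧ p % 4 = 3 ∧ Nat.card (Subgroup.center R) = 4) ∨
      (r = 3 ∧ p % 3 = 2 ∧ Nat.card (Subgroup.center R) = 3)) := by
  classical
  haveI : Nonempty (Fin n) := by
    rcases isEmpty_or_nonempty (Fin n) with h | h
    · exact absurd (by simp) hR.card_ne_zero
    · exact h
  set z := Nat.card (Subgroup.center R)
  obtain ⟨s, hs⟩ := hR.hasRoot
  have hout : ∀ K : Subfield F, K ≠ ⊤ → s ∉ K := by
    intro K hK hsK
    refine hno K hK (realisableOver_of_trace hR.absIrred fun g hg => ?_)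
    by_cases hgs : g ∈ scalars (Fin n) F
    · obtain ⟨c, hc, hcz⟩ := hR.scalar_pow g hg hgs
      haveI : NeZero z := ⟨Nat.card_pos.ne'⟩
      obtain ⟨i, -, rfl⟩ := hs.eq_pow_of_pow_eq_one hcz
      rw [hc, Matrix.trace_smul, Matrix.trace_one, smul_eq_mul]
      exact K.mul_mem (K.pow_mem hsK i) (natCast_mem K _)
    · rw [hR.trace_eq_zero g hg hgs]; exact K.zero_mem
  obtain ⟨p, hchar⟩ := CharP.exists F
  obtain ⟨e, hp, hq⟩ := FiniteField.card F p
  haveI := Fact.mk hp
  obtain ⟨f, -, rfl⟩ := (Nat.dvd_prime_pow hp).mp (show q ∣ p ^ (e : ℕ) from ⟨q, by rw [← hq, hu.card, sq]⟩)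
  have h2f : (e : ℕ) = f * 2 :=
    Nat.pow_right_injective hp.two_le (show p ^ (e : ℕ) = p ^ (f * 2) by rw [← hq, hu.card, ← pow_mul])
  have hne1 : ∀ K : Subfield F, K ≠ ⊤ → s ≠ 1 ∧ s ≠ -1 := fun K hK =>
    ⟨fun h => hout K hK (h ▸ K.one_mem), fun h => hout K hK (h ▸ K.neg_mem K.one_mem)⟩
  obtain ⟨K₁, hK₁, hK₁c⟩ := hu.exists_fixed
  have hK₁top : K₁ ≠ ⊤ := fun h => hu.isUnitary.ne_refl (RingEquiv.ext fun x => (hK₁ x).mp (h ▸ Subfield.mem_top x))
  have hz2 : z ≠ 2 := fun h => (hne1 K₁ hK₁top).2 ((show IsPrimitiveRoot s 2 from h ▸ (show IsPrimitiveRoot s z from hs)).eq_neg_one_of_two_right)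
  have hz : (r = 2 ∧ z = 4) ∨ (r = 3 ∧ z = 3) := by
    rcases hR.center_cases with ⟨hodd, hz⟩ | ⟨h2, hz | hz⟩
    · rcases hr with rfl | rfl
      · exact absurd hodd (by decide)
      · exact Or.inr ⟨rfl, hz⟩
    · exact absurd hz hz2
    · exact Or.inl ⟨h2, hz⟩
  have hz0 : (z : F) ≠ 0 := by
    haveI : NeZero z := ⟨Nat.card_pos.ne'⟩
    exact hs.neZero'.ne
  have hpz : p ^ 2 % z = 1 := by
    have hpz' : ¬ p ∣ z := fun h => hz0 ((CharP.cast_eq_zero_iff F p z).2 h)
    rcases hz with ⟨-, h⟩ | ⟨-, h⟩ <;> rw [h] at hpz' ⊢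
    · have : p % 2 ≠ 0 := fun h2 => hpz' (by
        obtain rfl := ((Nat.dvd_prime hp).1 (Nat.dvd_of_mod_eq_zero h2)).resolve_left (by norm_num)
        norm_num)
      rw [Nat.pow_mod]
      have : p % 4 = 1 ∨ p % 4 = 3 := by omega
      rcases this with h | h <;> rw [h]
    · have : p % 3 ≠ 0 := fun h3 => hpz' (by
        obtain rfl := ((Nat.dvd_prime hp).1 (Nat.dvd_of_mod_eq_zero h3)).resolve_left (by norm_num)
        norm_num)
      rw [Nat.pow_mod]
      have : p % 3 = 1 ∨ p % 3 = 2 := by omega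
      rcases this with h | h <;> rw [h]
  have hfix2 : s ∈ fixedField (F := F) p 2 := by
    rw [mem_fixedField, ← Nat.mod_add_div (p ^ 2) z, hpz, pow_add, pow_one, pow_mul, hs.pow_eq_one, one_pow,
      mul_one]
  have htop : fixedField (F := F) p 2 = ⊤ := by
    by_contra h
    exact hout _ h hfix2
  have hcard2 : Nat.card (fixedField (F := F) p 2) = p ^ 2 :=
    card_fixedField hq (by norm_num) ⟨f, by rw [h2f, mul_comm]⟩
  rw [htop, show Nat.card (⊤ : Subfield F) = Nat.card F from
      Nat.card_congr (Equiv.subtypeUnivEquiv fun x => Subfield.mem_top x), Nat.card_eq_fintype_card, hu.card,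
    ← pow_mul] at hcard2
  have hf : f = 1 := by
    have := Nat.pow_right_injective hp.two_le hcard2
    omega
  subst hf
  refine ⟨p, hp, pow_one p, ?_⟩
  have hsq : σ s ≠ s := fun h => hout K₁ hK₁top ((hK₁ s).2 h)
  rw [hu.pow, pow_one] at hsq
  have hmod : p % z ≠ 1 := fun h => hsq (by
    rw [← Nat.mod_add_div p z, h, pow_add, pow_one, pow_mul, hs.pow_eq_one, one_pow, mul_one])
  rcases hz with ⟨h, h'⟩ | ⟨h, h'⟩ <;> rw [h'] at hpz hmod
  · refine Or.inl ⟨h, ?_, h'⟩
    rw [Nat.pow_mod] at hpz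
    have := Nat.mod_lt p (show 4 > 0 by norm_num)
    interval_cases p % 4 <;> simp_all
  · refine Or.inr ⟨h, ?_, h'⟩
    rw [Nat.pow_mod] at hpz
    have := Nat.mod_lt p (show 3 > 0 by norm_num)
    interval_cases p % 3 <;> simp_all

end UnitarySetup

end CfsgLib.SmallDim
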