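import Cfsg.Agent.Lib.SmallDim.UnitaryGeneral
import Cfsg.Agent.Lib.SmallDim.UnitarySquare
import Cfsg.Agent.Lib.SmallDim.UnitarySympl

/-!
Every subgroup of a finite unitary group in dimension at least three lies in a member of a geometric class or is
in the residual class.
-/

set_option autoImplicit false
set_option linter.style.haveILetI false

namespace CfsgLib.SmallDim

open scoped MatrixGroups Matrix commutatorElement
open Cfsg.Geo

variable {F : Type*} [Field F] [Fintype F] {n q : ℕ} {σ : F ≃+* F}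

namespace UnitarySetup

/-- The field is minimal for the centre of a symplectic-type group realised over no proper subfield. -/
theorem sympl_minimal_field (hu : UnitarySetup n q σ) (hn : 2 ≤ n) {H R : Subgroup (GL (Fin n) F)} {r m : ℕ}
    (hR : SymplGen H R r m) (hno : ∀ K : Subfield F, K ≠ ⊤ → ¬ RealisableOver K (matrixSet R)) :
    ∃ p e : ℕ, r ≠ p ∧ 1 ≤ m ∧ IsMinimalFieldFor (Nat.card (Subgroup.center R)) p e F ∧
      ((Odd r ∧ Nat.card (Subgroup.center R) = r ∧ 1 ≤ m ∧ Nat.card R = r ^ (1 + 2 * m)) ∨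
       (r = 2 ∧ e = 2 ∧ Nat.card (Subgroup.center R) = 4 ∧ Nat.card R = 2 ^ (2 + 2 * m))) := by
  classical
  haveI : Nonempty (Fin n) := ⟨⟨0, by omega⟩⟩
  set z := Nat.card (Subgroup.center R) with hzdef
  have hm : 1 ≤ m := by
    by_contra h
    have hd := hR.dim
    rw [Fintype.card_fin, show m = 0 by omega, pow_zero] at hd
    omega
  obtain ⟨s, hs⟩ := hR.hasRoot
  have hout : ∀ K : Subfield F, K ≠ ⊤ → s ∉ K := by
    intro K hK hsK
    refine hno K hK (realisableOver_of_trace hR.absIrred fun g hg => ?_)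
    by_cases hgs : g ∈ scalars (Fin n) F
    · obtain ⟨c, hc, hcz⟩ := hR.scalar_pow g hg hgs
      haveI : NeZero z := ⟨Nat.card_pos.ne'⟩
      obtain ⟨i, -, rfl⟩ := hs.eq_pow_of_pow_eq_one hcz
      rw [hc, Matrix.trace_smul, Matrix.trace_one, smul_eq_mul]
      exact K.mul_mem (K.pow_mem hsK i) (natCast_mem K _)
    · rw [hR.trace_eq_zero g hg hgs]; exact K.zero_mem
  obtain ⟨p, hchar⟩ := CharP.exists F
  obtain ⟨e, hp, hq⟩ := FiniteField.card F p
  haveI := Fact.mk hp
  have hs0 : s ≠ 0 := hs.ne_zero Nat.card_pos.ne'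
  have hdiv : z ∣ p ^ (e : ℕ) - 1 := hs.dvd_of_pow_eq_one _ (by
    have h := FiniteField.pow_card_sub_one_eq_one s hs0
    rwa [hq] at h)
  have hmin : ∀ d : ℕ, 0 < d → d < (e : ℕ) → ¬ z ∣ p ^ d - 1 := by
    intro d hd0 hde hd
    have hmem : s ∈ fixedField (F := F) p d := by
      rw [mem_fixedField]
      obtain ⟨i, hi⟩ := hd
      have h1 : p ^ d = z * i + 1 := by
        have : 1 ≤ p ^ d := Nat.one_le_pow _ _ hp.pos
        omega
      rw [h1, pow_succ, pow_mul, hs.pow_eq_one, one_pow, one_mul]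
    refine hout _ (fun h => ?_) hmem
    have hall : ∀ x : Fˣ, x ^ (p ^ d - 1) = 1 := by
      intro x
      have hx : ((x : F)) ^ p ^ d = (x : F) := mem_fixedField.1 (h ▸ Subfield.mem_top _)
      apply Units.ext
      rw [Units.val_pow_eq_pow_val, Units.val_one]
      apply mul_right_cancel₀ x.ne_zero
      rw [one_mul, ← pow_succ, Nat.sub_add_cancel (Nat.one_le_pow _ _ hp.pos), hx]
    have hdvd := (FiniteField.forall_pow_eq_one_iff F _).1 hall
    rw [hq] at hdvd
    have h1 : 1 < p ^ d := Nat.one_lt_pow hd0.ne' hp.one_lt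
    have h2 : p ^ d < p ^ (e : ℕ) := Nat.pow_lt_pow_right hp.one_lt hde
    have h3 := Nat.le_of_dvd (by omega) hdvd
    omega
  have hrp : r ≠ p := by
    rintro rfl
    apply hR.card_ne_zero
    rw [hR.dim, Nat.cast_pow, (CharP.cast_eq_zero_iff F r r).2 dvd_rfl, zero_pow (by omega)]
  refine ⟨p, e, hrp, hm, ⟨hp, hchar, hq, hdiv, hmin⟩, ?_⟩
  rcases hR.center_cases with ⟨hodd, hz⟩ | ⟨h2, hz | hz⟩
  · refine Or.inl ⟨hodd, hz, hm, ?_⟩
    rw [hR.card_eq, hz, pow_add, pow_one]
  · exfalso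
    obtain ⟨K, hK, -⟩ := hu.exists_fixed
    have hKtop : K ≠ ⊤ := fun h => hu.isUnitary.ne_refl (RingEquiv.ext fun x => (hK x).mp (h ▸ Subfield.mem_top x))
    have h1 : s = -1 := (show IsPrimitiveRoot s 2 from hz ▸ hs).eq_neg_one_of_two_right
    exact hout K hKtop (h1 ▸ K.neg_mem K.one_mem)
  · refine Or.inr ⟨h2, ?_, hz, ?_⟩
    · have he : 2 ∣ (e : ℕ) := by
        obtain ⟨f, -, hf⟩ := (Nat.dvd_prime_pow hp).mp (show q ∣ p ^ (e : ℕ) from ⟨q, by rw [← hq, hu.card, sq]⟩)
        refine ⟨f, Nat.pow_right_injective hp.two_le ?_⟩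
        show p ^ (e : ℕ) = p ^ (2 * f)
        rw [← hq, hu.card, hf, ← pow_mul, mul_comm]
      have hp2 : p % 2 = 1 := by
        rcases hp.eq_two_or_odd with h | h
        · exact absurd (h2.trans h.symm) hrp
        · exact h
      by_contra he2
      refine hmin 2 (by norm_num) (by
        have := e.pos
        obtain ⟨f, hf⟩ := he
        omega) ?_
      rw [show z = 4 from hz]
      have h4 : p ^ 2 % 4 = 1 := by
        rw [Nat.pow_mod]
        have : p % 4 = 1 ∨ p % 4 = 3 := by omega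
        rcases this with h | h <;> rw [h]
      omega
    · rw [hR.card_eq, hz, h2, pow_add]
      norm_num

/-- Every subgroup of the unitary group in dimension at least three is contained in a member of a geometric class
or is in the residual class. -/
theorem unitary_structure (hu : UnitarySetup n q σ) (hn : 3 ≤ n) {H : Subgroup (GL (Fin n) F)}
    (hG : H ≤ Cfsg.GU n F q) :
    (∃ M : Subgroup (GL (Fin n) F), InUnitaryClass n F q M ∧ H ≤ M) ∨ InUnitaryResidualClass H := by
  classical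
  haveI : Nonempty (Fin n) := ⟨⟨0, by omega⟩⟩
  have hcard : Fintype.card (Fin n) = n := Fintype.card_fin n
  have hfix := hu.fixes_of_le hG
  -- reducible
  by_cases hirr : ActsIrreducibly (matrixSet H)
  swap
  · left
    rcases hu.reducible_split hG hirr with ⟨W, h0, h1, hle, hW | ⟨hW, hdim⟩⟩ | ⟨m, D, -, hD, hle⟩
    · exact ⟨_, Or.inl (Or.inl ⟨W, h0, hW, rfl⟩), le_inf hle hG⟩
    · exact ⟨_, Or.inl (Or.inr (Or.inl ⟨W, h0, hW, hdim, rfl⟩)), le_inf hle hG⟩
    · exact ⟨_, Or.inl (Or.inr (Or.inr (Or.inl ⟨2, m, D, hD, rfl⟩))), le_inf hle hG⟩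
  -- a normal subgroup that is not absolutely irreducible
  by_cases habs : ∀ N, NormalIn N H → ¬ N ≤ scalars (Fin n) F → ActsAbsolutelyIrreducibly (matrixSet N)
  swap
  · push Not at habs
    obtain ⟨N, hN, hNs, hNa⟩ := habs
    left
    rcases form_clifford hu.sesqui hu.reflexive hu.isUnitary.nondegenerate hirr hN hfix hNs with
      h | ⟨t, m, D, hD, hle⟩ | ⟨t, m, D, τ, hD, hle, hτ, hττ, hts, horth⟩ | ⟨r, K, hr, hK, hadj, hle⟩ |
        ⟨n₁, n₂, e, P, hT⟩
    · exact absurd h hNa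
    · exact ⟨_, Or.inl (Or.inr (Or.inr (Or.inl ⟨t, m, D, hD, rfl⟩))), le_inf hle hG⟩
    · rcases hu.paired_split hG hD hle hτ hττ hts horth with ⟨D', hm, hD', hts', hle'⟩ | ⟨s, E, hE, hle'⟩
      · exact ⟨_, Or.inl (Or.inr (Or.inr (Or.inr (Or.inl ⟨m, D', hm, hD', hts', rfl⟩)))), le_inf hle' hG⟩
      · exact ⟨_, Or.inl (Or.inr (Or.inr (Or.inl ⟨s, 2 * m, E, hE, rfl⟩))), le_inf hle' hG⟩
    · obtain ⟨hodd, -⟩ := hu.field_degree (by omega) hr hK hadj
      exact ⟨_, Or.inr (Or.inl ⟨r, K, hr, hodd, hK, hadj, rfl⟩), le_inf hle hG⟩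
    · obtain ⟨P', hP', hle⟩ := hu.tensor_factor hT (hN.le.trans hG)
      have h2₁ := hT.two_le_left
      have h2₂ := hT.two_le_right
      rcases lt_trichotomy n₁ n₂ with h12 | h12 | h12
      · exact ⟨_, Or.inr (Or.inr (Or.inl ⟨n₁, n₂, e, P', _, _, h2₁, h12, hu.isUnitaryFormPow_hermForm,
          hu.isUnitaryFormPow_hermForm, hu.isTensorFormStructure e hP', rfl⟩)), le_inf hle hG⟩
      · subst h12
        have hne : n₁ * n₁ = n := by simpa using (Fintype.card_congr e).symm
        rcases eq_or_ne n₁ 2 with rfl | hn2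
        · obtain ⟨F₀, P₀, hc, hform, hiso, hsub⟩ := hu.tensor_planes_subfield hP' (e := e)
          by_cases hq : Odd q
          · exact ⟨_, Or.inl (Or.inr (Or.inr (Or.inr (Or.inr (Or.inr (Or.inl
              ⟨F₀, P₀, hq, hc, hform, rfl⟩)))))), le_inf ((le_inf hle hG).trans hsub) hG⟩
          · have h2 : (2 : F) = 0 := hu.two_eq_zero_iff.2 hq
            exact ⟨_, Or.inl (Or.inr (Or.inr (Or.inr (Or.inr (Or.inr (Or.inr (Or.inl
              ⟨F₀, P₀, 1, ⟨2, by omega⟩, hc, one_ne_zero, by rw [one_pow]; linear_combination h2, hform,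
                hiso hq, rfl⟩))))))), le_inf ((le_inf hle hG).trans hsub) hG⟩
        by_cases hspec : q = 2 ∧ n₁ = 3
        · obtain ⟨rfl, rfl⟩ := hspec
          obtain ⟨R, hty, habsR, hRG, hfield, hz, hcR, hnorm⟩ := hu.tensor_cube_normalizer hP' (e := e)
          exact ⟨_, Or.inl (Or.inr (Or.inr (Or.inr (Or.inr (Or.inr (Or.inr (Or.inr
            ⟨3, R, 2, 2, 2, hty, habsR, hRG.trans (GU_le_similarityGroup n 2), by norm_num, hfield,
              Or.inl ⟨by decide, hz, by norm_num, hcR⟩, rfl⟩))))))),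
            le_inf ((le_inf hle hG).trans hnorm) hG⟩
        · exact ⟨_, Or.inr (Or.inr (Or.inr ⟨n₁, 2, _, P', _, by omega, le_rfl, hspec,
            hu.isUnitaryFormPow_hermForm, hu.isTensorPowerFormStructure _ hP', rfl⟩)),
            le_inf (hle.trans (tensorProductSubgroup_le_wreath n₁ e P')) hG⟩
      · exact ⟨_, Or.inr (Or.inr (Or.inl ⟨n₂, n₁, e.trans (Equiv.prodComm _ _), P', _, _, h2₂, h12,
          hu.isUnitaryFormPow_hermForm, hu.isUnitaryFormPow_hermForm, hu.isTensorFormStructure _ hP', rfl⟩)),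
          le_inf (hle.trans (tensorProductSubgroup_swap _ _ e P')) hG⟩
  -- realised over a subfield
  by_cases hsub : ∀ N, NormalIn N H → ¬ N ≤ scalars (Fin n) F →
      ∀ K : Subfield F, K ≠ ⊤ → ¬ RealisableOver K (matrixSet N)
  swap
  · push Not at hsub
    obtain ⟨N, hN, hNs, K, hK, hreal⟩ := hsub
    left
    rcases hu.subfield_cases (by omega) hN hG (habs N hN hNs) hK hreal with
      ⟨F₀, r, P, hr, hodd, hc, hform, hle⟩ | ⟨F₀, P, ζ, hc, hζ0, hζ, hform, hiso, hle⟩ |
        ⟨hq, F₀, P, hc, hform, hle⟩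
    · exact ⟨_, Or.inl (Or.inr (Or.inr (Or.inr (Or.inr (Or.inl ⟨F₀, r, P, hr, hodd, hc, hform, rfl⟩))))),
        le_inf hle hG⟩
    · have heven : Even n := Nat.not_odd_iff_even.1 fun h => hu.no_symplectic_odd h hiso
      exact ⟨_, Or.inl (Or.inr (Or.inr (Or.inr (Or.inr (Or.inr (Or.inr (Or.inl
        ⟨F₀, P, ζ, heven, hc, hζ0, hζ, hform, hiso, rfl⟩))))))), le_inf hle hG⟩
    · exact ⟨_, Or.inl (Or.inr (Or.inr (Or.inr (Or.inr (Or.inr (Or.inl ⟨F₀, P, hq, hc, hform, rfl⟩)))))),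
        le_inf hle hG⟩
  have hHs : ¬ H ≤ scalars (Fin n) F := not_le_scalars_of_irreducible (by rw [hcard]; omega) hirr
  rcases generic_cases (by rw [hcard]; omega) hHs habs hsub with ⟨R, r, m, hR⟩ | ⟨N, k, L, hN, hNa, hperf, hL⟩ |
      ⟨P, hP, hcore⟩
  · left
    have hno := hsub R hR.normal (not_le_scalars_of_irreducible (by rw [hcard]; omega) hR.absIrred.1)
    obtain ⟨p, e, hrp, -, hfield, hcases⟩ := hu.sympl_minimal_field (by omega) hR hno
    exact ⟨_, Or.inl (Or.inr (Or.inr (Or.inr (Or.inr (Or.inr (Or.inr (Or.inr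
      ⟨r, R, p, e, m, hR.sympType, hR.absIrred, (hR.normal.le.trans hG).trans (GU_le_similarityGroup n q), hrp,
        hfield, hcases, rfl⟩))))))), le_inf hR.le_subgroupNormalizer hG⟩
  · left
    obtain ⟨m, e, P, hm, hP, hle, hslot⟩ := hu.unitary_wreath_frame (by omega) hG hN.le hNa hL
    rcases eq_or_ne m 2 with rfl | hm2
    · exfalso
      obtain ⟨K, hK, hreal⟩ := hu.realisable_of_bilinear_any (by omega) (hN.le.trans hG) hNa
        (isBilinearForm_powForm e P) (isNondegenerateForm_powForm e P)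
        (fixesForm_of_perfect ((hN.le.trans hle).trans (tensorWreathSubgroup_le_powForm e P)) hperf)
      exact hsub N hN (not_le_scalars_of_irreducible (by rw [hcard]; omega) hNa.1) K hK hreal
    have hex : ¬ (q = 2 ∧ m = 3) := by
      rintro ⟨rfl, rfl⟩
      exact hu.no_induced_three rfl hL hslot
    exact ⟨_, Or.inr (Or.inr (Or.inr ⟨m, k, e, P, _, by omega, hL.two_le, hex, hu.isUnitaryFormPow_hermForm,
      hu.isTensorPowerFormStructure e hP, rfl⟩)), le_inf hle hG⟩
  · right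
    have hPs : ¬ P ≤ scalars (Fin n) F := not_le_scalars_of_irreducible (by rw [hcard]; omega) hcore.absIrred.1
    refine ⟨P, hcore, ?_, ?_⟩
    · rintro ⟨Q, hQ, hfixQ⟩
      obtain ⟨K, hK, hreal⟩ := hu.realisable_of_bilinear_any (by omega) (hP.le.trans hG) hcore.absIrred
        hQ.polar_bilinear hQ.nondegenerate (fixesForm_polar hfixQ)
      exact hsub P hP hPs K hK hreal
    · rintro ⟨f, hf, hfixf⟩
      obtain ⟨K, hK, hreal⟩ := hu.realisable_of_bilinear_any (by omega) (hP.le.trans hG) hcore.absIrred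
        hf.bilinear hf.nondegenerate hfixf
      exact hsub P hP hPs K hK hreal

end UnitarySetup

end CfsgLib.SmallDim
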