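import Cfsg.Agent.Lib.SmallDim.UnitaryThreeModels

/-!
In `SU(3,5)` the frame stabiliser and the real orthogonal subgroups are not maximal.
-/

set_option autoImplicit false
set_option linter.style.haveILetI false
set_option linter.unusedSectionVars false

namespace CfsgLib.SmallDim.UThree

open scoped MatrixGroups Matrix
open Cfsg.Geo

variable {F : Type*} [Field F] [Fintype F] [CharP F 5] {σ : F ≃+* F}

lemma single_ne_zero' (i : Fin 3) : (Pi.single i 1 : Fin 3 → F) ≠ 0 := fun h =>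
  one_ne_zero (Pi.single_eq_zero_iff.mp h)

/-- The stabiliser of an orthogonal frame is not maximal. -/
theorem no_frame_q5 (hu : UnitarySetup 3 5 σ) {H : Subgroup (GL (Fin 3) F)}
    (hH : IsMaximalIn (Cfsg.GU 3 F 5 ⊓ specialLinear (Fin 3) F) H) {D : Fin 3 → Submodule F (Fin 3 → F)}
    (hD : IsNondegenerateMDecomposition (Cfsg.hermForm 3 F 5) 1 D)
    (hHD : H = decompositionStabilizer D ⊓ (Cfsg.GU 3 F 5 ⊓ specialLinear (Fin 3) F)) : False := by
  classical
  have hsq := hu.sesqui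
  obtain ⟨s, hs⟩ := exists_sqrt_two (p := 5) hu.card (by norm_num) (by decide)
  have h2 : ∀ a : ZMod 5, a ^ 2 ≠ 2 := by decide
  have hvec : ∀ i, ∃ u ∈ D i, Cfsg.hermForm 3 F 5 u u = 1 := by
    intro i
    obtain ⟨w, hw, hw0⟩ := (D i).ne_bot_iff.mp (fun h => by
      have h1 := hD.decomp.finrank_eq i
      rw [h, finrank_bot] at h1
      exact zero_ne_one h1)
    obtain ⟨⟨x, hx, hxw⟩, -⟩ := hD.nondegenerate i w hw hw0
    obtain ⟨a, rfl⟩ : ∃ a : F, a • w = x := by
      obtain ⟨a, ha⟩ := exists_smul_eq_of_finrank_eq_one (hD.decomp.finrank_eq i)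
        (x := (⟨w, hw⟩ : D i)) (fun h => hw0 (congrArg Subtype.val h)) ⟨x, hx⟩
      exact ⟨a, congrArg Subtype.val ha⟩
    rw [hsq.smul_left] at hxw
    obtain ⟨t, ht, -⟩ := hu.exists_norm_avoid (b := (Cfsg.hermForm 3 F 5 w w)⁻¹) (by rw [map_inv₀, ← hu.herm])
      (inv_ne_zero (right_ne_zero_of_mul hxw)) ∅ (by simp)
    refine ⟨t • w, Submodule.smul_mem _ _ hw, ?_⟩
    rw [hsq.smul_left, hsq.smul_right, ← mul_assoc]
    exact (congrArg (· * Cfsg.hermForm 3 F 5 w w) ht).trans (inv_mul_cancel₀ (right_ne_zero_of_mul hxw))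
  choose u huD hu1 using hvec
  set Um : Matrix (Fin 3) (Fin 3) F := Matrix.of fun a i => u i a
  have hgram : Umᵀ * Um.map σ = 1 := by
    ext i j
    rw [Matrix.mul_apply]
    have h : Cfsg.hermForm 3 F 5 (u i) (u j) = if i = j then 1 else 0 := by
      split_ifs with hij
      · subst hij; exact hu1 i
      · exact hD.orthogonal i j hij _ (huD i) _ (huD j)
    rw [Matrix.one_apply, ← h]
    show _ = Cfsg.hermForm 3 F 5 (u i) (u j)
    rw [hu.herm_eq]
    rfl
  set U := Matrix.GeneralLinearGroup.mkOfDetNeZero Um (fun e => by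
    have := congrArg Matrix.det hgram
    rw [Matrix.det_mul, Matrix.det_transpose, e, zero_mul, Matrix.det_one] at this
    exact zero_ne_one this)
  have hU : U ∈ Cfsg.GU 3 F 5 := hu.mem_GU_iff.2 hgram
  have hUe : ∀ i, act U (Pi.single i 1) = u i := fun i => by
    funext a; simp [act, U, Um, Matrix.mulVec_single_one]
  have hmono : ∀ h ∈ H, ∃ (π : Equiv.Perm (Fin 3)) (μ : Fin 3 → F), (∀ i, μ i ^ 6 = 1) ∧
      (μ 0 * μ 1 * μ 2) ^ 2 = 1 ∧
      ∀ i, act (U⁻¹ * h * U) (Pi.single i 1) = μ i • (Pi.single (π i) 1 : Fin 3 → F) := by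
    intro h hh
    rw [hHD] at hh
    obtain ⟨π, hπ⟩ := hh.1
    have himg : ∀ i, ∃ a : F, act h (u i) = a • u (π i) := by
      intro i
      have hmem : act h (u i) ∈ D (π i) := by
        rw [← hπ i]; exact ⟨u i, huD i, Matrix.toLin'_apply _ _⟩
      obtain ⟨a, ha⟩ := exists_smul_eq_of_finrank_eq_one (hD.decomp.finrank_eq (π i))
        (x := (⟨u (π i), huD _⟩ : D (π i))) (fun e => by
          have h0 : u (π i) = 0 := congrArg Subtype.val e
          have h1 := hu1 (π i)
          rw [h0, hsq.zero_left] at h1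
          exact zero_ne_one h1) ⟨_, hmem⟩
      exact ⟨a, (congrArg Subtype.val ha).symm⟩
    choose μ hμ using himg
    have hN : ∀ i, act (U⁻¹ * h * U) (Pi.single i 1) = μ i • (Pi.single (π i) 1 : Fin 3 → F) := fun i => by
      rw [act_mul, hUe, act_mul, hμ, act_smul, ← hUe, act_inv_act]
    have hnorm : ∀ i, μ i ^ 6 = 1 := fun i => by
      have h1 := mem_GU.1 hh.2.1 (u i) (u i)
      rw [hμ, hsq.smul_left, hsq.smul_right, hu1, hu1] at h1
      change μ i * (σ (μ i) * 1) = 1 at h1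
      rw [mul_one, hu.pow] at h1
      rw [show μ i ^ 6 = μ i * μ i ^ 5 by ring, h1]
    refine ⟨π, μ, hnorm, ?_, hN⟩
    have hdet : ((U⁻¹ * h * U : GL (Fin 3) F) : Matrix (Fin 3) (Fin 3) F).det = 1 := by
      rw [← Matrix.GeneralLinearGroup.val_det_apply, map_mul, map_mul, map_inv,
        show Matrix.GeneralLinearGroup.det h = 1 from hh.2.2]
      simp
    have hent : ∀ a b, ((U⁻¹ * h * U : GL (Fin 3) F) : Matrix (Fin 3) (Fin 3) F) a b = if a = π b then μ b else 0 :=
      fun a b => by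
        have h1 := congrFun (hN b) a
        rw [act, Matrix.mulVec_single_one] at h1
        simpa [Pi.single_apply] using h1
    rw [show ((U⁻¹ * h * U : GL (Fin 3) F) : Matrix (Fin 3) (Fin 3) F) = Equiv.Perm.permMatrix F π.symm * Matrix.diagonal μ from
      Matrix.ext fun a b => by
        rw [hent, Matrix.mul_diagonal]
        simp only [Equiv.Perm.permMatrix, PEquiv.toMatrix_apply]
        by_cases hab : a = π b
        · subst hab; simp
        · have hne : π.symm a ≠ b := fun e => hab (by rw [← e, Equiv.apply_symm_apply])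
          simp [hab, hne, Equiv.toPEquiv],
      Matrix.det_mul, Matrix.det_permutation, Matrix.det_diagonal, Fin.prod_univ_three] at hdet
    rcases Int.units_eq_one_or (Equiv.Perm.sign π.symm) with e | e <;> rw [e] at hdet <;> simp at hdet
    · rw [hdet, one_pow]
    · linear_combination (-(μ 0 * μ 1 * μ 2) + 1) * hdet
  have hle : ∀ h ∈ H, U⁻¹ * h * U⁻¹⁻¹ ∈ a7Stab s := fun h hh => by
    obtain ⟨π, μ, h6, hp, hact⟩ := hmono h hh
    rw [inv_inv]
    exact monomial_mem hu hs h6 hp hact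
  obtain ⟨g, hg, hgU, hgM, -, hgS⟩ := cert_a7DR.exists_gl hs hu (by norm_num) (by decide)
  obtain ⟨d, hd, hdU, hdS⟩ := exists_unitary_gl out_a7_unitary hs hu (by norm_num) (by decide)
  refine false_of_overgroup hH (Subgroup.inv_mem _ hU) hle hgM ⟨hgU, hgS det_a7DR⟩ (fun hgH => ?_)
    ⟨hdU, hdS det_a7Out⟩ (not_mem_lineStab hs h2 hu.card hd out_a7_bad)
  obtain ⟨π, μ, -, -, hact⟩ := hmono _ hgH
  rw [inv_inv, show U⁻¹ * (U * g * U⁻¹) * U = g by group] at hact
  have h0 := hact 0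
  rw [← decV_unit (p := 5) (s := s) 0, act_coded hs hg] at h0
  obtain ⟨l, hl⟩ : ∃ l : Fin 3, l ≠ π 0 := ⟨π 0 + 1, by simp⟩
  have h1 := congrFun h0 l
  rw [Pi.smul_apply, Pi.single_eq_of_ne hl, smul_zero, ← decQ_zero (p := 5) (s := s)] at h1
  have h3 : ∀ l : Fin 3, mv a7DR (unit3 0) l ≠ q0 := by decide +kernel
  exact h3 l (decQ_injective hs h2 h1)

/-- The conjugating diagonal matrix of the real groups inside the model. -/
def realD : M3 5 := ![![q1, q0, q0], ![q0, q1, q0], ![q0, q0, (3, 2)]]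

/-- A real involution mapping the first unit vector to a vector of full support. -/
def realR : M3 5 := ![![(1,0), (1,0), (2,0)], ![(1,0), (2,0), (1,0)], ![(2,0), (1,0), (1,0)]]

lemma realD_unitary : ∀ i j, gram realD i j = idm i j := by decide +kernel
lemma realR_conj : ∀ i j, mv a7DR (mv realD (unit3 i)) j = mv realD (mv realR (unit3 i)) j := by decide +kernel
lemma realR_sq : ∀ i j, mv realR (mv realR (unit3 i)) j = unit3 i j := by decide +kernel
lemma realR_unitary : ∀ i j, gram realR i j = idm i j := by decide +kernel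

/-- The subfield groups of index two are not maximal. -/
theorem no_real_q5 (hu : UnitarySetup 3 5 σ) {H : Subgroup (GL (Fin 3) F)}
    (hH : IsMaximalIn (Cfsg.GU 3 F 5 ⊓ specialLinear (Fin 3) F) H) {K : Subfield F}
    (hK : Fintype.card F = Nat.card K ^ 2) {P : GL (Fin 3) F}
    (hform : IsFormRationalStructure (Cfsg.hermForm 3 F 5) K 1 P)
    (hHK : H = subfieldSubgroup K P ⊓ (Cfsg.GU 3 F 5 ⊓ specialLinear (Fin 3) F)) : False := by
  classical
  obtain ⟨s, hs⟩ := exists_sqrt_two (p := 5) hu.card (by norm_num) (by decide)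
  have h2 : ∀ a : ZMod 5, a ^ 2 ≠ 2 := by decide
  obtain ⟨U, hU, hframe⟩ := exists_real_frame hu (by decide) hK hform
  haveI : Fintype K := Fintype.ofFinite K
  set ι5 := ZMod.castHom (dvd_refl 5) F
  have hcast : ∀ a : ZMod 5, decQ (p := 5) s (a, 0) = ι5 a := fun a => by simp [decQ, ι5]
  -- the elements of the subfield are the prime field
  have hKc : ∀ x ∈ K, ∃ a : ZMod 5, decQ (p := 5) s (a, 0) = x := by
    have hr : ι5.fieldRange = K := by
      have hle : (ι5.fieldRange : Set F) ⊆ K := by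
        rintro _ ⟨a, rfl⟩
        rw [← ZMod.natCast_zmod_val a, map_natCast]
        exact natCast_mem K _
      refine SetLike.coe_injective (Set.eq_of_subset_of_ncard_le hle ?_)
      rw [← Nat.card_coe_set_eq, RingHom.coe_fieldRange, Set.ncard_range_of_injective (RingHom.injective _)]
      show Nat.card K ≤ _
      rw [Nat.card_zmod]
      exact le_of_eq (Nat.pow_left_injective two_ne_zero (hK.symm.trans hu.card))
    intro x hx
    obtain ⟨a, ha⟩ := hr.ge hx
    exact ⟨a, (hcast a).trans ha⟩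
  obtain ⟨D, hD, hDU, -⟩ := exists_unitary_gl realD_unitary hs hu (by norm_num) (by decide)
  obtain ⟨R, hR, hRU, -⟩ := exists_unitary_gl realR_unitary hs hu (by norm_num) (by decide)
  obtain ⟨DR, hDR, -, hDRM, -, -⟩ := cert_a7DR.exists_gl hs hu (by norm_num) (by decide)
  have hDd : (D : Matrix (Fin 3) (Fin 3) F) = Matrix.diagonal ![1, 1, decQ (p := 5) s (3, 2)] := by
    rw [hD]; ext k l; fin_cases k <;> fin_cases l <;> simp [decM, realD, decQ, q0, q1]
  have hDact : ∀ k : Fin 3, act D (Pi.single k 1) =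
      (![1, 1, decQ (p := 5) s (3, 2)] : Fin 3 → F) k • (Pi.single k 1 : Fin 3 → F) := fun k => by
    rw [act, hDd, Matrix.mulVec_single_one]
    funext l
    by_cases h : l = k
    · subst h; simp
    · simp [Pi.single_eq_of_ne h, Matrix.diagonal_apply_ne _ h]
  have hDu : ∀ k, (![1, 1, decQ (p := 5) s (3, 2)] : Fin 3 → F) k ≠ 0 := fun k => by
    intro h0
    have h := hDact k
    rw [h0, zero_smul] at h
    exact single_ne_zero' k (act_injective D (h.trans (Matrix.mulVec_zero _).symm))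
  -- real monomial matrices
  set M := (a7Stab s).comap (MulAut.conj D).toMonoidHom
  have hmonoM : ∀ (g : GL (Fin 3) F) (π : Equiv.Perm (Fin 3)) (μ : Fin 3 → F), (∀ i, μ i = 1 ∨ μ i = -1) →
      (∀ i, act g (Pi.single i 1) = μ i • (Pi.single (π i) 1 : Fin 3 → F)) → g ∈ M := by
    intro g π μ hμ hg
    show D * g * D⁻¹ ∈ a7Stab s
    set v : Fin 3 → F := ![1, 1, decQ (p := 5) s (3, 2)]
    have hv6 : ∀ k, v k ^ 6 = 1 := fun k => by
      have hnorm := mem_GU.1 hDU (Pi.single k 1) (Pi.single k 1)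
      rw [hDact, hu.sesqui.smul_left, hu.sesqui.smul_right] at hnorm
      rw [hu.herm_eq] at hnorm
      change v k * (σ (v k) * _) = _ at hnorm
      simp at hnorm
      rw [hu.pow] at hnorm
      rw [show v k ^ 6 = v k * v k ^ 5 by ring, hnorm]
    have hDi : ∀ k, act D⁻¹ (Pi.single k 1) = (v k)⁻¹ • (Pi.single k 1 : Fin 3 → F) := fun k => by
      apply act_injective D
      rw [act_act_inv, act_smul, hDact, smul_smul, inv_mul_cancel₀ (hDu k), one_smul]
    have hpi : v (π 0) * v (π 1) * v (π 2) = v 0 * v 1 * v 2 := by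
      rw [← Fin.prod_univ_three (fun k => v (π k)), ← Fin.prod_univ_three v, Equiv.prod_comp π v]
    refine monomial_mem hu hs (π := π) (μ := fun i => (v i)⁻¹ * μ i * v (π i)) (fun i => ?_) ?_ fun i => ?_
    · rw [mul_pow, mul_pow, inv_pow, hv6, hv6]
      rcases hμ i with h | h <;> rw [h] <;> ring
    · have h0 : (μ 0 * μ 1 * μ 2) ^ 2 = 1 := by
        rcases hμ 0 with a | a <;> rcases hμ 1 with b | b <;> rcases hμ 2 with c | c <;> rw [a, b, c] <;> ring
      show ((v 0)⁻¹ * μ 0 * v (π 0) * ((v 1)⁻¹ * μ 1 * v (π 1)) * ((v 2)⁻¹ * μ 2 * v (π 2))) ^ 2 = 1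
      rw [show (v 0)⁻¹ * μ 0 * v (π 0) * ((v 1)⁻¹ * μ 1 * v (π 1)) * ((v 2)⁻¹ * μ 2 * v (π 2)) =
        (v 0 * v 1 * v 2)⁻¹ * (v (π 0) * v (π 1) * v (π 2)) * (μ 0 * μ 1 * μ 2) by rw [mul_inv, mul_inv]; ring,
        hpi, inv_mul_cancel₀ (mul_ne_zero (mul_ne_zero (hDu 0) (hDu 1)) (hDu 2)), one_mul, h0]
    · rw [act_mul, hDi, act_smul, act_mul, hg, act_smul, hDact, smul_smul, smul_smul]
  have hRM : R ∈ M := by
    show D * R * D⁻¹ ∈ a7Stab s
    have : D * R = DR * D := eq_of_act_units (s := s) (p := 5) _ _ fun i => by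
      rw [act_mul, act_mul, act_coded hs hD, act_coded hs hR, act_coded hs hDR, act_coded hs hD]
      exact congrArg _ (funext fun j => (realR_conj i j).symm)
    rw [this, mul_inv_cancel_right]
    exact hDRM
  -- all real orthogonal matrices
  have horth : ∀ (Y : GL (Fin 3) F) (Z : Fin 3 → Fin 3 → ZMod 5),
      (∀ i j, (Y : Matrix (Fin 3) (Fin 3) F) i j = ι5 (Z i j)) →
      (Y : Matrix (Fin 3) (Fin 3) F)ᵀ * (Y : Matrix (Fin 3) (Fin 3) F) = 1 → Y ∈ M := by
    intro Y Z hZ hY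
    have hcol : ∀ a b, Z 0 a * Z 0 b + Z 1 a * Z 1 b + Z 2 a * Z 2 b = if a = b then 1 else 0 := fun a b => by
      have h := congrFun (congrFun hY a) b
      rw [Matrix.mul_apply, Fin.sum_univ_three, Matrix.one_apply] at h
      apply ι5.injective
      simp only [Matrix.transpose_apply, hZ] at h
      rw [map_add, map_add, map_mul, map_mul, map_mul, h]
      split_ifs <;> simp
    -- one monomial step
    have hstep : ∀ x : Fin 3 → ZMod 5, x 0 * x 0 + x 1 * x 1 + x 2 * x 2 = 1 →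
        ∃ (π : Equiv.Perm (Fin 3)) (e : Fin 3 → ZMod 5), (∀ i, e i = 1 ∨ e i = -1) ∧
          ((∀ i, e (π.symm i) * x (π.symm i) = if i = 0 then 1 else 0) ∨
            ∀ i, e (π.symm i) * x (π.symm i) = (![1, 1, 2] : Fin 3 → ZMod 5) i) := by
      decide +kernel
    obtain ⟨π, e, he, hcase⟩ := hstep (fun i => Z i 0) (by simpa using hcol 0 0)
    -- the monomial matrix
    set Pm : Matrix (Fin 3) (Fin 3) F := Matrix.of fun a b => if a = π b then ι5 (e b) else 0
    have hPmsingle : ∀ b, Pm *ᵥ (Pi.single b 1) = ι5 (e b) • (Pi.single (π b) 1 : Fin 3 → F) := fun b => by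
      rw [Matrix.mulVec_single_one]; funext a
      simp [Pm, Pi.single_apply]
    have hPmT : Pmᵀ * Pm = 1 := by
      ext a b
      rw [Matrix.mul_apply]
      by_cases hab : a = b
      · subst hab
        rw [Finset.sum_eq_single (π a)]
        · rcases he a with h | h <;> simp [Pm, h]
        · intro k _ hk; simp [Pm, hk]
        · simp
      · rw [Matrix.one_apply_ne hab]
        refine Finset.sum_eq_zero fun k _ => ?_
        by_cases hk : k = π a
        · subst hk; simp [Pm, hab]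
        · simp [Pm, hk]
    set m := Matrix.GeneralLinearGroup.mkOfDetNeZero Pm (fun h => by
      have h' := congrArg Matrix.det hPmT
      rw [Matrix.det_mul, h, mul_zero, Matrix.det_one] at h'
      exact zero_ne_one h')
    have hmM : m ∈ M := hmonoM m π (fun b => ι5 (e b))
      (fun b => by rcases he b with h | h <;> simp [h]) fun b => hPmsingle b
    have hPx : ∀ x : Fin 3 → ZMod 5, ∀ a, act m (fun k => ι5 (x k)) a = ι5 (e (π.symm a) * x (π.symm a)) := fun x a => by
      show (Pm *ᵥ _) a = _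
      rw [Matrix.mulVec, dotProduct, Finset.sum_eq_single (π.symm a)]
      · simp [Pm]
      · intro k _ hk
        have : a ≠ π k := fun h => hk (by rw [h, Equiv.symm_apply_apply])
        simp [Pm, this]
      · simp
    have hYe : act Y (Pi.single 0 1) = fun k => ι5 (Z k 0) := by
      funext k; simp [act, hZ, Matrix.mulVec_single_one]
    -- the fixing case
    have hfix : ∀ W : GL (Fin 3) F, (∃ Z' : Fin 3 → Fin 3 → ZMod 5,
        ∀ i j, (W : Matrix (Fin 3) (Fin 3) F) i j = ι5 (Z' i j)) →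
        (W : Matrix (Fin 3) (Fin 3) F)ᵀ * (W : Matrix (Fin 3) (Fin 3) F) = 1 →
        act W (Pi.single 0 1) = (Pi.single 0 1 : Fin 3 → F) → W ∈ M := by
      rintro W ⟨Z', hZ'⟩ hW hW0
      have hz : ∀ k, Z' k 0 = if k = 0 then 1 else 0 := fun k => by
        apply ι5.injective
        rw [← hZ']
        have h := congrFun hW0 k
        rw [act, Matrix.mulVec_single_one] at h
        rw [show (W : Matrix (Fin 3) (Fin 3) F) k 0 = (Pi.single 0 1 : Fin 3 → F) k from h]
        split_ifs with hk <;> simp [hk]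
      have hWcol : ∀ a b, Z' 0 a * Z' 0 b + Z' 1 a * Z' 1 b + Z' 2 a * Z' 2 b = if a = b then 1 else 0 := fun a b => by
        have h := congrFun (congrFun hW a) b
        rw [Matrix.mul_apply, Fin.sum_univ_three, Matrix.one_apply] at h
        apply ι5.injective
        simp only [Matrix.transpose_apply, hZ'] at h
        rw [map_add, map_add, map_mul, map_mul, map_mul, h]
        split_ifs <;> simp
      have h01 : Z' 0 1 = 0 := by simpa [hz] using hWcol 0 1
      have h02 : Z' 0 2 = 0 := by simpa [hz] using hWcol 0 2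
      have hmono : ∀ a b c d : ZMod 5, a * a + b * b = 1 → c * c + d * d = 1 → a * c + b * d = 0 →
          ((a = 1 ∨ a = -1) ∧ b = 0 ∧ c = 0 ∧ (d = 1 ∨ d = -1)) ∨
            (a = 0 ∧ (b = 1 ∨ b = -1) ∧ (c = 1 ∨ c = -1) ∧ d = 0) := by decide +kernel
      rcases hmono (Z' 1 1) (Z' 2 1) (Z' 1 2) (Z' 2 2) (by simpa [h01] using hWcol 1 1)
        (by simpa [h02] using hWcol 2 2) (by simpa [h01] using hWcol 1 2) with ⟨ha, hb, hc, hd⟩ | ⟨ha, hb, hc, hd⟩
      · refine hmonoM W 1 ![1, ι5 (Z' 1 1), ι5 (Z' 2 2)] (fun i => ?_) fun i => ?_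
        · fin_cases i
          · exact Or.inl rfl
          · rcases ha with h | h <;> simp [h]
          · rcases hd with h | h <;> simp [h]
        · funext k
          rw [act, Matrix.mulVec_single_one]
          fin_cases i <;> fin_cases k <;> simp [hZ', hz, h01, h02, hb, hc]
      · refine hmonoM W (Equiv.swap 1 2) ![1, ι5 (Z' 2 1), ι5 (Z' 1 2)] (fun i => ?_) fun i => ?_
        · fin_cases i
          · exact Or.inl rfl
          · rcases hb with h | h <;> simp [h]
          · rcases hc with h | h <;> simp [h]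
        · funext k
          rw [act, Matrix.mulVec_single_one]
          fin_cases i <;> fin_cases k <;> simp [hZ', hz, h01, h02, ha, hd, Equiv.swap_apply_def]
    have hmem_real : ∀ W : GL (Fin 3) F, (W : Matrix (Fin 3) (Fin 3) F) = (m : Matrix (Fin 3) (Fin 3) F) * Y ∨
        (W : Matrix (Fin 3) (Fin 3) F) = (R : Matrix (Fin 3) (Fin 3) F) * ((m : Matrix (Fin 3) (Fin 3) F) * Y) →
        (∃ Z' : Fin 3 → Fin 3 → ZMod 5, ∀ i j, (W : Matrix (Fin 3) (Fin 3) F) i j = ι5 (Z' i j)) ∧
        (W : Matrix (Fin 3) (Fin 3) F)ᵀ * (W : Matrix (Fin 3) (Fin 3) F) = 1 := by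
      set SK := ι5.mapMatrix (m := Fin 3)
      have hYr : (Y : Matrix (Fin 3) (Fin 3) F) = SK (Matrix.of Z) := Matrix.ext hZ
      have hmr : (m : Matrix (Fin 3) (Fin 3) F) = SK (Matrix.of fun a b => if a = π b then e b else 0) := by
        ext a b
        show (if a = π b then ι5 (e b) else 0) = ι5 (if a = π b then e b else 0)
        split_ifs <;> simp
      set R0 : Matrix (Fin 3) (Fin 3) (ZMod 5) := !![1, 1, 2; 1, 2, 1; 2, 1, 1]
      have hRr : (R : Matrix (Fin 3) (Fin 3) F) = SK R0 := by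
        rw [hR]; ext a b
        fin_cases a <;> fin_cases b <;> simp [decM, realR, decQ, SK, R0, ι5]
      have hR0 : R0ᵀ * R0 = 1 := by decide +kernel
      rintro W (hW | hW)
      · refine ⟨⟨_, fun i j => by rw [hW, hmr, hYr, ← map_mul]; rfl⟩, ?_⟩
        rw [hW, Matrix.transpose_mul, ← Matrix.mul_assoc, Matrix.mul_assoc _ (m : Matrix (Fin 3) (Fin 3) F)ᵀ,
          show (m : Matrix (Fin 3) (Fin 3) F)ᵀ * (m : Matrix (Fin 3) (Fin 3) F) = 1 from hPmT, Matrix.mul_one, hY]
      · refine ⟨⟨_, fun i j => by rw [hW, hRr, hmr, hYr, ← map_mul, ← map_mul]; rfl⟩, ?_⟩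
        have hRT : (R : Matrix (Fin 3) (Fin 3) F)ᵀ * (R : Matrix (Fin 3) (Fin 3) F) = 1 := by
          rw [hRr, show (SK R0)ᵀ = SK R0ᵀ from rfl, ← map_mul, hR0, map_one]
        rw [hW, Matrix.transpose_mul, ← Matrix.mul_assoc, Matrix.mul_assoc _ (R : Matrix (Fin 3) (Fin 3) F)ᵀ, hRT,
          Matrix.mul_one, Matrix.transpose_mul, ← Matrix.mul_assoc,
          Matrix.mul_assoc _ (m : Matrix (Fin 3) (Fin 3) F)ᵀ,
          show (m : Matrix (Fin 3) (Fin 3) F)ᵀ * (m : Matrix (Fin 3) (Fin 3) F) = 1 from hPmT, Matrix.mul_one, hY]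
    rcases hcase with h | h
    · have hW : m * Y ∈ M := by
        obtain ⟨hz', hor⟩ := hmem_real (m * Y) (Or.inl (Units.val_mul _ _))
        refine hfix _ hz' hor ?_
        rw [act_mul, hYe]; funext a; rw [hPx, h]
        split_ifs with ha <;> simp [ha]
      exact (Subgroup.mul_mem_cancel_left M hmM).mp hW
    · have hW : R * (m * Y) ∈ M := by
        obtain ⟨hz', hor⟩ := hmem_real (R * (m * Y)) (Or.inr (by rw [Units.val_mul, Units.val_mul]))
        refine hfix _ hz' hor ?_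
        have h1 : act (m * Y) (Pi.single 0 1) = decV s (mv realR (unit3 0)) := by
          have hcolR : ∀ a, mv realR (unit3 0) a = ((![1, 1, 2] : Fin 3 → ZMod 5) a, 0) := by decide +kernel
          rw [act_mul, hYe]; funext a; rw [hPx, h, decV, hcolR, hcast]
        rw [act_mul, h1, act_coded hs hR, ← decV_unit (p := 5) (s := s)]
        exact congrArg _ (funext (realR_sq 0))
      exact (Subgroup.mul_mem_cancel_left M hmM).mp ((Subgroup.mul_mem_cancel_left M hRM).mp hW)
  -- the conjugate of `H`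
  have hshape : ∀ h ∈ H, ∃ (r : F) (Z : Fin 3 → Fin 3 → ZMod 5) (Y : GL (Fin 3) F),
      (∀ i j, (Y : Matrix (Fin 3) (Fin 3) F) i j = ι5 (Z i j)) ∧
      (Y : Matrix (Fin 3) (Fin 3) F)ᵀ * (Y : Matrix (Fin 3) (Fin 3) F) = 1 ∧
      ((U⁻¹ * h * U : GL (Fin 3) F) : Matrix (Fin 3) (Fin 3) F) = r • (Y : Matrix (Fin 3) (Fin 3) F) := by
    intro h hh
    rw [hHK] at hh
    obtain ⟨r, Y, hYK, hYY, hrY⟩ := hframe h ⟨hh.1, hh.2.1⟩
    choose Z hZ using fun i j => hKc _ (hYK i j)
    refine ⟨r, Z, Matrix.GeneralLinearGroup.mkOfDetNeZero Y (fun h0 => by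
      have h' := congrArg Matrix.det hYY
      rw [Matrix.det_mul, h0, mul_zero, Matrix.det_one] at h'
      exact zero_ne_one h'), fun i j => ((hcast _).symm.trans (hZ i j)).symm, hYY, hrY⟩
  have hc : D * U⁻¹ ∈ Cfsg.GU 3 F 5 := Subgroup.mul_mem _ hDU (Subgroup.inv_mem _ hU)
  have hle : ∀ h ∈ H, D * U⁻¹ * h * (D * U⁻¹)⁻¹ ∈ a7Stab s := by
    intro h hh
    obtain ⟨r, Z, Y, hZ, hY, hrY⟩ := hshape h hh
    have hYM : D * Y * D⁻¹ ∈ a7Stab s := horth Y Z hZ hY
    have hsc : (U⁻¹ * h * U) * Y⁻¹ ∈ a7Stab s := scalar_mem_lineStab _ (c := r) (by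
      rw [Units.val_mul, hrY, Matrix.smul_mul, ← Units.val_mul, mul_inv_cancel, Units.val_one])
    have hscal : (U⁻¹ * h * U) * Y⁻¹ ∈ scalars (Fin 3) F := mem_scalars_of_act r fun w => act_scalar (by
      rw [Units.val_mul, hrY, Matrix.smul_mul, ← Units.val_mul, mul_inv_cancel, Units.val_one]) w
    have heq : D * U⁻¹ * h * (D * U⁻¹)⁻¹ = ((U⁻¹ * h * U) * Y⁻¹) * (D * Y * D⁻¹) := by
      rw [show (U⁻¹ * h * U) * Y⁻¹ * (D * Y * D⁻¹) = ((U⁻¹ * h * U) * Y⁻¹ * D) * Y * D⁻¹ by group,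
        scalars_commute hscal D]
      group
    rw [heq]
    exact mul_mem hsc hYM
  obtain ⟨g, hg, hgU, hgM, -, hgS⟩ := cert_a7D1.exists_gl hs hu (by norm_num) (by decide)
  obtain ⟨d, hd, hdU, hdS⟩ := exists_unitary_gl out_a7_unitary hs hu (by norm_num) (by decide)
  refine false_of_overgroup hH hc hle hgM ⟨hgU, hgS det_a7D1⟩ (fun hgH => ?_)
    ⟨hdU, hdS det_a7Out⟩ (not_mem_lineStab hs h2 hu.card hd out_a7_bad)
  obtain ⟨r, Z, Y, hZ, -, hrY⟩ := hshape _ hgH
  have hgd : (g : Matrix (Fin 3) (Fin 3) F) = Matrix.diagonal ![decQ (p := 5) s (3, 2), decQ (p := 5) s (3, 3), 1] := by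
    rw [hg]; ext k l; fin_cases k <;> fin_cases l <;> simp [decM, a7D1, decQ]
  have hcomm : D⁻¹ * g * D = g := by
    have h : g * D = D * g := Units.ext (by
      rw [Units.val_mul, Units.val_mul, hgd, hDd, Matrix.diagonal_mul_diagonal, Matrix.diagonal_mul_diagonal]
      congr 1; funext k; exact mul_comm _ _)
    rw [mul_assoc, h, inv_mul_cancel_left]
  rw [show U⁻¹ * ((D * U⁻¹)⁻¹ * g * (D * U⁻¹)) * U = D⁻¹ * g * D by group, hcomm] at hrY
  have e0 : decQ (p := 5) s (3, 2) = r * ι5 (Z 0 0) := by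
    rw [← hZ, ← smul_eq_mul, ← Matrix.smul_apply, ← hrY, hgd]; simp
  have e2 : (1 : F) = r * ι5 (Z 2 2) := by
    rw [← hZ, ← smul_eq_mul, ← Matrix.smul_apply, ← hrY, hgd]; simp
  have hz2 : Z 2 2 ≠ 0 := fun h => by rw [h, map_zero, mul_zero] at e2; exact one_ne_zero e2
  have : decQ (p := 5) s (3, 2) = decQ (p := 5) s (Z 0 0 / Z 2 2, 0) := by
    have hι : ι5 (Z 2 2) ≠ 0 := (map_ne_zero ι5).2 hz2
    rw [hcast, map_div₀, eq_div_iff hι, e0]
    linear_combination -(ι5 (Z 0 0)) * e2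
  have h32 := congrArg Prod.snd (decQ_injective hs h2 this)
  change (2 : ZMod 5) = 0 at h32
  revert h32
  decide

end CfsgLib.SmallDim.UThree
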