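import Cfsg.Agent.Lib.SmallDim.UnitaryThreeModels

/-!
The model containing the normaliser of the group of order 27 in `SU(3,5)`.
-/

set_option autoImplicit false
set_option linter.style.haveILetI false
set_option linter.unusedSectionVars false

namespace CfsgLib.SmallDim.UThree

open scoped MatrixGroups Matrix
open Cfsg.Geo

variable {F : Type*} [Field F] [Fintype F] [CharP F 5] {σ : F ≃+* F} {s : F}

/-- The primitive third root of unity as data. -/
abbrev wQ : Q2 5 := (2, 2)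

/-- The stabiliser of the model. -/
abbrev m10Stab (s : F) : Subgroup (GL (Fin 3) F) := lineStab fun k => decV s (m10S k)

/-- Words in the generators of the quaternion group. -/
def qWord : List Bool → V3 5 → V3 5
  | [], v => v
  | b :: l, v => mv (if b then m10Qi else m10Qj) (qWord l v)

/-- Representatives of the eight elements. -/
def qList : List (List Bool) :=
  [[], [true], [false], [true, true], [true, false], [false, true], [true, true, true], [true, true, false]]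

/-- `X ^ i * Y ^ j` on coded vectors. -/
def monV (i j : Fin 3) (v : V3 5) : V3 5 := (mv m10X)^[(i : ℕ)] ((mv m10Y)^[(j : ℕ)] v)

lemma quat_table : ∀ i j : Fin 3, (i ≠ 0 ∨ j ≠ 0) →
    ∃ w ∈ qList, ∃ k : Fin 3, ∀ e a, qWord w (mv m10X (unit3 e)) a =
      sv ((qm wQ)^[(k : ℕ)] q1) (monV i j (qWord w (unit3 e))) a := by
  decide +kernel

lemma quat_closed : ∀ w ∈ qList, ∀ i j : Fin 3, ∃ i' j' k : Fin 3, ∀ e a,
    qWord w (monV i' j' (unit3 e)) a = sv ((qm wQ)^[(k : ℕ)] q1) (monV i j (qWord w (unit3 e))) a := by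
  decide +kernel

lemma wQ_pow (hs : s ^ 2 = 2) (n : ℕ) : decQ (p := 5) s wQ ^ n = decQ (p := 5) s ((qm wQ)^[n] q1) := by
  induction n with
  | zero => simp [decQ_one]
  | succ n ih => rw [Function.iterate_succ_apply', decQ_mul hs, ← ih, pow_succ']

lemma wQ_primitive (hs : s ^ 2 = 2) : IsPrimitiveRoot (decQ (p := 5) s wQ) 3 := by
  have h2 : ∀ a : ZMod 5, a ^ 2 ≠ 2 := by decide
  have hw3 : decQ (p := 5) s wQ ^ 3 = 1 := by
    rw [wQ_pow hs, ← decQ_one (p := 5) (s := s)]
    congr 1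
  have hw1 : decQ (p := 5) s wQ ≠ 1 := fun h => by
    rw [← decQ_one (p := 5) (s := s)] at h
    have := decQ_injective hs h2 h
    revert this
    decide
  exact (orderOf_eq_prime (hp := ⟨Nat.prime_three⟩) hw3 hw1) ▸ IsPrimitiveRoot.orderOf _

/-- Two maps proportional on the unit vectors are proportional. -/
lemma act_eq_smul_of_units {x y : GL (Fin 3) F} {c : F}
    (h : ∀ k, act x (Pi.single k 1) = c • act y (Pi.single k 1)) (u : Fin 3 → F) : act x u = c • act y u := by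
  have hm : (x : Matrix (Fin 3) (Fin 3) F) = c • (y : Matrix (Fin 3) (Fin 3) F) :=
    Matrix.ext_of_mulVec_single fun k => (h k).trans (Matrix.smul_mulVec _ _ _).symm
  rw [act, hm, Matrix.smul_mulVec]

/-- The coordinates of an image under a diagonal map. -/
lemma act_diag_apply {g : GL (Fin 3) F} {v : Fin 3 → F}
    (h : ∀ k, act g (Pi.single k 1) = v k • (Pi.single k 1 : Fin 3 → F)) (u : Fin 3 → F) (b : Fin 3) :
    act g u b = v b * u b := by
  have hm : (g : Matrix (Fin 3) (Fin 3) F) = Matrix.diagonal v := Matrix.ext_of_mulVec_single fun k => by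
    refine (h k).trans ?_
    funext l
    rw [Matrix.mulVec_single_one]
    by_cases hl : l = k
    · subst hl; simp
    · simp [Pi.single_eq_of_ne hl, Matrix.diagonal_apply_ne _ hl]
  rw [act, hm, Matrix.mulVec_diagonal]

variable {sX sY : GL (Fin 3) F}

lemma act_sX (hs : s ^ 2 = 2) (hsX : (sX : Matrix (Fin 3) (Fin 3) F) = decM s m10X) (k : Fin 3) :
    act sX (Pi.single k 1) = decQ (p := 5) s wQ ^ (k : ℕ) • (Pi.single k 1 : Fin 3 → F) := by
  rw [← decV_unit (p := 5) (s := s) k, act_coded hs hsX, wQ_pow hs, ← decV_sv hs]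
  congr 1
  revert k
  decide +kernel

lemma act_sY (hs : s ^ 2 = 2) (hsY : (sY : Matrix (Fin 3) (Fin 3) F) = decM s m10Y) (k : Fin 3) :
    act sY (Pi.single k 1) = (Pi.single (k + 1) 1 : Fin 3 → F) := by
  rw [← decV_unit (p := 5) (s := s) k, act_coded hs hsY, ← decV_unit (p := 5) (s := s)]
  congr 1
  revert k
  decide +kernel

lemma act_mon_coded (hs : s ^ 2 = 2) (hsX : (sX : Matrix (Fin 3) (Fin 3) F) = decM s m10X)
    (hsY : (sY : Matrix (Fin 3) (Fin 3) F) = decM s m10Y) (i j : Fin 3) (v : V3 5) :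
    act (sX ^ (i : ℕ) * sY ^ (j : ℕ)) (decV s v) = decV s (monV i j v) := by
  rw [act_mul, act_pow_coded hs hsY, act_pow_coded hs hsX]
  rfl

lemma act_mon (hs : s ^ 2 = 2) (hsX : (sX : Matrix (Fin 3) (Fin 3) F) = decM s m10X)
    (hsY : (sY : Matrix (Fin 3) (Fin 3) F) = decM s m10Y) (i j k : Fin 3) :
    act (sX ^ (i : ℕ) * sY ^ (j : ℕ)) (Pi.single k 1) =
      decQ (p := 5) s wQ ^ (((k + j : Fin 3) : ℕ) * i) • (Pi.single (k + j) 1 : Fin 3 → F) := by
  rw [← decV_unit (p := 5) (s := s) k, act_mon_coded hs hsX hsY, ← decV_unit (p := 5) (s := s), wQ_pow hs,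
    ← decV_sv hs]
  congr 1
  revert i j k
  decide +kernel

/-- An element permuting the standard group of order 27 up to scalars lies in the model. -/
theorem mem_m10Stab (hu : UnitarySetup 3 5 σ) (hs : s ^ 2 = 2)
    (hsX : (sX : Matrix (Fin 3) (Fin 3) F) = decM s m10X) (hsY : (sY : Matrix (Fin 3) (Fin 3) F) = decM s m10Y)
    (hsXM : sX ∈ m10Stab s) (hsYM : sY ∈ m10Stab s) (hsXG : sX ∈ Cfsg.GU 3 F 5) (hsYG : sY ∈ Cfsg.GU 3 F 5)
    (hsYS : sY ∈ specialLinear (Fin 3) F) {z : GL (Fin 3) F}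
    (hz : z ∈ Cfsg.GU 3 F 5 ⊓ specialLinear (Fin 3) F)
    (hX : ∃ (c : F) (i j : Fin 3), ∀ u, act z (act sX u) = c • act (sX ^ (i : ℕ) * sY ^ (j : ℕ)) (act z u))
    (hY : ∃ (c : F) (i j : Fin 3), ∀ u, act z (act sY u) = c • act (sX ^ (i : ℕ) * sY ^ (j : ℕ)) (act z u)) :
    z ∈ m10Stab s := by
  classical
  obtain ⟨gI, hgI, hgIG, hgIM, -, hgIS⟩ := cert_m10Qi.exists_gl hs hu (by norm_num) (by decide)
  obtain ⟨gJ, hgJ, hgJG, hgJM, -, hgJS⟩ := cert_m10Qj.exists_gl hs hu (by norm_num) (by decide)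
  set w : F := decQ (p := 5) s wQ with hwdef
  have hwp : IsPrimitiveRoot w 3 := wQ_primitive hs
  have hw0 : w ≠ 0 := hwp.ne_zero (by norm_num)
  have hwk : ∀ n : ℕ, w ^ n = decQ (p := 5) s ((qm wQ)^[n] q1) := wQ_pow hs
  obtain ⟨c, i, j, hzX⟩ := hX
  have hne : ∀ (g : GL (Fin 3) F) (u : Fin 3 → F), u ≠ 0 → act g u ≠ 0 := fun g u hu0 h =>
    hu0 (act_injective g (h.trans (Matrix.mulVec_zero _).symm))
  have he : ∀ k : Fin 3, (Pi.single k 1 : Fin 3 → F) ≠ 0 := fun k h => one_ne_zero (Pi.single_eq_zero_iff.mp h)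
  have hij : i ≠ 0 ∨ j ≠ 0 := by
    by_contra hall
    push Not at hall
    obtain ⟨rfl, rfl⟩ := hall
    simp only [Fin.val_zero, pow_zero, mul_one, act_one] at hzX
    have e0 := hzX (Pi.single 0 1)
    have e1 := hzX (Pi.single 1 1)
    rw [act_sX hs hsX, act_smul] at e0 e1
    simp only [Fin.val_zero, Fin.val_one, pow_zero, pow_one, one_smul] at e0 e1
    have hc : c = 1 := by
      have : (c - 1) • act z (Pi.single 0 1) = 0 := by rw [sub_smul, one_smul, ← e0, sub_self]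
      exact sub_eq_zero.mp ((smul_eq_zero.mp this).resolve_right (hne z _ (he 0)))
    have hw1 : (w - 1) • act z (Pi.single 1 1) = 0 := by rw [sub_smul, one_smul, e1, hc, one_smul, sub_self]
    exact hwp.ne_one (by norm_num) (sub_eq_zero.mp ((smul_eq_zero.mp hw1).resolve_right (hne z _ (he 1))))
  obtain ⟨word, hword', k, hword⟩ := quat_table i j hij
  -- the quaternion part
  let gq : List Bool → GL (Fin 3) F := fun l => (l.map fun b => if b then gI else gJ).prod
  have hgq : ∀ (l : List Bool) (v : V3 5), act (gq l) (decV s v) = decV s (qWord l v) := by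
    intro l
    induction l with
    | nil => intro v; simp [gq, qWord, act_one]
    | cons b l ih =>
      intro v
      show act ((List.map _ (b :: l)).prod) _ = _
      rw [List.map_cons, List.prod_cons, act_mul, ih]
      cases b
      · exact act_coded hs hgJ _
      · exact act_coded hs hgI _
  have hgqall : gq word ∈ m10Stab s ⊓ (Cfsg.GU 3 F 5 ⊓ specialLinear (Fin 3) F) :=
    Subgroup.list_prod_mem _ fun x hx => by
      obtain ⟨b, -, rfl⟩ := List.mem_map.1 hx
      cases b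
      · exact ⟨hgJM, hgJG, hgJS det_m10Qj⟩
      · exact ⟨hgIM, hgIG, hgIS det_m10Qi⟩
  -- moving a monomial through the quaternion part
  have hthrough : ∀ i j : Fin 3, ∃ (d : F) (i' j' : Fin 3), ∀ u, act (gq word)⁻¹ (act (sX ^ (i : ℕ) * sY ^ (j : ℕ)) u) =
      d • act (sX ^ (i' : ℕ) * sY ^ (j' : ℕ)) (act (gq word)⁻¹ u) := by
    intro i j
    obtain ⟨i', j', k', h⟩ := quat_closed word hword' i j
    have hmove : ∀ u, act (gq word * (sX ^ (i' : ℕ) * sY ^ (j' : ℕ))) u =
        w ^ (k' : ℕ) • act (sX ^ (i : ℕ) * sY ^ (j : ℕ) * gq word) u := act_eq_smul_of_units fun e => by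
      rw [← decV_unit (p := 5) (s := s) e, act_mul, act_mon_coded hs hsX hsY, hgq, act_mul, hgq,
        act_mon_coded hs hsX hsY, hwk, ← decV_sv hs]
      exact congrArg _ (funext (h e))
    refine ⟨(w ^ (k' : ℕ))⁻¹, i', j', fun u => ?_⟩
    apply act_injective (gq word)
    rw [act_act_inv, act_smul, ← act_mul (gq word) (sX ^ _ * sY ^ _), hmove, act_mul _ (gq word),
      act_act_inv, smul_smul, inv_mul_cancel₀ (pow_ne_zero _ hw0), one_smul]
  set z₁ := (gq word)⁻¹ * z with hz₁def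
  set c' := c / w ^ (k : ℕ)
  have hq : ∀ u, act (gq word * sX) u = w ^ (k : ℕ) • act (sX ^ (i : ℕ) * sY ^ (j : ℕ) * gq word) u :=
    act_eq_smul_of_units fun e => by
      rw [← decV_unit (p := 5) (s := s) e, act_mul, act_coded hs hsX, hgq, act_mul, hgq,
        act_mon_coded hs hsX hsY, hwk, ← decV_sv hs]
      exact congrArg _ (funext (hword e))
  have hz₁ : ∀ u, act z₁ (act sX u) = c' • act sX (act z₁ u) := fun u => by
    apply act_injective (gq word)
    rw [act_smul, ← act_mul (gq word) sX, hq, smul_smul, div_mul_cancel₀ _ (pow_ne_zero _ hw0),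
      act_mul _ (gq word), hz₁def, act_mul _ z, act_mul _ z, act_act_inv, act_act_inv, hzX]
  obtain ⟨a, ha⟩ := Function.ne_iff.1 (hne z₁ _ (he 0))
  have hdiag : ∀ (u : Fin 3 → F) (b : Fin 3), act sX u b = w ^ (b : ℕ) * u b := act_diag_apply (act_sX hs hsX)
  have hca : c' * w ^ (a : ℕ) = 1 := by
    have h := congrFun (hz₁ (Pi.single 0 1)) a
    rw [act_sX hs hsX, Fin.val_zero, pow_zero, one_smul, Pi.smul_apply, smul_eq_mul, hdiag] at h
    apply mul_right_cancel₀ ha
    rw [one_mul]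
    linear_combination -h
  -- shift to a diagonal matrix
  have hYX : ∀ u, act sY (act sX u) = w⁻¹ • act sX (act sY u) := fun u => by
    rw [← act_mul, ← act_mul]
    refine act_eq_smul_of_units (fun e => ?_) u
    rw [act_mul, act_mul, act_sX hs hsX, act_smul, act_sY hs hsY, act_sX hs hsX, smul_smul]
    simp only [← hwdef]
    congr 1
    rw [eq_inv_mul_iff_mul_eq₀ hw0]
    fin_cases e
    · simp
    · simp [pow_succ]
    · simpa [← pow_succ'] using hwp.pow_eq_one
  have hswap : ∀ (n m : ℕ) u, act (sY ^ n) (act (sX ^ m) u) = (w⁻¹) ^ (n * m) • act (sX ^ m) (act (sY ^ n) u) := by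
    have h1 : ∀ (m : ℕ) u, act sY (act (sX ^ m) u) = (w⁻¹) ^ m • act (sX ^ m) (act sY u) := by
      intro m
      induction m with
      | zero => simp [act_one]
      | succ m ih => intro u; rw [pow_succ' sX, act_mul, hYX, ih, act_smul, smul_smul, ← pow_succ', act_mul]
    intro n
    induction n with
    | zero => intro m u; rw [pow_zero, act_one, act_one, zero_mul, pow_zero, one_smul]
    | succ n ih =>
      intro m u
      rw [pow_succ' sY, act_mul, ih, act_smul, h1, smul_smul, ← pow_add, act_mul, Nat.succ_mul]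
  set N := sY ^ (3 - (a : ℕ)) with hNdef
  set z₂ := N * z₁ with hz₂def
  have hz₂ : ∀ u, act z₂ (act sX u) = act sX (act z₂ u) := fun u => by
    rw [hz₂def, act_mul N z₁, hz₁, act_smul, act_mul N z₁]
    have := hswap (3 - (a : ℕ)) 1 (act z₁ u)
    rw [pow_one, mul_one] at this
    rw [hNdef, this, smul_smul, show c' * w⁻¹ ^ (3 - (a : ℕ)) = 1 by
      rw [inv_pow, ← div_eq_mul_inv, div_eq_one_iff_eq (pow_ne_zero _ hw0)]
      apply mul_right_cancel₀ (pow_ne_zero (a : ℕ) hw0)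
      rw [hca, ← pow_add, Nat.sub_add_cancel (Nat.le_of_lt a.2), hwp.pow_eq_one], one_smul]
  have hdg : ∀ e : Fin 3, ∃ de : F, act z₂ (Pi.single e 1) = de • (Pi.single e 1 : Fin 3 → F) := fun e => by
    refine ⟨act z₂ (Pi.single e 1) e, funext fun b => ?_⟩
    by_cases hbe : b = e
    · subst hbe; simp
    · rw [Pi.smul_apply, Pi.single_eq_of_ne hbe, smul_zero]
      by_contra hb
      have h := congrFun (hz₂ (Pi.single e 1)) b
      rw [act_sX hs hsX, act_smul, Pi.smul_apply, smul_eq_mul, hdiag] at h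
      exact hbe (Fin.ext (hwp.pow_inj e.2 b.2 (mul_right_cancel₀ hb h))).symm
  choose de hde using hdg
  -- conjugation of the shift
  obtain ⟨c₂, i₂, j₂, hzY⟩ := hY
  obtain ⟨d, i₃, j₃, hd⟩ := hthrough i₂ j₂
  have hz₂Y : ∀ u, act z₂ (act sY u) =
      (c₂ * d * w⁻¹ ^ ((3 - (a : ℕ)) * (i₃ : ℕ))) • act (sX ^ (i₃ : ℕ) * sY ^ (j₃ : ℕ)) (act z₂ u) := fun u => by
    have e1 : act z₁ (act sY u) = (c₂ * d) • act (sX ^ (i₃ : ℕ) * sY ^ (j₃ : ℕ)) (act z₁ u) := by
      rw [hz₁def, act_mul _ z, act_mul _ z, hzY, act_smul, hd, smul_smul]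
    have e2 : ∀ v, act N (act (sX ^ (i₃ : ℕ) * sY ^ (j₃ : ℕ)) v) =
        w⁻¹ ^ ((3 - (a : ℕ)) * (i₃ : ℕ)) • act (sX ^ (i₃ : ℕ) * sY ^ (j₃ : ℕ)) (act N v) := fun v => by
      rw [act_mul (sX ^ (i₃ : ℕ)), act_mul (sX ^ (i₃ : ℕ)), hNdef, hswap]
      congr 2
      rw [← act_mul, ← act_mul, pow_mul_comm]
    rw [hz₂def, act_mul N z₁, e1, act_smul, e2, smul_smul, act_mul N z₁]
  set c₃ := c₂ * d * w⁻¹ ^ ((3 - (a : ℕ)) * (i₃ : ℕ))
  have hde0 : ∀ e, de e ≠ 0 := fun e h => hne z₂ _ (he e) (by rw [hde, h, zero_smul])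
  have hrel : ∀ e : Fin 3, de (e + 1) • (Pi.single (e + 1) 1 : Fin 3 → F) =
      (c₃ * de e * w ^ (((e + j₃ : Fin 3) : ℕ) * i₃)) • (Pi.single (e + j₃) 1 : Fin 3 → F) := fun e => by
    have h := hz₂Y (Pi.single e 1)
    rw [act_sY hs hsY, hde, hde, act_smul, act_mon hs hsX hsY, smul_smul, smul_smul] at h
    exact h
  have hj : j₃ = 1 := by
    by_contra hj
    have h := congrFun (hrel 0) 1
    simp [hj, eq_comm] at h
    exact hde0 1 h.symm
  subst hj
  have hrat : ∀ e : Fin 3, de (e + 1) = c₃ * de e * w ^ (((e + 1 : Fin 3) : ℕ) * i₃) := fun e => by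
    simpa using congrFun (hrel e) (e + 1)
  have hzG2 : z₂ ∈ Cfsg.GU 3 F 5 ⊓ specialLinear (Fin 3) F := by
    rw [hz₂def, hz₁def]
    exact mul_mem (pow_mem (show sY ∈ Cfsg.GU 3 F 5 ⊓ specialLinear (Fin 3) F from ⟨hsYG, hsYS⟩) _) (mul_mem (inv_mem hgqall.2) hz)
  have h6 : de 0 ^ 6 = 1 := by
    have h1 := mem_GU.1 hzG2.1 (Pi.single 0 1) (Pi.single 0 1)
    rw [hde, hu.sesqui.smul_left, hu.sesqui.smul_right, hu.herm_eq] at h1
    change de 0 * (σ (de 0) * _) = _ at h1
    simp [hu.pow] at h1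
    linear_combination h1
  have hdet : de 0 * de 1 * de 2 = 1 := by
    have hm : (z₂ : Matrix (Fin 3) (Fin 3) F) = Matrix.diagonal de := Matrix.ext fun b e => by
      have h := congrFun (hde e) b
      rw [act, Matrix.mulVec_single_one] at h
      by_cases hbe : b = e
      · subst hbe; simpa using h
      · simpa [Matrix.diagonal_apply_ne _ hbe, Pi.single_eq_of_ne hbe] using h
    have h1 : Matrix.det (z₂ : Matrix (Fin 3) (Fin 3) F) = 1 := by
      rw [← Matrix.GeneralLinearGroup.val_det_apply, show Matrix.GeneralLinearGroup.det z₂ = 1 from hzG2.2]; rfl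
    rw [hm, Matrix.det_diagonal, Fin.prod_univ_three] at h1
    exact h1
  have r0 : de 1 = c₃ * de 0 * w ^ (i₃ : ℕ) := by simpa using hrat 0
  have r1 : de 2 = c₃ * de 1 * (w ^ (i₃ : ℕ)) ^ 2 := by
    simpa [← pow_mul, mul_comm 2 (i₃ : ℕ)] using hrat 1
  have r2 : de 0 = c₃ * de 2 := by simpa using hrat 2
  set W := w ^ (i₃ : ℕ) with hWdef
  have hW3 : W ^ 3 = 1 := by rw [hWdef, ← pow_mul, mul_comm, pow_mul, hwp.pow_eq_one, one_pow]
  have hc3 : c₃ ^ 3 = 1 := by
    have e : de 0 = c₃ ^ 3 * W ^ 3 * de 0 := by rw [r1, r0] at r2; linear_combination r2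
    rw [hW3, mul_one] at e
    exact (mul_eq_right₀ (hde0 0)).mp e.symm
  have hi : i₃ = 0 := by
    have e1 : de 0 ^ 3 * W = 1 := by
      rw [r1, r0] at hdet
      linear_combination hdet - (de 0 ^ 3 * W) * hc3 - (de 0 ^ 3 * W * c₃ ^ 3) * hW3
    have e2 : W ^ 2 = 1 := by
      linear_combination (de 0 ^ 3 * W + 1) * e1 - W ^ 2 * h6
    have e3 : W = 1 := by linear_combination hW3 - W * e2
    exact Fin.ext (hwp.pow_inj i₃.2 (by norm_num) (by simpa [hWdef] using e3))
  obtain ⟨m, -, hm⟩ := hwp.eq_pow_of_pow_eq_one hc3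
  have hW1 : W = 1 := by rw [hWdef, hi, Fin.val_zero, pow_zero]
  rw [hW1, mul_one] at r0
  rw [hW1, one_pow, mul_one] at r1
  have hz2M : z₂ ∈ m10Stab s := by
    have hsc : z₂ * (sX ^ m)⁻¹ ∈ m10Stab s := by
      refine scalar_mem_lineStab _ (c := de 0) (Matrix.ext_of_mulVec_single fun e => ?_)
      rw [Matrix.smul_mulVec, Matrix.one_mulVec]
      show act (z₂ * (sX ^ m)⁻¹) (Pi.single e 1) = _
      have hXm : ∀ (n : ℕ) (e : Fin 3), act (sX ^ n) (Pi.single e 1) = (w ^ (e : ℕ)) ^ n • (Pi.single e 1 : Fin 3 → F) := by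
        intro n e
        induction n with
        | zero => rw [pow_zero, act_one, pow_zero, one_smul]
        | succ n ih => rw [pow_succ', act_mul, ih, act_smul, act_sX hs hsX, smul_smul, pow_succ]
      have hinv : act (sX ^ m)⁻¹ (Pi.single e 1) = ((w ^ (e : ℕ)) ^ m)⁻¹ • (Pi.single e 1 : Fin 3 → F) := by
        apply act_injective (sX ^ m)
        rw [act_act_inv, act_smul, hXm, smul_smul, inv_mul_cancel₀ (pow_ne_zero _ (pow_ne_zero _ hw0)), one_smul]
      rw [act_mul, hinv, act_smul, hde, smul_smul]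
      congr 1
      rw [inv_mul_eq_iff_eq_mul₀ (pow_ne_zero _ (pow_ne_zero _ hw0)), ← pow_mul, mul_comm (e : ℕ), pow_mul, hm]
      fin_cases e
      · simp
      · simp [r0]
      · simp [r1, r0, pow_two, mul_assoc]
    simpa using mul_mem hsc (pow_mem hsXM m)
  have hback : z = gq word * (N⁻¹ * z₂) := by simp [hz₂def, hz₁def]
  rw [hback]
  exact mul_mem hgqall.1 (mul_mem (inv_mem (pow_mem hsYM _)) hz2M)

end CfsgLib.SmallDim.UThree
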