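import Cfsg.Agent.Lib.SmallDim.UnitaryThreeMten

/-!
In `SU(3,5)` the normaliser of an extraspecial group of order 27 is not maximal.
-/

set_option autoImplicit false
set_option linter.style.haveILetI false
set_option linter.unusedSectionVars false

namespace CfsgLib.SmallDim.UThree

open scoped MatrixGroups Matrix commutatorElement
open Cfsg.Geo

variable {F : Type*} [Field F] [Fintype F] [CharP F 5] {σ : F ≃+* F}

lemma escape_m10 : ∀ (i j : Fin 3) (cc : Q2 5), ∃ e b : Fin 3,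
    mv m10E (mv m10X (unit3 e)) b ≠ sv cc (monV i j (mv m10E (unit3 e))) b := by
  decide +kernel

lemma single_ne' (i : Fin 3) : (Pi.single i 1 : Fin 3 → F) ≠ 0 := fun h =>
  one_ne_zero (Pi.single_eq_zero_iff.mp h)

/-- The normaliser of an extraspecial group of order 27 is not maximal. -/
theorem no_sympl_q5 (hu : UnitarySetup 3 5 σ) {H : Subgroup (GL (Fin 3) F)}
    (hH : IsMaximalIn (Cfsg.GU 3 F 5 ⊓ specialLinear (Fin 3) F) H) {R : Subgroup (GL (Fin 3) F)}
    (hR : IsSymplecticTypeGroup 3 R) (hRa : ActsAbsolutelyIrreducibly (matrixSet R)) (hRG : R ≤ Cfsg.GU 3 F 5)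
    (hc1 : Nat.card R = 27) (hc2 : Nat.card (Subgroup.center R) = 3)
    (hHR : H = subgroupNormalizer R ⊓ (Cfsg.GU 3 F 5 ⊓ specialLinear (Fin 3) F)) : False := by
  classical
  obtain ⟨s, hs⟩ := exists_sqrt_two (p := 5) hu.card (by norm_num) (by decide)
  have h2 : ∀ a : ZMod 5, a ^ 2 ≠ 2 := by decide
  haveI : Fact (Nat.Prime 3) := ⟨Nat.prime_three⟩
  have hexp : ∀ x ∈ R, x ^ 3 = 1 := fun x hx => by
    have h := Monoid.pow_exponent_eq_one (⟨x, hx⟩ : R)
    rw [hR.exponent_eq] at h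
    exact congrArg Subtype.val h
  haveI : Finite R := Subtype.finite
  have hquot : ∀ a b : R, ⁅a, b⁆ ∈ Subgroup.center R := fun a b => by
    have hq : Nat.card (R ⧸ Subgroup.center R) = 3 ^ 2 := by
      have h := Subgroup.card_eq_card_quotient_mul_card_subgroup (Subgroup.center R)
      rw [hc1, hc2] at h
      omega
    rw [← QuotientGroup.eq_one_iff]
    have hcomm := IsPGroup.commutative_of_card_eq_prime_sq hq
    rw [← QuotientGroup.mk'_apply, map_commutatorElement, commutatorElement_eq_one_iff_mul_comm]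
    exact hcomm _ _
  have hcentre : ∀ x : R, x ∈ Subgroup.center R → ∃ c : F, c ^ 3 = 1 ∧ (x : GL (Fin 3) F).val = c • 1 := fun x hx => by
    obtain ⟨c, hc⟩ := hRa.2 ((x : GL (Fin 3) F) : Matrix (Fin 3) (Fin 3) F) (by
      rintro _ ⟨a, ha, rfl⟩
      exact congrArg (fun w : R => ((w : GL (Fin 3) F) : Matrix (Fin 3) (Fin 3) F))
        (Subgroup.mem_center_iff.mp hx ⟨a, ha⟩).symm)
    refine ⟨c, ?_, hc⟩
    have h := congrArg (fun g : GL (Fin 3) F => (g : Matrix (Fin 3) (Fin 3) F) 0 0) (hexp _ x.2)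
    simp only [Units.val_pow_eq_pow_val, hc, _root_.smul_pow, one_pow, Units.val_one] at h
    simpa using h
  obtain ⟨X, Y, hXY⟩ : ∃ X Y : R, X * Y ≠ Y * X := by
    by_contra hall
    push Not at hall
    have htop : Subgroup.center R = ⊤ := eq_top_iff.mpr fun x _ => Subgroup.mem_center_iff.mpr fun y => hall y x
    rw [htop, Subgroup.card_top, hc1] at hc2
    omega
  obtain ⟨ν, hν3, hν⟩ := hcentre _ (hquot Y X)
  have hν1 : ν ≠ 1 := by
    rintro rfl
    refine hXY (commutatorElement_eq_one_iff_mul_comm.mp ?_).symm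
    exact Subtype.ext (Units.ext (by rw [hν, one_smul]; rfl))
  set gX := (X : GL (Fin 3) F)
  set gY := (Y : GL (Fin 3) F)
  have hYX : ∀ v, act gY (act gX v) = ν • act gX (act gY v) := fun v => by
    have h : gY * gX = (⁅Y, X⁆ : R) * (gX * gY) := by
      simp [commutatorElement_def, gX, gY, mul_assoc]
    rw [← act_mul, h, act_mul, act_scalar hν, act_mul]
  have hX3 : gX ^ 3 = 1 := hexp _ X.2
  have hY3 : gY ^ 3 = 1 := hexp _ Y.2
  have hν2 : ν * ν + ν + 1 = 0 := by
    have : (ν - 1) * (ν * ν + ν + 1) = 0 := by linear_combination hν3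
    exact (mul_eq_zero.mp this).resolve_left (sub_ne_zero.2 hν1)
  have h3ne : (3 : F) ≠ 0 := fun h => by
    have h' : ((3 : ℕ) : F) = 0 := by simpa using h
    rw [CharP.cast_eq_zero_iff F 5] at h'
    norm_num at h'
  -- an eigenvector of `X`
  obtain ⟨lam, v, hlam, hv0, hXv⟩ : ∃ (lam : F) (v : Fin 3 → F), lam ^ 3 = 1 ∧ v ≠ 0 ∧ act gX v = lam • v := by
    set w : Fin 3 → F := Pi.single 0 1
    set w1 := act gX w
    set w2 := act gX w1
    have hw3 : act gX w2 = w := by
      rw [show act gX w2 = act (gX * (gX * gX)) w by rw [act_mul, act_mul],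
        show gX * (gX * gX) = gX ^ 3 by simp [pow_succ, mul_assoc], hX3, act_one]
    have hproj : ∀ lam : F, lam ^ 3 = 1 →
        act gX (w + (lam * lam) • w1 + lam • w2) = lam • (w + (lam * lam) • w1 + lam • w2) := fun lam hl => by
      rw [act, Matrix.mulVec_add, Matrix.mulVec_add]
      show act gX w + act gX ((lam * lam) • w1) + act gX (lam • w2) = _
      rw [act_smul, act_smul, hw3]
      rw [smul_add, smul_add, smul_smul, smul_smul, show lam * (lam * lam) = 1 by linear_combination hl, one_smul]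
      show w1 + (lam * lam) • w2 + lam • w = _
      abel
    by_contra hall
    push Not at hall
    have hzero : ∀ lam : F, lam ^ 3 = 1 → w + (lam * lam) • w1 + lam • w2 = 0 := fun lam hl => by
      by_contra h
      exact hall lam _ hl h (hproj lam hl)
    have e1 := hzero 1 (one_pow 3)
    have e2 := hzero ν hν3
    have e3 := hzero (ν * ν) (by rw [mul_pow, hν3, one_mul])
    rw [show ν * ν * (ν * ν) = ν by linear_combination ν * hν3] at e3
    have hsum : (3 : F) • w = 0 := by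
      funext a
      have a1 := congrFun e1 a
      have a2 := congrFun e2 a
      have a3 := congrFun e3 a
      simp only [Pi.add_apply, Pi.smul_apply, smul_eq_mul, Pi.zero_apply] at a1 a2 a3 ⊢
      linear_combination a1 + a2 + a3 - (w1 a + w2 a) * hν2
    exact single_ne' (0 : Fin 3) ((smul_eq_zero.mp hsum).resolve_left h3ne)
  -- the frame
  set μ := ν * ν
  have hμ3 : μ ^ 3 = 1 := by rw [mul_pow, hν3, one_mul]
  let e : Fin 3 → Fin 3 → F := fun k => act (gY ^ (k : ℕ)) v
  have hpowY : ∀ n : ℕ, act gX (act (gY ^ n) v) = (lam * μ ^ n) • act (gY ^ n) v := by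
    intro n
    induction n with
    | zero => simp [act_one, hXv]
    | succ n ih =>
      rw [pow_succ', act_mul]
      have h := hYX (act (gY ^ n) v)
      rw [ih, act_smul] at h
      have h' := congrArg (μ • ·) h
      simp only [smul_smul] at h'
      rw [show μ * ν = 1 by linear_combination hν3, one_smul] at h'
      rw [← h', pow_succ, mul_comm μ, mul_assoc]
  have hXe : ∀ k, act gX (e k) = (lam * μ ^ (k : ℕ)) • e k := fun k => hpowY k
  have hYe : ∀ k, act gY (e k) = e (k + 1) := fun k => by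
    show act gY (act (gY ^ (k : ℕ)) v) = act (gY ^ (((k + 1 : Fin 3)) : ℕ)) v
    rw [← act_mul, ← pow_succ']
    fin_cases k <;> simp [hY3, act_one]
  have hlam0 : ∀ k : Fin 3, (lam * μ ^ (k : ℕ)) ^ 3 = 1 := fun k => by
    rw [mul_pow, hlam, ← pow_mul, mul_comm (k : ℕ), pow_mul, hμ3, one_pow, mul_one]
  have hinj : ∀ k l : Fin 3, lam * μ ^ (k : ℕ) = lam * μ ^ (l : ℕ) → k = l := by
    intro k l h
    have hl : lam ≠ 0 := fun h => by rw [h] at hlam; norm_num at hlam
    have hμo : IsPrimitiveRoot μ 3 := by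
      have hμ1 : μ ≠ 1 := fun h => hν1 (by linear_combination hν3 - ν * (h : ν * ν = 1))
      exact (orderOf_eq_prime (hp := ⟨Nat.prime_three⟩) hμ3 hμ1) ▸ IsPrimitiveRoot.orderOf μ
    exact Fin.ext (hμo.pow_inj k.2 l.2 (mul_left_cancel₀ hl h))
  have hsq := hu.sesqui
  have hXG := hRG X.2
  have hYG := hRG Y.2
  have horth : ∀ k l, k ≠ l → Cfsg.hermForm 3 F 5 (e k) (e l) = 0 := by
    intro k l hkl
    have h := mem_GU.1 hXG (e k) (e l)
    rw [show (X : GL (Fin 3) F) = gX from rfl, hXe, hXe, hsq.smul_left, hsq.smul_right] at h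
    change lam * μ ^ (k : ℕ) * (σ (lam * μ ^ (l : ℕ)) * Cfsg.hermForm 3 F 5 (e k) (e l)) = Cfsg.hermForm 3 F 5 (e k) (e l) at h
    set A := lam * μ ^ (k : ℕ)
    set B := lam * μ ^ (l : ℕ)
    have hB : σ B = B * B := by
      rw [hu.pow]; linear_combination (B * B) * hlam0 l
    rw [hB] at h
    by_contra hne
    have h' : A * (B * B) = 1 := mul_right_cancel₀ hne (by rw [one_mul, mul_assoc]; exact h)
    exact hkl (hinj k l (by linear_combination B * h' - A * hlam0 l))
  have hek : ∀ k, Cfsg.hermForm 3 F 5 (e k) (e k) = Cfsg.hermForm 3 F 5 v v := fun k => by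
    show Cfsg.hermForm 3 F 5 (act (gY ^ (k : ℕ)) v) (act (gY ^ (k : ℕ)) v) = _
    exact mem_GU.1 ((Cfsg.GU 3 F 5).pow_mem hYG k) v v
  have hvv : Cfsg.hermForm 3 F 5 v v ≠ 0 := by
    intro h0
    have hne : ∀ k, e k ≠ 0 := fun k h => hv0 (act_injective (gY ^ (k : ℕ)) (h.trans (Matrix.mulVec_zero _).symm))
    have hli : LinearIndependent F e :=
      Module.End.eigenvectors_linearIndependent' (Matrix.toLin' (gX : Matrix (Fin 3) (Fin 3) F))
        (fun k : Fin 3 => lam * μ ^ (k : ℕ)) (fun k l h => hinj k l h) e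
        (fun k => ⟨Module.End.mem_eigenspace_iff.mpr (by rw [Matrix.toLin'_apply]; exact hXe k), hne k⟩)
    have hspan := hli.span_eq_top_of_card_eq_finrank (by rw [Fintype.card_fin, Module.finrank_fin_fun])
    obtain ⟨⟨x, hx⟩, -⟩ := hu.isUnitary.nondegenerate (e 0) (hne 0)
    obtain ⟨a, ha⟩ := Submodule.mem_span_range_iff_exists_fun F |>.mp (hspan ▸ Submodule.mem_top : x ∈ Submodule.span F (Set.range e))
    refine hx ?_
    rw [← ha, Fin.sum_univ_three, hsq.add_left, hsq.add_left, hsq.smul_left, hsq.smul_left, hsq.smul_left, hek,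
      horth 1 0 (by decide), horth 2 0 (by decide), h0]
    ring
  obtain ⟨t, ht, -⟩ := hu.exists_norm_avoid (b := (Cfsg.hermForm 3 F 5 v v)⁻¹) (by rw [map_inv₀, ← hu.herm]) (inv_ne_zero hvv) ∅
    (by simp)
  set Um : Matrix (Fin 3) (Fin 3) F := Matrix.of fun a k => (t • e k) a
  have hgram : Umᵀ * Um.map σ = 1 := by
    ext i j
    have h : Cfsg.hermForm 3 F 5 (t • e i) (t • e j) = if i = j then 1 else 0 := by
      rw [hsq.smul_left, hsq.smul_right]
      split_ifs with hij
      · subst hij; rw [hek, ← mul_assoc]; exact (congrArg (· * Cfsg.hermForm 3 F 5 v v) ht).trans (inv_mul_cancel₀ hvv)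
      · rw [horth i j hij, mul_zero, mul_zero]
    rw [Matrix.mul_apply, Matrix.one_apply, ← h]
    show _ = Cfsg.hermForm 3 F 5 (t • e i) (t • e j)
    rw [hu.herm_eq]
    rfl
  set U := Matrix.GeneralLinearGroup.mkOfDetNeZero Um (fun e => by
    have := congrArg Matrix.det hgram
    rw [Matrix.det_mul, Matrix.det_transpose, e, zero_mul, Matrix.det_one] at this
    exact zero_ne_one this)
  have hU : U ∈ Cfsg.GU 3 F 5 := hu.mem_GU_iff.2 hgram
  have hUe : ∀ k, act U (Pi.single k 1) = t • e k := fun k => by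
    funext a; simp [act, U, Um, Matrix.mulVec_single_one]
  -- the standard generators
  obtain ⟨sX, hsX, hsXG, hsXM, hsX3, -⟩ := cert_m10X.exists_gl hs hu (by norm_num) (by decide)
  obtain ⟨sY, hsY, hsYG, hsYM, -, hsYS⟩ := cert_m10Y.exists_gl hs hu (by norm_num) (by decide)
  set w : F := decQ (p := 5) s wQ
  have hwpow : ∀ n : ℕ, w ^ n = decQ (p := 5) s ((qm wQ)^[n] q1) := wQ_pow hs
  have hwp : IsPrimitiveRoot w 3 := wQ_primitive hs
  have hw0 : w ≠ 0 := hwp.ne_zero (by norm_num)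
  have hsXe : ∀ k : Fin 3, act sX (Pi.single k 1) = w ^ (k : ℕ) • (Pi.single k 1 : Fin 3 → F) := act_sX hs hsX
  have hsYe : ∀ k : Fin 3, act sY (Pi.single k 1) = (Pi.single (k + 1) 1 : Fin 3 → F) := act_sY hs hsY
  have hsXi : ∀ (n : ℕ) (k : Fin 3), act (sX ^ n) (Pi.single k 1) = (w ^ (k : ℕ)) ^ n • (Pi.single k 1 : Fin 3 → F) := by
    intro n k
    induction n with
    | zero => rw [pow_zero, act_one, pow_zero, one_smul]
    | succ n ih => rw [pow_succ', act_mul, ih, act_smul, hsXe, smul_smul, pow_succ]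
  have hext : ∀ x y : GL (Fin 3) F, (∀ k, act x (Pi.single k 1) = act y (Pi.single k 1)) → x = y :=
    fun x y h => Units.ext (Matrix.ext_of_mulVec_single h)
  have hcY : U⁻¹ * gY * U = sY := hext _ _ fun k => by
    rw [act_mul, hUe, act_smul, act_mul, hYe, hsYe, ← act_smul, ← hUe, act_inv_act]
  obtain ⟨ee, hee, heμ⟩ : ∃ ee : ℕ, (ee = 1 ∨ ee = 2) ∧ w ^ ee = μ := by
    obtain ⟨i, hi, hwi⟩ := hwp.eq_pow_of_pow_eq_one hμ3
    refine ⟨i, ?_, hwi⟩
    have : i ≠ 0 := fun h => by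
      rw [h, pow_zero] at hwi
      have := hinj 0 1 (by simp [← hwi])
      exact absurd this (by decide)
    omega
  have hcX : ∀ u, act (U⁻¹ * gX * U) u = lam • act (sX ^ ee) u := by
    have h : ((U⁻¹ * gX * U : GL (Fin 3) F) : Matrix (Fin 3) (Fin 3) F) =
        lam • ((sX ^ ee : GL (Fin 3) F) : Matrix (Fin 3) (Fin 3) F) := Matrix.ext_of_mulVec_single fun k => by
      show act (U⁻¹ * gX * U) (Pi.single k 1) = _
      rw [act_mul, hUe, act_smul, act_mul, hXe, act_smul, smul_smul, mul_comm t, ← smul_smul,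
        ← act_smul _ t, ← hUe, act_inv_act, Matrix.smul_mulVec]
      show _ = lam • act (sX ^ ee) (Pi.single k 1)
      rw [hsXi, smul_smul, ← pow_mul, mul_comm (k : ℕ), pow_mul, heμ]
    intro u
    show ((U⁻¹ * gX * U : GL (Fin 3) F) : Matrix (Fin 3) (Fin 3) F) *ᵥ u = _
    rw [h, Matrix.smul_mulVec]
  -- a monomial normal form for `U⁻¹ R U`
  have hform : ∀ r ∈ R, ∃ (c : F) (i j : Fin 3), ∀ u,
      act (U⁻¹ * r * U) u = c • act (sX ^ (i : ℕ) * sY ^ (j : ℕ)) u := by
    intro r hr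
    set r' := U⁻¹ * r * U
    obtain ⟨α, hα3, hα⟩ := hcentre _ (hquot ⟨r, hr⟩ X)
    obtain ⟨β, hβ3, hβ⟩ := hcentre _ (hquot ⟨r, hr⟩ Y)
    have hrX : ∀ u, act r' (act (U⁻¹ * gX * U) u) = α • act (U⁻¹ * gX * U) (act r' u) := fun u => by
      rw [← act_mul, show r' * (U⁻¹ * gX * U) = U⁻¹ * (((⁅(⟨r, hr⟩ : R), X⁆ : R) : GL (Fin 3) F) * (gX * r)) * U by
        simp [r', commutatorElement_def, gX, mul_assoc], act_mul, act_mul, act_mul, act_scalar hα, act_smul,
        ← act_mul, ← act_mul, ← act_mul, show U⁻¹ * (gX * r) * U = U⁻¹ * gX * U * r' by simp [r', mul_assoc], act_mul]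
    have hrY : ∀ u, act r' (act sY u) = β • act sY (act r' u) := fun u => by
      rw [← hcY, ← act_mul, show r' * (U⁻¹ * gY * U) = U⁻¹ * (((⁅(⟨r, hr⟩ : R), Y⁆ : R) : GL (Fin 3) F) * (gY * r)) * U by
        simp [r', commutatorElement_def, gY, mul_assoc], act_mul, act_mul, act_mul, act_scalar hβ, act_smul,
        ← act_mul, ← act_mul, ← act_mul, show U⁻¹ * (gY * r) * U = U⁻¹ * gY * U * r' by simp [r', mul_assoc], act_mul]
    set v0 := act r' (Pi.single 0 1)
    have hv00 : v0 ≠ 0 := fun h => single_ne' (0 : Fin 3) (act_injective r' (h.trans (Matrix.mulVec_zero _).symm))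
    obtain ⟨a, ha⟩ := Function.ne_iff.1 hv00
    -- the first column has one entry
    have hcolumn : ∀ b, v0 b ≠ 0 → α * (w ^ (b : ℕ)) ^ ee = 1 := fun b hb => by
      have h := congrFun (hrX (Pi.single 0 1)) b
      rw [hcX, hsXi, act_smul, act_smul, hcX] at h
      have hdiag : ∀ (u : Fin 3 → F) (b : Fin 3), act (sX ^ ee) u b = (w ^ (b : ℕ)) ^ ee * u b :=
        act_diag_apply (hsXi ee)
      simp only [Pi.smul_apply, smul_eq_mul, hdiag] at h
      simp only [Fin.val_zero, pow_zero, one_pow, one_mul] at h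
      have hlam' : lam ≠ 0 := fun e => by rw [e] at hlam; norm_num at hlam
      apply mul_left_cancel₀ (mul_ne_zero hlam' hb)
      linear_combination -h
    have hv0 : v0 = v0 a • (Pi.single a 1 : Fin 3 → F) := by
      funext b
      by_cases hba : b = a
      · subst hba; simp
      · rw [Pi.smul_apply, Pi.single_eq_of_ne hba, smul_zero]
        by_contra hb
        have h := (hcolumn b hb).trans (hcolumn a ha).symm
        have hα0 : α ≠ 0 := fun e => by rw [e] at hα3; norm_num at hα3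
        have h' := mul_left_cancel₀ hα0 h
        rw [← pow_mul, ← pow_mul, mul_comm, mul_comm (a : ℕ), pow_mul, pow_mul, heμ] at h'
        exact hba (hinj b a (by rw [h']))
    obtain ⟨i, hi, hwi⟩ := hwp.eq_pow_of_pow_eq_one hβ3
    have hcol : ∀ k : Fin 3, act r' (Pi.single k 1) = (β ^ (k : ℕ) * v0 a) • (Pi.single (a + k) 1 : Fin 3 → F) := by
      have hsucc : ∀ k : Fin 3, ∀ c : F, ∀ l : Fin 3, act r' (Pi.single k 1) = c • (Pi.single l 1 : Fin 3 → F) →
          act r' (Pi.single (k + 1) 1) = (β * c) • (Pi.single (l + 1) 1 : Fin 3 → F) := fun k c l h => by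
        rw [← hsYe, hrY, h, act_smul, hsYe, smul_smul]
      intro k
      have e0 : act r' (Pi.single 0 1) = v0 a • (Pi.single a 1 : Fin 3 → F) := hv0
      have e1 := hsucc 0 _ _ e0
      have e2 := hsucc _ _ _ e1
      fin_cases k
      · simpa using e0
      · simpa using e1
      · simpa [pow_two, mul_assoc, add_assoc] using e2
    refine ⟨v0 a * (w⁻¹ ^ (a : ℕ)) ^ i, ⟨i, hi⟩, a, act_eq_smul_of_units fun k => ?_⟩
    rw [hcol, act_mon hs hsX hsY, add_comm k a, smul_smul]
    congr 1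
    show β ^ (k : ℕ) * v0 a = v0 a * (w⁻¹ ^ (a : ℕ)) ^ i * w ^ (((a + k : Fin 3) : ℕ) * i)
    have hmod : w ^ ((a + k : Fin 3) : ℕ) = w ^ ((a : ℕ) + k) := by
      rw [Fin.val_add]
      conv_rhs => rw [← Nat.div_add_mod ((a : ℕ) + k) 3, pow_add, pow_mul, hwp.pow_eq_one, one_pow, one_mul]
    rw [pow_mul, hmod, pow_add, mul_pow, ← hwi, inv_pow, inv_pow, ← pow_mul w i (k : ℕ), mul_comm i (k : ℕ), pow_mul w (k : ℕ) i]
    field_simp
  -- the conjugate of `H` lies in the model
  have hshift : ∀ h ∈ H, ∀ (r : R) (g : GL (Fin 3) F) (l : F), l ≠ 0 →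
      (∀ u, act (U⁻¹ * (r : GL (Fin 3) F) * U) u = l • act g u) →
      ∃ (c : F) (i j : Fin 3), ∀ u, act (U⁻¹ * h * U) (act g u) =
        c • act (sX ^ (i : ℕ) * sY ^ (j : ℕ)) (act (U⁻¹ * h * U) u) := by
    intro h hh r g l hl hrg
    rw [hHR] at hh
    have hmem : h * (r : GL (Fin 3) F) * h⁻¹ ∈ R := (Subgroup.mem_normalizer_iff.mp hh.1 (r : GL (Fin 3) F)).mp r.2
    obtain ⟨c, i, j, hc⟩ := hform _ hmem
    refine ⟨l⁻¹ * c, i, j, fun u => ?_⟩
    have h1 := hc (act (U⁻¹ * h * U) u)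
    rw [← act_mul, show U⁻¹ * (h * r * h⁻¹) * U * (U⁻¹ * h * U) = U⁻¹ * h * U * (U⁻¹ * r * U) by group,
      act_mul, hrg, act_smul] at h1
    rw [← smul_smul, ← h1, smul_smul, inv_mul_cancel₀ hl, one_smul]
  have hlam' : lam ≠ 0 := fun e => by rw [e] at hlam; norm_num at hlam
  obtain ⟨m, hm⟩ : ∃ m : ℕ, sX = (sX ^ ee) ^ m := by
    rcases hee with rfl | rfl
    · exact ⟨1, by simp⟩
    · exact ⟨2, by rw [← pow_mul, show 2 * 2 = 3 + 1 from rfl, pow_succ, hsX3, one_mul]⟩
  have hconj : ∀ n : ℕ, U⁻¹ * gX ^ n * U = (U⁻¹ * gX * U) ^ n := fun n => by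
    induction n with
    | zero => simp
    | succ n ih => rw [pow_succ, pow_succ, ← ih]; group
  have hpw : ∀ (n : ℕ) u, act ((U⁻¹ * gX * U) ^ n) u = lam ^ n • act ((sX ^ ee) ^ n) u := by
    intro n
    induction n with
    | zero => intro u; rw [pow_zero, pow_zero, pow_zero, act_one, one_smul]
    | succ n ih =>
      intro u
      rw [pow_succ', act_mul, ih, act_smul, hcX, smul_smul, ← pow_succ, pow_succ' (sX ^ ee), act_mul]
  have hle : ∀ h ∈ H, U⁻¹ * h * U⁻¹⁻¹ ∈ m10Stab s := by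
    intro h hh
    rw [inv_inv]
    refine mem_m10Stab hu hs hsX hsY hsXM hsYM hsXG hsYG (hsYS det_m10Y) ?_ ?_ ?_
    · refine ⟨Subgroup.mul_mem _ (Subgroup.mul_mem _ (Subgroup.inv_mem _ hU) (hH.1.le hh).1) hU, ?_⟩
      show Matrix.GeneralLinearGroup.det (U⁻¹ * h * U) = 1
      rw [map_mul, map_mul, map_inv, show Matrix.GeneralLinearGroup.det h = 1 from (hH.1.le hh).2]
      simp
    · refine hshift h hh (X ^ m) sX (lam ^ m) (pow_ne_zero _ hlam') fun u => ?_
      rw [show ((X ^ m : R) : GL (Fin 3) F) = gX ^ m by simp [gX], hconj m, hpw, ← hm]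
    · refine hshift h hh Y sY 1 one_ne_zero fun u => ?_
      rw [show (Y : GL (Fin 3) F) = gY from rfl, hcY, one_smul]
  obtain ⟨g, hg, hgG, hgM, -, hgS⟩ := cert_m10E.exists_gl hs hu (by norm_num) (by decide)
  obtain ⟨d, hd, hdU, hdS⟩ := exists_unitary_gl out_m10_unitary hs hu (by norm_num) (by decide)
  refine false_of_overgroup hH (Subgroup.inv_mem _ hU) hle hgM ⟨hgG, hgS det_m10E⟩ (fun hgH => ?_)
    ⟨hdU, hdS det_m10Out⟩ (not_mem_lineStab hs h2 hu.card hd out_m10_bad)
  obtain ⟨c, i, j, hc⟩ := hshift _ hgH (X ^ m) sX (lam ^ m) (pow_ne_zero _ hlam') fun u => by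
    rw [show ((X ^ m : R) : GL (Fin 3) F) = gX ^ m by simp [gX], hconj m, hpw, ← hm]
  simp only [inv_inv, show U⁻¹ * (U * g * U⁻¹) * U = g by group] at hc
  obtain ⟨cc, rfl⟩ : ∃ cc : Q2 5, decQ (p := 5) s cc = c := by
    have hb : Function.Bijective (decQ (p := 5) s) := (Fintype.bijective_iff_injective_and_card _).2
      ⟨decQ_injective hs h2, by rw [hu.card, Fintype.card_prod, ZMod.card]; rfl⟩
    exact hb.2 c
  obtain ⟨e, b, heb⟩ := escape_m10 i j cc
  refine heb ?_
  have h1 := hc (decV s (unit3 e : V3 5))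
  rw [act_coded hs hsX, act_coded hs hg, act_coded hs hg, act_mon_coded hs hsX hsY, ← decV_sv hs] at h1
  exact decQ_injective hs h2 (congrFun h1 b)

end CfsgLib.SmallDim.UThree
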